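import Cfsg.Agent.H3.NarrowCore
import Cfsg.Agent.S1453
import Cfsg.Agent.Helper55.PRankOne
import Cfsg.Agent.H1.HallHigman
import Cfsg.Agent.H14.Cores

set_option autoImplicit false

namespace Cfsg.Agent.H3

open scoped commutatorElement

/-- For odd `p`: if a solvable group `A` of odd order normalizes a `p`-subgroup `R` of rank at
most two, then every `p'`-element of `A'` centralizes `R`. -/
theorem commutator_centralizes_of_rank_two {G : Type*} [Group G] [Finite G] (p : ℕ)
    [Fact p.Prime] (hp : p ≠ 2) (R A : Subgroup G) (hR : IsPGroup p R)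
    (hr : ∀ B : Subgroup R, IsMulCommutative B → (∀ a ∈ B, a ^ p = 1) → Nat.card B ≤ p ^ 2)
    (hA : A ≤ Subgroup.normalizer (R : Set G)) (hAs : Group.IsSolvable A)
    (hAodd : Odd (Nat.card A)) :
    ∀ y ∈ ⁅A, A⁆, (orderOf y).Coprime p → ∀ r ∈ R, y * r * y⁻¹ = r := by
  have hpp : p.Prime := Fact.out
  haveI := hAs
  obtain ⟨D, hDR, hDnorm, hDexp, hDcard, hDcen, hDrk, hDfaith⟩ := rank_two_core hp R hR hr
  have hAD : ∀ a ∈ A, ∀ x ∈ D, a * x * a⁻¹ ∈ D := fun a ha x hx => hDnorm a (hA ha) x hx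
  let c := conjHom A D hAD
  let ρ : ↥A →* MulAut (Abelianization ↥D) := (abAutHom ↥D).comp c
  have hDexp' : ∀ d : ↥D, d ^ p = 1 := fun d =>
    Subtype.ext (by rw [Subgroup.coe_pow]; exact hDexp d d.2)
  have hVexp : ∀ v : Abelianization ↥D, v ^ p = 1 := by
    intro v
    obtain ⟨d, hd⟩ : ∃ d : ↥D, Abelianization.of d = v := by
      obtain ⟨d, hd⟩ := QuotientGroup.mk_surjective v
      exact ⟨d, hd⟩
    rw [← hd, ← map_pow, hDexp' d, map_one]
  have hDp : IsPGroup p ↥D := hR.to_le hDR
  have hVcard : Nat.card (Abelianization ↥D) ≤ p ^ 2 := by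
    have hmul := Subgroup.card_eq_card_quotient_mul_card_subgroup (commutator ↥D)
    by_cases hbot : commutator ↥D = ⊥
    · have hDab : ∀ a ∈ D, ∀ b ∈ D, a * b = b * a := by
        intro a ha b hb
        have h1 : (⁅(⟨a, ha⟩ : D), ⟨b, hb⟩⁆ : D) ∈ commutator ↥D := by
          rw [commutator_def]
          exact Subgroup.commutator_mem_commutator (Subgroup.mem_top _) (Subgroup.mem_top _)
        rw [hbot, Subgroup.mem_bot, commutatorElement_eq_one_iff_mul_comm] at h1
        exact congrArg Subtype.val h1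
      have h2 := hDrk D le_rfl hDab
      calc Nat.card (Abelianization ↥D) ≤ Nat.card ↥D := by
            rw [hmul]; exact Nat.le_mul_of_pos_right _ Nat.card_pos
        _ ≤ p ^ 2 := h2
    · have hcp : IsPGroup p (commutator ↥D) := hDp.to_subgroup _
      obtain ⟨k, hk⟩ := IsPGroup.iff_card.mp hcp
      have hk1 : 1 ≤ k := by
        by_contra h0
        have hk0 : k = 0 := by omega
        rw [hk0, pow_zero] at hk
        exact hbot (Subgroup.card_eq_one.mp hk)
      have h4 : Nat.card (Abelianization ↥D) * p ≤ p ^ 3 := by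
        calc Nat.card (Abelianization ↥D) * p
            ≤ Nat.card (Abelianization ↥D) * Nat.card (commutator ↥D) := by
              rw [hk]
              exact Nat.mul_le_mul_left _ (by
                calc p = p ^ 1 := (pow_one p).symm
                  _ ≤ p ^ k := Nat.pow_le_pow_right hpp.pos hk1)
          _ = Nat.card ↥D := hmul.symm
          _ ≤ p ^ 3 := hDcard
      have h3 : p ^ 3 = p ^ 2 * p := by ring
      rw [h3] at h4
      exact Nat.le_of_mul_le_mul_right h4 hpp.pos
  have hmain := hom_commutator_pow hAodd hVexp hVcard ρ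
  have hcenD : commutator ↥D ≤ Subgroup.center ↥D := by
    rw [commutator_def, Subgroup.commutator_le]
    intro a _ b _
    rw [Subgroup.mem_center_iff]
    intro d
    apply Subtype.ext
    show D.subtype (d * ⁅a, b⁆) = D.subtype (⁅a, b⁆ * d)
    rw [map_mul, map_mul, map_commutatorElement]
    exact (hDcen a a.2 b b.2 d d.2).symm
  have hcommA : ⁅A, A⁆ ≤ A := by
    rw [Subgroup.commutator_le]
    intro a ha b hb
    exact A.mul_mem (A.mul_mem (A.mul_mem ha hb) (A.inv_mem ha)) (A.inv_mem hb)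
  intro x hx hxcop
  have hxA : x ∈ A := hcommA hx
  have hx' : (⟨x, hxA⟩ : A) ∈ commutator ↥A := by
    have h1 : Subgroup.map A.subtype (commutator ↥A) = ⁅A, A⁆ := by
      rw [commutator_def, Subgroup.map_commutator, ← MonoidHom.range_eq_map,
        Subgroup.range_subtype]
    rw [← h1] at hx
    obtain ⟨y, hy, hyx⟩ := hx
    have : y = ⟨x, hxA⟩ := Subtype.ext hyx
    rwa [this] at hy
  set x' : A := ⟨x, hxA⟩ with hx'def
  have hordx' : orderOf x' = orderOf x := Subgroup.orderOf_mk x hxA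
  have hρ1 : ρ x' = 1 := by
    have h1 : (ρ x') ^ p = 1 := hmain x' hx'
    have h2 : (ρ x') ^ (orderOf x') = 1 := by rw [← map_pow, pow_orderOf_eq_one, map_one]
    have h3 : orderOf (ρ x') ∣ Nat.gcd (orderOf x') p :=
      Nat.dvd_gcd (orderOf_dvd_of_pow_eq_one h2) (orderOf_dvd_of_pow_eq_one h1)
    rw [hordx', hxcop, Nat.dvd_one, orderOf_eq_one_iff] at h3
    exact h3
  have hφm : (c x') ^ (orderOf x') = 1 := by rw [← map_pow, pow_orderOf_eq_one, map_one]
  have hφ1 : c x' = 1 :=
    aut_eq_one_of_abelianization hcenD hDexp' (c x') (orderOf x') hφm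
      (by rw [hordx']; exact hxcop) hρ1
  have hcenx : ∀ d ∈ D, x * d * x⁻¹ = d := by
    intro d hd
    have h1 := congrArg (fun ψ : MulAut ↥D => ((ψ ⟨d, hd⟩ : D) : G)) hφ1
    exact h1
  exact hDfaith x (hA hxA) hxcop hcenx

/-- In a group of prime-order `zpowers e`, a nontrivial element generates `e`. -/
theorem mem_zpowers_of_prime {R : Type*} [Group R] {p : ℕ} [Fact p.Prime] {e x : R}
    (he : orderOf e = p) (hx : x ∈ Subgroup.zpowers e) (hx1 : x ≠ 1) :
    e ∈ Subgroup.zpowers x := by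
  have hpp : p.Prime := Fact.out
  have hle : Subgroup.zpowers x ≤ Subgroup.zpowers e := by
    rw [Subgroup.zpowers_le]; exact hx
  have hfin : Finite (Subgroup.zpowers e) := by
    apply Nat.finite_of_card_ne_zero
    rw [Nat.card_zpowers, he]; exact hpp.ne_zero
  have hxp : x ^ p = 1 := by
    obtain ⟨k, rfl⟩ := Subgroup.mem_zpowers_iff.mp hx
    rw [← zpow_natCast, ← zpow_mul, mul_comm, zpow_mul, zpow_natCast, ← he, pow_orderOf_eq_one,
      one_zpow]
  have hordx : orderOf x = p := orderOf_eq_prime hxp hx1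
  have heq : Subgroup.zpowers x = Subgroup.zpowers e := by
    apply Subgroup.eq_of_le_of_card_ge hle
    rw [Nat.card_zpowers, Nat.card_zpowers, he, hordx]
  rw [heq]; exact Subgroup.mem_zpowers e

/-- **Bender–Glauberman 5.4.** A `p`-group (`p` odd) with an element `e` of order `p` whose
centralizer has no elementary abelian subgroup of order `p ^ 3` is narrow. -/
theorem isNarrow_of_centralizer {R : Type*} [Group R] [Finite R] {p : ℕ} [Fact p.Prime]
    (hp : p ≠ 2) (hR : IsPGroup p R) (e : R) (he : orderOf e = p)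
    (hC : ∀ B : Subgroup R, (∀ a ∈ B, ∀ b ∈ B, a * b = b * a) → (∀ a ∈ B, a ^ p = 1) →
      (∀ a ∈ B, a * e = e * a) → Nat.card B ≤ p ^ 2) :
    Cfsg.IsNarrow p R := by
  have hpp : p.Prime := Fact.out
  by_cases hr : Cfsg.PRankLE p 2 R
  · exact Or.inl hr
  right
  have hep : e ^ p = 1 := by rw [← he]; exact pow_orderOf_eq_one e
  have he1 : e ≠ 1 := by
    intro h
    rw [h, orderOf_one] at he
    exact hpp.one_lt.ne he
  have hecen : e ∉ Subgroup.center R := by
    intro hec
    apply hr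
    intro B hBc hBe
    exact hC B (fun a ha b hb => congrArg Subtype.val (hBc.is_comm.comm ⟨a, ha⟩ ⟨b, hb⟩)) hBe
      (fun a _ => (Subgroup.mem_center_iff.mp hec a))
  obtain ⟨z, -, hz, hz1⟩ := normal_exists_central_order_p hR (⊤ : Subgroup R) (by
    intro h
    have : e ∈ (⊤ : Subgroup R) := Subgroup.mem_top e
    rw [h, Subgroup.mem_bot] at this
    exact he1 this)
  have hzc : z ∈ Subgroup.center R := hz.1
  have hzp : z ^ p = 1 := hz.2
  have hzcomm : ∀ x : R, x * z = z * x := fun x => Subgroup.mem_center_iff.mp hzc x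
  have hze : z ∉ Subgroup.zpowers e := by
    intro h
    have h1 := mem_zpowers_of_prime he h hz1
    obtain ⟨k, hk⟩ := Subgroup.mem_zpowers_iff.mp h1
    apply hecen
    rw [← hk]
    exact Subgroup.zpow_mem _ hzc k
  have hpow_comm : ∀ a ∈ Subgroup.zpowers e, ∀ b ∈ Subgroup.zpowers e, a * b = b * a := by
    intro a ha b hb
    obtain ⟨i, rfl⟩ := Subgroup.mem_zpowers_iff.mp ha
    obtain ⟨j, rfl⟩ := Subgroup.mem_zpowers_iff.mp hb
    exact (Commute.zpow_zpow_self e i j).eq
  have hpow_exp : ∀ a ∈ Subgroup.zpowers e, a ^ p = 1 := by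
    intro a ha
    obtain ⟨i, rfl⟩ := Subgroup.mem_zpowers_iff.mp ha
    rw [← zpow_natCast, ← zpow_mul, mul_comm, zpow_mul, zpow_natCast, hep, one_zpow]
  set E : Subgroup R := Subgroup.zpowers e ⊔ Subgroup.zpowers z with hEdef
  obtain ⟨hEc, hEe⟩ := elemAb_sup_zpowers (Subgroup.zpowers e) hpow_comm hpow_exp z hzp
    (fun x _ => hzcomm x)
  have heE : e ∈ E := (le_sup_left : Subgroup.zpowers e ≤ E) (Subgroup.mem_zpowers e)
  have hzE : z ∈ E := (le_sup_right : Subgroup.zpowers z ≤ E) (Subgroup.mem_zpowers z)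
  have hEcard_le : Nat.card E ≤ p ^ 2 := hC E hEc hEe (fun a ha => hEc a ha e heE)
  have hEcard : Nat.card E = p ^ 2 := by
    apply le_antisymm hEcard_le
    have hlt : Subgroup.zpowers e < E := by
      refine lt_of_le_of_ne le_sup_left ?_
      intro h
      apply hze
      rw [h]; exact hzE
    have h1 := card_mul_le_of_lt hR hlt
    rw [Nat.card_zpowers, he] at h1
    calc p ^ 2 = p * p := by ring
      _ ≤ Nat.card E := h1
  have hE : Cfsg.IsElementaryAbelian p E :=
    ⟨⟨⟨fun a b => Subtype.ext (hEc a a.2 b b.2)⟩⟩, hEe⟩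
  have hEmax : ∀ B : Subgroup R, Cfsg.IsElementaryAbelian p B → E ≤ B → B = E := by
    intro B hB hEB
    have hBc : ∀ a ∈ B, ∀ b ∈ B, a * b = b * a := fun a ha b hb =>
      congrArg Subtype.val (hB.1.is_comm.comm ⟨a, ha⟩ ⟨b, hb⟩)
    have h1 := hC B hBc hB.2 (fun a ha => hBc a ha e (hEB heE))
    exact (Subgroup.eq_of_le_of_card_ge hEB (by rw [hEcard]; exact h1)).symm
  obtain ⟨hET, -, -, hTchar, hTidx⟩ := Cfsg.Agent.S1453.result p hp hR hr E hE hEcard hEmax
  set T : Subgroup R := Subgroup.centralizer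
    ((Subgroup.closure {x : R | x ∈ Subgroup.upperCentralSeries R 2 ∧ x ^ p = 1} : Subgroup R) :
      Set R) with hT
  have hzT : z ∈ T := by
    rw [hT, Subgroup.mem_centralizer_iff]
    intro y _
    exact hzcomm y
  have heT : e ∉ T := by
    intro h
    apply hET
    exact sup_le (by rw [Subgroup.zpowers_le]; exact h) (by rw [Subgroup.zpowers_le]; exact hzT)
  haveI hTn : T.Normal := Subgroup.normal_of_characteristic T
  set R₁ : Subgroup R := T ⊓ Subgroup.centralizer {e} with hR₁
  have hR₁c : ∀ b ∈ R₁, b * e = e * b := by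
    intro b hb
    exact (Subgroup.mem_centralizer_iff.mp (Subgroup.mem_inf.mp hb).2 e
      (Set.mem_singleton e)).symm
  have hR₁pow : ∀ a ∈ Subgroup.zpowers e, ∀ b ∈ R₁, a * b = b * a := by
    intro a ha b hb
    obtain ⟨i, rfl⟩ := Subgroup.mem_zpowers_iff.mp ha
    have h1 : Commute e b := (hR₁c b hb).symm
    exact (h1.zpow_left i).eq
  refine ⟨Subgroup.zpowers e, R₁, ?_, ?_, ?_, hR₁pow, ?_⟩
  · rw [Nat.card_zpowers, he]
  · apply Cfsg.Agent.Helper55.isCyclic_of_pRankLE_one hp (hR.to_subgroup R₁)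
    intro B hBc hBe
    set B' : Subgroup R := B.map R₁.subtype with hB'
    have hB'R₁ : B' ≤ R₁ := Subgroup.map_subtype_le _
    have hB'c : ∀ a ∈ B', ∀ b ∈ B', a * b = b * a := by
      rintro _ ⟨a, ha, rfl⟩ _ ⟨b, hb, rfl⟩
      have h1 := hBc.is_comm.comm ⟨a, ha⟩ ⟨b, hb⟩
      have h2 : a * b = b * a := congrArg Subtype.val h1
      rw [← map_mul, ← map_mul, h2]
    have hB'e : ∀ a ∈ B', a ^ p = 1 := by
      rintro _ ⟨a, ha, rfl⟩
      rw [← map_pow, hBe a ha, map_one]
    obtain ⟨hsc, hse⟩ := elemAb_sup_zpowers B' hB'c hB'e e hep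
      (fun b hb => hR₁c b (hB'R₁ hb))
    have heS : e ∈ B' ⊔ Subgroup.zpowers e :=
      (le_sup_right : Subgroup.zpowers e ≤ B' ⊔ Subgroup.zpowers e) (Subgroup.mem_zpowers e)
    have h1 := hC (B' ⊔ Subgroup.zpowers e) hsc hse (fun a ha => hsc a ha e heS)
    have hlt : B' < B' ⊔ Subgroup.zpowers e := by
      refine lt_of_le_of_ne le_sup_left ?_
      intro h
      apply heT
      have : e ∈ B' := by rw [h]; exact heS
      exact (Subgroup.mem_inf.mp (hB'R₁ this)).1
    have h2 := card_mul_le_of_lt hR hlt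
    have h3 : p * Nat.card B' ≤ p * p := by
      calc p * Nat.card B' ≤ Nat.card (B' ⊔ Subgroup.zpowers e : Subgroup R) := h2
        _ ≤ p ^ 2 := h1
        _ = p * p := by ring
    have h4 : Nat.card B' ≤ p := Nat.le_of_mul_le_mul_left h3 hpp.pos
    rw [hB', Subgroup.card_subtype] at h4
    rw [pow_one]; exact h4
  · rw [eq_bot_iff]
    intro x hx
    rw [Subgroup.mem_bot]
    by_contra hx1
    obtain ⟨hxe, hxR₁⟩ := Subgroup.mem_inf.mp hx
    have h1 := mem_zpowers_of_prime he hxe hx1
    apply heT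
    have h2 : Subgroup.zpowers x ≤ T := by
      rw [Subgroup.zpowers_le]; exact (Subgroup.mem_inf.mp hxR₁).1
    exact h2 h1
  · apply le_antisymm
    · apply sup_le
      · intro a ha
        rw [Subgroup.mem_centralizer_iff]
        intro b hb
        exact hpow_comm b hb a ha
      · intro b hb
        rw [Subgroup.mem_centralizer_iff]
        intro a ha
        exact hR₁pow a ha b hb
    · intro x hx
      have hxe : e * x = x * e :=
        Subgroup.mem_centralizer_iff.mp hx e (Subgroup.mem_zpowers e)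
      have hcardQ : Nat.card (R ⧸ T) = p := by rw [← Subgroup.index_eq_card]; exact hTidx
      have hene : (QuotientGroup.mk' T e) ≠ 1 := by
        intro h
        exact heT ((QuotientGroup.eq_one_iff e).mp h)
      have htop := zpowers_eq_top_of_prime_card hcardQ hene
      have hxm : QuotientGroup.mk' T x ∈ Subgroup.zpowers (QuotientGroup.mk' T e) := by
        rw [htop]; exact Subgroup.mem_top _
      obtain ⟨k, hk⟩ := Subgroup.mem_zpowers_iff.mp hxm
      rw [← map_zpow] at hk
      have h1 : (e ^ k)⁻¹ * x ∈ T := QuotientGroup.eq.mp hk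
      have h2 : (e ^ k)⁻¹ * x ∈ R₁ := by
        refine Subgroup.mem_inf.mpr ⟨h1, ?_⟩
        rw [Subgroup.mem_centralizer_iff]
        intro y hy
        rw [Set.mem_singleton_iff] at hy
        rw [hy]
        have h3 : Commute e ((e ^ k)⁻¹ * x) :=
          (((Commute.refl e).zpow_right k).inv_right).mul_right hxe
        exact h3.eq
      have h4 : x = e ^ k * ((e ^ k)⁻¹ * x) := by group
      rw [h4]
      exact Subgroup.mul_mem_sup (Subgroup.zpow_mem _ (Subgroup.mem_zpowers e) k) h2

/-- A `p`-subgroup of the Fitting subgroup lies in `O_p(G)`. -/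
theorem le_pCore_of_le_fitting {G : Type*} [Group G] [Finite G] (p : ℕ) [Fact p.Prime]
    (E : Subgroup G) (hE : E ≤ Cfsg.fittingSubgroup G) (hEp : IsPGroup p E) :
    E ≤ Cfsg.pCore p G := by
  haveI hnil : Group.IsNilpotent ↥(Cfsg.fittingSubgroup G) := Cfsg.Agent.H1.fitting_nilpotent
  haveI hFn : (Cfsg.fittingSubgroup G).Normal := Cfsg.Agent.H1.fitting_normal
  have hE'p : IsPGroup p (E.subgroupOf (Cfsg.fittingSubgroup G)) := hEp.comap_subtype
  obtain ⟨S, hS⟩ := IsPGroup.exists_le_sylow hE'p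
  haveI hSn : (S : Subgroup ↥(Cfsg.fittingSubgroup G)).Normal := inferInstance
  haveI hSc : (S : Subgroup ↥(Cfsg.fittingSubgroup G)).Characteristic :=
    Sylow.characteristic_of_normal S hSn
  have hmapn : ((S : Subgroup ↥(Cfsg.fittingSubgroup G)).map
      (Cfsg.fittingSubgroup G).subtype).Normal := inferInstance
  have hmapp : IsPGroup p ((S : Subgroup ↥(Cfsg.fittingSubgroup G)).map
      (Cfsg.fittingSubgroup G).subtype) := S.isPGroup'.map _
  have hle := Cfsg.Agent.H14.le_pCore hmapn hmapp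
  intro x hx
  apply hle
  exact ⟨⟨x, hE hx⟩, hS (by rw [Subgroup.mem_subgroupOf]; exact hx), rfl⟩

end Cfsg.Agent.H3
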