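import Cfsg.Agent.H58.UqDefs
import Cfsg.Agent.H12.SpConjG
import Cfsg.Agent.S2944

/-!
# UQ-KEYA (helper3, for helper58, S2950): `keyA (hS) (hK) : StKeyA`
-/

set_option autoImplicit false
open Cfsg

namespace Cfsg.Agent.H3.Uq

universe u
open Subgroup

/-- Membership in a conjugate. -/
theorem uqConjMem {G : Type u} [Group G] (H : Subgroup G) (g y : G) :
    y ∈ H.map (MulAut.conj g).toMonoidHom ↔ g⁻¹ * y * g ∈ H := by
  constructor
  · rintro ⟨h, hh, rfl⟩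
    have e : g⁻¹ * ((MulAut.conj g).toMonoidHom h) * g = h := by
      show g⁻¹ * (g * h * g⁻¹) * g = h
      group
    rw [e]; exact hh
  · intro hy
    refine ⟨g⁻¹ * y * g, hy, ?_⟩
    show g * (g⁻¹ * y * g) * g⁻¹ = y
    group

theorem uqMapConjOne {G : Type u} [Group G] (H : Subgroup G) :
    H.map (MulAut.conj (1 : G)).toMonoidHom = H := by
  ext y
  rw [uqConjMem]
  simp

/-- The normalizer of a conjugate. -/
theorem uqNormConj {G : Type u} [Group G] (H : Subgroup G) (g y : G) :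
    y ∈ normalizer ((H.map (MulAut.conj g).toMonoidHom : Subgroup G) : Set G) ↔
      g⁻¹ * y * g ∈ normalizer (H : Set G) := by
  rw [mem_normalizer_iff, mem_normalizer_iff]
  constructor
  · intro h z
    have h1 := h (g * z * g⁻¹)
    rw [uqConjMem, uqConjMem] at h1
    have e1 : g⁻¹ * (g * z * g⁻¹) * g = z := by group
    have e2 : g⁻¹ * (y * (g * z * g⁻¹) * y⁻¹) * g = g⁻¹ * y * g * z * (g⁻¹ * y * g)⁻¹ := by
      group
    rw [e1, e2] at h1
    exact h1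
  · intro h z
    rw [uqConjMem, uqConjMem]
    have h1 := h (g⁻¹ * z * g)
    have e2 : g⁻¹ * y * g * (g⁻¹ * z * g) * (g⁻¹ * y * g)⁻¹ = g⁻¹ * (y * z * y⁻¹) * g := by
      group
    rw [e2] at h1
    exact h1

/-- UQ-KEYA. -/
theorem keyA (hS : Cfsg.Agent.H58.Uq.StS.{u}) (hK : Cfsg.Agent.H58.Uq.StK0Conj.{u}) :
    Cfsg.Agent.H58.Uq.StKeyA.{u} := by
  intro G _ _ hZN T hT hT1 L T₁ hL hJ K hK0 hKL x hx
  obtain ⟨hcong0, hcongJ⟩ := Cfsg.Agent.H58.Uq.k0_congr T T₁ hJ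
  have hZN' := hZN
  obtain ⟨hZ1, hZ2, hZ3⟩ := hZN'
  have hK0' := hK0
  obtain ⟨hKJ, -⟩ := hK0'
  have hL' := hL
  obtain ⟨hLs, hLJ, -⟩ := hL'
  obtain ⟨-, hT₁, -⟩ := hLs
  have hT₁1 : T₁ ≠ ⊥ := by
    intro h
    apply hLJ
    have h0 : thompsonSubgroupOf 2 T₁ ≤ T₁ := Cfsg.Agent.H14.thompsonSubgroupOf_le 2 T₁
    refine h0.trans ?_
    rw [h]
    exact bot_le
  -- Step 1: all `L`-conjugates of `J` normalize `W_K`
  have hS1 : ∀ l ∈ L, (thompsonSubgroupOf 2 T).map (MulAut.conj l).toMonoidHom ≤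
      normalizer (wOf K : Set G) := by
    have h1 := hS hZN T₁ hT₁ hT₁1 L hL K ((hcongJ K).2 hKJ) hKL
      ⟨1, by rw [uqMapConjOne, hcong0]; exact hK0⟩
    rw [hJ] at h1
    exact h1
  -- Step 2: `K^x ≤ N(W_K)`
  have hKxL : K.map (MulAut.conj x).toMonoidHom ≤ L := by
    rintro _ ⟨k, hk, rfl⟩
    show x * k * x⁻¹ ∈ L
    exact mul_mem (mul_mem hx (hKL hk)) (inv_mem hx)
  have hcomm : ⁅K.map (MulAut.conj x).toMonoidHom,
      (thompsonSubgroupOf 2 T).map (MulAut.conj x).toMonoidHom⁆ =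
      K.map (MulAut.conj x).toMonoidHom := by
    rw [← Subgroup.map_commutator, hKJ.2.1]
  have hstep2 : K.map (MulAut.conj x).toMonoidHom ≤ normalizer (wOf K : Set G) := by
    rw [← hcomm, Subgroup.commutator_le]
    intro k hk j hj
    rw [commutatorElement_def]
    have hj' : j ∈ normalizer (wOf K : Set G) := hS1 x hx hj
    have hkL : k ∈ L := hKxL hk
    have hkj : k * j * k⁻¹ ∈ (thompsonSubgroupOf 2 T).map (MulAut.conj (k * x)).toMonoidHom := by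
      rw [uqConjMem] at hj ⊢
      have e : (k * x)⁻¹ * (k * j * k⁻¹) * (k * x) = x⁻¹ * j * x := by group
      rw [e]; exact hj
    have h2 := hS1 (k * x) (mul_mem hkL hx) hkj
    exact mul_mem h2 (inv_mem hj')
  -- Step 3: `K^x` is a `J(T)`-component
  have hKx0 := hK T K x hK0
  have hTx : IsPGroup 2 ↥(T.map (MulAut.conj x).toMonoidHom) := hT.map _
  have hTx1 : T.map (MulAut.conj x).toMonoidHom ≠ ⊥ := by
    intro h
    apply hT1
    rw [Subgroup.map_eq_bot_iff_of_injective _ (MulAut.conj x).injective] at h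
    exact h
  have h44 := (Cfsg.Agent.S2944.result hZ1 hZ2 hZ3 _ hTx hTx1 _ hKx0).2 x⁻¹
  rw [Cfsg.Agent.H12.Sp.map_conj_conj_inv] at h44
  refine ⟨h44 ?_, hstep2⟩
  rw [Cfsg.Agent.H12.Sp.wOf_conj_map]
  intro j hj
  rw [uqNormConj]
  apply hS1 x⁻¹ (inv_mem hx)
  rw [uqConjMem]
  have e : x⁻¹⁻¹ * (x⁻¹ * j * x) * x⁻¹ = j := by group
  rw [e]; exact hj

example (hS : Cfsg.Agent.H58.Uq.StS.{u}) (hK : Cfsg.Agent.H58.Uq.StK0Conj.{u}) :
    Cfsg.Agent.H58.Uq.StKeyA.{u} := keyA hS hK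

end Cfsg.Agent.H3.Uq
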