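import Cfsg.Agent.H64.JzDefs
import Cfsg.Agent.H12.SpConjG
import Cfsg.Agent.H51.Amalgam
import Cfsg.Agent.S2950
import Cfsg.Agent.H3.UqKeyA

/-!
# JZ-OUT1 (helper3, for helper64, S2951/S2952): `out1 : StOut1`

`T = S`, `g ∈ N_G(J(S)) ∖ L`: then `K^g` is a `J(S)`-component not inside `L` (otherwise
`L^(g⁻¹)` is a maximal 2-local over `⟨K, J(S)⟩`, so `L^(g⁻¹) = L` by S2950 and `g ∈ N_G(L) = L`).
-/

set_option autoImplicit false
open Cfsg

namespace Cfsg.Agent.H3.Jz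

universe u
open Subgroup Cfsg.Agent.H3.Uq

/-- A conjugate of a 2-local subgroup is a 2-local subgroup. -/
theorem jzTwoLocalConj {G : Type u} [Group G] (N : Subgroup G) (g : G) (h : IsTwoLocal N) :
    IsTwoLocal (N.map (MulAut.conj g).toMonoidHom) := by
  obtain ⟨P, hP, hP1, rfl⟩ := h
  refine ⟨P.map (MulAut.conj g).toMonoidHom, hP.map _, ?_, ?_⟩
  · intro h0
    apply hP1
    rwa [Subgroup.map_eq_bot_iff_of_injective _ (MulAut.conj g).injective] at h0
  · ext y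
    rw [uqNormConj, uqConjMem]

/-- A conjugate of a maximal 2-local subgroup is a maximal 2-local subgroup. -/
theorem jzMaxTwoLocalConj {G : Type u} [Group G] (L : Subgroup G) (g : G)
    (h : IsMaximalTwoLocal L) : IsMaximalTwoLocal (L.map (MulAut.conj g).toMonoidHom) := by
  refine ⟨jzTwoLocalConj L g h.1, ?_⟩
  intro N hN hLN
  have h1 : L ≤ N.map (MulAut.conj g⁻¹).toMonoidHom := by
    intro y hy
    rw [uqConjMem]
    apply hLN
    rw [uqConjMem]
    have e : g⁻¹ * (g⁻¹⁻¹ * y * g⁻¹) * g = y := by group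
    rw [e]; exact hy
  have h2 := h.2 _ (jzTwoLocalConj N g⁻¹ hN) h1
  rw [← h2]
  have h3 := Cfsg.Agent.H12.Sp.map_conj_conj_inv N g⁻¹
  rw [inv_inv] at h3
  exact h3.symm

/-- A subgroup is fixed by conjugation with an element of its normalizer. -/
theorem jzMapConjOfMemNormalizer {G : Type u} [Group G] (H : Subgroup G) (n : G)
    (hn : n ∈ normalizer (H : Set G)) : H.map (MulAut.conj n).toMonoidHom = H := by
  ext y
  rw [uqConjMem]
  have h0 := hn
  rw [mem_normalizer_iff] at h0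
  have h1 := h0 (n⁻¹ * y * n)
  have e : n * (n⁻¹ * y * n) * n⁻¹ = y := by group
  rw [e] at h1
  exact h1

/-- Conversely. -/
theorem jzMemNormalizerOfMapConj {G : Type u} [Group G] (H : Subgroup G) (n : G)
    (hn : H.map (MulAut.conj n).toMonoidHom = H) : n ∈ normalizer (H : Set G) := by
  rw [mem_normalizer_iff]
  intro y
  constructor
  · intro hy
    have h1 : n * y * n⁻¹ ∈ H.map (MulAut.conj n).toMonoidHom := ⟨y, hy, rfl⟩
    rw [hn] at h1
    exact h1
  · intro hy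
    have h1 : n * y * n⁻¹ ∈ H.map (MulAut.conj n).toMonoidHom := by rw [hn]; exact hy
    rw [uqConjMem] at h1
    have e : n⁻¹ * (n * y * n⁻¹) * n = y := by group
    rw [e] at h1
    exact h1

/-- A maximal 2-local subgroup is self-normalizing. -/
theorem jzMaxSelfNorm {G : Type u} [Group G] (L : Subgroup G) (h : IsMaximalTwoLocal L) :
    normalizer (L : Set G) ≤ L := by
  obtain ⟨⟨P, hP, hP1, hLP⟩, hmax⟩ := h
  have hPL : P ≤ L := by rw [hLP]; exact le_normalizer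
  have hPQ : P ≤ pCoreOf 2 L := Cfsg.Agent.H51.le_pCoreOf 2 hPL (le_of_eq hLP) hP
  have hQ1 : pCoreOf 2 L ≠ ⊥ := by
    intro h0
    apply hP1
    rw [h0] at hPQ
    exact le_bot_iff.1 hPQ
  have hQ2 : IsPGroup 2 ↥(pCoreOf 2 L) := Cfsg.Agent.H51.pCoreOf_isPGroup 2 L
  have hLN : L ≤ normalizer (pCoreOf 2 L : Set G) := Cfsg.Agent.H51.le_normalizer_pCoreOf 2 L
  have hNQ : normalizer (pCoreOf 2 L : Set G) = L := hmax _ ⟨pCoreOf 2 L, hQ2, hQ1, rfl⟩ hLN
  intro n hn
  have hLn : L.map (MulAut.conj n).toMonoidHom = L := jzMapConjOfMemNormalizer L n hn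
  have hQn : (pCoreOf 2 L).map (MulAut.conj n).toMonoidHom = pCoreOf 2 L := by
    rw [← Cfsg.Agent.H51.pCoreOf_map 2 L (MulAut.conj n), hLn]
  have h1 := jzMemNormalizerOfMapConj _ n hQn
  rw [hNQ] at h1
  exact h1

/-- JZ-OUT1. -/
theorem out1 : Cfsg.Agent.H64.Jz.StOut1.{u} := by
  intro G _ _ S M T K L hB hTS hnot
  have hB' := hB
  obtain ⟨hZN, hO2, hM, hNJ, hTmax, hTS', hK, hLmax, hKJL⟩ := hB'
  have hZN' := hZN
  obtain ⟨hZ1, hZ2, hZ3⟩ := hZN'
  obtain ⟨g, hg, hgL⟩ := SetLike.not_le_iff_exists.1 hnot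
  obtain ⟨L₀, hL₀max, hL₀le, huniq, -, -⟩ :=
    Cfsg.Agent.S2950.result hZ1 hZ2 hZ3 hO2 S M hM hNJ T hTmax K hK
  have hLL₀ : L = L₀ := huniq L hLmax hKJL
  have hJg : (thompsonSubgroupOf 2 T).map (MulAut.conj g).toMonoidHom =
      thompsonSubgroupOf 2 T := by
    rw [hTS]
    exact jzMapConjOfMemNormalizer _ g hg
  have hK' := hK
  obtain ⟨⟨hKJ, -⟩, -, -⟩ := hK'
  refine ⟨K.map (MulAut.conj g).toMonoidHom, ?_, ?_⟩
  · have h1 := Cfsg.Agent.H12.Sp.isJComponent_conj T K g hKJ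
    have h2 : thompsonSubgroupOf 2 (T.map (MulAut.conj g).toMonoidHom) =
        thompsonSubgroupOf 2 T := by
      rw [← Cfsg.Agent.H14.thompsonSubgroupOf_conj 2 g T, hJg]
    exact ((Cfsg.Agent.H58.Uq.k0_congr T _ h2).2 _).1 h1
  · intro hKgL
    apply hgL
    have hmax' := jzMaxTwoLocalConj L g⁻¹ hLmax
    have hle : K ⊔ thompsonSubgroupOf 2 T ≤ L.map (MulAut.conj g⁻¹).toMonoidHom := by
      rw [sup_le_iff]
      constructor
      · intro k hk
        rw [uqConjMem]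
        apply hKgL
        rw [uqConjMem]
        have e : g⁻¹ * (g⁻¹⁻¹ * k * g⁻¹) * g = k := by group
        rw [e]; exact hk
      · intro j hj
        rw [uqConjMem]
        apply (le_sup_right.trans hKJL : thompsonSubgroupOf 2 T ≤ L)
        have h5 : g⁻¹⁻¹ * j * g⁻¹ ∈ (thompsonSubgroupOf 2 T).map (MulAut.conj g).toMonoidHom := by
          rw [uqConjMem]
          have e : g⁻¹ * (g⁻¹⁻¹ * j * g⁻¹) * g = j := by group
          rw [e]; exact hj
        rw [hJg] at h5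
        exact h5
    have h3 : L.map (MulAut.conj g⁻¹).toMonoidHom = L₀ := huniq _ hmax' hle
    rw [← hLL₀] at h3
    have hgN : g⁻¹ ∈ normalizer (L : Set G) := jzMemNormalizerOfMapConj L g⁻¹ h3
    have h4 := jzMaxSelfNorm L hLmax hgN
    exact inv_mem_iff.1 h4

example : Cfsg.Agent.H64.Jz.StOut1.{u} := out1

end Cfsg.Agent.H3.Jz
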