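import Mathlib
import Cfsg.Agent.H58.BG10Defs2
import Cfsg.Agent.S1242

/-!
# BG10 piece B (helper3, for helper58): transfer.  For `p ∈ σ(M)` the Sylow `p`-subgroups of the
maximal subgroup `M` lie in `M'`.
-/

set_option autoImplicit false

namespace Cfsg.Agent.H3.BG10

open Cfsg Subgroup Cfsg.Agent.H58.BG10

open scoped commutatorElement

universe u

variable {G : Type u} [Group G]

/-- the index of `M` is prime to `p` when the `G`-normalizer of a Sylow `p`-subgroup of `M`
lies in `M` -/
theorem bg10b_not_dvd_index [Finite G] {p : ℕ} [Fact p.Prime] {M : Subgroup G} (S : Sylow p M)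
    (hN : normalizer (((S : Subgroup M).map M.subtype : Subgroup G) : Set G) ≤ M) :
    ¬ p ∣ M.index := by
  have hSGp : IsPGroup p ((S : Subgroup M).map M.subtype) := S.isPGroup'.map _
  obtain ⟨T, hT⟩ := hSGp.exists_le_sylow
  have hTeq : (T : Subgroup G) = (S : Subgroup M).map M.subtype := by
    by_contra hne
    have hlt : (S : Subgroup M).map M.subtype < (T : Subgroup G) :=
      lt_of_le_of_ne hT (Ne.symm hne)
    haveI : Group.IsNilpotent ↥(T : Subgroup G) := T.isPGroup'.isNilpotent
    have hlt' : ((S : Subgroup M).map M.subtype).subgroupOf (T : Subgroup G) < ⊤ := by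
      rw [lt_top_iff_ne_top]
      intro h
      rw [Subgroup.subgroupOf_eq_top] at h
      exact (not_le_of_gt hlt) h
    have h1 := Group.normalizerCondition_of_isNilpotent (G := ↥(T : Subgroup G)) _ hlt'
    obtain ⟨y, hy1, hy2⟩ := SetLike.exists_of_lt h1
    have hyS : (y : G) ∉ (S : Subgroup M).map M.subtype :=
      fun h => hy2 (Subgroup.mem_subgroupOf.mpr h)
    have hyN : (y : G) ∈ normalizer (((S : Subgroup M).map M.subtype : Subgroup G) : Set G) := by
      rw [Subgroup.mem_normalizer_iff] at hy1 ⊢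
      intro h
      constructor
      · intro hh
        have h2 := (hy1 ⟨h, hlt.le hh⟩).mp (Subgroup.mem_subgroupOf.mpr hh)
        exact Subgroup.mem_subgroupOf.mp h2
      · intro hh
        have hhT : h ∈ (T : Subgroup G) := by
          have h2 : (y : G)⁻¹ * ((y : G) * h * (y : G)⁻¹) * (y : G) ∈ (T : Subgroup G) :=
            Subgroup.mul_mem _ (Subgroup.mul_mem _ (Subgroup.inv_mem _ y.2) (hlt.le hh)) y.2
          have h3 : (y : G)⁻¹ * ((y : G) * h * (y : G)⁻¹) * (y : G) = h := by group
          rwa [h3] at h2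
        have h2 := (hy1 ⟨h, hhT⟩).mpr (Subgroup.mem_subgroupOf.mpr hh)
        exact Subgroup.mem_subgroupOf.mp h2
    have hDM : (T : Subgroup G) ⊓
        normalizer (((S : Subgroup M).map M.subtype : Subgroup G) : Set G) ≤ M :=
      inf_le_right.trans hN
    have hle : (S : Subgroup M) ≤ ((T : Subgroup G) ⊓
        normalizer (((S : Subgroup M).map M.subtype : Subgroup G) : Set G)).subgroupOf M := by
      intro z hz
      rw [Subgroup.mem_subgroupOf]
      exact ⟨hT ⟨z, hz, rfl⟩, le_normalizer ⟨z, hz, rfl⟩⟩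
    have hDp : IsPGroup p (((T : Subgroup G) ⊓
        normalizer (((S : Subgroup M).map M.subtype : Subgroup G) : Set G)).subgroupOf M) :=
      (T.isPGroup'.to_le inf_le_left).comap_subtype
    have heq := S.is_maximal' hDp hle
    apply hyS
    have hyD : (y : G) ∈ (T : Subgroup G) ⊓
        normalizer (((S : Subgroup M).map M.subtype : Subgroup G) : Set G) := ⟨y.2, hyN⟩
    have hyS' : (⟨(y : G), hDM hyD⟩ : M) ∈ (S : Subgroup M) := by
      rw [← heq, Subgroup.mem_subgroupOf]; exact hyD
    exact ⟨_, hyS', rfl⟩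
  have hTM : (T : Subgroup G) ≤ M := by
    rw [hTeq]; exact Subgroup.map_subtype_le _
  intro hdvd
  exact T.not_dvd_index (hdvd.trans (Subgroup.index_dvd_of_le hTM))

/-- the elements of order prime to `p` of a commutative group -/
def bg10bPrime (A : Type*) [CommGroup A] (p : ℕ) : Subgroup A where
  carrier := {a | Nat.Coprime (orderOf a) p}
  one_mem' := by
    show Nat.Coprime (orderOf (1 : A)) p
    rw [orderOf_one]; exact Nat.coprime_one_left p
  mul_mem' := by
    intro a b ha hb
    have h1 : orderOf (a * b) ∣ Nat.lcm (orderOf a) (orderOf b) :=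
      (Commute.all a b).orderOf_mul_dvd_lcm
    have h2 : Nat.lcm (orderOf a) (orderOf b) ∣ orderOf a * orderOf b := Nat.lcm_dvd_mul _ _
    exact Nat.Coprime.coprime_dvd_left (h1.trans h2) (Nat.Coprime.mul_left ha hb)
  inv_mem' := by
    intro a ha
    show Nat.Coprime (orderOf a⁻¹) p
    rw [orderOf_inv]; exact ha

theorem sigComm [Finite G] (hG : IsMinSimpleOddOrder G) (h101 : St1404 G) : StSigComm G := by
  intro M hM p _ hpσ P
  have hpp : p.Prime := Fact.out
  obtain ⟨-, -, P0, hP0⟩ := id hpσ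
  have hidx : Nat.Coprime p M.index :=
    (Nat.Prime.coprime_iff_not_dvd hpp).mpr (bg10b_not_dvd_index P0 hP0)
  -- the fusion hypothesis of the focal subgroup theorem
  have hfus : ∀ g ∈ M, (∃ k : ℕ, orderOf g = p ^ k) → ∀ a : G, a * g * a⁻¹ ∈ M →
      ∃ h ∈ M, h * g * h⁻¹ = a * g * a⁻¹ := by
    rintro g hgM ⟨k, hk⟩ a ha
    by_cases hg1 : g = 1
    · refine ⟨1, M.one_mem, ?_⟩
      rw [hg1]; group
    · have hXp : IsPGroup p (zpowers g) := IsPGroup.of_card (n := k) (by rw [Nat.card_zpowers, hk])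
      have hX1 : zpowers g ≠ ⊥ := fun h => hg1 (Subgroup.zpowers_eq_bot.mp h)
      have hXM : zpowers g ≤ M := (Subgroup.zpowers_le).mpr hgM
      have hconj : (zpowers g).map (MulAut.conj a).toMonoidHom ≤ M := by
        rintro _ ⟨x, hx, rfl⟩
        obtain ⟨i, rfl⟩ := Subgroup.mem_zpowers_iff.mp hx
        show (MulAut.conj a) (g ^ i) ∈ M
        rw [map_zpow]
        exact M.zpow_mem (by simpa [MulAut.conj_apply] using ha) i
      obtain ⟨m, hm, c, hc, hac⟩ := (h101 M hM p hpσ (zpowers g) hXp hX1 hXM).1 a hconj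
      refine ⟨m, hm, ?_⟩
      have hcg : g * c = c * g := Subgroup.mem_centralizer_iff.mp hc g (Subgroup.mem_zpowers g)
      rw [hac, mul_inv_rev]
      calc m * g * m⁻¹ = m * (g * c) * c⁻¹ * m⁻¹ := by group
        _ = m * (c * g) * c⁻¹ * m⁻¹ := by rw [hcg]
        _ = m * c * g * (c⁻¹ * m⁻¹) := by group
  have h1 := Cfsg.Agent.S1242.result M hidx hfus
  -- `G' = G`
  have hcomm : commutator G = ⊤ := by
    haveI := hG.2.1
    rcases (inferInstance : (commutator G).Normal).eq_bot_or_eq_top with h | h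
    · exfalso
      apply hG.2.2.1
      refine ⟨⟨fun a b => ?_⟩⟩
      have h2 : ⁅a, b⁆ ∈ commutator G :=
        Subgroup.commutator_mem_commutator (Subgroup.mem_top a) (Subgroup.mem_top b)
      rw [h, Subgroup.mem_bot] at h2
      exact commutatorElement_eq_one_iff_mul_comm.mp h2
    · exact h
  rw [hcomm, sup_top_eq, top_inf_eq] at h1
  have htop : Cfsg.pResidual p ↥M ⊔ commutator ↥M = ⊤ := by
    rw [eq_top_iff]
    intro x _
    have hx : (x : G) ∈ (Cfsg.pResidual p ↥M ⊔ commutator ↥M).map M.subtype := by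
      rw [← h1]; exact x.2
    obtain ⟨y, hy, hyx⟩ := hx
    have hyx' : y = x := Subtype.ext hyx
    rw [← hyx']; exact hy
  obtain ⟨φ, hφ⟩ : ∃ φ : ↥M →* Abelianization ↥M, φ = Abelianization.of := ⟨_, rfl⟩
  have hker : φ.ker = commutator ↥M := by rw [hφ]; exact Abelianization.ker_of ↥M
  have hle : Cfsg.pResidual p ↥M ⊔ commutator ↥M ≤
      (bg10bPrime (Abelianization ↥M) p).comap φ := by
    apply sup_le
    · unfold Cfsg.pResidual
      rw [Subgroup.closure_le]
      intro g hg
      show Nat.Coprime (orderOf (φ g)) p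
      exact Nat.Coprime.coprime_dvd_left (orderOf_map_dvd φ g) hg
    · intro x hx
      rw [← hker] at hx
      show Nat.Coprime (orderOf (φ x)) p
      rw [MonoidHom.mem_ker.mp hx, orderOf_one]
      exact Nat.coprime_one_left p
  intro x hx
  have h2 : Nat.Coprime (orderOf (φ x)) p := by
    have h3 : x ∈ (bg10bPrime (Abelianization ↥M) p).comap φ := hle (htop ▸ Subgroup.mem_top x)
    exact h3
  obtain ⟨k, hk⟩ := P.isPGroup' ⟨x, hx⟩
  have h3 : x ^ p ^ k = 1 := by simpa using congrArg Subtype.val hk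
  have h4 : orderOf (φ x) ∣ p ^ k := by
    apply orderOf_dvd_of_pow_eq_one
    rw [← map_pow, h3, map_one]
  have h5 : orderOf (φ x) = 1 := Nat.Coprime.eq_one_of_dvd (Nat.Coprime.pow_right k h2) h4
  rw [← hker]
  exact MonoidHom.mem_ker.mpr (orderOf_eq_one_iff.mp h5)

end Cfsg.Agent.H3.BG10

section Check
open Cfsg Subgroup Cfsg.Agent.H58.BG10
universe u
variable {G : Type u} [Group G]

example [Finite G] (hG : IsMinSimpleOddOrder G) (h101 : St1404 G) : StSigComm G :=
  Cfsg.Agent.H3.BG10.sigComm hG h101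
end Check
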