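import Mathlib
import Cfsg.Prelude.Def_OddOrderLocal
import Cfsg.Agent.S0126
import Cfsg.Agent.S1452
import Cfsg.Agent.H3.Critical

/-!
# S1404 piece E (helper3, for helper63): a normal elementary abelian subgroup of order `p ^ 2`
of a Sylow `p`-subgroup of rank at least 3 is a uniqueness subgroup with central commutators
-/

set_option autoImplicit false

namespace Cfsg.Agent.H3.BG10

open Cfsg Subgroup

universe u

variable {G : Type u} [Group G]

/-- `p`-rank bounds pull back along injective homomorphisms -/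
theorem bg10e_pRankLE_of_injective {H K : Type*} [Group H] [Group K] {p k : ℕ} (f : H →* K)
    (hf : Function.Injective f) (h : PRankLE p k K) : PRankLE p k H := by
  intro A hAc hAe
  have h1 := h (A.map f) ?_ ?_
  · rwa [Subgroup.card_map_of_injective hf] at h1
  · refine ⟨⟨?_⟩⟩
    rintro ⟨_, ⟨a, ha, rfl⟩⟩ ⟨_, ⟨b, hb, rfl⟩⟩
    apply Subtype.ext
    show f a * f b = f b * f a
    rw [← map_mul, ← map_mul]
    exact congrArg f (congrArg Subtype.val (hAc.1.1 ⟨a, ha⟩ ⟨b, hb⟩))
  · rintro _ ⟨a, ha, rfl⟩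
    rw [← map_pow, hAe a ha, map_one]

/-- an elementary abelian group has order at most `p ^ k` if its `p`-rank is at most `k` -/
theorem bg10e_card_le_of_pRankLE {H : Type*} [Group H] {p k : ℕ} (h : PRankLE p k H)
    (hc : ∀ a b : H, a * b = b * a) (he : ∀ a : H, a ^ p = 1) : Nat.card H ≤ p ^ k := by
  have h1 := h ⊤ ⟨⟨fun a b => Subtype.ext (hc a b)⟩⟩ (fun a _ => he a)
  rwa [Subgroup.card_top] at h1

/-- a normal subgroup of order `p ^ 2` of a finite `p`-group has all its commutators central -/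
theorem bg10e_comm_central {R : Type*} [Group R] [Finite R] {p : ℕ} [Fact p.Prime]
    (hR : IsPGroup p R) (E : Subgroup R) [E.Normal] (hE2 : Nat.card E = p ^ 2) :
    ∀ e ∈ E, ∀ s : R, e * s * e⁻¹ * s⁻¹ ∈ center R := by
  have hpp : p.Prime := Fact.out
  obtain ⟨D, hD⟩ : ∃ D : Subgroup R, D = E ⊓ center R := ⟨_, rfl⟩
  haveI hDn : D.Normal := by rw [hD]; infer_instance
  have hDE : D ≤ E := by rw [hD]; exact inf_le_left
  have hDc : D ≤ center R := by rw [hD]; exact inf_le_right
  have hE1 : E ≠ ⊥ := by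
    intro h
    rw [h, Subgroup.card_bot] at hE2
    have h1 := hpp.one_lt
    have h2 : 1 < p ^ 2 := Nat.one_lt_pow (by norm_num) h1
    omega
  have hD1 : D ≠ ⊥ := by
    obtain ⟨z, hzE, hzc, hz1⟩ := Cfsg.Agent.H3.normal_inf_center_ne_bot hR E hE1
    intro h
    apply hz1
    have hzD : z ∈ D := by rw [hD]; exact ⟨hzE, hzc⟩
    rw [h] at hzD
    exact Subgroup.mem_bot.mp hzD
  -- every element of `E` is central modulo `D`
  have key : ∀ e ∈ E, (QuotientGroup.mk' D e) ∈ center (R ⧸ D) := by
    by_cases hbot : E.map (QuotientGroup.mk' D) = ⊥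
    · intro e he
      have h1 : QuotientGroup.mk' D e ∈ E.map (QuotientGroup.mk' D) :=
        Subgroup.mem_map_of_mem _ he
      rw [hbot, Subgroup.mem_bot] at h1
      rw [h1]; exact Subgroup.one_mem _
    · haveI : (E.map (QuotientGroup.mk' D)).Normal :=
        Subgroup.Normal.map inferInstance _ (QuotientGroup.mk'_surjective D)
      have hQ : IsPGroup p (R ⧸ D) := hR.to_quotient D
      obtain ⟨z', hz'E, hz'c, hz'1⟩ := Cfsg.Agent.H3.normal_inf_center_ne_bot hQ _ hbot
      obtain ⟨e₀, he₀, rfl⟩ := hz'E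
      obtain ⟨H, hH⟩ : ∃ H : Subgroup R,
          H = E ⊓ (center (R ⧸ D)).comap (QuotientGroup.mk' D) := ⟨_, rfl⟩
      have hHE : H ≤ E := by rw [hH]; exact inf_le_left
      have hDH : D ≤ H := by
        rw [hH]
        intro d hd
        refine ⟨hDE hd, ?_⟩
        show QuotientGroup.mk' D d ∈ center (R ⧸ D)
        have h1 : QuotientGroup.mk' D d = 1 := (QuotientGroup.eq_one_iff d).mpr hd
        rw [h1]; exact Subgroup.one_mem _
      have he₀H : e₀ ∈ H := by rw [hH]; exact ⟨he₀, hz'c⟩
      have he₀D : e₀ ∉ D := fun h => hz'1 ((QuotientGroup.eq_one_iff e₀).mpr h)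
      have hHeq : H = E := by
        have hdvd : Nat.card H ∣ p ^ 2 := hE2 ▸ Subgroup.card_dvd_of_le hHE
        obtain ⟨k, hk, hcard⟩ := (Nat.dvd_prime_pow hpp).mp hdvd
        interval_cases k
        · exfalso
          have h1 : H = ⊥ := Subgroup.card_eq_one.mp (by rw [hcard, pow_zero])
          apply hD1
          rw [eq_bot_iff, ← h1]; exact hDH
        · exfalso
          haveI : Fact (Nat.card H).Prime := ⟨by rw [hcard, pow_one]; exact hpp⟩
          rcases Subgroup.eq_bot_or_eq_top_of_prime_card (D.subgroupOf H) with h | h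
          · apply hD1
            rw [Subgroup.subgroupOf_eq_bot] at h
            rw [eq_bot_iff]
            intro d hd
            exact Subgroup.disjoint_def.mp h hd (hDH hd) |> fun h1 => Subgroup.mem_bot.mpr h1
          · rw [Subgroup.subgroupOf_eq_top] at h
            exact he₀D (h he₀H)
        · exact Subgroup.eq_of_le_of_card_ge hHE (by rw [hcard, hE2])
      intro e he
      have h1 : e ∈ H := hHeq ▸ he
      rw [hH] at h1
      exact h1.2
  intro e he s
  have h1 := key e he
  have h2 : QuotientGroup.mk' D (e * s * e⁻¹ * s⁻¹) = 1 := by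
    rw [map_mul, map_mul, map_mul, map_inv, map_inv]
    have h3 := Subgroup.mem_center_iff.mp h1 (QuotientGroup.mk' D s)
    rw [← h3]; group
  exact hDc ((QuotientGroup.eq_one_iff _).mp h2)

theorem exists_E [Finite G] (hG : IsMinSimpleOddOrder G)
    (hU : ∀ K : Subgroup G, K ≠ ⊤ → ¬ RankLE 1 K →
      (¬ RankLE 2 K ∨ ¬ RankLE 2 (centralizer (K : Set G))) → InUniqueMaximal K)
    (p : ℕ) [Fact p.Prime] (S : Sylow p G) (hr : ¬ PRankLE p 2 G) :
    ∃ E : Subgroup G, E ≤ (S : Subgroup G) ∧ InUniqueMaximal E ∧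
      ∀ e ∈ E, ∀ s ∈ (S : Subgroup G),
        e * s * e⁻¹ * s⁻¹ ∈ centralizer ((S : Subgroup G) : Set G) := by
  have hpp : p.Prime := Fact.out
  have hSp : IsPGroup p ↥(S : Subgroup G) := S.isPGroup'
  -- an elementary abelian subgroup of order `> p ^ 2` of `G`
  have hr' := hr
  unfold PRankLE at hr'
  push Not at hr'
  obtain ⟨B, hBc, hBe, hBcard⟩ := hr'
  have hBp : IsPGroup p B := fun b => ⟨1, by
    rw [pow_one]; exact Subtype.ext (by simpa using hBe b b.2)⟩
  obtain ⟨Q, hBQ⟩ := hBp.exists_le_sylow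
  obtain ⟨g, hg⟩ := MulAction.exists_smul_eq G Q S
  have hconj : ∀ b ∈ (Q : Subgroup G), g * b * g⁻¹ ∈ (S : Subgroup G) := by
    intro b hb
    rw [← hg, Sylow.coe_subgroup_smul]
    exact ⟨b, hb, rfl⟩
  -- the rank of `S` is at least 3
  have hrS : ¬ PRankLE p 2 ↥(S : Subgroup G) := by
    intro hS
    obtain ⟨f, hf⟩ : ∃ f : ↥B →* ↥(S : Subgroup G), ∀ b : ↥B, ((f b : ↥(S : Subgroup G)) : G) =
        g * (b : G) * g⁻¹ :=
      ⟨((MulAut.conj g).toMonoidHom.comp B.subtype).codRestrict (S : Subgroup G)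
        (fun b => hconj b (hBQ b.2)), fun b => rfl⟩
    have hfi : Function.Injective f := by
      intro a b hab
      have h1 := congrArg Subtype.val hab
      rw [hf, hf] at h1
      apply Subtype.ext
      have h2 : g⁻¹ * (g * (a : G) * g⁻¹) * g = g⁻¹ * (g * (b : G) * g⁻¹) * g := by rw [h1]
      simpa [mul_assoc] using h2
    have h1 := bg10e_card_le_of_pRankLE (bg10e_pRankLE_of_injective f hfi hS)
      (fun a b => hBc.1.1 a b) (fun a => Subtype.ext (by simpa using hBe a a.2))
    omega
  -- `p` is odd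
  have hp2 : p ≠ 2 := by
    rintro rfl
    have h1 : 2 ∣ Nat.card B := by
      obtain ⟨n, hn⟩ := IsPGroup.iff_card.mp hBp
      rw [hn] at hBcard ⊢
      have hn0 : n ≠ 0 := by
        rintro rfl
        norm_num at hBcard
      exact dvd_pow_self 2 hn0
    have h2 : 2 ∣ Nat.card G := h1.trans (Subgroup.card_subgroup_dvd_card B)
    exact (Nat.not_even_iff_odd.mpr hG.1) (even_iff_two_dvd.mpr h2)
  -- `S` is not cyclic
  have hnc : ¬ IsCyclic ↥(S : Subgroup G) := by
    intro hc
    apply hrS
    intro A hAc hAe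
    haveI : IsCyclic A := Subgroup.isCyclic A
    obtain ⟨a, ha⟩ := IsCyclic.exists_generator (α := A)
    have h1 : orderOf a = Nat.card A := orderOf_eq_card_of_forall_mem_zpowers ha
    have h2 : a ^ p = 1 := Subtype.ext (by simpa using hAe a a.2)
    have h3 : orderOf a ∣ p := orderOf_dvd_of_pow_eq_one h2
    rw [← h1]
    calc orderOf a ≤ p := Nat.le_of_dvd hpp.pos h3
      _ ≤ p ^ 2 := Nat.le_self_pow (by norm_num) p
  obtain ⟨E', hE'n, hE'e, hE'2⟩ := Cfsg.Agent.S0126.result hp2 hSp hnc
  haveI := hE'n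
  obtain ⟨A, hE'A, hAn, hAc, hAr⟩ := Cfsg.Agent.S1452.result p hp2 hSp hrS E' hE'e hE'2
  have hcomm := bg10e_comm_central hSp E' hE'2
  refine ⟨E'.map (S : Subgroup G).subtype, Subgroup.map_subtype_le _, ?_, ?_⟩
  · apply hU
    · -- a `p`-group is not all of `G`
      intro htop
      have hGp : IsPGroup p G := by
        intro x
        have hx : x ∈ E'.map (S : Subgroup G).subtype := htop ▸ Subgroup.mem_top x
        obtain ⟨y, -, rfl⟩ := hx
        obtain ⟨k, hk⟩ := hSp y
        exact ⟨k, by simpa using congrArg Subtype.val hk⟩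
      have hs : IsSimpleGroup G := hG.2.1
      have hnil : Group.IsNilpotent G := hGp.isNilpotent
      have hsolv : Group.IsSolvable G := inferInstance
      have hc := (IsSimpleGroup.comm_iff_isSolvable (G := G)).mpr hsolv
      exact hG.2.2.1 ⟨⟨fun a b => hc a b⟩⟩
    · -- rank at least 2
      intro h1
      have h2 : PRankLE p 1 ↥E' :=
        bg10e_pRankLE_of_injective ((S : Subgroup G).subtype.subgroupMap E')
          (by
            intro a b hab
            have h3 := congrArg Subtype.val hab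
            exact Subtype.ext (Subtype.ext h3)) (h1 p hpp)
      have h3 := bg10e_card_le_of_pRankLE h2 (fun a b => hE'e.1.1.1 a b)
        (fun a => Subtype.ext (by simpa using hE'e.2 a a.2))
      rw [hE'2, pow_one] at h3
      have h4 := hpp.one_lt
      nlinarith
    · right
      intro h1
      apply hAr
      obtain ⟨f, hf⟩ : ∃ f : ↥A →* ↥(centralizer ((E'.map (S : Subgroup G).subtype : Subgroup G) :
          Set G)), ∀ a : ↥A, ((f a : ↥(centralizer ((E'.map (S : Subgroup G).subtype :
            Subgroup G) : Set G))) : G) = ((a : ↥(S : Subgroup G)) : G) := by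
        refine ⟨(((S : Subgroup G).subtype.comp A.subtype).codRestrict _ ?_), fun a => rfl⟩
        intro a
        rw [Subgroup.mem_centralizer_iff]
        rintro _ ⟨e, he, rfl⟩
        have ha : (a : ↥(S : Subgroup G)) ∈ centralizer (A : Set ↥(S : Subgroup G)) := by
          rw [hAc]; exact a.2
        have h2 := Subgroup.mem_centralizer_iff.mp ha e (hE'A he)
        exact congrArg Subtype.val h2
      have hfi : Function.Injective f := by
        intro a b hab
        have h2 := congrArg Subtype.val hab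
        rw [hf, hf] at h2
        exact Subtype.ext (Subtype.ext h2)
      exact bg10e_pRankLE_of_injective f hfi (h1 p hpp)
  · rintro _ ⟨e, he, rfl⟩ s hs
    have h1 := hcomm e he ⟨s, hs⟩
    rw [Subgroup.mem_centralizer_iff]
    intro t ht
    have h2 := Subgroup.mem_center_iff.mp h1 ⟨t, ht⟩
    exact congrArg Subtype.val h2

end Cfsg.Agent.H3.BG10

section Check
open Cfsg Subgroup
universe u
variable {G : Type u} [Group G]

example [Finite G] (hG : IsMinSimpleOddOrder G)
    (hU : ∀ K : Subgroup G, K ≠ ⊤ → ¬ RankLE 1 K →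
      (¬ RankLE 2 K ∨ ¬ RankLE 2 (centralizer (K : Set G))) → InUniqueMaximal K)
    (p : ℕ) [Fact p.Prime] (S : Sylow p G) (hr : ¬ PRankLE p 2 G) :
    ∃ E : Subgroup G, E ≤ (S : Subgroup G) ∧ InUniqueMaximal E ∧
      ∀ e ∈ E, ∀ s ∈ (S : Subgroup G),
        e * s * e⁻¹ * s⁻¹ ∈ centralizer ((S : Subgroup G) : Set G) :=
  Cfsg.Agent.H3.BG10.exists_E hG hU p S hr
end Check
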