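import Cfsg.Agent.H3.PlaneOdd
import Cfsg.Agent.H3.RankTwoAut

set_option autoImplicit false

namespace Cfsg.Agent.H3

open scoped commutatorElement

/-- Odd-order solvable automorphism groups of elementary abelian groups of order at most `p^2`
have derived group of exponent dividing `p`. -/
theorem odd_commutator_pow_of_card_le {V : Type*} [CommGroup V] [Finite V] {p : ℕ}
    [Fact p.Prime] (hexp : ∀ a : V, a ^ p = 1) (hcard : Nat.card V ≤ p ^ 2)
    (B : Subgroup (MulAut V)) [Group.IsSolvable B] (hodd : ∀ b ∈ B, Odd (orderOf b)) :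
    ∀ x ∈ ⁅B, B⁆, x ^ p = 1 := by
  have hp : p.Prime := Fact.out
  have hVp : IsPGroup p V := fun g => ⟨1, by rw [pow_one]; exact hexp g⟩
  obtain ⟨k, hk⟩ := IsPGroup.iff_card.mp hVp
  have hk2 : k ≤ 2 := by
    rw [hk] at hcard
    exact (Nat.pow_le_pow_iff_right hp.one_lt).mp hcard
  by_cases hk' : k = 2
  · exact IsPlane.odd_commutator_pow ⟨hexp, by rw [hk, hk']⟩ B hodd
  · have hcyc : IsCyclic V := by
      interval_cases k
      · have : Subsingleton V := by
          rw [← Finite.card_le_one_iff_subsingleton, hk, pow_zero]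
        infer_instance
      · exact isCyclic_of_prime_card (p := p) (by simpa using hk)
      · exact absurd rfl hk'
    have hcomm : ∀ φ ψ : MulAut V, φ * ψ = ψ * φ := by
      intro φ ψ
      apply (IsCyclic.mulAutMulEquiv V).injective
      rw [map_mul, map_mul, mul_comm]
    have hbot : ⁅B, B⁆ = ⊥ := by
      rw [Subgroup.commutator_eq_bot_iff_le_centralizer]
      intro a _
      rw [Subgroup.mem_centralizer_iff]
      intro b _
      exact hcomm b a
    intro x hx
    rw [hbot, Subgroup.mem_bot] at hx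
    rw [hx, one_pow]

/-- The version for a homomorphism into the automorphism group. -/
theorem hom_commutator_pow {A : Type*} [Group A] [Finite A] [Group.IsSolvable A]
    (hAodd : Odd (Nat.card A)) {V : Type*} [CommGroup V] [Finite V] {p : ℕ} [Fact p.Prime]
    (hexp : ∀ a : V, a ^ p = 1) (hcard : Nat.card V ≤ p ^ 2) (ρ : A →* MulAut V) :
    ∀ x ∈ commutator A, (ρ x) ^ p = 1 := by
  haveI : Group.IsSolvable ρ.range :=
    Group.isSolvable_of_surjective (f := ρ.rangeRestrict) ρ.rangeRestrict_surjective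
  have hodd : ∀ b ∈ ρ.range, Odd (orderOf b) := by
    rintro _ ⟨a, rfl⟩
    exact Odd.of_dvd_nat hAodd ((orderOf_map_dvd ρ a).trans (orderOf_dvd_natCard a))
  intro x hx
  apply odd_commutator_pow_of_card_le hexp hcard ρ.range hodd
  have h1 : Subgroup.map ρ ⁅(⊤ : Subgroup A), (⊤ : Subgroup A)⁆ = ⁅ρ.range, ρ.range⁆ := by
    rw [Subgroup.map_commutator, ← MonoidHom.range_eq_map]
  rw [← h1]
  rw [commutator_def] at hx
  exact ⟨x, hx, rfl⟩

/-- The induced action on the abelianization. -/
def abAutHom (D : Type*) [Group D] : MulAut D →* MulAut (Abelianization D) where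
  toFun φ := MulEquiv.abelianizationCongr φ
  map_one' := by
    ext x
    obtain ⟨x, rfl⟩ := QuotientGroup.mk_surjective x
    rfl
  map_mul' φ ψ := by
    ext x
    obtain ⟨x, rfl⟩ := QuotientGroup.mk_surjective x
    rfl

theorem abAutHom_apply (D : Type*) [Group D] (φ : MulAut D) (d : D) :
    abAutHom D φ (Abelianization.of d) = Abelianization.of (φ d) := rfl

theorem commutatorElement_central_mul {D : Type*} [Group D] {z₁ z₂ : D}
    (hz₁ : z₁ ∈ Subgroup.center D) (hz₂ : z₂ ∈ Subgroup.center D) (a b : D) :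
    ⁅z₁ * a, z₂ * b⁆ = ⁅a, b⁆ := by
  have h1 := Subgroup.mem_center_iff.mp hz₁
  have h2 := Subgroup.mem_center_iff.mp hz₂
  rw [commutatorElement_def, commutatorElement_def]
  calc z₁ * a * (z₂ * b) * (z₁ * a)⁻¹ * (z₂ * b)⁻¹
      = z₁ * (a * z₂ * b * a⁻¹) * z₁⁻¹ * b⁻¹ * z₂⁻¹ := by group
    _ = (a * z₂ * b * a⁻¹) * z₁ * z₁⁻¹ * b⁻¹ * z₂⁻¹ := by rw [← h1 (a * z₂ * b * a⁻¹)]
    _ = a * (z₂ * (b * a⁻¹ * b⁻¹)) * z₂⁻¹ := by group
    _ = a * ((b * a⁻¹ * b⁻¹) * z₂) * z₂⁻¹ := by rw [← h2 (b * a⁻¹ * b⁻¹)]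
    _ = a * b * a⁻¹ * b⁻¹ := by group

/-- A `p'`-automorphism acting trivially on the abelianization of a group of exponent `p` with
central derived group is trivial. -/
theorem aut_eq_one_of_abelianization {D : Type*} [Group D] {p : ℕ}
    (hcen : commutator D ≤ Subgroup.center D) (hexp : ∀ d : D, d ^ p = 1) (φ : MulAut D)
    (m : ℕ) (hm : φ ^ m = 1) (hcop : m.Coprime p) (h : abAutHom D φ = 1) : φ = 1 := by
  have hz : ∀ d, φ d * d⁻¹ ∈ commutator D := by
    intro d
    have h1 := congrArg (fun ψ : MulAut (Abelianization D) => ψ (Abelianization.of d)) h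
    simp only [abAutHom_apply, MulAut.one_apply] at h1
    have h2 : (QuotientGroup.mk' (commutator D)) (φ d * d⁻¹) = 1 := by
      rw [map_mul, map_inv]
      exact mul_inv_eq_one.mpr h1
    exact (QuotientGroup.eq_one_iff _).mp h2
  have hfix : commutator D ≤ autFix φ := by
    rw [commutator_def, Subgroup.commutator_le]
    intro a _ b _
    rw [mem_autFix, map_commutatorElement]
    have ha : φ a = (φ a * a⁻¹) * a := by group
    have hb : φ b = (φ b * b⁻¹) * b := by group
    rw [ha, hb]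
    exact commutatorElement_central_mul (hcen (hz a)) (hcen (hz b)) a b
  ext d
  rw [MulAut.one_apply]
  have hφz : φ (φ d * d⁻¹) = φ d * d⁻¹ := (mem_autFix φ _).mp (hfix (hz d))
  have hpow : ∀ n : ℕ, (φ ^ n) d = (φ d * d⁻¹) ^ n * d := by
    intro n
    induction n with
    | zero => simp
    | succ n ih =>
      rw [pow_succ', MulAut.mul_apply, ih, map_mul, map_pow, hφz, pow_succ]
      group
  have h1 := hpow m
  rw [hm, MulAut.one_apply] at h1
  have h2 : (φ d * d⁻¹) ^ m = 1 := by
    have := congrArg (· * d⁻¹) h1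
    simp only [mul_inv_cancel, mul_inv_cancel_right] at this
    exact this.symm
  have h3 : orderOf (φ d * d⁻¹) ∣ Nat.gcd m p :=
    Nat.dvd_gcd (orderOf_dvd_of_pow_eq_one h2) (orderOf_dvd_of_pow_eq_one (hexp _))
  rw [hcop, Nat.dvd_one, orderOf_eq_one_iff] at h3
  exact mul_inv_eq_one.mp h3

/-- Conjugation action of a subgroup on a subgroup it normalizes. -/
def conjHom {G : Type*} [Group G] (A D : Subgroup G)
    (h : ∀ a ∈ A, ∀ x ∈ D, a * x * a⁻¹ ∈ D) : ↥A →* MulAut ↥D where
  toFun a :=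
    { toFun := fun x => ⟨a * x * a⁻¹, h a a.2 x x.2⟩
      invFun := fun x => ⟨a⁻¹ * x * a, by
        have := h a⁻¹ (A.inv_mem a.2) x x.2
        simpa using this⟩
      left_inv := fun x => by ext; simp [mul_assoc]
      right_inv := fun x => by ext; simp [mul_assoc]
      map_mul' := fun x y => by ext; simp [mul_assoc] }
  map_one' := by ext x; simp
  map_mul' := fun a b => by ext x; simp [mul_assoc]

theorem conjHom_apply {G : Type*} [Group G] (A D : Subgroup G)
    (h : ∀ a ∈ A, ∀ x ∈ D, a * x * a⁻¹ ∈ D) (a : A) (x : D) :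
    ((conjHom A D h a x : D) : G) = a * x * a⁻¹ := rfl

end Cfsg.Agent.H3
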