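import Mathlib
import Cfsg.Agent.H7.Herm
import Cfsg.Agent.H77.SubRANKEXT

/-! helper3: piece S5982-C2 of helper99's project (unitary similarities of prime order). -/

set_option autoImplicit false

namespace Cfsg.Agent.H3.Uni

open scoped MatrixGroups
open Polynomial

theorem c2_eig_of_det {L : Type*} [Field L] {n : ℕ} (S : Matrix (Fin n) (Fin n) L) (ν : L)
    (h : (S - ν • (1 : Matrix (Fin n) (Fin n) L)).det = 0) :
    ∃ v : Fin n → L, v ≠ 0 ∧ S.mulVec v = ν • v := by
  obtain ⟨v, hv0, hv⟩ := Matrix.exists_mulVec_eq_zero_iff.2 h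
  refine ⟨v, hv0, ?_⟩
  rw [Matrix.sub_mulVec, Matrix.smul_mulVec, Matrix.one_mulVec, sub_eq_zero] at hv
  exact hv

theorem c2_symm {L : Type*} [Field L] {n q₀ : ℕ} (φ : L →+* L) (hφ : ∀ a, φ a = a ^ q₀)
    (S : Matrix (Fin n) (Fin n) L)
    (hS : S.transpose * S.map (fun a => a ^ q₀) = 1) (ν : L) (hν : ν ≠ 0)
    (h : (S - ν • (1 : Matrix (Fin n) (Fin n) L)).det = 0) :
    (S - ((ν⁻¹) ^ q₀) • (1 : Matrix (Fin n) (Fin n) L)).det = 0 := by
  have hmap : φ.mapMatrix (S - ν • (1 : Matrix (Fin n) (Fin n) L))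
      = S.map (fun a => a ^ q₀) - (ν ^ q₀) • (1 : Matrix (Fin n) (Fin n) L) := by
    ext i j
    by_cases hij : i = j
    · simp only [RingHom.mapMatrix_apply, Matrix.map_apply, Matrix.sub_apply, Matrix.smul_apply,
        Matrix.one_apply, map_sub, smul_eq_mul, if_pos hij, mul_one]
      rw [hφ, hφ]
    · simp only [RingHom.mapMatrix_apply, Matrix.map_apply, Matrix.sub_apply, Matrix.smul_apply,
        Matrix.one_apply, map_sub, smul_eq_mul, if_neg hij, mul_zero, map_zero]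
      rw [hφ]
  have hdet : (S.map (fun a => a ^ q₀) - (ν ^ q₀) • (1 : Matrix (Fin n) (Fin n) L)).det = 0 := by
    rw [← hmap, ← RingHom.map_det, h, map_zero]
  have hprod : S.transpose * (S.map (fun a => a ^ q₀) - (ν ^ q₀) • (1 : Matrix (Fin n) (Fin n) L))
      = (-(ν ^ q₀)) • (S - ((ν⁻¹) ^ q₀) • (1 : Matrix (Fin n) (Fin n) L)).transpose := by
    rw [Matrix.mul_sub, hS, Matrix.mul_smul, Matrix.mul_one, Matrix.transpose_sub,
      Matrix.transpose_smul, Matrix.transpose_one, smul_sub, smul_smul]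
    have : -(ν ^ q₀) * (ν⁻¹) ^ q₀ = -1 := by
      rw [neg_mul, ← mul_pow, mul_inv_cancel₀ hν, one_pow]
    rw [this, neg_smul, neg_smul, one_smul]
    abel
  have h2 := congrArg Matrix.det hprod
  rw [Matrix.det_mul, hdet, mul_zero, Matrix.det_smul, Matrix.det_transpose] at h2
  have h3 : (-(ν ^ q₀)) ^ Fintype.card (Fin n) ≠ 0 :=
    pow_ne_zero _ (neg_ne_zero.2 (pow_ne_zero _ hν))
  exact (mul_eq_zero.1 h2.symm).resolve_left h3

theorem c2_exists_eig {L : Type*} [Field L] [IsAlgClosed L] {n r : ℕ} (hr0 : (r : L) ≠ 0)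
    (S : Matrix (Fin n) (Fin n) L) (hSr : S ^ r = 1) (hS1 : S ≠ 1) :
    ∃ ν : L, ν ≠ 1 ∧ ν ^ r = 1 ∧ (S - ν • (1 : Matrix (Fin n) (Fin n) L)).det = 0 := by
  classical
  obtain ⟨Φ, hΦ⟩ : ∃ Φ : L[X], Φ = ∑ i ∈ Finset.range r, (X : L[X]) ^ i := ⟨_, rfl⟩
  have hfac : (X - 1 : L[X]) * Φ = X ^ r - 1 := by rw [hΦ]; exact mul_geom_sum X r
  have h1 : minpoly L S ∣ (X - 1) * Φ := by
    apply minpoly.dvd
    rw [hfac]
    simp [hSr]
  have h2 : ¬ minpoly L S ∣ (X - 1 : L[X]) := by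
    rintro ⟨k, hk⟩
    have : aeval S (X - 1 : L[X]) = 0 := by rw [hk, map_mul, minpoly.aeval, zero_mul]
    apply hS1
    simpa [sub_eq_zero] using this
  have hg : ¬ IsUnit (EuclideanDomain.gcd (minpoly L S) Φ) := by
    intro hu
    exact h2 ((EuclideanDomain.gcd_isUnit_iff.1 hu).dvd_of_dvd_mul_right h1)
  have hdeg : (EuclideanDomain.gcd (minpoly L S) Φ).degree ≠ 0 := by
    intro hd
    exact hg (Polynomial.isUnit_iff_degree_eq_zero.2 hd)
  obtain ⟨ν, hν⟩ := IsAlgClosed.exists_root _ hdeg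
  have hμ : (minpoly L S).IsRoot ν := hν.dvd (EuclideanDomain.gcd_dvd_left _ _)
  have hΦν : Φ.IsRoot ν := hν.dvd (EuclideanDomain.gcd_dvd_right _ _)
  have hχ : S.charpoly.IsRoot ν := hμ.dvd (Matrix.minpoly_dvd_charpoly S)
  have hsum : ∑ i ∈ Finset.range r, ν ^ i = 0 := by
    have := hΦν
    rw [Polynomial.IsRoot.def, hΦ, Polynomial.eval_geom_sum] at this
    exact this
  refine ⟨ν, ?_, ?_, ?_⟩
  · rintro rfl
    simp at hsum
    exact hr0 hsum
  · have := mul_geom_sum ν r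
    rw [hsum, mul_zero] at this
    exact (sub_eq_zero.1 this.symm)
  · have := Matrix.eval_charpoly S ν
    rw [Polynomial.IsRoot.def] at hχ
    rw [hχ] at this
    have h3 : S - ν • (1 : Matrix (Fin n) (Fin n) L) = -(Matrix.scalar (Fin n) ν - S) := by
      rw [neg_sub]
      congr 1
      ext i j
      simp [Matrix.one_apply, Matrix.diagonal_apply]
    rw [h3, Matrix.det_neg, ← this, mul_zero]

theorem c2_core {L : Type*} [Field L] [IsAlgClosed L] (n r q₀ : ℕ) (hr : r.Prime)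
    (hrL : (r : L) ≠ 0) (φ : L →+* L) (hφ : ∀ a, φ a = a ^ q₀)
    (S : Matrix (Fin n) (Fin n) L) (hSr : S ^ r = 1) (hS1 : S ≠ 1)
    (hS : S.transpose * S.map (fun a => a ^ q₀) = 1) :
    orderOf (-(q₀ : ZMod r)) ≤ (S - 1).rank := by
  classical
  haveI : Fact r.Prime := ⟨hr⟩
  obtain ⟨e, he⟩ : ∃ e, e = orderOf (-(q₀ : ZMod r)) := ⟨_, rfl⟩
  rw [← he]
  rcases Nat.eq_zero_or_pos e with h0 | hpos
  · rw [h0]; exact Nat.zero_le _
  obtain ⟨ν₀, hν1, hνr, hνdet⟩ := c2_exists_eig hrL S hSr hS1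
  have hν0 : ν₀ ≠ 0 := by
    rintro rfl
    rw [zero_pow hr.ne_zero] at hνr
    exact zero_ne_one hνr
  have hord : orderOf ν₀ = r := orderOf_eq_prime hνr hν1
  obtain ⟨w, hw⟩ : ∃ w, w = (r - 1) * q₀ := ⟨_, rfl⟩
  have hwcast : (w : ZMod r) = -(q₀ : ZMod r) := by
    rw [hw, Nat.cast_mul, Nat.cast_sub hr.one_le, ZMod.natCast_self, zero_sub, Nat.cast_one,
      neg_one_mul]
  have hall : ∀ k : ℕ, (S - (ν₀ ^ (w ^ k)) • (1 : Matrix (Fin n) (Fin n) L)).det = 0 := by
    intro k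
    induction k with
    | zero => simpa using hνdet
    | succ k ih =>
      have hne : ν₀ ^ (w ^ k) ≠ 0 := pow_ne_zero _ hν0
      have := c2_symm φ hφ S hS _ hne ih
      have hinv : (ν₀ ^ (w ^ k))⁻¹ = (ν₀ ^ (w ^ k)) ^ (r - 1) := by
        apply inv_eq_of_mul_eq_one_right
        rw [← pow_succ', Nat.sub_add_cancel hr.one_le, ← pow_mul, mul_comm, pow_mul, hνr, one_pow]
      rw [hinv, ← pow_mul, ← pow_mul, ← hw, ← pow_succ] at this
      exact this
  have hu : IsUnit (-(q₀ : ZMod r)) :=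
    IsUnit.of_pow_eq_one (by rw [he]; exact pow_orderOf_eq_one _) hpos.ne'
  have hfin : IsOfFinOrder ν₀ := isOfFinOrder_iff_pow_eq_one.2 ⟨r, hr.pos, hνr⟩
  have hcast : ∀ a b : ℕ, ν₀ ^ a = ν₀ ^ b → (a : ZMod r) = (b : ZMod r) := by
    intro a b hab
    have := hfin.pow_inj_mod.1 hab
    rw [hord] at this
    exact (ZMod.natCast_eq_natCast_iff' a b r).2 this
  have hinj : Function.Injective (fun k : Fin e => ν₀ ^ (w ^ (k : ℕ))) := by
    intro i j hij
    have h1 := hcast _ _ hij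
    rw [Nat.cast_pow, Nat.cast_pow, hwcast] at h1
    apply Fin.ext
    have hi : (i : ℕ) ∈ Set.Iio (orderOf (-(q₀ : ZMod r))) := by
      rw [← he]; exact i.2
    have hj : (j : ℕ) ∈ Set.Iio (orderOf (-(q₀ : ZMod r))) := by
      rw [← he]; exact j.2
    exact pow_injOn_Iio_orderOf hi hj h1
  have hne1 : ∀ k : ℕ, ν₀ ^ (w ^ k) ≠ 1 := by
    intro k hk
    have h1 := hcast (w ^ k) 0 (by rw [hk, pow_zero])
    rw [Nat.cast_pow, hwcast, Nat.cast_zero] at h1
    exact (hu.pow k).ne_zero h1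
  have hex : ∀ k : Fin e, ∃ v : Fin n → L, v ≠ 0 ∧ S.mulVec v = (ν₀ ^ (w ^ (k : ℕ))) • v :=
    fun k => c2_eig_of_det S _ (hall k)
  choose v hv0 hv using hex
  have hli : LinearIndependent L v := by
    apply Module.End.eigenvectors_linearIndependent' (Matrix.toLin' S)
      (fun k : Fin e => ν₀ ^ (w ^ (k : ℕ))) hinj v
    intro k
    refine ⟨?_, hv0 k⟩
    rw [Module.End.mem_eigenspace_iff, Matrix.toLin'_apply]
    exact hv k
  have hspan : Submodule.span L (Set.range v) ≤ LinearMap.range (S - 1).mulVecLin := by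
    rw [Submodule.span_le]
    rintro _ ⟨k, rfl⟩
    refine ⟨(ν₀ ^ (w ^ (k : ℕ)) - 1)⁻¹ • v k, ?_⟩
    have h1 : ν₀ ^ (w ^ (k : ℕ)) • v k - v k = (ν₀ ^ (w ^ (k : ℕ)) - 1) • v k := by
      rw [sub_smul, one_smul]
    rw [Matrix.mulVecLin_apply, Matrix.mulVec_smul, Matrix.sub_mulVec, Matrix.one_mulVec, hv k,
      h1, smul_smul, inv_mul_cancel₀ (sub_ne_zero.2 (hne1 k)), one_smul]
  have hcard := finrank_span_eq_card hli
  rw [Fintype.card_fin] at hcard
  rw [← hcard]
  exact Submodule.finrank_mono hspan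

variable {F : Type*} [Field F] [Fintype F]

theorem order_le_of_unitary_sim (q₀ n r : ℕ) (hF : Fintype.card F = q₀ ^ 2)
    (hr : r.Prime) (hr2 : r ≠ 2) (hrF : (r : F) ≠ 0)
    (hc : 2 ≤ orderOf (Fintype.card F : ZMod r))
    (x P s : Matrix (Fin n) (Fin n) F) (hP : IsUnit P.det) (c : F) (hc0 : c ≠ 0)
    (hxr : x ^ r = 1) (hx1 : x ≠ 1) (h : x * P = P * s)
    (hs : s.transpose * s.map (fun a => a ^ q₀) = c • (1 : Matrix (Fin n) (Fin n) F)) :
    orderOf (-(q₀ : ZMod r)) ≤ (x - 1).rank := by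
  classical
  haveI : Fact r.Prime := ⟨hr⟩
  have hn : n ≠ 0 := by
    rintro rfl
    exact hx1 (Subsingleton.elim _ _)
  obtain ⟨i₀⟩ : Nonempty (Fin n) := ⟨⟨0, Nat.pos_of_ne_zero hn⟩⟩
  obtain ⟨fr, hfr⟩ := Cfsg.Agent.H7.exists_frobQ hF
  have hq2 : 2 ≤ q₀ := Cfsg.Agent.H7.two_le_of_card_sq hF
  have hpow : ∀ k : ℕ, x ^ k * P = P * s ^ k := by
    intro k
    induction k with
    | zero => simp
    | succ k ih =>
      rw [pow_succ, Matrix.mul_assoc, h, ← Matrix.mul_assoc, ih, Matrix.mul_assoc, ← pow_succ]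
  have hPinv : P⁻¹ * P = 1 := Matrix.nonsing_inv_mul P hP
  have hsr : s ^ r = 1 := by
    have h1 := hpow r
    rw [hxr, Matrix.one_mul] at h1
    have h2 : P⁻¹ * P = P⁻¹ * (P * s ^ r) := congrArg (fun M => P⁻¹ * M) h1
    rw [hPinv, ← Matrix.mul_assoc, hPinv, Matrix.one_mul] at h2
    exact h2.symm
  have hs1 : s ≠ 1 := by
    rintro rfl
    rw [Matrix.mul_one] at h
    apply hx1
    have h2 : x * P * P⁻¹ = P * P⁻¹ := congrArg (fun M => M * P⁻¹) h
    rw [Matrix.mul_assoc, Matrix.mul_nonsing_inv P hP, Matrix.mul_one] at h2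
    exact h2
  have hrank : (x - 1).rank = (s - 1).rank := by
    have h1 : (x - 1) * P = P * (s - 1) := by
      rw [Matrix.sub_mul, Matrix.mul_sub, h, Matrix.one_mul, Matrix.mul_one]
    rw [← Matrix.rank_mul_eq_left_of_isUnit_det P (x - 1) hP, h1,
      Matrix.rank_mul_eq_right_of_isUnit_det P (s - 1) hP]
  obtain ⟨B, hB⟩ : ∃ B, B = s.map (fun a => a ^ q₀) := ⟨_, rfl⟩
  have hBfr : B = fr.mapMatrix s := by
    rw [hB]; ext i j; simp [hfr]
  have hBr : B ^ r = 1 := by rw [hBfr, ← map_pow, hsr, map_one]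
  rw [← hB] at hs
  have hck : ∀ k : ℕ, (s ^ k).transpose * B ^ k = c ^ k • (1 : Matrix (Fin n) (Fin n) F) := by
    intro k
    induction k with
    | zero => simp
    | succ k ih =>
      rw [pow_succ' s, Matrix.transpose_mul, pow_succ' B, Matrix.mul_assoc,
        ← Matrix.mul_assoc s.transpose, hs, Matrix.smul_mul, Matrix.one_mul, Matrix.mul_smul, ih,
        smul_smul, ← pow_succ']
  have hcr : c ^ r = 1 := by
    have h1 := hck r
    rw [hsr, hBr, Matrix.transpose_one, Matrix.one_mul] at h1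
    have h2 := congrFun (congrFun h1 i₀) i₀
    simp at h2
    exact h2.symm
  have hcq : c ^ q₀ = c := by
    have h1 : (s.transpose * B).map fr = (c ^ q₀) • (1 : Matrix (Fin n) (Fin n) F) := by
      rw [hs]; ext i j
      by_cases hij : i = j
      · simp only [Matrix.map_apply, Matrix.smul_apply, Matrix.one_apply, smul_eq_mul, if_pos hij,
          mul_one]
        rw [hfr]
      · simp only [Matrix.map_apply, Matrix.smul_apply, Matrix.one_apply, smul_eq_mul, if_neg hij,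
          mul_zero, map_zero]
    have h2 : (s.transpose * B).map fr = B.transpose * s := by
      rw [Matrix.map_mul]
      congr 1
      · rw [hB]; ext i j; simp [hfr]
      · rw [hB]; ext i j; simp [hfr, Cfsg.Agent.H7.pow_q_pow_q hF]
    have h3 : B.transpose * s = (c ^ q₀) • (1 : Matrix (Fin n) (Fin n) F) := h2.symm.trans h1
    have h4 := congrArg Matrix.transpose h3
    rw [Matrix.transpose_mul, Matrix.transpose_transpose, Matrix.transpose_smul,
      Matrix.transpose_one, hs] at h4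
    have h5 := congrFun (congrFun h4 i₀) i₀
    simp at h5
    exact h5.symm
  have hc1 : c = 1 := by
    by_contra hne
    have ho : orderOf c = r := orderOf_eq_prime hcr hne
    have h1 : c ^ (q₀ - 1) = 1 := by
      have : c ^ (q₀ - 1) * c = c := by rw [← pow_succ, Nat.sub_add_cancel (by omega), hcq]
      exact mul_right_cancel₀ hc0 (by rw [this, one_mul])
    have h2 : r ∣ q₀ - 1 := by rw [← ho]; exact orderOf_dvd_of_pow_eq_one h1
    have h3 : ((q₀ : ℕ) : ZMod r) = 1 := by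
      have : ((q₀ - 1 : ℕ) : ZMod r) = 0 := (ZMod.natCast_eq_zero_iff _ _).2 h2
      rw [Nat.cast_sub (by omega), Nat.cast_one, sub_eq_zero] at this
      exact this
    have h4 : ((Fintype.card F : ℕ) : ZMod r) = 1 := by rw [hF, Nat.cast_pow, h3, one_pow]
    rw [h4, orderOf_one] at hc
    omega
  rw [hc1, one_smul] at hs
  obtain ⟨p, k, hp, hchar, hqk⟩ := Cfsg.Agent.H7.exists_char_pow hF
  have hι : Function.Injective (algebraMap F (AlgebraicClosure F)) :=
    (algebraMap F (AlgebraicClosure F)).injective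
  haveI : CharP (AlgebraicClosure F) p := charP_of_injective_algebraMap hι p
  haveI : Fact p.Prime := ⟨hp⟩
  haveI : ExpChar (AlgebraicClosure F) p := ExpChar.prime hp
  have hφ : ∀ a : AlgebraicClosure F, iterateFrobenius (AlgebraicClosure F) p k a = a ^ q₀ :=
    fun a => by rw [hqk]; exact iterateFrobenius_def p k a
  have hrL : (r : AlgebraicClosure F) ≠ 0 := by
    intro h0
    apply hrF
    apply hι
    rw [map_natCast, map_zero]; exact h0
  have hmapS : (s.map (algebraMap F (AlgebraicClosure F))) ^ r = 1 := by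
    have : s.map (algebraMap F (AlgebraicClosure F))
        = (algebraMap F (AlgebraicClosure F)).mapMatrix s := rfl
    rw [this, ← map_pow, hsr, map_one]
  have hmapS1 : s.map (algebraMap F (AlgebraicClosure F)) ≠ 1 := by
    intro h1
    apply hs1
    have h2 : s.map (algebraMap F (AlgebraicClosure F))
        = (1 : Matrix (Fin n) (Fin n) F).map (algebraMap F (AlgebraicClosure F)) := by
      rw [h1, Matrix.map_one _ (map_zero _) (map_one _)]
    exact Matrix.map_injective hι h2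
  have hmapU : (s.map (algebraMap F (AlgebraicClosure F))).transpose
      * (s.map (algebraMap F (AlgebraicClosure F))).map (fun a => a ^ q₀) = 1 := by
    have h1 : (s.map (algebraMap F (AlgebraicClosure F))).map (fun a => a ^ q₀)
        = B.map (algebraMap F (AlgebraicClosure F)) := by
      rw [hB]; ext i j; simp
    rw [h1, ← Matrix.transpose_map, ← Matrix.map_mul, hs, Matrix.map_one _ (map_zero _) (map_one _)]
  have hcore := c2_core n r q₀ hr hrL (iterateFrobenius (AlgebraicClosure F) p k) hφ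
    (s.map (algebraMap F (AlgebraicClosure F))) hmapS hmapS1 hmapU
  have hrk : (s.map (algebraMap F (AlgebraicClosure F)) - 1).rank = (s - 1).rank := by
    have : s.map (algebraMap F (AlgebraicClosure F)) - 1
        = (s - 1).map (algebraMap F (AlgebraicClosure F)) := by
      ext i j
      simp only [Matrix.map_apply, Matrix.sub_apply, Matrix.one_apply, map_sub]
      split_ifs <;> simp
    rw [this]; exact Cfsg.Agent.H77.Sub.rank_map_field _ (s - 1)
  rw [hrank, ← hrk]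
  exact hcore

example (q₀ n r : ℕ) (hF : Fintype.card F = q₀ ^ 2)
    (hr : r.Prime) (hr2 : r ≠ 2) (hrF : (r : F) ≠ 0)
    (hc : 2 ≤ orderOf (Fintype.card F : ZMod r))
    (x P s : Matrix (Fin n) (Fin n) F) (hP : IsUnit P.det) (c : F) (hc0 : c ≠ 0)
    (hxr : x ^ r = 1) (hx1 : x ≠ 1) (h : x * P = P * s)
    (hs : s.transpose * s.map (fun a => a ^ q₀) = c • (1 : Matrix (Fin n) (Fin n) F)) :
    orderOf (-(q₀ : ZMod r)) ≤ (x - 1).rank :=
  order_le_of_unitary_sim q₀ n r hF hr hr2 hrF hc x P s hP c hc0 hxr hx1 h hs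

end Cfsg.Agent.H3.Uni
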