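import Mathlib

/-! helper3: small tools for the S5955 pieces (invariant subspaces and polynomials in `T`). -/

set_option autoImplicit false

namespace Cfsg.Agent.H3.Ti

open Polynomial

variable {F : Type*} [Field F] {V : Type*} [AddCommGroup V] [Module F V]

/-- An invariant subspace is invariant under every polynomial in `T`. -/
theorem ti_aeval_mem (T : Module.End F V) (W : Submodule F V) (hW : W ∈ T.invtSubmodule)
    (f : F[X]) : ∀ v ∈ W, aeval T f v ∈ W := by
  have hT : ∀ v ∈ W, T v ∈ W := fun v hv => (Module.End.mem_invtSubmodule T).1 hW hv
  induction f using Polynomial.induction_on with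
  | C a =>
    intro v hv
    rw [aeval_C, Module.algebraMap_end_apply]
    exact W.smul_mem a hv
  | add p q hp hq =>
    intro v hv
    rw [map_add, LinearMap.add_apply]
    exact W.add_mem (hp v hv) (hq v hv)
  | monomial n a ih =>
    intro v hv
    rw [pow_succ, ← mul_assoc, map_mul, aeval_X, Module.End.mul_apply]
    exact ih (T v) (hT v hv)

/-- Polynomials in the restriction of `T` to an invariant subspace. -/
theorem ti_aeval_restrict (T : Module.End F V) (M : Submodule F V) (hM : ∀ v ∈ M, T v ∈ M)
    (f : F[X]) : ∀ x : M, ((aeval (T.restrict hM) f x : M) : V) = aeval T f (x : V) := by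
  induction f using Polynomial.induction_on with
  | C a =>
    intro x
    rw [aeval_C, aeval_C, Module.algebraMap_end_apply, Module.algebraMap_end_apply]
    rfl
  | add p q hp hq =>
    intro x
    rw [map_add, map_add, LinearMap.add_apply, LinearMap.add_apply, Submodule.coe_add, hp, hq]
  | monomial n a ih =>
    intro x
    rw [pow_succ, ← mul_assoc, map_mul (aeval (T.restrict hM)) (C a * X ^ n) X,
      map_mul (aeval T) (C a * X ^ n) X, aeval_X, aeval_X, Module.End.mul_apply,
      Module.End.mul_apply, ih]
    rfl

end Cfsg.Agent.H3.Ti
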