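import Mathlib

/-!
# S2140-ABS (helper3, for helper17): the Burnside step

`Q` (abelian) acts on `G ⧸ H` through `τ`; all non-identity elements of `τ Q` are conjugate in `G`;
`|G : H| < 2 |Q|`; `A ≤ Q` of prime index. Then at most one `Q`-orbit on `G ⧸ H` has its stabiliser
inside `A`.
-/

set_option autoImplicit false
set_option linter.unusedSimpArgs false
set_option linter.unusedVariables false
set_option linter.unusedSectionVars false
set_option linter.style.haveILetI false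

namespace Cfsg.Agent.H3.Pm

open Finset

theorem abs_smul_mk_eq {G : Type*} [Group G] (H : Subgroup G) (t k k' : G) :
    (t • (k : G ⧸ H) = (k' : G ⧸ H)) ↔ k'⁻¹ * t * k ∈ H := by
  rw [show t • (k : G ⧸ H) = ((t * k : G) : G ⧸ H) from rfl, QuotientGroup.eq, ← H.inv_mem_iff]
  simp [mul_assoc]

/-- Conjugate elements have the same number of fixed points. -/
theorem abs_fix_conj {G : Type*} [Group G] {Ω : Type*} [MulAction G Ω] [Fintype Ω] [DecidableEq Ω]
    (s t k : G) (h : k * s * k⁻¹ = t) :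
    (∑ ω : Ω, if s • ω = ω then 1 else 0) = ∑ ω : Ω, if t • ω = ω then (1 : ℕ) else 0 := by
  rw [← Equiv.sum_comp (MulAction.toPerm k) (fun ω => if t • ω = ω then (1 : ℕ) else 0)]
  refine Finset.sum_congr rfl (fun ω _ => ?_)
  have hiff : (t • (k • ω) = k • ω) ↔ (s • ω = ω) := by
    rw [← h]
    constructor
    · intro h1
      have h2 : k⁻¹ • ((k * s * k⁻¹) • (k • ω)) = k⁻¹ • (k • ω) := by rw [h1]
      simpa [mul_smul] using h2
    · intro h1
      simp [mul_smul, h1]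
  simp only [MulAction.toPerm_apply, hiff]

/-- A stabiliser not contained in the prime index subgroup `A` meets `A` in a subgroup of index
`|Q : A|`. -/
theorem abs_stab_dich {G : Type*} [Group G] {Ω : Type*} [MulAction G Ω] [DecidableEq Ω]
    {M : Type*} [CommGroup M] [Fintype M] (τ : M →* G) (A : Subgroup M)
    [DecidablePred fun x : M => x ∈ A] (hA : A.index.Prime)
    (ω : Ω) (hbad : ¬ ∀ x : M, τ x • ω = ω → x ∈ A) :
    (∑ x : M, if τ x • ω = ω then 1 else 0)
      = A.index * ∑ x : M, if x ∈ A ∧ τ x • ω = ω then (1 : ℕ) else 0 := by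
  classical
  obtain ⟨S, hS⟩ : ∃ S : Subgroup M, S = (MulAction.stabilizer G ω).comap τ := ⟨_, rfl⟩
  have hmem : ∀ x, x ∈ S ↔ τ x • ω = ω := fun x => by
    rw [hS, Subgroup.mem_comap, MulAction.mem_stabilizer_iff]
  have h1 : (∑ x : M, if τ x • ω = ω then 1 else 0) = Nat.card S := by
    rw [← Finset.card_filter]
    exact (Nat.subtype_card _ (fun x => by simp [hmem])).symm
  have h2 : (∑ x : M, if x ∈ A ∧ τ x • ω = ω then (1 : ℕ) else 0)
      = Nat.card (A ⊓ S : Subgroup M) := by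
    rw [← Finset.card_filter]
    exact (Nat.subtype_card _ (fun x => by simp [hmem, Subgroup.mem_inf])).symm
  have h3 : Nat.card (A.subgroupOf S) = Nat.card (A ⊓ S : Subgroup M) := by
    rw [← Subgroup.inf_subgroupOf_right]
    exact Nat.card_congr (Subgroup.subgroupOfEquivOfLe inf_le_right).toEquiv
  have htop : S ⊔ A = ⊤ := by
    have h4 : A.relIndex (S ⊔ A) * (S ⊔ A).index = A.index :=
      Subgroup.relIndex_mul_index le_sup_right
    rw [← h4] at hA
    rcases Nat.prime_mul_iff.mp hA with ⟨-, h5⟩ | ⟨-, h5⟩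
    · exact Subgroup.index_eq_one.mp h5
    · exfalso
      apply hbad
      intro x hx
      exact (Subgroup.relIndex_eq_one.mp h5) (Subgroup.mem_sup_left ((hmem x).mpr hx))
  have h6 : A.relIndex S = A.index := by
    rw [← Subgroup.relIndex_sup_right (H := S) (K := A), htop, Subgroup.relIndex_top_right]
  have h7 : Nat.card (A.subgroupOf S) * (A.subgroupOf S).index = Nat.card S :=
    Subgroup.card_mul_index _
  rw [h1, h2, ← h3, ← h6, ← h7, mul_comm]
  rfl

theorem abs_mul {G : Type*} [Group G] [Finite G] (H : Subgroup G) {M : Type*} [CommGroup M]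
    [Finite M] (τ : M →* G)
    (hconj : ∀ x y : M, x ≠ 1 → y ≠ 1 → ∃ g : G, g * τ x * g⁻¹ = τ y)
    (hd : H.index < 2 * Nat.card M) (A : Subgroup M) (hA : A.index.Prime) (g g' : G)
    (hg : ∀ x : M, g⁻¹ * τ x * g ∈ H → x ∈ A)
    (hg' : ∀ x : M, g'⁻¹ * τ x * g' ∈ H → x ∈ A) :
    ∃ x : M, g'⁻¹ * τ x * g ∈ H := by
  classical
  haveI : Fintype M := Fintype.ofFinite M
  haveI : Fintype (G ⧸ H) := Fintype.ofFinite _
  by_contra hcon
  push Not at hcon
  have hdcard : H.index = Fintype.card (G ⧸ H) := by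
    rw [Subgroup.index, Nat.card_eq_fintype_card]
  have hqcard : Nat.card M = Fintype.card M := Nat.card_eq_fintype_card
  -- the trivial case
  by_cases htriv : ∀ x : M, x = 1
  · have h1 : Fintype.card M = 1 := by
      rw [Fintype.card_eq_one_iff]
      exact ⟨1, htriv⟩
    have h2 : H.index = 1 := by
      have h3 : H.index ≠ 0 := Subgroup.index_ne_zero_of_finite
      rw [hqcard, h1] at hd
      omega
    have h4 : H = ⊤ := Subgroup.index_eq_one.mp h2
    exact hcon 1 (by rw [h4]; exact Subgroup.mem_top _)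
  push Not at htriv
  obtain ⟨x0, hx0⟩ := htriv
  -- notation
  obtain ⟨fix, hfix⟩ : ∃ fix : M → ℕ,
      fix = fun x => ∑ ω : G ⧸ H, if τ x • ω = ω then 1 else 0 := ⟨_, rfl⟩
  obtain ⟨st, hst⟩ : ∃ st : G ⧸ H → ℕ,
      st = fun ω => ∑ x : M, if τ x • ω = ω then 1 else 0 := ⟨_, rfl⟩
  obtain ⟨stA, hstA⟩ : ∃ stA : G ⧸ H → ℕ,
      stA = fun ω => ∑ x : M, if x ∈ A ∧ τ x • ω = ω then 1 else 0 := ⟨_, rfl⟩
  obtain ⟨f, hf⟩ : ∃ f : ℕ, f = fix x0 := ⟨_, rfl⟩
  obtain ⟨d, hd'⟩ : ∃ d : ℕ, d = Fintype.card (G ⧸ H) := ⟨_, rfl⟩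
  obtain ⟨q, hq⟩ : ∃ q : ℕ, q = Fintype.card M := ⟨_, rfl⟩
  obtain ⟨a, ha⟩ : ∃ a : ℕ, a = Nat.card A := ⟨_, rfl⟩
  obtain ⟨p, hp⟩ : ∃ p : ℕ, p = A.index := ⟨_, rfl⟩
  have hap : a * p = q := by
    rw [ha, hp, hq, ← hqcard]
    exact Subgroup.card_mul_index A
  have hp2 : 2 ≤ p := by rw [hp]; exact hA.two_le
  have hfix1 : fix 1 = d := by
    rw [hfix, hd']
    simp
  have hfixne : ∀ x : M, x ≠ 1 → fix x = f := by
    intro x hx
    obtain ⟨k, hk⟩ := hconj x x0 hx hx0
    rw [hf, hfix]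
    exact abs_fix_conj (τ x) (τ x0) k hk
  -- sum of fixed point numbers over `M`
  have hsum1 : (∑ x : M, fix x) + f = d + q * f := by
    rw [← Finset.add_sum_erase Finset.univ fix (Finset.mem_univ (1 : M)), hfix1]
    have h1 : ∑ x ∈ Finset.univ.erase (1 : M), fix x = ∑ x ∈ Finset.univ.erase (1 : M), f :=
      Finset.sum_congr rfl (fun x hx => hfixne x (Finset.ne_of_mem_erase hx))
    rw [h1, Finset.sum_const, Finset.card_erase_of_mem (Finset.mem_univ _), Finset.card_univ,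
      ← hq, smul_eq_mul]
    have hq1 : 1 ≤ q := by rw [hq]; exact Fintype.card_pos
    obtain ⟨q', rfl⟩ : ∃ q', q = q' + 1 := ⟨q - 1, by omega⟩
    simp only [Nat.add_sub_cancel]
    ring
  -- sum of fixed point numbers over `A`
  have hsum2 : (∑ x : M, if x ∈ A then fix x else 0) + f = d + a * f := by
    rw [← Finset.sum_filter]
    have h1mem : (1 : M) ∈ Finset.univ.filter (fun x : M => x ∈ A) := by
      simp [A.one_mem]
    rw [← Finset.add_sum_erase _ fix h1mem, hfix1]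
    have h1 : ∑ x ∈ (Finset.univ.filter (fun x : M => x ∈ A)).erase (1 : M), fix x
        = ∑ x ∈ (Finset.univ.filter (fun x : M => x ∈ A)).erase (1 : M), f :=
      Finset.sum_congr rfl (fun x hx => hfixne x (Finset.ne_of_mem_erase hx))
    have hcardA : (Finset.univ.filter (fun x : M => x ∈ A)).card = a := by
      rw [ha]
      exact (Nat.subtype_card _ (fun x => by simp)).symm
    rw [h1, Finset.sum_const, Finset.card_erase_of_mem h1mem, hcardA, smul_eq_mul]
    have ha1 : 1 ≤ a := by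
      rw [← hcardA]
      exact Finset.card_pos.mpr ⟨1, h1mem⟩
    obtain ⟨a', rfl⟩ : ∃ a', a = a' + 1 := ⟨a - 1, by omega⟩
    simp only [Nat.add_sub_cancel]
    ring
  -- double counting
  have hdc1 : ∑ ω : G ⧸ H, st ω = ∑ x : M, fix x := by
    rw [hst, hfix]
    exact Finset.sum_comm
  have hdc2 : ∑ ω : G ⧸ H, stA ω = ∑ x : M, if x ∈ A then fix x else 0 := by
    rw [hstA, hfix]
    rw [Finset.sum_comm]
    refine Finset.sum_congr rfl (fun x _ => ?_)
    by_cases hxA : x ∈ A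
    · simp [hxA]
    · simp [hxA]
  -- the good points and the two weights
  obtain ⟨c, hc⟩ : ∃ c : G ⧸ H → ℕ,
      c = fun ω => if (∀ x : M, τ x • ω = ω → x ∈ A) then st ω else 0 := ⟨_, rfl⟩
  obtain ⟨zA, hzA⟩ : ∃ zA : G ⧸ H → ℕ,
      zA = fun ω => if (∀ x : M, τ x • ω = ω → x ∈ A) then 0 else stA ω := ⟨_, rfl⟩
  have hpt1 : ∀ ω, st ω = c ω + p * zA ω := by
    intro ω
    by_cases hgood : ∀ x : M, τ x • ω = ω → x ∈ A
    · have e1 : c ω = st ω := by rw [hc]; exact if_pos hgood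
      have e2 : zA ω = 0 := by rw [hzA]; exact if_pos hgood
      rw [e1, e2]; simp
    · have e1 : c ω = 0 := by rw [hc]; exact if_neg hgood
      have e2 : zA ω = stA ω := by rw [hzA]; exact if_neg hgood
      rw [e1, e2, zero_add, hp]
      have h3 := abs_stab_dich τ A hA ω hgood
      rw [hst, hstA]
      exact h3
  have hpt2 : ∀ ω, stA ω = c ω + zA ω := by
    intro ω
    by_cases hgood : ∀ x : M, τ x • ω = ω → x ∈ A
    · have e1 : c ω = st ω := by rw [hc]; exact if_pos hgood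
      have e2 : zA ω = 0 := by rw [hzA]; exact if_pos hgood
      rw [e1, e2, add_zero, hst, hstA]
      refine Finset.sum_congr rfl (fun x _ => ?_)
      by_cases hx : τ x • ω = ω
      · simp [hx, hgood x hx]
      · simp [hx]
    · have e1 : c ω = 0 := by rw [hc]; exact if_neg hgood
      have e2 : zA ω = stA ω := by rw [hzA]; exact if_neg hgood
      rw [e1, e2, zero_add]
  obtain ⟨X, hX⟩ : ∃ X : ℕ, X = ∑ ω : G ⧸ H, c ω := ⟨_, rfl⟩
  obtain ⟨Z, hZ⟩ : ∃ Z : ℕ, Z = ∑ ω : G ⧸ H, zA ω := ⟨_, rfl⟩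
  have hE1 : X + p * Z + f = d + q * f := by
    rw [← hsum1, ← hdc1, hX, hZ, Finset.mul_sum, ← Finset.sum_add_distrib]
    congr 1
    exact Finset.sum_congr rfl (fun ω _ => (hpt1 ω).symm)
  have hE2 : X + Z + f = d + a * f := by
    rw [← hsum2, ← hdc2, hX, hZ, ← Finset.sum_add_distrib]
    congr 1
    exact Finset.sum_congr rfl (fun ω _ => (hpt2 ω).symm)
  have hXd : X + f = d := by
    obtain ⟨p', rfl⟩ : ∃ p', p = p' + 2 := ⟨p - 2, by omega⟩
    have hZ' : Z = a * f := by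
      have h1 : (p' + 1) * Z = (p' + 1) * (a * f) := by
        have e1 : X + (p' + 2) * Z + f + (d + a * f) = X + Z + f + (d + q * f) := by
          rw [hE1, hE2]; ring
        rw [← hap] at e1
        nlinarith [e1]
      exact Nat.eq_of_mul_eq_mul_left (Nat.succ_pos p') h1
    rw [hZ'] at hE2
    omega
  -- the two orbits
  have hgood1 : ∀ x : M, τ x • ((g : G) : G ⧸ H) = (g : G ⧸ H) → x ∈ A := fun x hx =>
    hg x ((abs_smul_mk_eq H (τ x) g g).mp hx)
  have hgood2 : ∀ x : M, τ x • ((g' : G) : G ⧸ H) = (g' : G ⧸ H) → x ∈ A := fun x hx =>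
    hg' x ((abs_smul_mk_eq H (τ x) g' g').mp hx)
  have horb : ∀ ω1 : G ⧸ H, (∀ x : M, τ x • ω1 = ω1 → x ∈ A) →
      ∑ ω ∈ Finset.univ.image (fun x : M => τ x • ω1), c ω = q := by
    intro ω1 hgood
    rw [hq, ← Finset.card_univ, Finset.card_eq_sum_card_image (fun x : M => τ x • ω1) Finset.univ]
    refine Finset.sum_congr rfl (fun ω hω => ?_)
    obtain ⟨x1, -, rfl⟩ := Finset.mem_image.mp hω
    have hgood' : ∀ y : M, τ y • (τ x1 • ω1) = τ x1 • ω1 → y ∈ A := by
      intro y hy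
      apply hgood y
      have h1 : τ y • (τ x1 • ω1) = τ x1 • (τ y • ω1) := by
        rw [← mul_smul, ← mul_smul, ← map_mul, ← map_mul, mul_comm]
      rw [h1] at hy
      exact smul_left_cancel _ hy
    have e1 : c (τ x1 • ω1) = st (τ x1 • ω1) := by rw [hc]; exact if_pos hgood'
    rw [e1, hst]
    show (∑ x : M, if τ x • (τ x1 • ω1) = τ x1 • ω1 then 1 else 0) = _
    rw [← Finset.card_filter]
    symm
    refine Finset.card_equiv (Equiv.mulRight x1⁻¹) (fun x => ?_)
    simp only [Finset.mem_filter, Finset.mem_univ, true_and, Equiv.coe_mulRight]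
    rw [← mul_smul, ← map_mul, inv_mul_cancel_right]
  have hdisj : Disjoint (Finset.univ.image (fun x : M => τ x • ((g : G) : G ⧸ H)))
      (Finset.univ.image (fun x : M => τ x • ((g' : G) : G ⧸ H))) := by
    rw [Finset.disjoint_left]
    intro ω h1 h2
    obtain ⟨x, -, rfl⟩ := Finset.mem_image.mp h1
    obtain ⟨y, -, hy⟩ := Finset.mem_image.mp h2
    have h3 : τ (y⁻¹ * x) • ((g : G) : G ⧸ H) = (g' : G ⧸ H) := by
      rw [map_mul, mul_smul, ← hy, ← mul_smul, ← map_mul, inv_mul_cancel, map_one, one_smul]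
    exact hcon (y⁻¹ * x) ((abs_smul_mk_eq H _ g g').mp h3)
  have hlow : 2 * q ≤ X := by
    have h1 : ∑ ω ∈ Finset.univ.image (fun x : M => τ x • ((g : G) : G ⧸ H))
        ∪ Finset.univ.image (fun x : M => τ x • ((g' : G) : G ⧸ H)), c ω ≤ ∑ ω : G ⧸ H, c ω :=
      Finset.sum_le_sum_of_subset (Finset.subset_univ _)
    rw [Finset.sum_union hdisj, horb _ hgood1, horb _ hgood2, ← hX] at h1
    omega
  rw [hdcard, ← hd', hqcard, ← hq] at hd
  omega

theorem abs_orbit {G : Type*} [Group G] [Finite G] (H : Subgroup G) {Q : Type*} [AddCommGroup Q] [Finite Q] (τ : Multiplicative Q →* G) (hconj : ∀ x y : Q, x ≠ 0 → y ≠ 0 → ∃ g : G, g * τ (Multiplicative.ofAdd x) * g⁻¹ = τ (Multiplicative.ofAdd y)) (hd : H.index < 2 * Nat.card Q) (A : AddSubgroup Q) (hA : A.index.Prime) (g g' : G) (hg : ∀ x : Q, g⁻¹ * τ (Multiplicative.ofAdd x) * g ∈ H → x ∈ A) (hg' : ∀ x : Q, g'⁻¹ * τ (Multiplicative.ofAdd x) * g' ∈ H → x ∈ A) : ∃ x : Q, g'⁻¹ * τ (Multiplicative.ofAdd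 x) * g ∈ H := by
  have hcard : Nat.card (Multiplicative Q) = Nat.card Q := Nat.card_congr Multiplicative.toAdd
  have hidx : (AddSubgroup.toSubgroup A).index.Prime := by
    rw [AddSubgroup.index_toSubgroup]; exact hA
  obtain ⟨x, hx⟩ := abs_mul H τ
    (fun x y hx hy => hconj (Multiplicative.toAdd x) (Multiplicative.toAdd y)
      (fun h => hx (by rw [← ofAdd_toAdd x, h]; rfl))
      (fun h => hy (by rw [← ofAdd_toAdd y, h]; rfl)))
    (by rw [hcard]; exact hd) (AddSubgroup.toSubgroup A) hidx g g'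
    (fun x hx => hg (Multiplicative.toAdd x) hx) (fun x hx => hg' (Multiplicative.toAdd x) hx)
  exact ⟨Multiplicative.toAdd x, hx⟩

example {G : Type*} [Group G] [Finite G] (H : Subgroup G) {Q : Type*} [AddCommGroup Q] [Finite Q] (τ : Multiplicative Q →* G) (hconj : ∀ x y : Q, x ≠ 0 → y ≠ 0 → ∃ g : G, g * τ (Multiplicative.ofAdd x) * g⁻¹ = τ (Multiplicative.ofAdd y)) (hd : H.index < 2 * Nat.card Q) (A : AddSubgroup Q) (hA : A.index.Prime) (g g' : G) (hg : ∀ x : Q, g⁻¹ * τ (Multiplicative.ofAdd x) * g ∈ H → x ∈ A) (hg' : ∀ x : Q, g'⁻¹ * τ (Multiplicative.ofAdd x) * g' ∈ H → x ∈ A) : ∃ x : Q, g'⁻¹ * τ (Multiplicative.ofAdd x) * g ∈ H :=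
  abs_orbit H τ hconj hd A hA g g' hg hg'

end Cfsg.Agent.H3.Pm
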