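import Mathlib
import Cfsg.Agent.H17.PmDefs

/-!
# S2140-B2KILL (helper3, for helper17)

If for every centre `c ≠ 0` the subgroup `H` contains all transvections `τ(c, φ)` with `φ`
vanishing on some plane `E_c ∋ c`, but never the whole group `Q_c` of transvections with centre
`c`, we get a contradiction (`n ≥ 3`): the planes `E_c` form a spread and a commutator computation
produces a full `Q_c' ≤ H`.
-/

set_option autoImplicit false
set_option linter.unusedSimpArgs false
set_option linter.unusedVariables false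
set_option linter.unusedSectionVars false
set_option linter.style.haveILetI false

namespace Cfsg.Agent.H3.Pm

open Cfsg Cfsg.Geo Cfsg.Agent.H17.Mn Cfsg.Agent.H17.Pm
open scoped MatrixGroups Matrix

variable {ι : Type} [Fintype ι] [DecidableEq ι] {F : Type*} [Field F]

theorem b2_tv_congr {x x' : ι → F} {χ χ' : (ι → F) →ₗ[F] F} (hx : x = x') (hχ : χ = χ')
    (h : χ x = 0) (h' : χ' x' = 0) : H95.tvGL x χ h = H95.tvGL x' χ' h' := by
  subst hx; subst hχ; rfl

/-- Exchange in a plane. -/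
theorem b2_span_pair {u w x : ι → F} (hx : x ∈ Submodule.span F {u, w})
    (hxu : x ∉ Submodule.span F {u}) : Submodule.span F {u, w} = Submodule.span F {u, x} := by
  obtain ⟨α, β, hαβ⟩ := Submodule.mem_span_pair.mp hx
  have hβ : β ≠ 0 := by
    intro h0
    apply hxu
    rw [Submodule.mem_span_singleton]
    exact ⟨α, by rw [← hαβ, h0, zero_smul, add_zero]⟩
  apply le_antisymm
  · rw [Submodule.span_le]
    intro y hy
    rcases hy with rfl | hy
    · exact Submodule.subset_span (by simp)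
    · rw [Set.mem_singleton_iff] at hy
      subst hy
      have hw : y = β⁻¹ • (x - α • u) := by
        rw [← hαβ, add_sub_cancel_left, smul_smul, inv_mul_cancel₀ hβ, one_smul]
      rw [hw]
      refine Submodule.smul_mem _ _ (Submodule.sub_mem _ ?_ ?_)
      · exact Submodule.subset_span (by simp)
      · exact Submodule.smul_mem _ _ (Submodule.subset_span (by simp))
  · rw [Submodule.span_le]
    intro y hy
    rcases hy with rfl | hy
    · exact Submodule.subset_span (by simp)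
    · rw [Set.mem_singleton_iff] at hy
      subst hy
      exact hx

/-- A linear form vanishing on `W` with value `1` at `c ∉ W`. -/
theorem b2_exists_form (W : Submodule F (ι → F)) (c : ι → F) (hc : c ∉ W) :
    ∃ φ : (ι → F) →ₗ[F] F, (∀ e ∈ W, φ e = 0) ∧ φ c = 1 := by
  obtain ⟨f, hf1, hf2⟩ := Submodule.exists_dual_map_eq_bot_of_notMem hc inferInstance
  refine ⟨(f c)⁻¹ • f, ?_, ?_⟩
  · intro e he
    have h1 : f e ∈ W.map f := Submodule.mem_map_of_mem he
    rw [hf2, Submodule.mem_bot] at h1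
    rw [LinearMap.smul_apply, h1, smul_zero]
  · rw [LinearMap.smul_apply, smul_eq_mul, inv_mul_cancel₀ hf1]

/-- FACT 0. -/
theorem b2_fact0 (H : Subgroup (GL ι F)) (c : ι → F) (E E' : Submodule F (ι → F))
    (hE : c ∈ E) (hE' : c ∈ E') (hint : E ⊓ E' ≤ Submodule.span F {c})
    (h1 : ∀ (φ : (ι → F) →ₗ[F] F) (hφ : φ c = 0), (∀ e ∈ E, φ e = 0) → H95.tvGL c φ hφ ∈ H)
    (h1' : ∀ (φ : (ι → F) →ₗ[F] F) (hφ : φ c = 0), (∀ e ∈ E', φ e = 0) → H95.tvGL c φ hφ ∈ H) :
    ∀ (φ : (ι → F) →ₗ[F] F) (hφ : φ c = 0), H95.tvGL c φ hφ ∈ H := by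
  intro φ hφ
  have hmem : φ ∈ (E ⊓ E').dualAnnihilator := by
    rw [Submodule.mem_dualAnnihilator]
    intro w hw
    obtain ⟨a, rfl⟩ := Submodule.mem_span_singleton.mp (hint hw)
    rw [map_smul, hφ, smul_zero]
  rw [Subspace.dualAnnihilator_inf_eq, Submodule.mem_sup] at hmem
  obtain ⟨φ₁, hφ₁, φ₂, hφ₂, hsum⟩ := hmem
  rw [Submodule.mem_dualAnnihilator] at hφ₁ hφ₂
  have e1 : φ₁ c = 0 := hφ₁ c hE
  have e2 : φ₂ c = 0 := hφ₂ c hE'
  have e3 : (φ₁ + φ₂) c = 0 := by rw [hsum]; exact hφ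
  have h3 := tvGL_mul_form c φ₁ φ₂ e1 e2 e3
  have h4 : H95.tvGL c (φ₁ + φ₂) e3 = H95.tvGL c φ hφ := b2_tv_congr rfl hsum _ _
  rw [← h4, ← h3]
  exact H.mul_mem (h1 φ₁ e1 hφ₁) (h1' φ₂ e2 hφ₂)

/-- The commutator step. -/
theorem b2_comm_mem (H : Subgroup (GL ι F)) (c c' : ι → F) (φ ψ : (ι → F) →ₗ[F] F)
    (hφc' : φ c' = 0) (hφc : φ c = 1) (hψc : ψ c = 0) (hψc' : ψ c' = 0)
    (h1 : H95.tvGL c' φ hφc' ∈ H) (h2 : H95.tvGL c ψ hψc ∈ H) : H95.tvGL c' ψ hψc' ∈ H := by
  have h' : ψ (φ c • c') = 0 := by rw [map_smul, hψc', smul_zero]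
  have h3 := comm_tvGL c' c φ ψ hφc' hψc hψc' h'
  have h4 : H95.tvGL (φ c • c') ψ h' = H95.tvGL c' ψ hψc' :=
    b2_tv_congr (by rw [hφc, one_smul]) rfl _ _
  rw [← h4, ← h3]
  exact H.mul_mem (H.mul_mem (H.mul_mem h1 h2) (H.inv_mem h1)) (H.inv_mem h2)

theorem b2_kill (hn : 3 ≤ Fintype.card ι) (H : Subgroup (GL ι F)) (hB : ∀ c : ι → F, c ≠ 0 → ∃ (φ : (ι → F) →ₗ[F] F) (hφ : φ c = 0), H95.tvGL c φ hφ ∉ H) (h2 : ∀ c : ι → F, c ≠ 0 → ∃ w : ι → F, w ∉ Submodule.span F {c} ∧ ∀ (φ : (ι → F) →ₗ[F] F) (hφ : φ c = 0), φ w = 0 → H95.tvGL c φ hφ ∈ H) : False := by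
  classical
  choose! w hw using h2
  -- the planes
  obtain ⟨E, hEdef⟩ : ∃ E : (ι → F) → Submodule F (ι → F),
      E = fun c => Submodule.span F {c, w c} := ⟨_, rfl⟩
  have hEc : ∀ c, c ∈ E c := fun c => by
    rw [hEdef]; exact Submodule.subset_span (by simp)
  have hEw : ∀ c, w c ∈ E c := fun c => by
    rw [hEdef]; exact Submodule.subset_span (by simp)
  -- `R(c, E_c) ⊆ H`
  have hR : ∀ c, c ≠ 0 → ∀ (φ : (ι → F) →ₗ[F] F) (hφ : φ c = 0), (∀ e ∈ E c, φ e = 0) →
      H95.tvGL c φ hφ ∈ H := fun c hc φ hφ hv => (hw c hc).2 φ hφ (hv _ (hEw c))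
  -- exchange
  have hP3 : ∀ c, ∀ x ∈ E c, x ∉ Submodule.span F {c} → E c = Submodule.span F {c, x} := by
    intro c x hx hxc
    rw [hEdef] at hx ⊢
    exact b2_span_pair hx hxc
  -- FACT 1
  have hF1 : ∀ c, c ≠ 0 → ∀ c' ∈ E c, c' ≠ 0 → E c' = E c := by
    intro c hc c' hc' hc'0
    by_cases hcc : c' ∈ Submodule.span F {c}
    · -- `c' = a • c`
      obtain ⟨a, rfl⟩ := Submodule.mem_span_singleton.mp hcc
      have ha : a ≠ 0 := by
        intro h0; apply hc'0; rw [h0, zero_smul]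
      have hspan : Submodule.span F {a • c} = Submodule.span F {c} := by
        apply le_antisymm
        · rw [Submodule.span_le]
          intro y hy
          rw [Set.mem_singleton_iff] at hy
          subst hy
          exact Submodule.smul_mem _ _ (Submodule.subset_span (by simp))
        · rw [Submodule.span_le]
          intro y hy
          rw [Set.mem_singleton_iff] at hy
          subst hy
          have h9 : a⁻¹ • (a • y) ∈ Submodule.span F {a • y} :=
            Submodule.smul_mem _ _ (Submodule.subset_span (by simp))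
          rwa [smul_smul, inv_mul_cancel₀ ha, one_smul] at h9
      have hcE' : c ∈ E (a • c) := by
        have h9 : a⁻¹ • (a • c) ∈ E (a • c) := Submodule.smul_mem _ _ (hEc _)
        rwa [smul_smul, inv_mul_cancel₀ ha, one_smul] at h9
      by_contra hne
      -- `R(c, E_{c'}) ⊆ H`
      have hR' : ∀ (φ : (ι → F) →ₗ[F] F) (hφ : φ c = 0), (∀ e ∈ E (a • c), φ e = 0) →
          H95.tvGL c φ hφ ∈ H := by
        intro φ hφ hv
        have e1 : (a⁻¹ • φ) (a • c) = 0 := by
          rw [LinearMap.smul_apply, map_smul, hφ, smul_zero, smul_zero]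
        have e2 : φ (a⁻¹ • (a • c)) = 0 := by
          rw [smul_smul, inv_mul_cancel₀ ha, one_smul]; exact hφ
        have h3 : H95.tvGL (a⁻¹ • (a • c)) φ e2 = H95.tvGL (a • c) (a⁻¹ • φ) e1 :=
          tvGL_smul a⁻¹ (a • c) φ e2 e1
        have h4 : H95.tvGL (a⁻¹ • (a • c)) φ e2 = H95.tvGL c φ hφ :=
          b2_tv_congr (by rw [smul_smul, inv_mul_cancel₀ ha, one_smul]) rfl _ _
        rw [← h4, h3]
        apply hR (a • c) hc'0
        intro e he
        rw [LinearMap.smul_apply, hv e he, smul_zero]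
      have hint : E c ⊓ E (a • c) ≤ Submodule.span F {c} := by
        intro x hx
        by_contra hxc
        apply hne
        have h5 : E c = Submodule.span F {c, x} := hP3 c x hx.1 hxc
        have h6 : E (a • c) = Submodule.span F {a • c, x} :=
          hP3 (a • c) x hx.2 (by rw [hspan]; exact hxc)
        have h7 : Submodule.span F {a • c, x} = Submodule.span F {c, x} := by
          rw [Submodule.span_insert, Submodule.span_insert, hspan]
        rw [h6, h5, h7]
      obtain ⟨φ, hφ, hnot⟩ := hB c hc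
      exact hnot (b2_fact0 H c (E c) (E (a • c)) (hEc c) hcE' hint (hR c hc) hR' φ hφ)
    · -- `c'` not in the line of `c`
      have hEcc : E c = Submodule.span F {c, c'} := hP3 c c' hc' hcc
      have hcmem : c ∈ E c' := by
        by_contra hcn
        obtain ⟨φ, hφv, hφc⟩ := b2_exists_form (E c') c hcn
        have hφc' : φ c' = 0 := hφv c' (hEc c')
        -- `R(c', E_c) ⊆ H`
        have hR' : ∀ (ψ : (ι → F) →ₗ[F] F) (hψ : ψ c' = 0), (∀ e ∈ E c, ψ e = 0) →
            H95.tvGL c' ψ hψ ∈ H := by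
          intro ψ hψ hv
          have hψc : ψ c = 0 := hv c (hEc c)
          exact b2_comm_mem H c c' φ ψ hφc' hφc hψc hψ (hR c' hc'0 φ hφc' hφv)
            (hR c hc ψ hψc hv)
        have hint : E c ⊓ E c' ≤ Submodule.span F {c'} := by
          intro x hx
          by_contra hxc
          apply hcn
          have h5 : E c' = Submodule.span F {c', x} := hP3 c' x hx.2 hxc
          have h6 : Submodule.span F {c', c} = Submodule.span F {c', x} := by
            apply b2_span_pair _ hxc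
            rw [Set.pair_comm, ← hEcc]
            exact hx.1
          rw [h5, ← h6]
          exact Submodule.subset_span (by simp)
        obtain ⟨φ', hφ', hnot⟩ := hB c' hc'0
        exact hnot (b2_fact0 H c' (E c) (E c') hc' (hEc c') hint hR' (hR c' hc'0) φ' hφ')
      have hcn' : c ∉ Submodule.span F {c'} := by
        intro h
        obtain ⟨b, hb⟩ := Submodule.mem_span_singleton.mp h
        have hb0 : b ≠ 0 := by
          intro h0; apply hc; rw [← hb, h0, zero_smul]
        apply hcc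
        rw [Submodule.mem_span_singleton]
        exact ⟨b⁻¹, by rw [← hb, smul_smul, inv_mul_cancel₀ hb0, one_smul]⟩
      rw [hP3 c' c hcmem hcn', hEcc, Set.pair_comm]
  -- FINISH
  haveI : Nonempty ι := by
    rw [← Fintype.card_pos_iff]; omega
  obtain ⟨c, hc⟩ : ∃ c : ι → F, c ≠ 0 := ⟨fun _ => 1, fun h => by
    have := congrFun h (Classical.arbitrary ι)
    simp at this⟩
  have hlt : E c < ⊤ := by
    rw [lt_top_iff_ne_top]
    intro htop
    have h1 : Module.finrank F (E c) ≤ 2 := by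
      rw [hEdef]
      have h2 := finrank_span_le_card (R := F) ({c, w c} : Set (ι → F))
      have h3 : ({c, w c} : Set (ι → F)).toFinset.card ≤ 2 := by
        rw [Set.toFinset_insert, Set.toFinset_singleton]
        exact Finset.card_insert_le _ _
      exact le_trans h2 h3
    rw [htop, finrank_top, Module.finrank_pi] at h1
    omega
  obtain ⟨c', -, hc'⟩ := SetLike.exists_of_lt hlt
  have hc'0 : c' ≠ 0 := fun h => hc' (by rw [h]; exact Submodule.zero_mem _)
  have hbot : ∀ x, x ∈ E c → x ∈ E c' → x = 0 := by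
    intro x hx hx'
    by_contra hx0
    have h1 := hF1 c hc x hx hx0
    have h2 := hF1 c' hc'0 x hx' hx0
    apply hc'
    rw [← h1, h2]
    exact hEc c'
  have hcn : c ∉ E c' := fun h => hc (hbot c (hEc c) h)
  obtain ⟨φ, hφv, hφc⟩ := b2_exists_form (E c') c hcn
  have hφc' : φ c' = 0 := hφv c' (hEc c')
  have hR' : ∀ (ψ : (ι → F) →ₗ[F] F) (hψ : ψ c' = 0),
      (∀ e ∈ E c ⊔ Submodule.span F {c'}, ψ e = 0) → H95.tvGL c' ψ hψ ∈ H := by
    intro ψ hψ hv
    have hv' : ∀ e ∈ E c, ψ e = 0 := fun e he => hv e (Submodule.mem_sup_left he)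
    have hψc : ψ c = 0 := hv' c (hEc c)
    exact b2_comm_mem H c c' φ ψ hφc' hφc hψc hψ (hR c' hc'0 φ hφc' hφv) (hR c hc ψ hψc hv')
  have hint : (E c ⊔ Submodule.span F {c'}) ⊓ E c' ≤ Submodule.span F {c'} := by
    intro x hx
    obtain ⟨e, he, y, hy, hsum⟩ := Submodule.mem_sup.mp hx.1
    obtain ⟨a, rfl⟩ := Submodule.mem_span_singleton.mp hy
    have he' : e ∈ E c' := by
      have : e = x - a • c' := by rw [← hsum, add_sub_cancel_right]
      rw [this]
      exact Submodule.sub_mem _ hx.2 (Submodule.smul_mem _ _ (hEc c'))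
    have he0 : e = 0 := hbot e he he'
    rw [← hsum, he0, zero_add]
    exact Submodule.smul_mem _ _ (Submodule.subset_span (by simp))
  obtain ⟨φ', hφ', hnot⟩ := hB c' hc'0
  exact hnot (b2_fact0 H c' (E c ⊔ Submodule.span F {c'}) (E c')
    (Submodule.mem_sup_right (Submodule.subset_span (by simp))) (hEc c') hint hR'
    (hR c' hc'0) φ' hφ')

example (hn : 3 ≤ Fintype.card ι) (H : Subgroup (GL ι F)) (hB : ∀ c : ι → F, c ≠ 0 → ∃ (φ : (ι → F) →ₗ[F] F) (hφ : φ c = 0), H95.tvGL c φ hφ ∉ H) (h2 : ∀ c : ι → F, c ≠ 0 → ∃ w : ι → F, w ∉ Submodule.span F {c} ∧ ∀ (φ : (ι → F) →ₗ[F] F) (hφ : φ c = 0), φ w = 0 → H95.tvGL c φ hφ ∈ H) : False :=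
  b2_kill hn H hB h2

end Cfsg.Agent.H3.Pm
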