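import Mathlib
import Cfsg.Agent.H17.PmLift
import Cfsg.Agent.H40.PmLinalg
import Cfsg.Agent.H3.PmB2Kill

/-!
# S2140-COMM (helper3, for helper17)

`n ≥ 4` and a scalar `s` with `s ≠ 0`, `s² ≠ 1`: there are `u ∉ ⟨c, e⟩` and a form `θ₀ ≠ 0` vanishing
on `c, e, u` such that the lift of the transvection `τ(u, θ₀)` vanishes at `e`. The transvection is
the commutator of a diagonal element `D` (a product of four transvections) and `τ(u, (s²-1)⁻¹ θ₀)`.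
-/

set_option autoImplicit false
set_option linter.unusedSimpArgs false
set_option linter.unusedVariables false
set_option linter.unusedSectionVars false
set_option linter.style.haveILetI false

namespace Cfsg.Agent.H3.Pm

open Cfsg Cfsg.Geo Cfsg.Agent.H17.Mn Cfsg.Agent.H17.Pm
open scoped MatrixGroups Matrix

variable {ι : Type} [Fintype ι] [DecidableEq ι] {F : Type*} [Field F]

theorem comm_inv_fix (g : GL ι F) (v : ι → F) (h : (g : Matrix ι ι F) *ᵥ v = v) :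
    ((g⁻¹ : GL ι F) : Matrix ι ι F) *ᵥ v = v := by
  have h1 := inv_mulVec_mulVec g v
  rw [h] at h1
  exact h1

theorem b1_comm (hn : 4 ≤ Fintype.card ι) (H : Subgroup (GL ι F)) (c e : ι → F) (hce : LinearIndependent F ![c, e]) (s : F) (hs0 : s ≠ 0) (hs : s ^ 2 ≠ 1) (hL : ∀ g ∈ specialLinear ι F, ∃ φ, IsLift H c g φ) (hNT : ∀ (x : ι → F) (φ : (ι → F) →ₗ[F] F) (hφ : φ x = 0), H95.tvGL x φ hφ ∈ H → H95.tvGL x φ hφ = 1) : ∃ (u : ι → F) (θ₀ : (ι → F) →ₗ[F] F) (h0u : θ₀ u = 0), u ∉ Submodule.span F {c, e} ∧ θ₀ ≠ 0 ∧ θ₀ c = 0 ∧ θ₀ e = 0 ∧ ∀ κ : (ι → F) →ₗ[F] F, IsLift H c (H95.tvGL u θ₀ h0u) κ → κ e = 0 := by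
  classical
  have hc0 : c ≠ 0 := hce.ne_zero 0
  -- the vectors `u`, `u'`
  obtain ⟨u, hu⟩ := Cfsg.Agent.H40.Pm.exists_not_mem_span_pair (F := F) (by omega) c e
  obtain ⟨u', hu'⟩ := Cfsg.Agent.H40.Pm.exists_not_mem_of_card_lt
    (![c, e, u] : Fin 3 → (ι → F)) (by omega)
  -- the forms
  obtain ⟨θ₀, hθ₀v, hθ₀u'⟩ := b2_exists_form _ u' hu'
  have h0c : θ₀ c = 0 := hθ₀v c (Submodule.subset_span ⟨0, rfl⟩)
  have h0e : θ₀ e = 0 := hθ₀v e (Submodule.subset_span ⟨1, rfl⟩)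
  have h0u : θ₀ u = 0 := hθ₀v u (Submodule.subset_span ⟨2, rfl⟩)
  have hu2 : u ∉ Submodule.span F (Set.range (![c, e, u'] : Fin 3 → (ι → F))) := by
    intro hmem
    obtain ⟨a, ha⟩ := (Submodule.mem_span_range_iff_exists_fun F).mp hmem
    rw [Fin.sum_univ_three] at ha
    simp only [Matrix.cons_val_zero, Matrix.cons_val_one, Matrix.cons_val_two,
      Matrix.head_cons, Matrix.tail_cons] at ha
    by_cases h2 : a 2 = 0
    · apply hu
      rw [Submodule.mem_span_pair]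
      exact ⟨a 0, a 1, by rw [← ha, h2, zero_smul, add_zero]⟩
    · apply hu'
      have e1 : u' = (a 2)⁻¹ • (u - a 0 • c - a 1 • e) := by
        have e0 : u - a 0 • c - a 1 • e = a 2 • u' := by rw [← ha]; abel
        rw [e0, smul_smul, inv_mul_cancel₀ h2, one_smul]
      rw [e1]
      refine Submodule.smul_mem _ _ (Submodule.sub_mem _ (Submodule.sub_mem _ ?_ ?_) ?_)
      · exact Submodule.subset_span ⟨2, rfl⟩
      · exact Submodule.smul_mem _ _ (Submodule.subset_span ⟨0, rfl⟩)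
      · exact Submodule.smul_mem _ _ (Submodule.subset_span ⟨1, rfl⟩)
  obtain ⟨θ₁, hθ₁v, hθ₁u⟩ := b2_exists_form _ u hu2
  have h1c : θ₁ c = 0 := hθ₁v c (Submodule.subset_span ⟨0, rfl⟩)
  have h1e : θ₁ e = 0 := hθ₁v e (Submodule.subset_span ⟨1, rfl⟩)
  have h1u' : θ₁ u' = 0 := hθ₁v u' (Submodule.subset_span ⟨2, rfl⟩)
  refine ⟨u, θ₀, h0u, hu, ?_, h0c, h0e, ?_⟩
  · intro h0
    rw [h0] at hθ₀u'
    simp at hθ₀u'
  intro κ hκ
  -- the elementary transvections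
  have hx : ∀ a : F, (a • θ₀) u = 0 := fun a => by rw [LinearMap.smul_apply, h0u, smul_zero]
  have hy : ∀ b : F, (b • θ₁) u' = 0 := fun b => by rw [LinearMap.smul_apply, h1u', smul_zero]
  have hXv : ∀ (a : F) (v : ι → F),
      ((H95.tvGL u (a • θ₀) (hx a) : GL ι F) : Matrix ι ι F) *ᵥ v = v + (a * θ₀ v) • u := by
    intro a v
    rw [H95.tvGL_mulVec, LinearMap.smul_apply, smul_eq_mul]
  have hYv : ∀ (b : F) (v : ι → F),
      ((H95.tvGL u' (b • θ₁) (hy b) : GL ι F) : Matrix ι ι F) *ᵥ v = v + (b * θ₁ v) • u' := by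
    intro b v
    rw [H95.tvGL_mulVec, LinearMap.smul_apply, smul_eq_mul]
  -- the diagonal element
  obtain ⟨D, hD⟩ : ∃ D : GL ι F, D = H95.tvGL u ((s - 1) • θ₀) (hx _)
      * H95.tvGL u' ((1 : F) • θ₁) (hy _) * H95.tvGL u ((s⁻¹ - 1) • θ₀) (hx _)
      * H95.tvGL u' ((-s) • θ₁) (hy _) := ⟨_, rfl⟩
  have hDSL : D ∈ specialLinear ι F := by
    rw [hD]
    exact (specialLinear ι F).mul_mem ((specialLinear ι F).mul_mem
      ((specialLinear ι F).mul_mem (H95.tvGL_mem_specialLinear _ _ _)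
        (H95.tvGL_mem_specialLinear _ _ _)) (H95.tvGL_mem_specialLinear _ _ _))
      (H95.tvGL_mem_specialLinear _ _ _)
  have hDv : ∀ v : ι → F, (D : Matrix ι ι F) *ᵥ v
      = v + ((s - 1) * θ₁ v) • u + ((s⁻¹ - 1) * θ₀ v) • u' := by
    intro v
    rw [hD, mulVec_mul, mulVec_mul, mulVec_mul, hYv, hXv, hYv, hXv]
    simp only [map_add, map_smul, smul_eq_mul, h0u, hθ₀u', hθ₁u, h1u', mul_zero, mul_one,
      add_zero, zero_add, one_mul]
    match_scalars <;> field_simp <;> ring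
  have hDu : (D : Matrix ι ι F) *ᵥ u = s • u := by
    rw [hDv, hθ₁u, h0u]
    match_scalars <;> ring
  have hD0 : ∀ v : ι → F, θ₀ ((D : Matrix ι ι F) *ᵥ v) = s⁻¹ * θ₀ v := by
    intro v
    rw [hDv]
    simp only [map_add, map_smul, smul_eq_mul, h0u, hθ₀u', mul_zero, mul_one, add_zero]
    ring
  have hDc : (D : Matrix ι ι F) *ᵥ c = c := by
    rw [hDv, h1c, h0c]; simp
  have hDe : (D : Matrix ι ι F) *ᵥ e = e := by
    rw [hDv, h1e, h0e]; simp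
  -- the transvections `T` and `C`
  have hs1 : s ^ 2 - 1 ≠ 0 := sub_ne_zero.mpr hs
  obtain ⟨t, ht⟩ : ∃ t : F, t = (s ^ 2 - 1)⁻¹ := ⟨_, rfl⟩
  obtain ⟨T, hT⟩ : ∃ T : GL ι F, T = H95.tvGL u (t • θ₀) (hx t) := ⟨_, rfl⟩
  have hTSL : T ∈ specialLinear ι F := by rw [hT]; exact H95.tvGL_mem_specialLinear _ _ _
  have hTv : ∀ v : ι → F, (T : Matrix ι ι F) *ᵥ v = v + (t * θ₀ v) • u := by
    intro v; rw [hT]; exact hXv t v
  have hTc : (T : Matrix ι ι F) *ᵥ c = c := by rw [hTv, h0c]; simp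
  have hTe : (T : Matrix ι ι F) *ᵥ e = e := by rw [hTv, h0e]; simp
  have hCv : ∀ v : ι → F, ((H95.tvGL u θ₀ h0u : GL ι F) : Matrix ι ι F) *ᵥ v = v + θ₀ v • u :=
    fun v => H95.tvGL_mulVec u θ₀ h0u v
  have hCc : ((H95.tvGL u θ₀ h0u : GL ι F) : Matrix ι ι F) *ᵥ c = c := by rw [hCv, h0c]; simp
  have hCe : ((H95.tvGL u θ₀ h0u : GL ι F) : Matrix ι ι F) *ᵥ e = e := by rw [hCv, h0e]; simp
  -- the relation
  have hrel : H95.tvGL u θ₀ h0u * (T * D) = D * T := by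
    apply H95.gl_ext
    intro v
    rw [mulVec_mul, mulVec_mul, mulVec_mul, hTv, hCv, hTv, Matrix.mulVec_add, Matrix.mulVec_smul,
      hDu]
    simp only [map_add, map_smul, smul_eq_mul, h0u, mul_zero, add_zero, hD0]
    have hts : t * (s ^ 2 - 1) = 1 := by rw [ht]; exact inv_mul_cancel₀ hs1
    have key : t * (s⁻¹ * θ₀ v) + s⁻¹ * θ₀ v = t * θ₀ v * s := by
      field_simp
      linear_combination (-(θ₀ v)) * hts
    rw [add_assoc, ← add_smul, key, smul_smul]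
  -- the lifts
  obtain ⟨κD, hκD⟩ := hL D hDSL
  obtain ⟨κT, hκT⟩ := hL T hTSL
  have hDT := isLift_mul H c (1 : F) (by rw [hDc, one_smul]) hκD hκT
  have hTD := isLift_mul H c (1 : F) (by rw [hTc, one_smul]) hκT hκD
  have hCTD := isLift_mul H c (1 : F) (by rw [hCc, one_smul]) hκ hTD
  rw [hrel] at hCTD
  have huniq := isLift_unique H c hc0 hNT hCTD hDT
  have heval := congrArg (fun φ : (ι → F) →ₗ[F] F => φ e) huniq
  simp only [LinearMap.add_apply, LinearMap.smul_apply, LinearMap.comp_apply,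
    Matrix.toLin'_apply, comm_inv_fix _ e hDe, comm_inv_fix _ e hTe, comm_inv_fix _ e hCe,
    one_smul] at heval
  linear_combination heval

example (hn : 4 ≤ Fintype.card ι) (H : Subgroup (GL ι F)) (c e : ι → F) (hce : LinearIndependent F ![c, e]) (s : F) (hs0 : s ≠ 0) (hs : s ^ 2 ≠ 1) (hL : ∀ g ∈ specialLinear ι F, ∃ φ, IsLift H c g φ) (hNT : ∀ (x : ι → F) (φ : (ι → F) →ₗ[F] F) (hφ : φ x = 0), H95.tvGL x φ hφ ∈ H → H95.tvGL x φ hφ = 1) : ∃ (u : ι → F) (θ₀ : (ι → F) →ₗ[F] F) (h0u : θ₀ u = 0), u ∉ Submodule.span F {c, e} ∧ θ₀ ≠ 0 ∧ θ₀ c = 0 ∧ θ₀ e = 0 ∧ ∀ κ : (ι → F) →ₗ[F] F, IsLift H c (H95.tvGL u θ₀ h0u) κ → κ e = 0 :=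
  b1_comm hn H c e hce s hs0 hs hL hNT

end Cfsg.Agent.H3.Pm
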