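import Mathlib
import Cfsg.Agent.H42.TiDefs
import Cfsg.Agent.H99.ElKUM
import Cfsg.Agent.H3.TiBase

/-! helper3: piece SPI-COMPDVD of helper42's S5955 project. -/

set_option autoImplicit false
set_option linter.style.haveILetI false

namespace Cfsg.Agent.H3.Ti

open Cfsg.Agent.H42.Ti Module Polynomial

universe u v

/-- A space killed by an irreducible polynomial in `T` has dimension divisible by its degree. -/
theorem ti_dvd_finrank_of_aeval_eq_zero {F : Type*} [Field F] {M : Type*} [AddCommGroup M]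
    [Module F M] (T : Module.End F M) (φ : F[X]) (hφ : Irreducible φ) (hT : aeval T φ = 0) :
    φ.natDegree ∣ Module.finrank F M := by
  haveI : Fact (Irreducible φ) := ⟨hφ⟩
  letI : Module (AdjoinRoot φ) M := Module.compHom M (Cfsg.Agent.H99.Kum.rho T φ hT)
  have hsmul : ∀ (k : AdjoinRoot φ) (v : M), k • v = Cfsg.Agent.H99.Kum.rho T φ hT k v :=
    fun _ _ => rfl
  haveI : IsScalarTower F (AdjoinRoot φ) M := ⟨fun a k v => by
    rw [hsmul, hsmul, Algebra.smul_def, map_mul, AdjoinRoot.algebraMap_eq,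
      Cfsg.Agent.H99.Kum.rho_of]
    rw [Module.End.mul_apply, Module.algebraMap_end_apply]⟩
  have hrank : Module.finrank F (AdjoinRoot φ) = φ.natDegree := by
    rw [(AdjoinRoot.powerBasis hφ.ne_zero).finrank, AdjoinRoot.powerBasis_dim]
  rw [← Module.finrank_mul_finrank F (AdjoinRoot φ) M, hrank]
  exact dvd_mul_right _ _

theorem tiCompDvd : StTiCompDvd.{u,v} := by
  intro F _ V _ _ _ T φ hφ W hW
  have hM : ∀ v ∈ W ⊓ LinearMap.ker (aeval T φ), T v ∈ W ⊓ LinearMap.ker (aeval T φ) := by
    intro v hv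
    refine ⟨(Module.End.mem_invtSubmodule T).1 hW hv.1, ?_⟩
    show aeval T φ (T v) = 0
    have h1 : aeval T φ (T v) = T (aeval T φ v) := by
      have h2 : aeval T φ * T = T * aeval T φ := by
        have h3 : aeval T (φ * X) = aeval T (X * φ) := by rw [mul_comm]
        rwa [map_mul, map_mul, aeval_X] at h3
      have h4 := congrArg (fun g : Module.End F V => g v) h2
      simpa [Module.End.mul_apply] using h4
    rw [h1, LinearMap.mem_ker.1 hv.2, map_zero]
  apply ti_dvd_finrank_of_aeval_eq_zero (T.restrict hM) φ hφ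
  ext x
  rw [ti_aeval_restrict T _ hM φ x]
  exact LinearMap.mem_ker.1 x.2.2

example : StTiCompDvd.{u,v} := tiCompDvd

end Cfsg.Agent.H3.Ti
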