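import Mathlib
import Cfsg.Agent.H42.TiDefs
import Cfsg.Agent.H45.CycFactor

/-! helper3: piece SPI-CYCSET of helper42's S5955 project. -/

set_option autoImplicit false

namespace Cfsg.Agent.H3.Ti

open Cfsg.Agent.H42.Ti Module Polynomial

universe u

theorem cycSet : StCycSet.{u} := by
  intro F _ _ r hr hrF
  classical
  haveI : Fact r.Prime := ⟨hr⟩
  haveI : NeZero (r : F) := ⟨hrF⟩
  obtain ⟨c, hc⟩ : ∃ c : F[X], c = cyclotomic r F := ⟨_, rfl⟩
  have hcm : c.Monic := hc ▸ cyclotomic.monic r F
  have hc0 : c ≠ 0 := hcm.ne_zero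
  have hsq : Squarefree c := hc ▸ (separable_cyclotomic r F).squarefree
  have hnodup : (UniqueFactorizationMonoid.normalizedFactors c).Nodup :=
    (UniqueFactorizationMonoid.squarefree_iff_nodup_normalizedFactors hc0).1 hsq
  have hmem : ∀ φ : F[X], φ ∈ UniqueFactorizationMonoid.normalizedFactors c ↔
      (φ.Monic ∧ Irreducible φ ∧ φ ∣ c) := by
    intro φ
    constructor
    · intro h
      have hirr := UniqueFactorizationMonoid.irreducible_of_normalized_factor φ h
      have hnorm := UniqueFactorizationMonoid.normalize_normalized_factor φ h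
      have hdvd := UniqueFactorizationMonoid.dvd_of_mem_normalizedFactors h
      refine ⟨?_, hirr, hdvd⟩
      rw [← hnorm]; exact Polynomial.monic_normalize hirr.ne_zero
    · rintro ⟨hm, hirr, hdvd⟩
      obtain ⟨ψ, hψ, hass⟩ :=
        UniqueFactorizationMonoid.exists_mem_normalizedFactors_of_dvd hc0 hirr hdvd
      have hψm : ψ.Monic := by
        rw [← UniqueFactorizationMonoid.normalize_normalized_factor ψ hψ]
        exact Polynomial.monic_normalize
          (UniqueFactorizationMonoid.irreducible_of_normalized_factor ψ hψ).ne_zero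
      rw [Polynomial.eq_of_monic_of_associated hm hψm hass]
      exact hψ
  have hkey : ∀ Φs : Finset F[X], IsCycSet F r Φs →
      Φs = (UniqueFactorizationMonoid.normalizedFactors c).toFinset := by
    intro Φs hΦs
    ext φ
    rw [Multiset.mem_toFinset, hmem, hΦs φ, hc]
  refine ⟨⟨(UniqueFactorizationMonoid.normalizedFactors c).toFinset, fun φ => by
    rw [Multiset.mem_toFinset, hmem, hc]⟩, ?_⟩
  intro Φs hΦs
  have hmon : ∀ φ ∈ Φs, φ.Monic := fun φ hφ => ((hΦs φ).1 hφ).1
  have hdeg : ∀ φ ∈ Φs, φ.natDegree = ii F r := by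
    intro φ hφ
    obtain ⟨h1, h2, h3⟩ := (hΦs φ).1 hφ
    exact (Cfsg.Agent.H45.cyc_factor r hr.one_le hrF φ h2 h1 h3).1
  have hprod : ∏ φ ∈ Φs, φ = c := by
    apply Polynomial.eq_of_monic_of_associated (Polynomial.monic_prod_of_monic _ _ hmon) hcm
    rw [hkey Φs hΦs, Finset.prod_eq_multiset_prod, Multiset.toFinset_val,
      Multiset.dedup_eq_self.2 hnodup, Multiset.map_id']
    exact UniqueFactorizationMonoid.prod_normalizedFactors hc0
  refine ⟨?_, hdeg, ?_⟩
  · have h1 : (∏ φ ∈ Φs, φ).natDegree = ∑ φ ∈ Φs, φ.natDegree :=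
      Polynomial.natDegree_prod_of_monic _ _ hmon
    rw [hprod, hc, natDegree_cyclotomic, Nat.totient_prime hr, Finset.sum_congr rfl hdeg,
      Finset.sum_const, smul_eq_mul] at h1
    exact h1.symm
  · rw [hprod, hc, mul_comm]
    exact cyclotomic_prime_mul_X_sub_one F r

example : StCycSet.{u} := cycSet

end Cfsg.Agent.H3.Ti
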