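import Mathlib
import Cfsg.Agent.H42.TiDefs
import Cfsg.Agent.H3.TiBase

/-! helper3: piece SPI-PRIM of helper42's S5955 project (primary decomposition of an invariant
subspace for `T ^ r = 1`). -/

set_option autoImplicit false

namespace Cfsg.Agent.H3.Ti

open Cfsg.Agent.H42.Ti Module Polynomial

universe u v

/-- Splitting `W ⊓ ker (p q)(T)` for coprime `p`, `q` and an invariant subspace `W`. -/
theorem ti_finrank_split {F : Type*} [Field F] {V : Type*} [AddCommGroup V] [Module F V]
    [FiniteDimensional F V] (T : Module.End F V) (W : Submodule F V) (hW : W ∈ T.invtSubmodule)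
    (p q : F[X]) (hpq : IsCoprime p q) :
    finrank F ↥(W ⊓ LinearMap.ker (aeval T (p * q))) =
      finrank F ↥(W ⊓ LinearMap.ker (aeval T p)) + finrank F ↥(W ⊓ LinearMap.ker (aeval T q)) := by
  obtain ⟨a, b, hab⟩ := hpq
  have hsup : W ⊓ LinearMap.ker (aeval T (p * q)) =
      (W ⊓ LinearMap.ker (aeval T p)) ⊔ (W ⊓ LinearMap.ker (aeval T q)) := by
    apply le_antisymm
    · rintro v ⟨hvW, hv⟩
      have hv' : aeval T (p * q) v = 0 := hv
      rw [Submodule.mem_sup]
      refine ⟨aeval T (b * q) v, ⟨ti_aeval_mem T W hW _ v hvW, ?_⟩, aeval T (a * p) v,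
        ⟨ti_aeval_mem T W hW _ v hvW, ?_⟩, ?_⟩
      · show aeval T p (aeval T (b * q) v) = 0
        rw [← Module.End.mul_apply, ← map_mul]
        have : p * (b * q) = b * (p * q) := by ring
        rw [this, map_mul, Module.End.mul_apply, hv', map_zero]
      · show aeval T q (aeval T (a * p) v) = 0
        rw [← Module.End.mul_apply, ← map_mul]
        have : q * (a * p) = a * (p * q) := by ring
        rw [this, map_mul, Module.End.mul_apply, hv', map_zero]
      · rw [← LinearMap.add_apply, ← map_add, add_comm, hab, map_one]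
        rfl
    · apply sup_le
      · rintro v ⟨hvW, hv⟩
        refine ⟨hvW, ?_⟩
        show aeval T (p * q) v = 0
        rw [mul_comm, map_mul, Module.End.mul_apply, (show aeval T p v = 0 from hv), map_zero]
      · rintro v ⟨hvW, hv⟩
        refine ⟨hvW, ?_⟩
        show aeval T (p * q) v = 0
        rw [map_mul, Module.End.mul_apply, (show aeval T q v = 0 from hv), map_zero]
  have hinf : (W ⊓ LinearMap.ker (aeval T p)) ⊓ (W ⊓ LinearMap.ker (aeval T q)) = ⊥ := by
    rw [eq_bot_iff]
    rintro v ⟨⟨-, hv1⟩, ⟨-, hv2⟩⟩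
    have h1 : aeval T p v = 0 := hv1
    have h2 : aeval T q v = 0 := hv2
    have h3 : aeval T (a * p + b * q) v = v := by rw [hab, map_one]; rfl
    rw [map_add, map_mul, map_mul, LinearMap.add_apply, Module.End.mul_apply,
      Module.End.mul_apply, h1, h2, map_zero, map_zero, add_zero] at h3
    exact h3.symm
  have h := Submodule.finrank_sup_add_finrank_inf_eq (W ⊓ LinearMap.ker (aeval T p))
    (W ⊓ LinearMap.ker (aeval T q))
  rw [hinf, finrank_bot, add_zero, ← hsup] at h
  exact h

theorem tiPrim (hC : StCycSet.{u}) : StTiPrim.{u,v} := by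
  intro F _ _ V _ _ _ r T hr hrF hT Φs hΦs W hW
  classical
  obtain ⟨-, hC2⟩ := hC F r hr hrF
  obtain ⟨-, -, hprod⟩ := hC2 Φs hΦs
  have hsep : (X ^ r - 1 : F[X]).Separable := by
    have := separable_X_pow_sub_C (1 : F) hrF one_ne_zero
    simpa using this
  rw [← hprod] at hsep
  have hind : ∀ S : Finset F[X], S ⊆ Φs →
      finrank F ↥(W ⊓ LinearMap.ker (aeval T (∏ φ ∈ S, φ))) =
        ∑ φ ∈ S, finrank F ↥(W ⊓ LinearMap.ker (aeval T φ)) := by
    intro S
    induction S using Finset.induction_on with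
    | empty =>
      intro _
      rw [Finset.prod_empty, Finset.sum_empty, map_one]
      have : LinearMap.ker (1 : Module.End F V) = ⊥ := LinearMap.ker_id
      rw [this, inf_bot_eq, finrank_bot]
    | insert a S ha ih =>
      intro hS
      rw [Finset.prod_insert ha, Finset.sum_insert ha]
      have hcop : IsCoprime a (∏ φ ∈ S, φ) := by
        have h1 : (∏ φ ∈ insert a S, φ) ∣ ∏ φ ∈ Φs, φ :=
          Finset.prod_dvd_prod_of_subset _ _ _ hS
        rw [Finset.prod_insert ha] at h1
        exact (hsep.of_mul_right.of_dvd h1).isCoprime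
      rw [ti_finrank_split T W hW _ _ hcop, ih (fun x hx => hS (Finset.mem_insert_of_mem hx))]
  have htop : LinearMap.ker (aeval T ((X - 1) * ∏ φ ∈ Φs, φ)) = ⊤ := by
    rw [hprod]
    have : aeval T (X ^ r - 1 : F[X]) = 0 := by simp [hT]
    rw [this, LinearMap.ker_zero]
  have h1 := ti_finrank_split T W hW (X - 1) (∏ φ ∈ Φs, φ) hsep.isCoprime
  rw [htop, inf_top_eq, hind Φs (Finset.Subset.refl _)] at h1
  rw [h1]
  have h2 : aeval T (X - 1 : F[X]) = T - 1 := by simp
  rw [h2]

example (hC : StCycSet.{u}) : StTiPrim.{u,v} := tiPrim hC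

end Cfsg.Agent.H3.Ti
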