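import Mathlib
import Cfsg.Agent.H58.BG127Defs
import Cfsg.Agent.H70.BG10D
import Cfsg.Agent.S1453

/-! helper3: piece S1419-PW of helper58's project (B&G Corollary 12.7). -/

set_option autoImplicit false

namespace Cfsg.Agent.H3.BG12

open Cfsg Subgroup Cfsg.Agent.H58.BG10 Cfsg.Agent.H58.BG12

universe u

/-- Elements of a join of two elementwise commuting subgroups are products. -/
theorem pw_mem_sup_of_commute {G : Type*} [Group G] (H K : Subgroup G)
    (hcomm : ∀ a ∈ H, ∀ b ∈ K, a * b = b * a) {x : G} (hx : x ∈ H ⊔ K) :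
    ∃ a ∈ H, ∃ b ∈ K, x = a * b := by
  let P : Subgroup G :=
    { carrier := {w | ∃ a ∈ H, ∃ b ∈ K, w = a * b}
      mul_mem' := by
        rintro _ _ ⟨a, ha, b, hb, rfl⟩ ⟨a', ha', b', hb', rfl⟩
        refine ⟨a * a', H.mul_mem ha ha', b * b', K.mul_mem hb hb', ?_⟩
        rw [mul_assoc, ← mul_assoc b a' b', ← hcomm a' ha' b hb, mul_assoc, mul_assoc]
      one_mem' := ⟨1, H.one_mem, 1, K.one_mem, (mul_one 1).symm⟩
      inv_mem' := by
        rintro _ ⟨a, ha, b, hb, rfl⟩
        refine ⟨a⁻¹, H.inv_mem ha, b⁻¹, K.inv_mem hb, ?_⟩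
        rw [mul_inv_rev, hcomm _ (H.inv_mem ha) _ (K.inv_mem hb)] }
  have hP : H ⊔ K ≤ P :=
    sup_le (fun a ha => ⟨a, ha, 1, K.one_mem, (mul_one a).symm⟩)
      (fun b hb => ⟨1, H.one_mem, b, hb, (one_mul b).symm⟩)
  exact hP hx

/-- The case of `p`-rank at most two (B&G 10.5 shape). -/
theorem pw_case1 {G : Type*} [Group G] (p : ℕ) (S : Subgroup G) (P₁ P₂ : Subgroup G)
    (hsup : P₁ ⊔ P₂ = S)
    (hcomm : ∀ a ∈ P₁, ∀ b ∈ P₂, a * b = b * a) (hexp : Monoid.exponent P₁ = p)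
    (hcyc : IsCyclic P₂)
    (hcl : closure {x : G | x ∈ P₂ ∧ x ^ p = 1} = P₁ ⊓ centralizer (P₁ : Set G))
    (u : G) (hu : u ∈ S) (hup : u ^ (p ^ 2) = 1) (s : G) (hs : s ∈ S) :
    s * u ^ p = u ^ p * s := by
  rw [← hsup] at hu hs
  obtain ⟨a, ha, b, hb, rfl⟩ := pw_mem_sup_of_commute P₁ P₂ hcomm hu
  obtain ⟨a', ha', b', hb', rfl⟩ := pw_mem_sup_of_commute P₁ P₂ hcomm hs
  have hap : a ^ p = 1 := by
    have h1 : (⟨a, ha⟩ : P₁) ^ Monoid.exponent P₁ = 1 := Monoid.pow_exponent_eq_one _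
    rw [hexp] at h1
    exact congrArg Subtype.val h1
  have hpow : (a * b) ^ p = b ^ p := by
    rw [(show Commute a b from hcomm a ha b hb).mul_pow, hap, one_mul]
  rw [hpow]
  have hbp : (b ^ p) ^ p = 1 := by
    rw [← hpow, ← pow_mul, ← pow_two]; exact hup
  have hmem : b ^ p ∈ P₁ ⊓ centralizer (P₁ : Set G) := by
    rw [← hcl]
    exact subset_closure ⟨P₂.pow_mem hb p, hbp⟩
  have h1 : a' * b ^ p = b ^ p * a' := mem_centralizer_iff.1 hmem.2 a' ha'
  have h2 : b' * b ^ p = b ^ p * b' := by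
    have := (IsCyclic.isMulCommutative (α := P₂)).is_comm.comm ⟨b', hb'⟩
      ⟨b ^ p, P₂.pow_mem hb p⟩
    exact congrArg Subtype.val this
  rw [mul_assoc, h2, ← mul_assoc, h1, mul_assoc]

/-- The case of `p`-rank at least three, inside the `p`-group (via S1453). -/
theorem pw_case2 {R : Type*} [Group R] [Finite R] (p : ℕ) [Fact p.Prime] (hp : p ≠ 2)
    (hR : IsPGroup p R) (hr : ¬ PRankLE p 2 R) (E : Subgroup R) (hE : IsElementaryAbelian p E)
    (hE2 : Nat.card E = p ^ 2)
    (hEmax : ∀ B : Subgroup R, IsElementaryAbelian p B → E ≤ B → B = E)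
    (u : R) (huE : ∀ e ∈ E, u * e = e * u) (hup : u ^ (p ^ 2) = 1) : u ^ p ∈ center R := by
  obtain ⟨hET, hZ, -, hchar, hidx⟩ := Cfsg.Agent.S1453.result p hp hR hr E hE hE2 hEmax
  obtain ⟨W, hW⟩ : ∃ W : Subgroup R,
      W = closure {x : R | x ∈ Subgroup.upperCentralSeries R 2 ∧ x ^ p = 1} := ⟨_, rfl⟩
  rw [← hW] at hET hchar hidx
  obtain ⟨Z, hZdef⟩ : ∃ Z : Subgroup R, Z = closure {x : R | x ∈ center R ∧ x ^ p = 1} :=
    ⟨_, rfl⟩
  rw [← hZdef] at hZ
  have hadj : ∀ d : R, (∀ e ∈ E, d * e = e * d) → d ^ p = 1 → d ∈ E := by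
    intro d hd hdp
    have h1 := Cfsg.Agent.H70.BG10.sup_zpowers_elementary hE hd hdp
    have h2 := hEmax _ h1 le_sup_left
    rw [← h2]
    exact (le_sup_right : zpowers d ≤ E ⊔ zpowers d) (mem_zpowers d)
  have hZE : Z ≤ E := by
    rw [hZdef, closure_le]
    rintro z ⟨hzc, hzp⟩
    exact hadj z (fun e _ => (mem_center_iff.1 hzc e).symm) hzp
  have hZT : Z ≤ centralizer (W : Set R) := by
    rw [hZdef, closure_le]
    rintro z ⟨hzc, -⟩
    exact (center_le_centralizer _) hzc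
  have hZc : Z ≤ center R := by
    rw [hZdef, closure_le]
    rintro z ⟨hzc, -⟩
    exact hzc
  have hET' : Z = E ⊓ centralizer (W : Set R) := by
    apply Subgroup.eq_of_le_of_card_ge (le_inf hZE hZT)
    rw [hZ]
    have hdvd : Nat.card ↥(E ⊓ centralizer (W : Set R)) ∣ p ^ 2 := by
      rw [← hE2]; exact Subgroup.card_dvd_of_le inf_le_left
    obtain ⟨j, hj, hjc⟩ := (Nat.dvd_prime_pow (Fact.out : p.Prime)).1 hdvd
    rw [hjc]
    have hj2 : j ≠ 2 := by
      rintro rfl
      apply hET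
      have : E ⊓ centralizer (W : Set R) = E :=
        Subgroup.eq_of_le_of_card_ge inf_le_left (by rw [hjc, hE2])
      rw [← this]; exact inf_le_right
    have hj1 : j ≤ 1 := by omega
    calc p ^ j ≤ p ^ 1 := Nat.pow_le_pow_right (Fact.out : p.Prime).pos hj1
      _ = p := pow_one p
  have hdE : u ^ p ∈ E := by
    apply hadj
    · intro e he
      exact ((show Commute u e from huE e he).pow_left p).eq
    · rw [← pow_mul, ← pow_two]; exact hup
  have hdT : u ^ p ∈ centralizer (W : Set R) := by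
    haveI := hchar
    haveI : (centralizer (W : Set R)).Normal := inferInstance
    have := Subgroup.pow_index_mem (centralizer (W : Set R)) u
    rwa [hidx] at this
  have hmem : u ^ p ∈ E ⊓ centralizer (W : Set R) := ⟨hdE, hdT⟩
  rw [← hET'] at hmem
  exact hZc hmem

variable {G : Type u} [Group G] [Finite G]

/-- Piece S1419-PW. -/
theorem pw (hG : IsMinSimpleOddOrder G) (h1412 : St1412 G) : StPW G := by
  intro p _ S hnab A hAS hA hA2 hAmax u hu huA hup s hs
  have hp2 : p ≠ 2 := by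
    rintro rfl
    have h1 : Nat.card A ∣ Nat.card G := Subgroup.card_subgroup_dvd_card A
    rw [hA2] at h1
    have h2 : 2 ∣ Nat.card G := dvd_trans (dvd_pow_self 2 (by norm_num)) h1
    exact (Nat.not_even_iff_odd.2 hG.1) (even_iff_two_dvd.2 h2)
  by_cases hrank : PRankLE p 2 (S : Subgroup G)
  · rcases h1412 p S hrank with hab | ⟨P₁, P₂, hsup, hcomm, -, -, hexp, hcyc, hcl⟩
    · exact absurd hab hnab
    · exact pw_case1 p (S : Subgroup G) P₁ P₂ hsup hcomm hexp hcyc hcl u hu hup s hs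
  · have hE : IsElementaryAbelian p (A.subgroupOf (S : Subgroup G)) := by
      refine ⟨?_, ?_⟩
      · haveI := hA.1
        infer_instance
      · rintro ⟨a, haS⟩ ha
        exact Subtype.ext (hA.2 a ha)
    have hE2 : Nat.card (A.subgroupOf (S : Subgroup G)) = p ^ 2 := by
      rw [Nat.card_congr (Subgroup.subgroupOfEquivOfLe hAS).toEquiv, hA2]
    have hEmax : ∀ B : Subgroup (S : Subgroup G), IsElementaryAbelian p B →
        A.subgroupOf (S : Subgroup G) ≤ B → B = A.subgroupOf (S : Subgroup G) := by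
      intro B hB hle
      have hB' : IsElementaryAbelian p (B.map (S : Subgroup G).subtype) := by
        refine ⟨?_, ?_⟩
        · haveI := hB.1
          infer_instance
        · rintro _ ⟨b, hb, rfl⟩
          rw [← map_pow, hB.2 b hb, map_one]
      have hAB : A ≤ B.map (S : Subgroup G).subtype := by
        intro a ha
        exact ⟨⟨a, hAS ha⟩, hle (Subgroup.mem_subgroupOf.2 ha), rfl⟩
      have h := hAmax _ hB' hAB
      rw [← h]
      ext x
      simp [Subgroup.mem_subgroupOf]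
    have key := pw_case2 p hp2 S.isPGroup' hrank (A.subgroupOf (S : Subgroup G)) hE hE2 hEmax
      ⟨u, hu⟩ ?_ ?_
    · have := mem_center_iff.1 key ⟨s, hs⟩
      exact congrArg Subtype.val this
    · rintro ⟨e, heS⟩ he
      apply Subtype.ext
      exact (mem_centralizer_iff.1 huA e he).symm
    · apply Subtype.ext
      exact hup

example (hG : IsMinSimpleOddOrder G) (h1412 : St1412 G) : StPW G := pw hG h1412

end Cfsg.Agent.H3.BG12
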