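import Mathlib
import Cfsg.Agent.H95.OhDefs

/-!
# S5992-SUBDISC (piece for helper95)

A nondegenerate subspace `K` of dimension at least `b + 1` contains `b` pairwise orthogonal
nonsingular vectors with prescribed discriminant class.
-/

set_option autoImplicit false

namespace Cfsg.Agent.H3.Oh

open Cfsg.Agent.H45 Cfsg.Agent.H42.Spd Cfsg.Agent.H42.Ti Cfsg.Agent.H14.Ot Cfsg.Agent.H95.Oh Module
open Polynomial

universe u v

/-- Over a finite field of odd characteristic, `α x² + β y² = γ` is solvable for `α, β ≠ 0`. -/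
theorem sd_repr {F : Type u} [Field F] [Fintype F] (h2 : (2 : F) ≠ 0) (α β γ : F) (hα : α ≠ 0)
    (hβ : β ≠ 0) : ∃ x y : F, α * x ^ 2 + β * y ^ 2 = γ := by
  have hodd : Fintype.card F % 2 = 1 := by
    apply FiniteField.odd_card_of_char_ne_two
    intro h
    apply h2
    have h1 := ringChar.Nat.cast_ringChar (R := F)
    rw [h] at h1
    exact_mod_cast h1
  have hg : degree (C β * X ^ 2 : F[X]) = 2 := degree_C_mul_X_pow 2 hβ
  have hf0 : degree (C α * X ^ 2 : F[X]) = 2 := degree_C_mul_X_pow 2 hα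
  have hf : degree (C α * X ^ 2 - C γ : F[X]) = 2 := by
    rw [degree_sub_C (by rw [hf0]; norm_num), hf0]
  obtain ⟨x, y, hxy⟩ := FiniteField.exists_root_sum_quadratic hf hg hodd
  refine ⟨x, y, ?_⟩
  simp only [eval_sub, eval_mul, eval_C, eval_pow, eval_X] at hxy
  linear_combination hxy

theorem subDisc (hO : StOrtho.{u, v}) : StSubDisc.{u, v} := by
  intro F _ _ V _ _ _ B h2 hsymm K hK b δ hb hbK hδ
  obtain ⟨w, hwK, hworth, hwne, -⟩ := hO F V B h2 hsymm K hK
  obtain ⟨b', rfl⟩ : ∃ b', b = b' + 1 := ⟨b - 1, by omega⟩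
  have hlt1 : b' < finrank F ↥K := by omega
  have hlt2 : b' + 1 < finrank F ↥K := by omega
  obtain ⟨j1, hj1⟩ : ∃ j : Fin (finrank F ↥K), (j : ℕ) = b' := ⟨⟨b', hlt1⟩, rfl⟩
  obtain ⟨j2, hj2⟩ : ∃ j : Fin (finrank F ↥K), (j : ℕ) = b' + 1 := ⟨⟨b' + 1, hlt2⟩, rfl⟩
  obtain ⟨ι, hι⟩ : ∃ ι : Fin b' → Fin (finrank F ↥K), ∀ a, (ι a : ℕ) = a :=
    ⟨fun a => ⟨a, by have := a.2; omega⟩, fun a => rfl⟩
  have hιinj : ∀ a a', a ≠ a' → ι a ≠ ι a' := by
    intro a a' h h'
    apply h
    apply Fin.ext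
    rw [← hι a, ← hι a', h']
  have hι1 : ∀ a, ι a ≠ j1 := by
    intro a h
    have h1 := congrArg Fin.val h
    rw [hι, hj1] at h1
    exact a.2.ne h1
  have hι2 : ∀ a, ι a ≠ j2 := by
    intro a h
    have h1 := congrArg Fin.val h
    rw [hι, hj2] at h1
    have h3 := a.2
    omega
  have hj12 : j1 ≠ j2 := by
    intro h
    have h1 := congrArg Fin.val h
    rw [hj1, hj2] at h1
    omega
  obtain ⟨c, hc⟩ : ∃ c : F, c = δ * ∏ a : Fin b', B (w (ι a)) (w (ι a)) := ⟨_, rfl⟩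
  have hc0 : c ≠ 0 := by
    rw [hc]
    exact mul_ne_zero hδ (Finset.prod_ne_zero_iff.mpr fun a _ => hwne _)
  obtain ⟨x, y, hxy⟩ := sd_repr h2 (B (w j1) (w j1)) (B (w j2) (w j2)) c⁻¹ (hwne j1) (hwne j2)
  obtain ⟨z, hz⟩ : ∃ z : V, z = x • w j1 + y • w j2 := ⟨_, rfl⟩
  have hzz : B z z = c⁻¹ := by
    rw [hz]
    simp only [map_add, map_smul, LinearMap.add_apply, LinearMap.smul_apply, smul_eq_mul]
    rw [hworth j1 j2 hj12, hworth j2 j1 hj12.symm, ← hxy]
    ring
  have hzw : ∀ a : Fin b', B (w (ι a)) z = 0 := by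
    intro a
    rw [hz, map_add, map_smul, map_smul, hworth _ _ (hι1 a), hworth _ _ (hι2 a)]
    simp
  have hzK : z ∈ K := by
    rw [hz]
    exact K.add_mem (K.smul_mem _ (hwK j1)) (K.smul_mem _ (hwK j2))
  obtain ⟨v, hv⟩ : ∃ v : Fin (b' + 1) → V,
      v = Fin.snoc (α := fun _ => V) (fun a : Fin b' => w (ι a)) z := ⟨_, rfl⟩
  have hvl : v (Fin.last b') = z := by rw [hv, Fin.snoc_last]
  have hvc : ∀ a : Fin b', v (Fin.castSucc a) = w (ι a) := by
    intro a
    rw [hv, Fin.snoc_castSucc]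
  refine ⟨v, ?_, ?_, ?_, ?_⟩
  · intro a
    induction a using Fin.lastCases with
    | last => rw [hvl]; exact hzK
    | cast i => rw [hvc]; exact hwK _
  · intro a a' haa'
    induction a using Fin.lastCases with
    | last =>
      induction a' using Fin.lastCases with
      | last => exact absurd rfl haa'
      | cast i' => rw [hvl, hvc, hsymm]; exact hzw i'
    | cast i =>
      induction a' using Fin.lastCases with
      | last => rw [hvl, hvc]; exact hzw i
      | cast i' =>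
        rw [hvc, hvc]
        exact hworth _ _ (hιinj i i' (fun h => haa' (by rw [h])))
  · intro a
    induction a using Fin.lastCases with
    | last => rw [hvl, hzz]; exact inv_ne_zero hc0
    | cast i => rw [hvc]; exact hwne _
  · rw [Fin.prod_univ_castSucc]
    simp only [hvc, hvl]
    rw [hzz, ← mul_assoc, ← hc, mul_inv_cancel₀ hc0]
    exact ⟨1, by simp⟩

example (hO : StOrtho.{u, v}) : StSubDisc.{u, v} := subDisc hO

end Cfsg.Agent.H3.Oh
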