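import Mathlib
import Cfsg.Agent.H42.TiDefs
import Cfsg.Agent.H45.Semisimple
import Cfsg.Agent.H3.TiBase

/-! helper3: piece SPI-IRRSUB of helper42's S5955 project. -/

set_option autoImplicit false

namespace Cfsg.Agent.H3.Ti

open Cfsg.Agent.H42.Ti Module Polynomial

universe u v

theorem tiIrrSub : StTiIrrSub.{u,v} := by
  intro F _ V _ _ _ T φ hφ W hW hWker hWne
  obtain ⟨v, hvW, hv0⟩ := (Submodule.ne_bot_iff W).1 hWne
  have hfv : aeval T φ v = 0 := LinearMap.mem_ker.1 (hWker hvW)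
  obtain ⟨L, hL, Φ, hvL, -, hΦ⟩ := Cfsg.Agent.H45.exists_cyclic T φ hφ v hv0 hfv
  haveI : Fact (Irreducible φ) := ⟨hφ⟩
  refine ⟨L, ?_, hL, ?_⟩
  · intro y hy
    obtain ⟨x, hx⟩ := Φ.surjective ⟨y, hy⟩
    obtain ⟨x₀, hx₀⟩ := Φ.surjective ⟨v, hvL⟩
    have hx₀0 : x₀ ≠ 0 := by
      rintro rfl
      rw [map_zero] at hx₀
      exact hv0 (congrArg Subtype.val hx₀).symm
    obtain ⟨h, hh⟩ := AdjoinRoot.mk_surjective (x * x₀⁻¹)
    have h1 := hΦ h x₀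
    rw [hh, inv_mul_cancel_right₀ hx₀0, hx, hx₀] at h1
    have h2 : y = aeval T h v := h1
    rw [h2]
    exact ti_aeval_mem T W hW h v hvW
  · rw [← Φ.finrank_eq, (AdjoinRoot.powerBasis hφ.ne_zero).finrank, AdjoinRoot.powerBasis_dim]

example : StTiIrrSub.{u,v} := tiIrrSub

end Cfsg.Agent.H3.Ti
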