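import Mathlib
import Cfsg.Agent.H42.TiDefs

/-! helper3: piece SPI-STEPEVEN of helper42's S5955 project. -/

set_option autoImplicit false

namespace Cfsg.Agent.H3.Ti

open Cfsg.Agent.H45 Cfsg.Agent.H42.Spd Cfsg.Agent.H42.Spn Cfsg.Agent.H42.Ti Module Polynomial

universe u v

theorem tiStepEven (hC : StCycSet.{u}) (hP : StTiPrim.{u,v}) (hD : StTiCompDvd.{u,v})
    (hN : StTiCompNd.{u,v}) (hPair : StTiPair.{u,v}) : StTiStepEven.{u,v} := by
  intro F _ _ V _ _ _ r B T hc hev W hW hlt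
  obtain ⟨⟨Φs, hΦs⟩, hC2⟩ := hC F r hc.prime hc.cast_ne
  obtain ⟨hcard, hdeg, -⟩ := hC2 Φs hΦs
  have hprim := hP F V r T hc.prime hc.cast_ne hc.pow Φs hΦs W hW.1
  have hi : ii F r ≠ 0 := by
    intro h0
    rw [h0, mul_zero] at hcard
    have := hc.prime.two_le
    omega
  have ht : (r - 1) / ii F r = Φs.card := by
    rw [← hcard]; exact Nat.mul_div_cancel _ (Nat.pos_of_ne_zero hi)
  have hsum : ∑ φ ∈ Φs, ii F r < ∑ φ ∈ Φs, finrank F ↥(W ⊓ LinearMap.ker (aeval T φ)) := by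
    rw [Finset.sum_const, smul_eq_mul]
    have hkk : kk T W = finrank F ↥(W ⊓ LinearMap.ker (T - 1)) := rfl
    rw [ht] at hlt
    rw [hprim, ← hkk] at hlt
    have : Φs.card * ii F r = ii F r * Φs.card := mul_comm _ _
    omega
  obtain ⟨φ, hφ, hφlt⟩ := Finset.exists_lt_of_sum_lt hsum
  obtain ⟨hm, hirr, hdvd⟩ := (hΦs φ).1 hφ
  have hdegφ : φ.natDegree = ii F r := hdeg φ hφ
  have hdv := hD F V T φ hirr W hW.1
  rw [hdegφ] at hdv
  have h2 : 2 * φ.natDegree ≤ finrank F ↥(W ⊓ LinearMap.ker (aeval T φ)) := by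
    rw [hdegφ]
    obtain ⟨m, hm⟩ := hdv
    rw [hm] at hφlt ⊢
    have hm2 : 2 ≤ m := by
      by_contra hcon
      have h1 : m ≤ 1 := by omega
      have h3 : ii F r * m ≤ ii F r * 1 := Nat.mul_le_mul_left _ h1
      omega
    calc 2 * ii F r = ii F r * 2 := mul_comm _ _
      _ ≤ ii F r * m := Nat.mul_le_mul_left _ hm2
  have hNd := hN F V r B T hc hev φ hm hirr hdvd W hW
  obtain ⟨H, L, hHM, hH, hHd, hLH, hL, hTI, hLd⟩ :=
    hPair F V r B T hc φ hirr _ hNd inf_le_right h2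
  exact ⟨H, L, hHM.trans inf_le_left, hH, by rw [hHd, hdegφ], hLH, hL, hTI, by rw [hLd, hdegφ]⟩

example (hC : StCycSet.{u}) (hP : StTiPrim.{u,v}) (hD : StTiCompDvd.{u,v})
    (hN : StTiCompNd.{u,v}) (hPair : StTiPair.{u,v}) : StTiStepEven.{u,v} :=
  tiStepEven hC hP hD hN hPair

end Cfsg.Agent.H3.Ti
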