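import Mathlib
import Cfsg.Agent.H2.BrDefs

/-! helper3: piece S4501-ARITH4 of helper2's project (the arithmetic of the Klein four case). -/

set_option autoImplicit false

namespace Cfsg.Agent.H3.Br

open Cfsg Cfsg.Agent.H2.Br

/-- A natural number without prime factors is `1`. -/
theorem arith4_eq_one {n : ℕ} (h : ∀ ℓ : ℕ, ℓ.Prime → ¬ ℓ ∣ n) : n = 1 := by
  by_contra hne
  obtain ⟨ℓ, hℓ, hd⟩ := Nat.exists_prime_and_dvd hne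
  exact h ℓ hℓ hd

theorem arith4_not_dvd_one {ℓ : ℕ} (hℓ : ℓ.Prime) (h : ℓ ∣ 1) : False :=
  hℓ.one_lt.ne' (Nat.dvd_one.1 h)

theorem arith4_cop1 {ℓ U A : ℕ} (hℓ : ℓ.Prime) (h : A + 1 = 2 * U) (hU : ℓ ∣ U) (hA : ℓ ∣ A) :
    False := by
  have h1 : ℓ ∣ A + 1 := by rw [h]; exact Dvd.dvd.mul_left hU 2
  exact arith4_not_dvd_one hℓ ((Nat.dvd_add_right hA).1 h1)

theorem arith4_cop2 {ℓ W C : ℕ} (hℓ : ℓ.Prime) (h : C = 2 * W + 1) (hW : ℓ ∣ W) (hC : ℓ ∣ C) :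
    False := by
  rw [h] at hC
  exact arith4_not_dvd_one hℓ ((Nat.dvd_add_right (Dvd.dvd.mul_left hW 2)).1 hC)

theorem arith4_pp {n r : ℕ} (hn : 1 < n) (h : ∀ ℓ : ℕ, ℓ.Prime → ℓ ∣ n → ℓ = r) :
    ∃ i, n = r ^ i :=
  ⟨_, Nat.eq_prime_pow_of_unique_prime_dvd (by omega) (fun {d} hd hdn => h d hd hdn)⟩

theorem arith4_pf_of_gt {n r s : ℕ} (hn : 1 < n)
    (pf : ∀ ℓ : ℕ, ℓ.Prime → ℓ ∣ n → ℓ = r ∨ ℓ = s) (hr : ¬ r ∣ n) : s ∣ n := by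
  obtain ⟨ℓ, hℓ, hd⟩ := Nat.exists_prime_and_dvd (show n ≠ 1 by omega)
  rcases pf ℓ hℓ hd with h | h
  · exact absurd (h ▸ hd) hr
  · exact h ▸ hd

/-- Two powers of an odd prime whose half-sum has no other prime factor are equal. -/
theorem arith4_pow_eq {r : ℕ} (hr : r.Prime) (hr2 : r ≠ 2) {X Y T : ℕ} (hX : ∃ i, X = r ^ i)
    (hY : ∃ j, Y = r ^ j) (hsum : X + Y = 2 * T) (hT : ∀ ℓ : ℕ, ℓ.Prime → ℓ ∣ T → ℓ = r) :
    X = Y := by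
  obtain ⟨i, rfl⟩ := hX
  obtain ⟨j, rfl⟩ := hY
  have key : ∀ i j : ℕ, i < j → ∀ T : ℕ, r ^ i + r ^ j = 2 * T →
      (∀ ℓ : ℕ, ℓ.Prime → ℓ ∣ T → ℓ = r) → False := by
    intro i j hij T hsum hT
    obtain ⟨d, rfl⟩ : ∃ d, j = i + (d + 1) := ⟨j - i - 1, by omega⟩
    have h1 : r ^ i * (1 + r ^ (d + 1)) = 2 * T := by rw [← hsum, pow_add]; ring
    have hodd : Odd (r ^ (d + 1)) := (hr.odd_of_ne_two hr2).pow
    obtain ⟨m, hm⟩ : ∃ m, 1 + r ^ (d + 1) = 2 * m := by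
      obtain ⟨c, hc⟩ := hodd
      exact ⟨c + 1, by omega⟩
    have h2 : T = r ^ i * m := by
      rw [hm] at h1
      have : 2 * (r ^ i * m) = 2 * T := by rw [← h1]; ring
      exact (Nat.eq_of_mul_eq_mul_left (by norm_num : 0 < 2) this).symm
    have hm2 : 2 ≤ m := by
      have : 2 ≤ r ^ (d + 1) := le_trans hr.two_le (Nat.le_self_pow (by omega) r)
      omega
    obtain ⟨ℓ, hℓ, hℓm⟩ := Nat.exists_prime_and_dvd (show m ≠ 1 by omega)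
    have hℓr : ℓ = r := hT ℓ hℓ (by rw [h2]; exact Dvd.dvd.mul_left hℓm _)
    rw [hℓr] at hℓm
    have h3 : r ∣ r ^ (d + 1) + 1 := by rw [add_comm, hm]; exact Dvd.dvd.mul_left hℓm 2
    have h4 : r ∣ r ^ (d + 1) := dvd_pow_self r (by omega)
    exact arith4_not_dvd_one hr ((Nat.dvd_add_right h4).1 h3)
  rcases lt_trichotomy i j with h | h | h
  · exact (key i j h T hsum hT).elim
  · rw [h]
  · exact (key j i h T (by rw [add_comm]; exact hsum) hT).elim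

/-- The case `ε = 1` is impossible. -/
theorem arith4_core1 (r s : ℕ) (hr : r.Prime) (hr2 : r ≠ 2)
    (A B C U W : ℕ) (hA1 : 1 < A) (hB1 : 1 < B) (hC1 : 1 < C)
    (pfA : ∀ ℓ : ℕ, ℓ.Prime → ℓ ∣ A → ℓ = r ∨ ℓ = s)
    (pfB : ∀ ℓ : ℕ, ℓ.Prime → ℓ ∣ B → ℓ = r ∨ ℓ = s)
    (pfC : ∀ ℓ : ℕ, ℓ.Prime → ℓ ∣ C → ℓ = r ∨ ℓ = s)
    (hAU : A + 1 = 2 * U) (hCW : C = 2 * W + 1) (hsum : A + B = 2 * W)
    (pfU : ∀ ℓ : ℕ, ℓ.Prime → ℓ ∣ U → ℓ = r ∨ ℓ = s)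
    (pfW : ∀ ℓ : ℕ, ℓ.Prime → ℓ ∣ W → ℓ = r ∨ ℓ = s)
    (exA : ¬ (r ∣ A ∧ s ∣ A)) (exB : ¬ (r ∣ B ∧ s ∣ B))
    (hrA : r ∣ A) : False := by
  have hsA : ¬ s ∣ A := fun h => exA ⟨hrA, h⟩
  by_cases hrB : r ∣ B
  · have hsB : ¬ s ∣ B := fun h => exB ⟨hrB, h⟩
    have hAp : ∃ i, A = r ^ i :=
      arith4_pp hA1 (fun ℓ hℓ hd => (pfA ℓ hℓ hd).resolve_right (fun h => hsA (h ▸ hd)))
    have hBp : ∃ j, B = r ^ j :=
      arith4_pp hB1 (fun ℓ hℓ hd => (pfB ℓ hℓ hd).resolve_right (fun h => hsB (h ▸ hd)))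
    have hrC : ¬ r ∣ C := by
      intro h
      rw [hCW, ← hsum] at h
      exact arith4_not_dvd_one hr ((Nat.dvd_add_right (dvd_add hrA hrB)).1 h)
    have hsC : s ∣ C := arith4_pf_of_gt hC1 pfC hrC
    have pfW' : ∀ ℓ : ℕ, ℓ.Prime → ℓ ∣ W → ℓ = r := by
      intro ℓ hℓ hd
      rcases pfW ℓ hℓ hd with h | h
      · exact h
      · exfalso; subst h; exact arith4_cop2 hℓ hCW hd hsC
    have hAB : A = B := arith4_pow_eq hr hr2 hAp hBp hsum pfW'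
    have hU1 : U = 1 := by
      apply arith4_eq_one
      intro ℓ hℓ hd
      rcases pfU ℓ hℓ hd with h | h
      · subst h; exact arith4_cop1 hℓ hAU hd hrA
      · subst h
        have h4 : C + 1 = 4 * U := by omega
        have h1 : ℓ ∣ C + 1 := by rw [h4]; exact Dvd.dvd.mul_left hd 4
        exact arith4_not_dvd_one hℓ ((Nat.dvd_add_right hsC).1 h1)
    omega
  · have hsB : s ∣ B := arith4_pf_of_gt hB1 pfB hrB
    obtain ⟨ℓ, hℓ, hd⟩ := Nat.exists_prime_and_dvd (show W ≠ 1 by omega)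
    have h1 : ℓ ∣ A + B := by rw [hsum]; exact Dvd.dvd.mul_left hd 2
    rcases pfW ℓ hℓ hd with h | h
    · subst h; exact hrB ((Nat.dvd_add_right hrA).1 h1)
    · subst h
      have h1' : ℓ ∣ B + A := by rw [add_comm]; exact h1
      exact hsA ((Nat.dvd_add_right hsB).1 h1')

/-- The case `ε = -1` forces `(A, B, C) = (5, 3, 3)`. -/
theorem arith4_core2 (r s : ℕ) (hr : r.Prime) (hr2 : r ≠ 2)
    (A B C U V : ℕ) (hA1 : 1 < A) (hB1 : 1 < B) (hC1 : 1 < C)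
    (pfA : ∀ ℓ : ℕ, ℓ.Prime → ℓ ∣ A → ℓ = r ∨ ℓ = s)
    (pfB : ∀ ℓ : ℕ, ℓ.Prime → ℓ ∣ B → ℓ = r ∨ ℓ = s)
    (pfC : ∀ ℓ : ℕ, ℓ.Prime → ℓ ∣ C → ℓ = r ∨ ℓ = s)
    (hAU : A + 1 = 2 * U) (hBV : B = 2 * V + 1) (hsum : B + C = 2 * U)
    (pfU : ∀ ℓ : ℕ, ℓ.Prime → ℓ ∣ U → ℓ = r ∨ ℓ = s)
    (pfV : ∀ ℓ : ℕ, ℓ.Prime → ℓ ∣ V → ℓ = r ∨ ℓ = s)
    (exB : ¬ (r ∣ B ∧ s ∣ B)) (exC : ¬ (r ∣ C ∧ s ∣ C))
    (hrB : r ∣ B) : A = 5 ∧ B = 3 ∧ C = 3 := by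
  have hsB : ¬ s ∣ B := fun h => exB ⟨hrB, h⟩
  by_cases hrC : r ∣ C
  · have hsC : ¬ s ∣ C := fun h => exC ⟨hrC, h⟩
    have hBp : ∃ j, B = r ^ j :=
      arith4_pp hB1 (fun ℓ hℓ hd => (pfB ℓ hℓ hd).resolve_right (fun h => hsB (h ▸ hd)))
    have hCp : ∃ k, C = r ^ k :=
      arith4_pp hC1 (fun ℓ hℓ hd => (pfC ℓ hℓ hd).resolve_right (fun h => hsC (h ▸ hd)))
    have hrA : ¬ r ∣ A := by
      intro h
      have h1 : r ∣ A + 1 := by rw [hAU, ← hsum]; exact dvd_add hrB hrC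
      exact arith4_not_dvd_one hr ((Nat.dvd_add_right h).1 h1)
    have hsA : s ∣ A := arith4_pf_of_gt hA1 pfA hrA
    have pfU' : ∀ ℓ : ℕ, ℓ.Prime → ℓ ∣ U → ℓ = r := by
      intro ℓ hℓ hd
      rcases pfU ℓ hℓ hd with h | h
      · exact h
      · exfalso; subst h; exact arith4_cop1 hℓ hAU hd hsA
    have hBC : B = C := arith4_pow_eq hr hr2 hBp hCp hsum pfU'
    have hV1 : V = 1 := by
      apply arith4_eq_one
      intro ℓ hℓ hd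
      rcases pfV ℓ hℓ hd with h | h
      · subst h; exact arith4_cop2 hℓ hBV hd hrB
      · subst h
        have h4 : A = 4 * V + 1 := by omega
        rw [h4] at hsA
        exact arith4_not_dvd_one hℓ ((Nat.dvd_add_right (Dvd.dvd.mul_left hd 4)).1 hsA)
    omega
  · exfalso
    have hsC : s ∣ C := arith4_pf_of_gt hC1 pfC hrC
    obtain ⟨ℓ, hℓ, hd⟩ := Nat.exists_prime_and_dvd (show U ≠ 1 by omega)
    have h1 : ℓ ∣ B + C := by rw [hsum]; exact Dvd.dvd.mul_left hd 2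
    rcases pfU ℓ hℓ hd with h | h
    · subst h; exact hrC ((Nat.dvd_add_right hrB).1 h1)
    · subst h
      have h1' : ℓ ∣ C + B := by rw [add_comm]; exact h1
      exact hsB ((Nat.dvd_add_right hsC).1 h1')

theorem arith4 : StmtArith4 := by
  intro p q a b hp hq hpq hp2 hq2 A B C cJ cP ε hε hAN hBN hCN hA1 hB1 hC1 h4A h4B h4C hsum hcJ
    hcP heq
  have pfN : ∀ ℓ : ℕ, ℓ.Prime → ℓ ∣ 4 * p ^ a * q ^ b → ℓ = 2 ∨ ℓ = p ∨ ℓ = q := by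
    intro ℓ hℓ hd
    rcases (Nat.Prime.dvd_mul hℓ).1 hd with h | h
    · rcases (Nat.Prime.dvd_mul hℓ).1 h with h | h
      · left
        have h' : ℓ ∣ 2 ^ 2 := by norm_num; exact h
        exact (Nat.prime_dvd_prime_iff_eq hℓ Nat.prime_two).1 (hℓ.dvd_of_dvd_pow h')
      · right; left
        exact (Nat.prime_dvd_prime_iff_eq hℓ hp).1 (hℓ.dvd_of_dvd_pow h)
    · right; right
      exact (Nat.prime_dvd_prime_iff_eq hℓ hq).1 (hℓ.dvd_of_dvd_pow h)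
  have pfX : ∀ ℓ : ℕ, ℓ.Prime →
      (ℓ : ℤ) ∣ ((A : ℤ) + 1) * ((B : ℤ) + ε) * ((C : ℤ) - 1) → ℓ = 2 ∨ ℓ = p ∨ ℓ = q := by
    intro ℓ hℓ hd
    have h1 : (ℓ : ℤ) ∣ 8 * ((A : ℤ) * (B : ℤ) * (C : ℤ)) * (cJ : ℤ) ^ 3 := by
      rw [← heq]
      exact Dvd.dvd.mul_right (Dvd.dvd.mul_left hd _) _
    have h2 : ℓ ∣ 8 * (A * B * C) * cJ ^ 3 := by
      apply Int.natCast_dvd_natCast.1
      push_cast
      exact h1
    rcases (Nat.Prime.dvd_mul hℓ).1 h2 with h | h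
    · rcases (Nat.Prime.dvd_mul hℓ).1 h with h | h
      · left
        have h' : ℓ ∣ 2 ^ 3 := by norm_num; exact h
        exact (Nat.prime_dvd_prime_iff_eq hℓ Nat.prime_two).1 (hℓ.dvd_of_dvd_pow h')
      · rcases (Nat.Prime.dvd_mul hℓ).1 h with h | h
        · rcases (Nat.Prime.dvd_mul hℓ).1 h with h | h
          · exact pfN ℓ hℓ (dvd_trans h hAN)
          · exact pfN ℓ hℓ (dvd_trans h hBN)
        · exact pfN ℓ hℓ (dvd_trans h hCN)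
    · exact pfN ℓ hℓ (dvd_trans (hℓ.dvd_of_dvd_pow h) hcJ)
  obtain ⟨kA, hkA⟩ := h4A
  obtain ⟨kB, hkB⟩ := h4B
  obtain ⟨kC, hkC⟩ := h4C
  obtain ⟨U, hU⟩ : ∃ U : ℕ, U = 2 * kA.toNat + 1 := ⟨_, rfl⟩
  obtain ⟨W, hW⟩ : ∃ W : ℕ, W = 2 * (kC.toNat - 1) + 1 := ⟨_, rfl⟩
  have hAU : A + 1 = 2 * U := by omega
  have hCW : C = 2 * W + 1 := by omega
  have pfA : ∀ ℓ : ℕ, ℓ.Prime → ℓ ∣ A → ℓ = p ∨ ℓ = q := by
    intro ℓ hℓ hd
    rcases pfN ℓ hℓ (dvd_trans hd hAN) with h | h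
    · exfalso; subst h; omega
    · exact h
  have pfC : ∀ ℓ : ℕ, ℓ.Prime → ℓ ∣ C → ℓ = p ∨ ℓ = q := by
    intro ℓ hℓ hd
    rcases pfN ℓ hℓ (dvd_trans hd hCN) with h | h
    · exfalso; subst h; omega
    · exact h
  have pfU : ∀ ℓ : ℕ, ℓ.Prime → ℓ ∣ U → ℓ = p ∨ ℓ = q := by
    intro ℓ hℓ hd
    have h1 : (ℓ : ℤ) ∣ (A : ℤ) + 1 := by
      have h0 : (A : ℤ) + 1 = 2 * (U : ℤ) := by exact_mod_cast hAU
      rw [h0]; exact Dvd.dvd.mul_left (Int.natCast_dvd_natCast.2 hd) 2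
    rcases pfX ℓ hℓ (Dvd.dvd.mul_right (Dvd.dvd.mul_right h1 _) _) with h | h
    · exfalso; subst h; omega
    · exact h
  have pfW : ∀ ℓ : ℕ, ℓ.Prime → ℓ ∣ W → ℓ = p ∨ ℓ = q := by
    intro ℓ hℓ hd
    have h1 : (ℓ : ℤ) ∣ (C : ℤ) - 1 := by
      have h0 : (C : ℤ) - 1 = 2 * (W : ℤ) := by omega
      rw [h0]; exact Dvd.dvd.mul_left (Int.natCast_dvd_natCast.2 hd) 2
    rcases pfX ℓ hℓ (Dvd.dvd.mul_left h1 _) with h | h
    · exfalso; subst h; omega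
    · exact h
  have exA : ¬ (p ∣ A ∧ q ∣ A) := by
    rintro ⟨h1, h2⟩
    have hU1 : U = 1 := by
      apply arith4_eq_one
      intro ℓ hℓ hd
      rcases pfU ℓ hℓ hd with h | h
      · subst h; exact arith4_cop1 hℓ hAU hd h1
      · subst h; exact arith4_cop1 hℓ hAU hd h2
    omega
  have h3 : ∀ n : ℕ, n = 3 → ¬ (p ∣ n ∧ q ∣ n) := by
    rintro n rfl ⟨h1, h2⟩
    have e1 := (Nat.prime_dvd_prime_iff_eq hp Nat.prime_three).1 h1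
    have e2 := (Nat.prime_dvd_prime_iff_eq hq Nat.prime_three).1 h2
    exact hpq (e1.trans e2.symm)
  have exC : ¬ (p ∣ C ∧ q ∣ C) := by
    rintro ⟨h1, h2⟩
    have hW1 : W = 1 := by
      apply arith4_eq_one
      intro ℓ hℓ hd
      rcases pfW ℓ hℓ hd with h | h
      · subst h; exact arith4_cop2 hℓ hCW hd h1
      · subst h; exact arith4_cop2 hℓ hCW hd h2
    exact h3 C (by omega) ⟨h1, h2⟩
  have pfB : ∀ ℓ : ℕ, ℓ.Prime → ℓ ∣ B → ℓ = p ∨ ℓ = q := by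
    intro ℓ hℓ hd
    rcases pfN ℓ hℓ (dvd_trans hd hBN) with h | h
    · exfalso; subst h
      rcases hε with rfl | rfl <;> omega
    · exact h
  rcases hε with rfl | rfl
  · -- ε = 1
    exfalso
    obtain ⟨V, hV⟩ : ∃ V : ℕ, V = 2 * kB.toNat + 1 := ⟨_, rfl⟩
    have hBV : B + 1 = 2 * V := by omega
    have hsumN : A + B = 2 * W := by omega
    have pfV : ∀ ℓ : ℕ, ℓ.Prime → ℓ ∣ V → ℓ = p ∨ ℓ = q := by
      intro ℓ hℓ hd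
      have h1 : (ℓ : ℤ) ∣ (B : ℤ) + 1 := by
        have h0 : (B : ℤ) + 1 = 2 * (V : ℤ) := by exact_mod_cast hBV
        rw [h0]; exact Dvd.dvd.mul_left (Int.natCast_dvd_natCast.2 hd) 2
      rcases pfX ℓ hℓ (Dvd.dvd.mul_right (Dvd.dvd.mul_left h1 _) _) with h | h
      · exfalso; subst h; omega
      · exact h
    have exB : ¬ (p ∣ B ∧ q ∣ B) := by
      rintro ⟨h1, h2⟩
      have hV1 : V = 1 := by
        apply arith4_eq_one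
        intro ℓ hℓ hd
        rcases pfV ℓ hℓ hd with h | h
        · subst h; exact arith4_cop1 hℓ hBV hd h1
        · subst h; exact arith4_cop1 hℓ hBV hd h2
      omega
    by_cases hpA : p ∣ A
    · exact arith4_core1 p q hp hp2 A B C U W hA1 hB1 hC1 pfA pfB pfC hAU hCW hsumN pfU pfW
        exA exB hpA
    · have hqA : q ∣ A := arith4_pf_of_gt hA1 pfA hpA
      exact arith4_core1 q p hq hq2 A B C U W hA1 hB1 hC1 (fun ℓ hℓ hd => (pfA ℓ hℓ hd).symm)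
        (fun ℓ hℓ hd => (pfB ℓ hℓ hd).symm) (fun ℓ hℓ hd => (pfC ℓ hℓ hd).symm) hAU hCW hsumN
        (fun ℓ hℓ hd => (pfU ℓ hℓ hd).symm) (fun ℓ hℓ hd => (pfW ℓ hℓ hd).symm)
        (fun h => exA ⟨h.2, h.1⟩) (fun h => exB ⟨h.2, h.1⟩) hqA
  · -- ε = -1
    refine ⟨rfl, ?_⟩
    obtain ⟨V, hV⟩ : ∃ V : ℕ, V = 2 * (kB.toNat - 1) + 1 := ⟨_, rfl⟩
    have hBV : B = 2 * V + 1 := by omega
    have hsumN : B + C = 2 * U := by omega
    have pfV : ∀ ℓ : ℕ, ℓ.Prime → ℓ ∣ V → ℓ = p ∨ ℓ = q := by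
      intro ℓ hℓ hd
      have h1 : (ℓ : ℤ) ∣ (B : ℤ) + (-1) := by
        have h0 : (B : ℤ) + (-1) = 2 * (V : ℤ) := by omega
        rw [h0]; exact Dvd.dvd.mul_left (Int.natCast_dvd_natCast.2 hd) 2
      rcases pfX ℓ hℓ (Dvd.dvd.mul_right (Dvd.dvd.mul_left h1 _) _) with h | h
      · exfalso; subst h; omega
      · exact h
    have exB : ¬ (p ∣ B ∧ q ∣ B) := by
      rintro ⟨h1, h2⟩
      have hV1 : V = 1 := by
        apply arith4_eq_one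
        intro ℓ hℓ hd
        rcases pfV ℓ hℓ hd with h | h
        · subst h; exact arith4_cop2 hℓ hBV hd h1
        · subst h; exact arith4_cop2 hℓ hBV hd h2
      exact h3 B (by omega) ⟨h1, h2⟩
    by_cases hpB : p ∣ B
    · exact arith4_core2 p q hp hp2 A B C U V hA1 hB1 hC1 pfA pfB pfC hAU hBV hsumN pfU pfV
        exB exC hpB
    · have hqB : q ∣ B := arith4_pf_of_gt hB1 pfB hpB
      exact arith4_core2 q p hq hq2 A B C U V hA1 hB1 hC1 (fun ℓ hℓ hd => (pfA ℓ hℓ hd).symm)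
        (fun ℓ hℓ hd => (pfB ℓ hℓ hd).symm) (fun ℓ hℓ hd => (pfC ℓ hℓ hd).symm) hAU hBV hsumN
        (fun ℓ hℓ hd => (pfU ℓ hℓ hd).symm) (fun ℓ hℓ hd => (pfV ℓ hℓ hd).symm)
        (fun h => exB ⟨h.2, h.1⟩) (fun h => exC ⟨h.2, h.1⟩) hqB

example : StmtArith4 := arith4

end Cfsg.Agent.H3.Br
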