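import Mathlib
import Cfsg.Agent.H79.BrDefs

set_option autoImplicit false

namespace Cfsg.Agent.H3.Br

universe u

/-- S4504-CENTALL: normal `p'`-subgroups are central. -/
theorem centAll (hP : Cfsg.Agent.H79.Br.StCentP.{u}) (hS : Cfsg.Agent.H79.Br.StSchur.{u})
    (hN : Cfsg.Agent.H79.Br.StNP.{u}) : Cfsg.Agent.H79.Br.StCentAll.{u} := by
  intro G _ _ p _ P hPcard hPn χ hχ hfaith hdeg M hMn hMp
  have hcent := hP p P hPcard χ hχ hfaith (le_of_eq hdeg) M hMn hMp
  obtain ⟨-, -, hirr⟩ := hN p P hPcard hPn χ hχ hfaith hdeg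
  have hSch := hS (Subgroup.normalClosure ((P : Subgroup G) : Set G)) χ hχ hfaith hirr
  intro m hm
  apply hSch m
  haveI := hMn
  haveI : (Subgroup.centralizer (M : Set G)).Normal := Subgroup.normal_centralizer
  have hle : Subgroup.normalClosure ((P : Subgroup G) : Set G) ≤
      Subgroup.centralizer (M : Set G) := by
    apply Subgroup.normalClosure_le_normal
    intro x hx
    rw [SetLike.mem_coe, Subgroup.mem_centralizer_iff]
    intro m' hm'
    exact hcent m' hm' x hx
  intro g hg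
  exact (Subgroup.mem_centralizer_iff.1 (hle hg)) m hm

example (hP : Cfsg.Agent.H79.Br.StCentP.{u}) (hS : Cfsg.Agent.H79.Br.StSchur.{u})
    (hN : Cfsg.Agent.H79.Br.StNP.{u}) : Cfsg.Agent.H79.Br.StCentAll.{u} := centAll hP hS hN

end Cfsg.Agent.H3.Br
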