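import Mathlib
import Cfsg.Agent.H79.BrDefs

set_option autoImplicit false

namespace Cfsg.Agent.H3.Br

universe u

/-- S4504-CORE1. -/
theorem core1 (hM : Cfsg.Agent.H79.Br.StMom1.{u}) (hS : Cfsg.Agent.H79.Br.StSylLB.{u}) :
    Cfsg.Agent.H79.Br.StCore1.{u} := by
  intro G _ _ p _ P χ x₁ x₂ hLoc hp1
  have h1 := hM p (P : Subgroup G) χ x₁ x₂ hLoc hp1
  have h2 := (hS p P hLoc.nn).1
  have h3 := hLoc.grp.norm
  rw [h3] at h2
  apply le_antisymm h1
  calc (p + 1) * p * Cfsg.charDegree χ * Nat.card (Subgroup.center G)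
      = (p + 1) * (p * Cfsg.charDegree χ * Nat.card (Subgroup.center G)) := by ring
    _ ≤ Nat.card G := h2

example (hM : Cfsg.Agent.H79.Br.StMom1.{u}) (hS : Cfsg.Agent.H79.Br.StSylLB.{u}) :
    Cfsg.Agent.H79.Br.StCore1.{u} := core1 hM hS

end Cfsg.Agent.H3.Br
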