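import Mathlib
import Cfsg.Agent.H2.BrDefs

/-! helper3: piece S4501-KILLK of helper2's project. -/

set_option autoImplicit false

namespace Cfsg.Agent.H3.Br

open Cfsg Cfsg.Agent.H2.Br

universe u

theorem killK : StmtKillK.{u} := by
  intro G _ _ J K hK hcent hcard
  by_contra h1
  obtain ⟨l, hl, hlK⟩ := Nat.exists_prime_and_dvd h1
  haveI : Fact l.Prime := ⟨hl⟩
  obtain ⟨k, hk⟩ := exists_prime_orderOf_dvd_card' (G := K) l hlK
  have hkG : orderOf (k : G) = l := by rw [Subgroup.orderOf_coe]; exact hk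
  have hk1 : (k : G) ≠ 1 := by
    intro h
    rw [h, orderOf_one] at hkG
    exact hl.one_lt.ne hkG
  have hl2 : l ≠ 2 := by
    rintro rfl
    have := ((hK (k : G)).1 k.2).1
    rw [hkG] at this
    exact (by decide : ¬ Odd 2) this
  have hlodd : Odd l := hl.odd_of_ne_two hl2
  have hpz : IsPGroup l (Subgroup.zpowers (k : G)) := by
    apply IsPGroup.of_card (n := 1)
    rw [Nat.card_zpowers, hkG, pow_one]
  obtain ⟨S, hS⟩ := hpz.exists_le_sylow
  have hkS : (k : G) ∈ (S : Subgroup G) := hS (Subgroup.mem_zpowers _)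
  haveI : Nontrivial (S : Subgroup G) :=
    ⟨⟨⟨(k : G), hkS⟩, 1, fun h => hk1 (congrArg Subtype.val h)⟩⟩
  haveI : Nontrivial (Subgroup.center (S : Subgroup G)) := S.isPGroup'.center_nontrivial
  obtain ⟨z, hz1⟩ := exists_ne (1 : Subgroup.center (S : Subgroup G))
  have hzG1 : ((z : (S : Subgroup G)) : G) ≠ 1 := by
    intro h
    apply hz1
    apply Subtype.ext
    apply Subtype.ext
    exact h
  have hzc : ∀ s : G, s ∈ (S : Subgroup G) →
      s * ((z : (S : Subgroup G)) : G) = ((z : (S : Subgroup G)) : G) * s := by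
    intro s hs
    have := Subgroup.mem_center_iff.1 z.2 ⟨s, hs⟩
    exact congrArg Subtype.val this
  have hodd : ∀ s : G, s ∈ (S : Subgroup G) → Odd (orderOf s) := by
    intro s hs
    obtain ⟨j, hj⟩ := (IsPGroup.iff_orderOf.1 S.isPGroup') ⟨s, hs⟩
    rw [Subgroup.orderOf_mk] at hj
    rw [hj]
    exact hlodd.pow
  have hzJ : ((z : (S : Subgroup G)) : G) * J = J * ((z : (S : Subgroup G)) : G) :=
    hcent (k : G) k.2 hk1 _ (hzc (k : G) hkS).symm
  have hzK : ((z : (S : Subgroup G)) : G) ∈ K := (hK _).2 ⟨hodd _ (z : (S : Subgroup G)).2, hzJ⟩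
  have hSK : (S : Subgroup G) ≤ K := by
    intro s hs
    exact (hK s).2 ⟨hodd s hs, hcent _ hzK hzG1 s (hzc s hs)⟩
  have hdvd : Nat.card (S : Subgroup G) ∣ Nat.card K := Subgroup.card_dvd_of_le hSK
  rw [Sylow.card_eq_multiplicity] at hdvd
  have hG0 : Nat.card G ≠ 0 := Nat.card_pos.ne'
  apply Nat.pow_succ_factorization_not_dvd hG0 hl
  rw [hcard]
  have h2 : l ^ ((Nat.card G).factorization l + 1) ∣ Nat.card K * Nat.card K := by
    rw [pow_succ]
    exact Nat.mul_dvd_mul hdvd hlK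
  rw [hcard] at h2
  refine dvd_trans h2 ?_
  exact ⟨60 * Nat.card K, by ring⟩

example : StmtKillK.{u} := killK

end Cfsg.Agent.H3.Br
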