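import Mathlib
import Cfsg.Agent.H79.BrDefs
import Cfsg.Agent.H16.BRN1B

set_option autoImplicit false

namespace Cfsg.Agent.H3.Br

universe u

/-- S4504-SEMI: a perfect group has no non-trivial action by semi-affine maps. -/
theorem semi : Cfsg.Agent.H79.Br.StSemi.{u} := by
  intro F _ _ K _ hperf φ hmem k
  have h1 := Cfsg.Agent.H16.BR.image_mem_of_comm hperf φ _ (Cfsg.affineGroup F) hmem
    (fun σ hσ τ hτ => Cfsg.Agent.H16.BR.comm_mem_affine σ τ hσ hτ)
  have h2 := Cfsg.Agent.H16.BR.image_mem_of_comm hperf φ _ (Cfsg.Agent.H16.BR.transl F) h1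
    (fun σ hσ τ hτ => Cfsg.Agent.H16.BR.comm_mem_transl σ τ hσ hτ)
  have h3 := Cfsg.Agent.H16.BR.image_mem_of_comm hperf φ _ ⊥ h2
    (fun σ hσ τ hτ => by
      rw [Subgroup.mem_bot]; exact Cfsg.Agent.H16.BR.comm_eq_one_of_transl σ τ hσ hτ)
  exact Subgroup.mem_bot.mp (h3 k)

example : Cfsg.Agent.H79.Br.StSemi.{u} := semi

end Cfsg.Agent.H3.Br
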