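import Mathlib
import Cfsg.Agent.H14.CqDefs

/-!
# COUNT sub-tree piece CQ-CNTPP (helper3 for helper14): the number of totally singular
`m`-spaces of the plus space, `m < d`, is prime to the characteristic.
-/

set_option autoImplicit false

namespace Cfsg.Agent.H3.Cq

open Cfsg.Agent.H77.Tq Cfsg.Agent.H77.Tm Cfsg.Agent.H14.Cq Module

universe u

theorem cntPP (hC : StCardP.{u}) : StCntPP.{u} := by
  intro F _ _ p _ _ d m hm hdvd
  have h := hC F d m hm.le
  obtain ⟨n, hp, hq⟩ := FiniteField.card F p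
  obtain ⟨q, hqdef⟩ : ∃ q : ℕ, q = Fintype.card F := ⟨_, rfl⟩
  rw [← hqdef] at h hq
  have hq0 : 0 < q := by
    rw [hq]
    exact pow_pos hp.pos _
  have hpq : p ∣ q := by
    rw [hq]
    exact dvd_pow_self p n.pos.ne'
  -- split off the powers of `q`
  have e1 : ∏ j ∈ Finset.range m, (q ^ m - q ^ j) =
      (∏ j ∈ Finset.range m, q ^ j) * ∏ j ∈ Finset.range m, (q ^ (m - j) - 1) := by
    rw [← Finset.prod_mul_distrib]
    apply Finset.prod_congr rfl
    intro j hj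
    have hjm : j < m := Finset.mem_range.mp hj
    have e : q ^ m = q ^ j * q ^ (m - j) := by
      rw [← pow_add]
      congr 1
      omega
    rw [e, Nat.mul_sub, mul_one]
  have e2 : ∏ j ∈ Finset.range m, (q ^ j * ((q ^ (d - j) - 1) * (q ^ (d - 1 - j) + 1))) =
      (∏ j ∈ Finset.range m, q ^ j) *
        ∏ j ∈ Finset.range m, ((q ^ (d - j) - 1) * (q ^ (d - 1 - j) + 1)) := by
    rw [← Finset.prod_mul_distrib]
  rw [e1, e2] at h
  have hpos : 0 < ∏ j ∈ Finset.range m, q ^ j :=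
    Finset.prod_pos (fun j _ => pow_pos hq0 j)
  have h3 : NP F d m * ∏ j ∈ Finset.range m, (q ^ (m - j) - 1) =
      ∏ j ∈ Finset.range m, ((q ^ (d - j) - 1) * (q ^ (d - 1 - j) + 1)) := by
    apply Nat.eq_of_mul_eq_mul_left hpos
    rw [← h]
    ring
  have h4 : p ∣ ∏ j ∈ Finset.range m, ((q ^ (d - j) - 1) * (q ^ (d - 1 - j) + 1)) := by
    rw [← h3]
    exact Dvd.dvd.mul_right hdvd _
  obtain ⟨j, hj, hjd⟩ := (Prime.dvd_finsetProd_iff hp.prime _).mp h4
  have hjm : j < m := Finset.mem_range.mp hj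
  have hp1 : ¬ p ∣ 1 := hp.one_lt.ne' ∘ Nat.dvd_one.mp
  rcases (Nat.Prime.dvd_mul hp).mp hjd with h5 | h5
  · have h6 : p ∣ q ^ (d - j) := dvd_pow hpq (by omega)
    have h7 : 1 ≤ q ^ (d - j) := Nat.one_le_pow _ _ hq0
    have h8 : p ∣ q ^ (d - j) - (q ^ (d - j) - 1) := Nat.dvd_sub h6 h5
    have h9 : q ^ (d - j) - (q ^ (d - j) - 1) = 1 := by omega
    rw [h9] at h8
    exact hp1 h8
  · have h6 : p ∣ q ^ (d - 1 - j) := dvd_pow hpq (by omega)
    have h8 : p ∣ q ^ (d - 1 - j) + 1 - q ^ (d - 1 - j) := Nat.dvd_sub h5 h6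
    rw [Nat.add_sub_cancel_left] at h8
    exact hp1 h8

example (hC : StCardP.{u}) : Cfsg.Agent.H14.Cq.StCntPP.{u} := cntPP hC

end Cfsg.Agent.H3.Cq
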