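import Mathlib
import Cfsg.Agent.H14.CqDefs

/-!
# COUNT sub-tree piece CQ-CNTPL (helper3 for helper14): a prime `r ≠ p` dividing the number of
totally singular `m`-spaces of the plus space divides `q^(d-j) - 1` or `q^(d-1-j) + 1` for some
`j < m`.
-/

set_option autoImplicit false

namespace Cfsg.Agent.H3.Cq

open Cfsg.Agent.H77.Tq Cfsg.Agent.H77.Tm Cfsg.Agent.H14.Cq Module

universe u

theorem cntPl (hC : StCardP.{u}) : StCntPl.{u} := by
  intro F _ _ p _ _ d m r hm hr hrp hdvd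
  have h := hC F d m hm
  obtain ⟨n, hp, hq⟩ := FiniteField.card F p
  have h1 : r ∣ ∏ j ∈ Finset.range m, (Fintype.card F ^ j *
      ((Fintype.card F ^ (d - j) - 1) * (Fintype.card F ^ (d - 1 - j) + 1))) := by
    rw [← h]
    exact Dvd.dvd.mul_right hdvd _
  obtain ⟨j, hj, hjd⟩ := (Prime.dvd_finsetProd_iff hr.prime _).mp h1
  refine ⟨j, Finset.mem_range.mp hj, ?_⟩
  rcases (Nat.Prime.dvd_mul hr).mp hjd with h2 | h2
  · exfalso
    have h3 : r ∣ Fintype.card F := hr.dvd_of_dvd_pow h2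
    rw [hq] at h3
    have h4 : r ∣ p := hr.dvd_of_dvd_pow h3
    exact hrp ((Nat.prime_dvd_prime_iff_eq hr hp).mp h4)
  · exact (Nat.Prime.dvd_mul hr).mp h2

example (hC : StCardP.{u}) : Cfsg.Agent.H14.Cq.StCntPl.{u} := cntPl hC

end Cfsg.Agent.H3.Cq
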