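import Cfsg.Agent.H3.DLRing
import Cfsg.Agent.H3.PGroup
import Cfsg.Agent.H3.Critical
import Cfsg.Agent.H1.Frattini

/-!
# The `p = 3` configuration in the proof of `l_p ≤ d_p`

A 3-group `B` acting on a minimal `B`-invariant 2-group `Q` not centralized by `A = [B,B]`,
with `A` acting quadratically in a faithful representation `ρ` in characteristic 3 and
`(ρ a - 1)(ρ y₂ - 1)(ρ y₁ - 1) = 0` for `a ∈ A`, `y₁, y₂ ∈ B`: this is contradictory.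
-/

set_option autoImplicit false
set_option linter.unusedVariables false
set_option linter.unusedSectionVars false

namespace Cfsg.Agent.H3

open scoped commutatorElement

theorem dl_comm_trick {H : Type*} [Group H] (x a : H) (k j : ℕ) (ha : a ^ (3 ^ k) = 1)
    (hc : (x * a * x⁻¹ * a⁻¹) ^ (2 ^ j) = 1)
    (hcomm : a * (x * a * x⁻¹ * a⁻¹) = (x * a * x⁻¹ * a⁻¹) * a) : x * a * x⁻¹ * a⁻¹ = 1 := by
  obtain ⟨c, hc'⟩ : ∃ c, c = x * a * x⁻¹ * a⁻¹ := ⟨_, rfl⟩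
  rw [← hc'] at hc hcomm ⊢
  have h1 : x * a * x⁻¹ = c * a := by rw [hc']; group
  have h2 : (c * a) ^ (3 ^ k) = c ^ (3 ^ k) * a ^ (3 ^ k) :=
    (show Commute c a from hcomm.symm).mul_pow _
  have h3 : (x * a * x⁻¹) ^ (3 ^ k) = 1 := by rw [conj_pow, ha]; group
  rw [h1, h2, ha, mul_one] at h3
  have h4 : orderOf c ∣ 3 ^ k := orderOf_dvd_of_pow_eq_one h3
  have h5 : orderOf c ∣ 2 ^ j := orderOf_dvd_of_pow_eq_one hc
  have h6 : orderOf c ∣ Nat.gcd (3 ^ k) (2 ^ j) := Nat.dvd_gcd h4 h5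
  have h7 : Nat.gcd (3 ^ k) (2 ^ j) = 1 := Nat.Coprime.pow _ _ (by norm_num)
  rw [h7, Nat.dvd_one] at h6
  exact orderOf_eq_one_iff.mp h6

/-- The standing configuration. -/
structure DL3Ctx {H : Type*} [Group H] {R : Type*} [Ring R] (ρ : H →* R) (B A Q : Subgroup H) :
    Prop where
  h3 : (3 : R) = 0
  inj : Function.Injective ρ
  hB : IsPGroup 3 B
  hA : A = ⁅B, B⁆
  hquad : ∀ a ∈ A, (ρ a - 1) * (ρ a - 1) = 0
  hc2 : ∀ a ∈ A, ∀ y₁ ∈ B, ∀ y₂ ∈ B, (ρ a - 1) * (ρ y₂ - 1) * (ρ y₁ - 1) = 0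
  hQ2 : IsPGroup 2 Q
  hBQ : ∀ b ∈ B, ∀ x ∈ Q, b * x * b⁻¹ ∈ Q
  hmin : ∀ X : Subgroup H, X ≤ Q → X ≠ Q → (∀ b ∈ B, ∀ x ∈ X, b * x * b⁻¹ ∈ X) →
    ∀ a ∈ A, ∀ x ∈ X, a * x = x * a
  hnc : ¬ ∀ a ∈ A, ∀ x ∈ Q, a * x = x * a

/-- `Z = C_Q(A)`. -/
def dl3Z {H : Type*} [Group H] (A Q : Subgroup H) : Subgroup H :=
  Q ⊓ Subgroup.centralizer (A : Set H)

theorem mem_dl3Z {H : Type*} [Group H] {A Q : Subgroup H} {z : H} :
    z ∈ dl3Z A Q ↔ z ∈ Q ∧ ∀ a ∈ A, a * z = z * a := by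
  unfold dl3Z
  rw [Subgroup.mem_inf, Subgroup.mem_centralizer_iff]
  rfl

namespace DL3Ctx

variable {H : Type*} [Group H] [Finite H] {R : Type*} [Ring R] {ρ : H →* R} {B A Q : Subgroup H}

theorem AB (h : DL3Ctx ρ B A Q) : A ≤ B := by
  rw [h.hA, Subgroup.commutator_le]
  intro x hx y hy
  rw [commutatorElement_def]
  exact B.mul_mem (B.mul_mem (B.mul_mem hx hy) (B.inv_mem hx)) (B.inv_mem hy)

theorem An (h : DL3Ctx ρ B A Q) : ∀ b ∈ B, ∀ a ∈ A, b * a * b⁻¹ ∈ A := by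
  intro b hb a ha
  have h1 : b * a * b⁻¹ = ⁅b, a⁆ * a := by rw [commutatorElement_def]; group
  rw [h1]
  refine A.mul_mem ?_ ha
  rw [h.hA]
  exact Subgroup.commutator_mem_commutator hb (h.AB ha)

theorem BQ' (h : DL3Ctx ρ B A Q) : ∀ b ∈ B, ∀ x ∈ Q, b⁻¹ * x * b ∈ Q := by
  intro b hb x hx
  have := h.hBQ b⁻¹ (B.inv_mem hb) x hx
  rwa [inv_inv] at this

theorem a_pow (h : DL3Ctx ρ B A Q) : ∀ a ∈ A, ∃ k : ℕ, a ^ (3 ^ k) = 1 := by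
  intro a ha
  obtain ⟨k, hk⟩ := h.hB ⟨a, h.AB ha⟩
  exact ⟨k, congrArg Subtype.val hk⟩

theorem q_pow (h : DL3Ctx ρ B A Q) : ∀ x ∈ Q, ∃ j : ℕ, x ^ (2 ^ j) = 1 := by
  intro x hx
  obtain ⟨k, hk⟩ := h.hQ2 ⟨x, hx⟩
  exact ⟨k, congrArg Subtype.val hk⟩

theorem comm_trick (h : DL3Ctx ρ B A Q) : ∀ a ∈ A, ∀ x ∈ Q,
    a * (x * a * x⁻¹ * a⁻¹) = (x * a * x⁻¹ * a⁻¹) * a → a * x = x * a := by
  intro a ha x hx hc
  obtain ⟨k, hk⟩ := h.a_pow a ha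
  have hcQ : x * a * x⁻¹ * a⁻¹ ∈ Q := by
    have h1 : x * a * x⁻¹ * a⁻¹ = x * (a * x⁻¹ * a⁻¹) := by group
    rw [h1]
    exact Q.mul_mem hx (h.hBQ a (h.AB ha) _ (Q.inv_mem hx))
  obtain ⟨j, hj⟩ := h.q_pow _ hcQ
  have h1 := dl_comm_trick x a k j hk hj hc
  have h2 : x * a = (x * a * x⁻¹ * a⁻¹) * (a * x) := by group
  rw [h2, h1, one_mul]

theorem QA (h : DL3Ctx ρ B A Q) : ⁅Q, A⁆ = Q := by
  have hle : ⁅Q, A⁆ ≤ Q := by
    rw [Subgroup.commutator_le]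
    intro x hx a ha
    have h1 : ⁅x, a⁆ = x * (a * x⁻¹ * a⁻¹) := by rw [commutatorElement_def]; group
    rw [h1]
    exact Q.mul_mem hx (h.hBQ a (h.AB ha) _ (Q.inv_mem hx))
  by_contra hne
  have hinv : ∀ b ∈ B, ∀ g ∈ ⁅Q, A⁆, b * g * b⁻¹ ∈ ⁅Q, A⁆ := by
    intro b hb g hg
    have h1 : (⁅Q, A⁆).map (MulAut.conj b).toMonoidHom ≤ ⁅Q, A⁆ := by
      rw [Subgroup.map_commutator]
      apply Subgroup.commutator_mono
      · rintro _ ⟨x, hx, rfl⟩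
        exact h.hBQ b hb x hx
      · rintro _ ⟨a, ha, rfl⟩
        exact h.An b hb a ha
    exact h1 ⟨g, hg, rfl⟩
  apply h.hnc
  intro a ha x hx
  apply h.comm_trick a ha x hx
  have h1 : x * a * x⁻¹ * a⁻¹ ∈ ⁅Q, A⁆ := by
    have := Subgroup.commutator_mem_commutator hx ha
    rwa [commutatorElement_def] at this
  exact h.hmin _ hle hne hinv a ha _ h1

theorem Z_le (h : DL3Ctx ρ B A Q) : dl3Z A Q ≤ Q := inf_le_left

theorem Z_inv (h : DL3Ctx ρ B A Q) : ∀ b ∈ B, ∀ z ∈ dl3Z A Q, b * z * b⁻¹ ∈ dl3Z A Q := by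
  intro b hb z hz
  rw [mem_dl3Z] at hz ⊢
  refine ⟨h.hBQ b hb z hz.1, ?_⟩
  intro a ha
  have h1 := hz.2 (b⁻¹ * a * b) (by
    have := h.An b⁻¹ (B.inv_mem hb) a ha
    rwa [inv_inv] at this)
  calc a * (b * z * b⁻¹) = b * ((b⁻¹ * a * b) * z) * b⁻¹ := by group
    _ = b * (z * (b⁻¹ * a * b)) * b⁻¹ := by rw [h1]
    _ = b * z * b⁻¹ * a := by group

theorem le_Z (h : DL3Ctx ρ B A Q) (X : Subgroup H) (hX : X ≤ Q) (hne : X ≠ Q)
    (hinv : ∀ b ∈ B, ∀ x ∈ X, b * x * b⁻¹ ∈ X) : X ≤ dl3Z A Q := by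
  intro x hx
  rw [mem_dl3Z]
  exact ⟨hX hx, fun a ha => h.hmin X hX hne hinv a ha x hx⟩

theorem Z_ne (h : DL3Ctx ρ B A Q) : dl3Z A Q ≠ Q := by
  intro heq
  apply h.hnc
  intro a ha x hx
  rw [← heq, mem_dl3Z] at hx
  exact hx.2 a ha

theorem B_le_normalizer (h : DL3Ctx ρ B A Q) : B ≤ Subgroup.normalizer (Q : Set H) := by
  intro b hb
  rw [Subgroup.mem_normalizer_iff]
  intro x
  constructor
  · intro hx; exact h.hBQ b hb x hx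
  · intro hx
    have := h.BQ' b hb _ hx
    have e : b⁻¹ * (b * x * b⁻¹) * b = x := by group
    rwa [e] at this

theorem frat_le_Z (h : DL3Ctx ρ B A Q) : (frattini ↥Q).map Q.subtype ≤ dl3Z A Q := by
  apply h.le_Z _ (Subgroup.map_subtype_le _)
  · intro heq
    have h1 : frattini ↥Q = ⊤ := by
      apply Subgroup.map_injective Q.subtype_injective
      rw [heq, ← MonoidHom.range_eq_map, Subgroup.range_subtype]
    have h2 : (⊥ : Subgroup ↥Q) ⊔ frattini ↥Q = ⊤ := by rw [bot_sup_eq, h1]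
    have h3 : (⊥ : Subgroup ↥Q) = ⊤ := frattini_nongenerating h2
    apply h.hnc
    intro a ha x hx
    have h4 : (⟨x, hx⟩ : ↥Q) ∈ (⊥ : Subgroup ↥Q) := by rw [h3]; exact Subgroup.mem_top _
    rw [Subgroup.mem_bot] at h4
    have h5 : x = 1 := congrArg Subtype.val h4
    rw [h5, mul_one, one_mul]
  · have h1 := (H1.normalizer_le_normalizer_map_of_characteristic Q (frattini ↥Q))
    intro b hb x hx
    have h2 := h1 (h.B_le_normalizer hb)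
    rw [Subgroup.mem_normalizer_iff] at h2
    exact (h2 x).mp hx

theorem sq_mem (h : DL3Ctx ρ B A Q) : ∀ x ∈ Q, x * x ∈ dl3Z A Q := by
  intro x hx
  apply h.frat_le_Z
  haveI : Fact (Nat.Prime 2) := ⟨Nat.prime_two⟩
  refine ⟨(⟨x, hx⟩ : ↥Q) ^ 2, H3.pow_mem_frattini h.hQ2 _, ?_⟩
  simp [pow_two]

theorem comm_mem (h : DL3Ctx ρ B A Q) : ∀ x ∈ Q, ∀ y ∈ Q, x * y * x⁻¹ * y⁻¹ ∈ dl3Z A Q := by
  intro x hx y hy
  apply h.frat_le_Z
  haveI : Fact (Nat.Prime 2) := ⟨Nat.prime_two⟩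
  refine ⟨⁅(⟨x, hx⟩ : ↥Q), (⟨y, hy⟩ : ↥Q)⁆, ?_, ?_⟩
  · exact H3.commutator_le_frattini h.hQ2
      (Subgroup.commutator_mem_commutator (Subgroup.mem_top _) (Subgroup.mem_top _))
  · simp [commutatorElement_def]

theorem Z_central (h : DL3Ctx ρ B A Q) : ∀ z ∈ dl3Z A Q, ∀ x ∈ Q, z * x = x * z := by
  have h1 : ⁅A, dl3Z A Q⁆ = ⊥ := by
    rw [Subgroup.commutator_eq_bot_iff_le_centralizer]
    intro a ha
    rw [Subgroup.mem_centralizer_iff]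
    intro z hz
    exact ((mem_dl3Z.mp hz).2 a ha).symm
  have h1' : ⁅dl3Z A Q, A⁆ = ⊥ := by rw [Subgroup.commutator_comm]; exact h1
  have h2 : ⁅⁅A, dl3Z A Q⁆, Q⁆ = ⊥ := by rw [h1]; exact Subgroup.commutator_bot_left Q
  have h3 : ⁅⁅dl3Z A Q, Q⁆, A⁆ = ⊥ := by
    rw [eq_bot_iff, ← h1']
    apply Subgroup.commutator_mono _ le_rfl
    rw [Subgroup.commutator_le]
    intro z hz x hx
    rw [commutatorElement_def]
    exact h.comm_mem z (h.Z_le hz) x hx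
  have h4 := Subgroup.commutator_commutator_eq_bot_of_rotate h2 h3
  rw [h.QA, Subgroup.commutator_eq_bot_iff_le_centralizer] at h4
  intro z hz x hx
  have := h4 hx
  rw [Subgroup.mem_centralizer_iff] at this
  exact this z hz

theorem comm_sq (h : DL3Ctx ρ B A Q) : ∀ x ∈ Q, ∀ y ∈ Q,
    (x * y * x⁻¹ * y⁻¹) * (x * y * x⁻¹ * y⁻¹) = 1 := by
  intro x hx y hy
  obtain ⟨c, hc⟩ : ∃ c, c = x * y * x⁻¹ * y⁻¹ := ⟨_, rfl⟩
  rw [← hc]
  have hcZ : c ∈ dl3Z A Q := by rw [hc]; exact h.comm_mem x hx y hy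
  have h1 : (x * x) * y * (x * x)⁻¹ * y⁻¹ = x * c * x⁻¹ * c := by rw [hc]; group
  have h2 : c * x = x * c := h.Z_central c hcZ x hx
  have h3 : (x * x) * y = y * (x * x) := h.Z_central _ (h.sq_mem x hx) y hy
  have h4 : (x * x) * y * (x * x)⁻¹ * y⁻¹ = 1 := by rw [h3]; group
  rw [h4, ← h2] at h1
  have h5 : c * x * x⁻¹ * c = c * c := by group
  rw [h5] at h1
  exact h1.symm

end DL3Ctx

end Cfsg.Agent.H3
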