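import Cfsg.Agent.H3.DLCore

/-!
# The `p = 3` configuration, part 2: the central element `a₀` and the relation `[e, e^a₀] ≠ 1`
-/

set_option autoImplicit false
set_option linter.unusedVariables false
set_option linter.unusedSectionVars false

namespace Cfsg.Agent.H3

open scoped commutatorElement

/-- The subgroup of elements fixing `E` under left multiplication. -/
def dlFix {H : Type*} [Group H] {R : Type*} [Ring R] (ρ : H →* R) (E : R) : Subgroup H where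
  carrier := {g | ρ g * E = E}
  mul_mem' := by
    intro a b ha hb
    have ha' : ρ a * E = E := ha
    have hb' : ρ b * E = E := hb
    show ρ (a * b) * E = E
    rw [map_mul, mul_assoc, hb', ha']
  one_mem' := by
    show ρ 1 * E = E
    rw [map_one, one_mul]
  inv_mem' := by
    intro a ha
    have ha' : ρ a * E = E := ha
    show ρ a⁻¹ * E = E
    have h1 : ρ a⁻¹ * (ρ a * E) = E := by
      rw [← mul_assoc, ← map_mul, inv_mul_cancel, map_one, one_mul]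
    rw [ha'] at h1
    exact h1

theorem mem_dlFix {H : Type*} [Group H] {R : Type*} [Ring R] (ρ : H →* R) (E : R) (g : H) :
    g ∈ dlFix ρ E ↔ ρ g * E = E := Iff.rfl

/-- Group relations among `t = e⁻¹ e^a`, its conjugates and `c = [e, e^a]`. -/
theorem dl_group_rel {G : Type*} [Group G] (a e c : G) (haaa : a * a * a = 1)
    (hc : c = e * (a * e * a⁻¹) * e⁻¹ * (a * e * a⁻¹)⁻¹) (hca : a * c = c * a)
    (hce : c * e = e * c) (hcc : c * c = 1) (hs : a * (e * e) = (e * e) * a) :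
    (e⁻¹ * (a * e * a⁻¹)) * (e⁻¹ * (a * e * a⁻¹)) = c ∧
    (a * (e⁻¹ * (a * e * a⁻¹)) * a⁻¹) * (e⁻¹ * (a * e * a⁻¹)) =
      c * ((e⁻¹ * (a * e * a⁻¹)) * (a * (e⁻¹ * (a * e * a⁻¹)) * a⁻¹)) ∧
    a⁻¹ * (e⁻¹ * (a * e * a⁻¹)) * a =
      c * ((e⁻¹ * (a * e * a⁻¹)) * (a * (e⁻¹ * (a * e * a⁻¹)) * a⁻¹)) := by
  have haa : a * a = a⁻¹ := eq_inv_of_mul_eq_one_left haaa
  obtain ⟨e1, he1⟩ : ∃ e1, e1 = a * e * a⁻¹ := ⟨_, rfl⟩
  obtain ⟨e2, he2⟩ : ∃ e2, e2 = a⁻¹ * e * a := ⟨_, rfl⟩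
  rw [← he1] at hc ⊢
  obtain ⟨t, ht⟩ : ∃ t, t = e⁻¹ * e1 := ⟨_, rfl⟩
  rw [← ht]
  have hcinv : c⁻¹ = c := inv_eq_of_mul_eq_one_left hcc
  have Q1 : e1 * e1 = e * e := by
    have : e1 * e1 = a * (e * e) * a⁻¹ := by rw [he1]; group
    rw [this, hs]; group
  have Q2 : e2 * e2 = e * e := by
    have : e2 * e2 = a⁻¹ * ((e * e) * a) := by rw [he2]; group
    rw [this, ← hs]; group
  have hta : a * t * a⁻¹ = e1⁻¹ * e2 := by
    have h1 : a * t * a⁻¹ = e1⁻¹ * ((a * a) * e * (a * a)⁻¹) := by rw [ht, he1]; group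
    rw [h1, haa, he2, inv_inv]
  have htb : a⁻¹ * t * a = e2⁻¹ * e := by rw [ht, he1, he2]; group
  have hx : t * (a * t * a⁻¹) = e⁻¹ * e2 := by rw [hta, ht]; group
  have hred : ∀ w : G, w * w = e * e → e⁻¹ * e⁻¹ * c * (w * w) = c := by
    intro w hw
    rw [hw]
    calc e⁻¹ * e⁻¹ * c * (e * e) = e⁻¹ * e⁻¹ * (c * e) * e := by group
      _ = e⁻¹ * e⁻¹ * (e * c) * e := by rw [hce]
      _ = e⁻¹ * (c * e) := by group
      _ = e⁻¹ * (e * c) := by rw [hce]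
      _ = c := by group
  have hA : t * t = c := by
    have A0 : t * t = e⁻¹ * e⁻¹ * (e * e1 * e⁻¹ * e1⁻¹) * (e1 * e1) := by rw [ht]; group
    rw [A0, ← hc]
    exact hred e1 Q1
  have c2 : c = e2 * e * e2⁻¹ * e⁻¹ := by
    have h1 : a⁻¹ * c * a = e2 * e * e2⁻¹ * e⁻¹ := by rw [hc, he1, he2]; group
    have h2 : a⁻¹ * c * a = c := by
      calc a⁻¹ * c * a = a⁻¹ * (c * a) := by group
        _ = a⁻¹ * (a * c) := by rw [hca]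
        _ = c := by group
    rw [← h2, h1]
  have hB : (e⁻¹ * e2) * (e⁻¹ * e2) = c := by
    have B0 : (e⁻¹ * e2) * (e⁻¹ * e2) = e⁻¹ * e⁻¹ * (e2 * e * e2⁻¹ * e⁻¹)⁻¹ * (e2 * e2) := by
      group
    rw [B0, ← c2, hcinv]
    exact hred e2 Q2
  have hC : (a * t * a⁻¹) * (a * t * a⁻¹) = c := by
    calc (a * t * a⁻¹) * (a * t * a⁻¹) = a * (t * t) * a⁻¹ := by group
      _ = a * c * a⁻¹ := by rw [hA]
      _ = c * a * a⁻¹ := by rw [hca]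
      _ = c := by group
  have hct : c * t = t * c := by
    have h1 : Commute c a := hca.symm
    have h2 : Commute c e := hce
    have h3 : Commute c e1 := by
      rw [he1]; exact (h1.mul_right h2).mul_right h1.inv_right
    rw [ht]
    exact (h2.inv_right.mul_right h3).eq
  refine ⟨hA, ?_, ?_⟩
  · obtain ⟨ta, hta'⟩ : ∃ ta, ta = a * t * a⁻¹ := ⟨_, rfl⟩
    rw [← hta'] at hx hC ⊢
    have hxx : (t * ta) * (t * ta) = c := by rw [hx]; exact hB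
    have h1 : ta * t = t⁻¹ * ((t * ta) * (t * ta)) * ta⁻¹ := by group
    have h2 : t⁻¹ = t * c := by
      have : t⁻¹ = t * (t * t)⁻¹ := by group
      rw [this, hA, hcinv]
    have h3 : ta⁻¹ = c * ta := by
      have : ta⁻¹ = (ta * ta)⁻¹ * ta := by group
      rw [this, hC, hcinv]
    rw [h1, hxx, h2, h3]
    calc t * c * c * (c * ta) = t * (c * c) * c * ta := by group
      _ = t * c * ta := by rw [hcc, mul_one]
      _ = c * t * ta := by rw [hct]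
      _ = c * (t * ta) := by group
  · rw [htb, hx]
    have h1 : e2⁻¹ * e = ((e⁻¹ * e2) * (e⁻¹ * e2))⁻¹ * (e⁻¹ * e2) := by group
    rw [h1, hB, hcinv]

namespace DL3Ctx

variable {H : Type*} [Group H] [Finite H] {R : Type*} [Ring R] {ρ : H →* R} {B A Q : Subgroup H}

theorem exists_a0 (h : DL3Ctx ρ B A Q) : ∃ a₀ ∈ A, (¬ ∀ x ∈ Q, a₀ * x = x * a₀) ∧
    ∀ b ∈ B, ∀ x ∈ Q, (a₀ * b * a₀⁻¹ * b⁻¹) * x = x * (a₀ * b * a₀⁻¹ * b⁻¹) := by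
  classical
  obtain ⟨CB, hCB⟩ : ∃ CB : Subgroup H, CB = B ⊓ Subgroup.centralizer (Q : Set H) := ⟨_, rfl⟩
  have hCBmem : ∀ g, g ∈ CB ↔ g ∈ B ∧ ∀ x ∈ Q, x * g = g * x := by
    intro g
    rw [hCB, Subgroup.mem_inf, Subgroup.mem_centralizer_iff]
    rfl
  haveI hCn : (CB.subgroupOf B).Normal := by
    constructor
    intro n hn g
    rw [Subgroup.mem_subgroupOf] at hn ⊢
    rw [hCBmem] at hn ⊢
    refine ⟨(g * n * g⁻¹).2, ?_⟩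
    intro x hx
    have h1 := hn.2 (g.1⁻¹ * x * g.1) (h.BQ' g.1 g.2 x hx)
    show x * (g.1 * n.1 * g.1⁻¹) = (g.1 * n.1 * g.1⁻¹) * x
    calc x * (g.1 * n.1 * g.1⁻¹) = g.1 * ((g.1⁻¹ * x * g.1) * n.1) * g.1⁻¹ := by group
      _ = g.1 * (n.1 * (g.1⁻¹ * x * g.1)) * g.1⁻¹ := by rw [h1]
      _ = (g.1 * n.1 * g.1⁻¹) * x := by group
  haveI hAn : (A.subgroupOf B).Normal := by
    constructor
    intro n hn g
    rw [Subgroup.mem_subgroupOf] at hn ⊢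
    exact h.An g.1 g.2 n.1 hn
  obtain ⟨N, hN⟩ : ∃ N : Subgroup (↥B ⧸ CB.subgroupOf B),
      N = (A.subgroupOf B).map (QuotientGroup.mk' (CB.subgroupOf B)) := ⟨_, rfl⟩
  haveI hNn : N.Normal := by
    rw [hN]
    exact Subgroup.Normal.map hAn _ (QuotientGroup.mk'_surjective _)
  have hNne : N ≠ ⊥ := by
    intro hbot
    apply h.hnc
    intro a ha x hx
    have h1 : QuotientGroup.mk' (CB.subgroupOf B) (⟨a, h.AB ha⟩ : ↥B) ∈ N := by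
      rw [hN]
      exact Subgroup.mem_map_of_mem _ (by rw [Subgroup.mem_subgroupOf]; exact ha)
    rw [hbot, Subgroup.mem_bot, QuotientGroup.mk'_apply, QuotientGroup.eq_one_iff,
      Subgroup.mem_subgroupOf, hCBmem] at h1
    exact (h1.2 x hx).symm
  haveI : Fact (Nat.Prime 3) := ⟨Nat.prime_three⟩
  have hD : IsPGroup 3 (↥B ⧸ CB.subgroupOf B) := h.hB.to_quotient _
  obtain ⟨z, hzN, hzc, hz1⟩ := H3.normal_inf_center_ne_bot hD N hNne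
  rw [hN] at hzN
  obtain ⟨a', ha'0, rfl⟩ := hzN
  have ha' : a'.1 ∈ A := Subgroup.mem_subgroupOf.mp ha'0
  refine ⟨a'.1, ha', ?_, ?_⟩
  · intro hcon
    apply hz1
    rw [QuotientGroup.mk'_apply, QuotientGroup.eq_one_iff, Subgroup.mem_subgroupOf, hCBmem]
    exact ⟨a'.2, fun x hx => (hcon x hx).symm⟩
  · intro b hb x hx
    rw [Subgroup.mem_center_iff] at hzc
    have h1 := hzc (QuotientGroup.mk' (CB.subgroupOf B) (⟨b, hb⟩ : ↥B))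
    have h2 : QuotientGroup.mk' (CB.subgroupOf B) (a' * ⟨b, hb⟩ * a'⁻¹ * (⟨b, hb⟩ : ↥B)⁻¹) = 1 := by
      rw [map_mul, map_mul, map_mul, map_inv, map_inv, ← h1]
      group
    rw [QuotientGroup.mk'_apply, QuotientGroup.eq_one_iff, Subgroup.mem_subgroupOf, hCBmem] at h2
    exact (h2.2 x hx).symm

end DL3Ctx

/-- The configuration together with the element `a₀`. -/
structure DL3Ctx2 {H : Type*} [Group H] {R : Type*} [Ring R] (ρ : H →* R) (B A Q : Subgroup H)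
    (a₀ : H) : Prop extends DL3Ctx ρ B A Q where
  ha₀ : a₀ ∈ A
  ha₀nc : ¬ ∀ x ∈ Q, a₀ * x = x * a₀
  ha₀c : ∀ b ∈ B, ∀ x ∈ Q, (a₀ * b * a₀⁻¹ * b⁻¹) * x = x * (a₀ * b * a₀⁻¹ * b⁻¹)

namespace DL3Ctx2

variable {H : Type*} [Group H] [Finite H] {R : Type*} [Ring R] {ρ : H →* R} {B A Q : Subgroup H}
  {a₀ : H}

theorem N_sq (h : DL3Ctx2 ρ B A Q a₀) : (ρ a₀ - 1) * (ρ a₀ - 1) = 0 := h.hquad a₀ h.ha₀

theorem rho_a (h : DL3Ctx2 ρ B A Q a₀) : ρ a₀ = 1 + (ρ a₀ - 1) := by abel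

theorem rho_ai (h : DL3Ctx2 ρ B A Q a₀) : ρ a₀⁻¹ = 1 - (ρ a₀ - 1) := by
  obtain ⟨N, hN⟩ : ∃ N, N = ρ a₀ - 1 := ⟨_, rfl⟩
  have hN2 : N * N = 0 := by rw [hN]; exact h.N_sq
  have ha : ρ a₀ = 1 + N := by rw [hN]; abel
  rw [← hN]
  have h1 : ρ a₀⁻¹ * ρ a₀ = 1 := by rw [← map_mul, inv_mul_cancel, map_one]
  have h2 : (1 + N) * (1 - N) = 1 := by
    have : (1 + N) * (1 - N) = 1 - N * N := by noncomm_ring
    rw [this, hN2, sub_zero]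
  calc ρ a₀⁻¹ = ρ a₀⁻¹ * ((1 + N) * (1 - N)) := by rw [h2, mul_one]
    _ = (ρ a₀⁻¹ * ρ a₀) * (1 - N) := by rw [ha, mul_assoc]
    _ = 1 - N := by rw [h1, one_mul]

theorem a_cube (h : DL3Ctx2 ρ B A Q a₀) : a₀ * a₀ * a₀ = 1 := by
  apply h.inj
  obtain ⟨N, hN⟩ : ∃ N, N = ρ a₀ - 1 := ⟨_, rfl⟩
  have hN2 : N * N = 0 := by rw [hN]; exact h.N_sq
  have ha : ρ a₀ = 1 + N := by rw [hN]; abel
  rw [map_mul, map_mul, map_one, ha]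
  have h1 : (1 + N) * (1 + N) * (1 + N) = 1 + (N + N + N) + (N * N + N * N + N * N)
      + N * N * N := by noncomm_ring
  have h2 : N + N + N = 0 := by
    have : N + N + N = (1 + 1 + 1) * N := by noncomm_ring
    rw [this, show (1 + 1 + 1 : R) = 3 by norm_num, h.h3, zero_mul]
  rw [h1, h2, hN2]
  simp

theorem fix_mem_Z (h : DL3Ctx2 ρ B A Q a₀) : ∀ x ∈ Q, a₀ * x = x * a₀ → x ∈ dl3Z A Q := by
  intro x hx hax
  obtain ⟨X, hX⟩ : ∃ X : Subgroup H, X = Q ⊓ Subgroup.centralizer ({a₀} : Set H) := ⟨_, rfl⟩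
  have hXmem : ∀ g, g ∈ X ↔ g ∈ Q ∧ a₀ * g = g * a₀ := by
    intro g
    rw [hX, Subgroup.mem_inf, Subgroup.mem_centralizer_iff]
    simp
  have hXle : X ≤ Q := by rw [hX]; exact inf_le_left
  have hXne : X ≠ Q := by
    intro heq
    apply h.ha₀nc
    intro y hy
    rw [← heq, hXmem] at hy
    exact hy.2
  have hXinv : ∀ b ∈ B, ∀ g ∈ X, b * g * b⁻¹ ∈ X := by
    intro b hb g hg
    rw [hXmem] at hg ⊢
    have hq : b * g * b⁻¹ ∈ Q := h.hBQ b hb g hg.1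
    refine ⟨hq, ?_⟩
    have hκ := h.ha₀c b hb _ hq
    have e1 : a₀ * (b * g * b⁻¹) * a₀⁻¹ =
        (a₀ * b * a₀⁻¹ * b⁻¹) * (b * (a₀ * g * a₀⁻¹) * b⁻¹) * (a₀ * b * a₀⁻¹ * b⁻¹)⁻¹ := by
      group
    have e2 : a₀ * g * a₀⁻¹ = g := by rw [hg.2]; group
    rw [e2, hκ] at e1
    have e3 : a₀ * (b * g * b⁻¹) * a₀⁻¹ = b * g * b⁻¹ := by rw [e1]; group
    calc a₀ * (b * g * b⁻¹) = (a₀ * (b * g * b⁻¹) * a₀⁻¹) * a₀ := by group
      _ = b * g * b⁻¹ * a₀ := by rw [e3]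
  exact h.le_Z X hXle hXne hXinv ((hXmem x).mpr ⟨hx, hax⟩)

theorem mem_Z_of_conj (h : DL3Ctx2 ρ B A Q a₀) : ∀ e ∈ Q, a₀ * e * a₀⁻¹ * e⁻¹ ∈ dl3Z A Q →
    e ∈ dl3Z A Q := by
  intro e he hz
  apply h.fix_mem_Z e he
  apply h.comm_trick a₀ h.ha₀ e he
  have h1 : e * a₀ * e⁻¹ * a₀⁻¹ = (a₀ * e * a₀⁻¹ * e⁻¹)⁻¹ := by group
  rw [h1]
  have h2 := (mem_dl3Z.mp ((dl3Z A Q).inv_mem hz)).2 a₀ h.ha₀
  exact h2

theorem conj_mem (h : DL3Ctx2 ρ B A Q a₀) : ∀ e ∈ Q, a₀ * e * a₀⁻¹ ∈ Q :=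
  fun e he => h.hBQ a₀ (h.AB h.ha₀) e he

theorem conj_mem' (h : DL3Ctx2 ρ B A Q a₀) : ∀ e ∈ Q, a₀⁻¹ * e * a₀ ∈ Q :=
  fun e he => h.BQ' a₀ (h.AB h.ha₀) e he

theorem prod_mem_Z (h : DL3Ctx2 ρ B A Q a₀) : ∀ e ∈ Q,
    e * (a₀ * e * a₀⁻¹) * (a₀⁻¹ * e * a₀) ∈ dl3Z A Q := by
  intro e he
  have haa : a₀ * a₀ = a₀⁻¹ := eq_inv_of_mul_eq_one_left h.a_cube
  have h1 := h.conj_mem e he
  have h2 := h.conj_mem' e he
  apply h.mem_Z_of_conj _ (Q.mul_mem (Q.mul_mem he h1) h2)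
  have key : a₀ * (e * (a₀ * e * a₀⁻¹) * (a₀⁻¹ * e * a₀)) * a₀⁻¹ =
      (a₀ * e * a₀⁻¹) * (a₀⁻¹ * e * a₀) * e := by
    calc a₀ * (e * (a₀ * e * a₀⁻¹) * (a₀⁻¹ * e * a₀)) * a₀⁻¹
        = (a₀ * e * a₀⁻¹) * ((a₀ * a₀) * e * (a₀ * a₀)⁻¹) * e := by group
      _ = (a₀ * e * a₀⁻¹) * (a₀⁻¹ * e * a₀) * e := by rw [haa, inv_inv]
  rw [key]
  have h3 := h.comm_mem _ (Q.mul_mem h1 h2) e he
  have h4 : (a₀ * e * a₀⁻¹) * (a₀⁻¹ * e * a₀) * e * (e * (a₀ * e * a₀⁻¹) * (a₀⁻¹ * e * a₀))⁻¹ =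
      (a₀ * e * a₀⁻¹ * (a₀⁻¹ * e * a₀)) * e * (a₀ * e * a₀⁻¹ * (a₀⁻¹ * e * a₀))⁻¹ * e⁻¹ := by
    group
  rw [h4]
  exact h3

theorem sq_comm (h : DL3Ctx2 ρ B A Q a₀) : ∀ e ∈ Q, a₀ * (e * e) = (e * e) * a₀ :=
  fun e he => (mem_dl3Z.mp (h.sq_mem e he)).2 a₀ h.ha₀

/-- `[e, e^a₀] ≠ 1` for `e ∈ Q ∖ Z`. -/
theorem comm_ne (h : DL3Ctx2 ρ B A Q a₀) : ∀ e ∈ Q, e ∉ dl3Z A Q →
    e * (a₀ * e * a₀⁻¹) ≠ (a₀ * e * a₀⁻¹) * e := by
  intro e he heZ hcomm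
  apply heZ
  have hc : (1 : H) = e * (a₀ * e * a₀⁻¹) * e⁻¹ * (a₀ * e * a₀⁻¹)⁻¹ := by rw [hcomm]; group
  obtain ⟨h1, h2, h3⟩ := dl_group_rel a₀ e 1 h.a_cube hc (by group) (by group) (by group)
    (h.sq_comm e he)
  rw [one_mul] at h2 h3
  obtain ⟨t, ht⟩ : ∃ t, t = e⁻¹ * (a₀ * e * a₀⁻¹) := ⟨_, rfl⟩
  rw [← ht] at h1 h2 h3
  obtain ⟨N, hN⟩ : ∃ N, N = ρ a₀ - 1 := ⟨_, rfl⟩
  have hN2 : N * N = 0 := by rw [hN]; exact h.N_sq
  have ha : ρ a₀ = 1 + N := by rw [hN]; exact h.rho_a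
  have hai : ρ a₀⁻¹ = 1 - N := by rw [hN]; exact h.rho_ai
  have hT1 : (1 + N) * ρ t * (1 - N) = ρ (a₀ * t * a₀⁻¹) := by
    rw [map_mul, map_mul, ha, hai]
  have hT2 : (1 - N) * ρ t * (1 + N) = ρ (a₀⁻¹ * t * a₀) := by
    rw [map_mul, map_mul, ha, hai]
  have hfin : ρ t = 1 := by
    apply dl_ring_p1 h.h3 N (ρ t) hN2
    · rw [← map_mul, h1, map_one]
    · rw [hT1, ← map_mul, ← map_mul, h2]
    · rw [hT2, hT1, ← map_mul, h3]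
  have ht1 : t = 1 := h.inj (by rw [hfin, map_one])
  rw [ht] at ht1
  have h4 : a₀ * e * a₀⁻¹ = e := by
    calc a₀ * e * a₀⁻¹ = e * (e⁻¹ * (a₀ * e * a₀⁻¹)) := by group
      _ = e := by rw [ht1, mul_one]
  apply h.fix_mem_Z e he
  calc a₀ * e = (a₀ * e * a₀⁻¹) * a₀ := by group
    _ = e * a₀ := by rw [h4]

end DL3Ctx2

end Cfsg.Agent.H3
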