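import Cfsg.Agent.H3.DLCore2

/-!
# The `p = 3` configuration, part 3: `B` centralizes involutions of `Z`, the constant commutator,
`|Q/Z| = 4` and the final contradiction
-/

set_option autoImplicit false
set_option linter.unusedVariables false
set_option linter.unusedSectionVars false

namespace Cfsg.Agent.H3

open scoped commutatorElement

section DLRing2

variable {R : Type*} [Ring R]

theorem dl_hat_mul {π X Y : R} (hπ : π * π = π) (hY : π * Y = Y * π) :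
    (X * π + (1 - π)) * (Y * π + (1 - π)) = (X * Y) * π + (1 - π) := by
  have e1 : (X * π + (1 - π)) * (Y * π + (1 - π)) =
      X * (π * Y) * π + X * π - X * (π * π) + Y * π - (π * Y) * π + 1 - π - π + π * π := by
    noncomm_ring
  rw [e1, hY, hπ]
  have e2 : X * (Y * π) * π = X * Y * (π * π) := by noncomm_ring
  have e3 : Y * π * π = Y * (π * π) := by noncomm_ring
  rw [e2, e3, hπ]; abel

theorem dl_hat_conj {π X U V : R} (hUV : U * V = 1) (hV : π * V = V * π) :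
    U * (X * π + (1 - π)) * V = (U * X * V) * π + (1 - π) := by
  have e1 : U * (X * π + (1 - π)) * V = U * X * (π * V) + U * V - U * (π * V) := by noncomm_ring
  rw [e1, hV]
  have e2 : U * (V * π) = (U * V) * π := by noncomm_ring
  rw [e2, hUV]; noncomm_ring

/-- Relative version of `dl_ring_p1` on the image of an idempotent `π`. -/
theorem dl_ring_p2 (h3 : (3 : R) = 0) (N T Cc π : R) (hN : N * N = 0) (hπ : π * π = π)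
    (hπN : π * N = N * π) (hπT : π * T = T * π) (hC : Cc * π = π)
    (hT : T * T = Cc)
    (hcomm : (1 + N) * T * (1 - N) * T = Cc * (T * ((1 + N) * T * (1 - N))))
    (hprod : (1 - N) * T * (1 + N) = Cc * (T * ((1 + N) * T * (1 - N)))) : T * π = π := by
  have hU1 : (1 + N) * (1 - N) = 1 := by
    have : (1 + N) * (1 - N) = 1 - N * N := by noncomm_ring
    rw [this, hN, sub_zero]
  have hU2 : (1 - N) * (1 + N) = 1 := by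
    have : (1 - N) * (1 + N) = 1 - N * N := by noncomm_ring
    rw [this, hN, sub_zero]
  have cN : Commute π N := hπN
  have cT : Commute π T := hπT
  have c1 : Commute π (1 + N) := (Commute.one_right π).add_right cN
  have c2 : Commute π (1 - N) := (Commute.one_right π).sub_right cN
  obtain ⟨T', hT'⟩ : ∃ T' : R, T' = (1 + N) * T * (1 - N) := ⟨_, rfl⟩
  rw [← hT'] at hcomm hprod
  have cT' : Commute π T' := by rw [hT']; exact (c1.mul_right cT).mul_right c2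
  have hh1 : (1 + N) * (T * π + (1 - π)) * (1 - N) = T' * π + (1 - π) := by
    rw [dl_hat_conj hU1 c2.eq, hT']
  have hh2 : (1 - N) * (T * π + (1 - π)) * (1 + N) = Cc * (T * T') * π + (1 - π) := by
    rw [dl_hat_conj hU2 c1.eq, hprod]
  have hCTT : Cc * (T * T') * π = (T * T') * π := by
    have c3 : Commute π (T * T') := cT.mul_right cT'
    calc Cc * (T * T') * π = Cc * ((T * T') * π) := by rw [mul_assoc]
      _ = Cc * (π * (T * T')) := by rw [c3.eq]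
      _ = (Cc * π) * (T * T') := by rw [mul_assoc]
      _ = π * (T * T') := by rw [hC]
      _ = (T * T') * π := c3.eq
  have key : T * π + (1 - π) = 1 := by
    apply dl_ring_p1 h3 N (T * π + (1 - π)) hN
    · rw [dl_hat_mul hπ cT.eq, hT, hC]; abel
    · rw [hh1, dl_hat_mul hπ cT'.eq, dl_hat_mul hπ cT.eq, hcomm, hCTT]
    · rw [hh2, hh1, dl_hat_mul hπ cT'.eq, hCTT]
  have : T * π = (T * π + (1 - π)) - (1 - π) := by abel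
  rw [this, key]; abel

end DLRing2

theorem dl_comm_mul_left {G : Type*} [Group G] (u u' w : G)
    (hc : u * (u' * w * u'⁻¹ * w⁻¹) = (u' * w * u'⁻¹ * w⁻¹) * u) :
    (u * u') * w * (u * u')⁻¹ * w⁻¹ = (u' * w * u'⁻¹ * w⁻¹) * (u * w * u⁻¹ * w⁻¹) := by
  calc (u * u') * w * (u * u')⁻¹ * w⁻¹
      = (u * (u' * w * u'⁻¹ * w⁻¹)) * u⁻¹ * (u * w * u⁻¹ * w⁻¹) := by group
    _ = (u' * w * u'⁻¹ * w⁻¹) * u * u⁻¹ * (u * w * u⁻¹ * w⁻¹) := by rw [hc]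
    _ = _ := by group

theorem dl_comm_mul_right {G : Type*} [Group G] (u v v' : G)
    (hc : v * (u * v' * u⁻¹ * v'⁻¹) = (u * v' * u⁻¹ * v'⁻¹) * v) :
    u * (v * v') * u⁻¹ * (v * v')⁻¹ = (u * v * u⁻¹ * v⁻¹) * (u * v' * u⁻¹ * v'⁻¹) := by
  calc u * (v * v') * u⁻¹ * (v * v')⁻¹
      = (u * v * u⁻¹ * v⁻¹) * (v * (u * v' * u⁻¹ * v'⁻¹)) * v⁻¹ := by group
    _ = (u * v * u⁻¹ * v⁻¹) * ((u * v' * u⁻¹ * v'⁻¹) * v) * v⁻¹ := by rw [hc]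
    _ = _ := by group

namespace DL3Ctx

variable {H : Type*} [Group H] [Finite H] {R : Type*} [Ring R] {ρ : H →* R} {B A Q : Subgroup H}

/-- `B` centralizes the involutions of `Z`. -/
theorem B_cent (h : DL3Ctx ρ B A Q) : ∀ z ∈ dl3Z A Q, z * z = 1 → ∀ y ∈ B, y * z * y⁻¹ = z := by
  intro z hz hzz y hy
  have hz1 : y * z * y⁻¹ ∈ dl3Z A Q := h.Z_inv y hy z hz
  have hzm : y⁻¹ * z * y ∈ dl3Z A Q := by
    have := h.Z_inv y⁻¹ (B.inv_mem hy) z hz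
    rwa [inv_inv] at this
  have hzQ := h.Z_le hz
  have hz1Q := h.Z_le hz1
  have hzmQ := h.Z_le hzm
  obtain ⟨u, hu⟩ : ∃ u, u = (y * z * y⁻¹) * z := ⟨_, rfl⟩
  have huZ : u ∈ dl3Z A Q := by rw [hu]; exact (dl3Z A Q).mul_mem hz1 hz
  have huQ := h.Z_le huZ
  have ec1 : z * (y * z * y⁻¹) = (y * z * y⁻¹) * z := h.Z_central z hz _ hz1Q
  have ec2 : z * (y⁻¹ * z * y) = (y⁻¹ * z * y) * z := h.Z_central z hz _ hzmQ
  have huu : u * u = 1 := by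
    rw [hu]
    calc (y * z * y⁻¹ * z) * (y * z * y⁻¹ * z)
        = (y * z * y⁻¹) * (z * (y * z * y⁻¹)) * z := by group
      _ = (y * z * y⁻¹) * ((y * z * y⁻¹) * z) * z := by rw [ec1]
      _ = y * (z * z) * y⁻¹ * (z * z) := by group
      _ = 1 := by rw [hzz]; group
  obtain ⟨E, hE⟩ : ∃ E, E = ρ u - 1 := ⟨_, rfl⟩
  have hyy1 : ρ y * ρ y⁻¹ = 1 := by rw [← map_mul, mul_inv_cancel, map_one]
  have hyy2 : ρ y⁻¹ * ρ y = 1 := by rw [← map_mul, inv_mul_cancel, map_one]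
  have hρz : ρ z * ρ z = 1 := by rw [← map_mul, hzz, map_one]
  have ec1' := congrArg ρ ec1
  have ec2' := congrArg ρ ec2
  simp only [map_mul] at ec1' ec2'
  have hA : ∀ a ∈ A, ρ a * E = E := by
    intro a ha
    have ea1 : Commute (ρ a) (ρ z) := by
      have e := congrArg ρ ((mem_dl3Z.mp hz).2 a ha)
      simp only [map_mul] at e
      exact e
    have ea2 : Commute (ρ a) (ρ y * ρ z * ρ y⁻¹) := by
      have e := congrArg ρ ((mem_dl3Z.mp hz1).2 a ha)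
      simp only [map_mul] at e
      exact e
    have hk := dl_ring_m2 h.h3 (ρ a - 1) (ρ y) (ρ y⁻¹) (ρ z) hyy1 hyy2 hρz ec1' ec2'
      (ea1.sub_left (Commute.one_left _)).eq (ea2.sub_left (Commute.one_left _)).eq
      (h.hc2 a ha y hy y⁻¹ (B.inv_mem hy))
    have hEeq : E = -((ρ z - ρ y * ρ z * ρ y⁻¹) * ρ z) := by
      rw [hE, hu, map_mul, map_mul, map_mul]
      have : -((ρ z - ρ y * ρ z * ρ y⁻¹) * ρ z) = ρ y * ρ z * ρ y⁻¹ * ρ z - ρ z * ρ z := by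
        noncomm_ring
      rw [this, hρz]
    have h1 : (ρ a - 1) * E = 0 := by
      rw [hEeq, mul_neg, ← mul_assoc, hk, zero_mul, neg_zero]
    have h2 : ρ a * E = (ρ a - 1) * E + E := by noncomm_ring
    rw [h2, h1, zero_add]
  have hQE : ∀ x ∈ Q, ρ x * E = E * ρ x := by
    intro x hx
    have e := congrArg ρ (h.Z_central u huZ x hx)
    simp only [map_mul] at e
    rw [hE, mul_sub, sub_mul, ← e, mul_one, one_mul]
  have hcomm : ⁅Q, A⁆ ≤ dlFix ρ E := by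
    rw [Subgroup.commutator_le]
    intro x hx a ha
    rw [commutatorElement_def]
    apply (dlFix ρ E).mul_mem _ ((dlFix ρ E).inv_mem ((mem_dlFix ρ E a).mpr (hA a ha)))
    rw [mem_dlFix, map_mul, map_mul]
    have e1 := hQE x⁻¹ (Q.inv_mem hx)
    calc ρ x * ρ a * ρ x⁻¹ * E = ρ x * ρ a * (ρ x⁻¹ * E) := by noncomm_ring
      _ = ρ x * (ρ a * E) * ρ x⁻¹ := by rw [e1]; noncomm_ring
      _ = (ρ x * E) * ρ x⁻¹ := by rw [hA a ha]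
      _ = E * (ρ x * ρ x⁻¹) := by rw [hQE x hx]; noncomm_ring
      _ = E := by rw [← map_mul, mul_inv_cancel, map_one, mul_one]
  have hQfix : Q ≤ dlFix ρ E := by
    calc Q = ⁅Q, A⁆ := h.QA.symm
      _ ≤ _ := hcomm
  have hfin := hQfix huQ
  rw [mem_dlFix] at hfin
  have hρuu : ρ u * ρ u = 1 := by rw [← map_mul, huu, map_one]
  have h2E : 2 * E = 0 := by
    have e1 : ρ u * E = 1 - ρ u := by rw [hE, mul_sub, hρuu, mul_one]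
    rw [e1] at hfin
    rw [two_mul]
    nth_rewrite 1 [← hfin]
    rw [hE]; abel
  have hE0 : E = 0 := dl_two_mul_cancel h.h3 h2E
  have hu1 : u = 1 := h.inj (by rw [map_one]; rw [hE] at hE0; exact sub_eq_zero.mp hE0)
  rw [hu] at hu1
  calc y * z * y⁻¹ = (y * z * y⁻¹ * z) * z⁻¹ := by group
    _ = z⁻¹ := by rw [hu1, one_mul]
    _ = z := inv_eq_of_mul_eq_one_left hzz

theorem B_comm (h : DL3Ctx ρ B A Q) : ∀ z ∈ dl3Z A Q, z * z = 1 → ∀ y ∈ B, z * y = y * z := by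
  intro z hz hzz y hy
  have h1 := h.B_cent z hz hzz y hy
  calc z * y = (y * z * y⁻¹) * y := by rw [h1]
    _ = y * z := by group

theorem f_symm (h : DL3Ctx ρ B A Q) : ∀ u ∈ Q, ∀ v ∈ Q,
    u * v * u⁻¹ * v⁻¹ = v * u * v⁻¹ * u⁻¹ := by
  intro u hu v hv
  have h1 := h.comm_sq u hu v hv
  have h2 : v * u * v⁻¹ * u⁻¹ = (u * v * u⁻¹ * v⁻¹)⁻¹ := by group
  rw [h2]; exact (inv_eq_of_mul_eq_one_left h1).symm

theorem f_mul (h : DL3Ctx ρ B A Q) : ∀ u ∈ Q, ∀ u' ∈ Q, ∀ v ∈ Q, ∀ v' ∈ Q,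
    (u * u') * (v * v') * (u * u')⁻¹ * (v * v')⁻¹ =
      (u' * v * u'⁻¹ * v⁻¹) * (u' * v' * u'⁻¹ * v'⁻¹) *
        ((u * v * u⁻¹ * v⁻¹) * (u * v' * u⁻¹ * v'⁻¹)) := by
  intro u hu u' hu' v hv v' hv'
  have hvv : v * v' ∈ Q := Q.mul_mem hv hv'
  have e1 := dl_comm_mul_left u u' (v * v')
    ((h.Z_central _ (h.comm_mem u' hu' _ hvv) u hu).symm)
  have e2 := dl_comm_mul_right u' v v' ((h.Z_central _ (h.comm_mem u' hu' v' hv') v hv).symm)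
  have e3 := dl_comm_mul_right u v v' ((h.Z_central _ (h.comm_mem u hu v' hv') v hv).symm)
  rw [e1, e2, e3]

/-- If `x y ∈ Z` then `y x⁻¹ ∈ Z`. -/
theorem mul_inv_mem_Z (h : DL3Ctx ρ B A Q) : ∀ x ∈ Q, ∀ y ∈ Q, x * y ∈ dl3Z A Q →
    y * x⁻¹ ∈ dl3Z A Q := by
  intro x hx y hy hxy
  have e1 := h.Z_central _ hxy x⁻¹ (Q.inv_mem hx)
  have e2 : y * x⁻¹ = x⁻¹ * ((x * y) * x⁻¹) := by group
  rw [e2, e1]
  have e3 : x⁻¹ * (x⁻¹ * (x * y)) = (x * x)⁻¹ * (x * y) := by group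
  rw [e3]
  exact (dl3Z A Q).mul_mem ((dl3Z A Q).inv_mem (h.sq_mem x hx)) hxy

/-- The subgroup of elements of `B` acting trivially on `Q / Z`. -/
theorem exists_T (h : DL3Ctx ρ B A Q) : ∃ T : Subgroup H, ∀ κ, κ ∈ T ↔
    (κ ∈ B ∧ ∀ g ∈ Q, κ * g * κ⁻¹ * g⁻¹ ∈ dl3Z A Q) := by
  refine ⟨{ carrier := {κ | κ ∈ B ∧ ∀ g ∈ Q, κ * g * κ⁻¹ * g⁻¹ ∈ dl3Z A Q}
            mul_mem' := ?_
            one_mem' := ?_
            inv_mem' := ?_ }, fun κ => Iff.rfl⟩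
  · rintro κ κ' ⟨hκ, hκz⟩ ⟨hκ', hκz'⟩
    refine ⟨B.mul_mem hκ hκ', ?_⟩
    intro g hg
    have e1 : κ * κ' * g * (κ * κ')⁻¹ * g⁻¹ =
        (κ * (κ' * g * κ'⁻¹ * g⁻¹) * κ⁻¹) * (κ * g * κ⁻¹ * g⁻¹) := by group
    rw [e1]
    exact (dl3Z A Q).mul_mem (h.Z_inv κ hκ _ (hκz' g hg)) (hκz g hg)
  · refine ⟨B.one_mem, ?_⟩
    intro g hg
    have : (1 : H) * g * 1⁻¹ * g⁻¹ = 1 := by group
    rw [this]; exact (dl3Z A Q).one_mem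
  · rintro κ ⟨hκ, hκz⟩
    refine ⟨B.inv_mem hκ, ?_⟩
    intro g hg
    have e1 : κ⁻¹ * g * κ⁻¹⁻¹ * g⁻¹ = κ⁻¹ * (κ * g * κ⁻¹ * g⁻¹)⁻¹ * κ⁻¹⁻¹ := by group
    rw [e1]
    exact h.Z_inv κ⁻¹ (B.inv_mem hκ) _ ((dl3Z A Q).inv_mem (hκz g hg))

end DL3Ctx

namespace DL3Ctx2

variable {H : Type*} [Group H] [Finite H] {R : Type*} [Ring R] {ρ : H →* R} {B A Q : Subgroup H}
  {a₀ : H}

theorem f_conj (h : DL3Ctx2 ρ B A Q a₀) : ∀ u ∈ Q, ∀ v ∈ Q,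
    (a₀ * u * a₀⁻¹) * (a₀ * v * a₀⁻¹) * (a₀ * u * a₀⁻¹)⁻¹ * (a₀ * v * a₀⁻¹)⁻¹ =
      u * v * u⁻¹ * v⁻¹ := by
  intro u hu v hv
  have h1 := (mem_dl3Z.mp (h.comm_mem u hu v hv)).2 a₀ h.ha₀
  calc (a₀ * u * a₀⁻¹) * (a₀ * v * a₀⁻¹) * (a₀ * u * a₀⁻¹)⁻¹ * (a₀ * v * a₀⁻¹)⁻¹
      = a₀ * (u * v * u⁻¹ * v⁻¹) * a₀⁻¹ := by group
    _ = (u * v * u⁻¹ * v⁻¹) * a₀ * a₀⁻¹ := by rw [h1]
    _ = _ := by group

theorem conj_not_mem (h : DL3Ctx2 ρ B A Q a₀) : ∀ y, y ∉ dl3Z A Q → a₀ * y * a₀⁻¹ ∉ dl3Z A Q := by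
  intro y hy hc
  apply hy
  have h1 := h.Z_inv a₀⁻¹ (B.inv_mem (h.AB h.ha₀)) _ hc
  have e : a₀⁻¹ * (a₀ * y * a₀⁻¹) * a₀⁻¹⁻¹ = y := by group
  rwa [e] at h1

theorem conj3 (h : DL3Ctx2 ρ B A Q a₀) (y : H) :
    a₀ * (a₀ * (a₀ * y * a₀⁻¹) * a₀⁻¹) * a₀⁻¹ = y := by
  have e : a₀ * (a₀ * (a₀ * y * a₀⁻¹) * a₀⁻¹) * a₀⁻¹ = (a₀ * a₀ * a₀) * y * (a₀ * a₀ * a₀)⁻¹ := by
    group
  rw [e, h.a_cube]; group

/-- The key vanishing: `(ρ z - 1)(ρ c + 1) = 0` for an involution `z ∈ Z` and `c = [e, e^a₀]`. -/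
theorem pi_zero (h : DL3Ctx2 ρ B A Q a₀) : ∀ z ∈ dl3Z A Q, z * z = 1 → ∀ e ∈ Q, e ∉ dl3Z A Q →
    (ρ z - 1) * (ρ (e * (a₀ * e * a₀⁻¹) * e⁻¹ * (a₀ * e * a₀⁻¹)⁻¹) + 1) = 0 := by
  intro z hz hzz e he heZ
  have h0 : DL3Ctx ρ B A Q := h.toDL3Ctx
  obtain ⟨c, hc⟩ : ∃ c, c = e * (a₀ * e * a₀⁻¹) * e⁻¹ * (a₀ * e * a₀⁻¹)⁻¹ := ⟨_, rfl⟩
  rw [← hc]
  have he1 := h.conj_mem e he
  have hcZ : c ∈ dl3Z A Q := by rw [hc]; exact h0.comm_mem e he _ he1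
  have hcc : c * c = 1 := by rw [hc]; exact h0.comm_sq e he _ he1
  have hca : a₀ * c = c * a₀ := (mem_dl3Z.mp hcZ).2 a₀ h.ha₀
  have hce : c * e = e * c := h0.Z_central c hcZ e he
  obtain ⟨r1, r2, r3⟩ := dl_group_rel a₀ e c h.a_cube hc hca hce hcc (h.sq_comm e he)
  obtain ⟨t, ht⟩ : ∃ t, t = e⁻¹ * (a₀ * e * a₀⁻¹) := ⟨_, rfl⟩
  rw [← ht] at r1 r2 r3
  have htQ : t ∈ Q := by rw [ht]; exact Q.mul_mem (Q.inv_mem he) he1
  obtain ⟨N, hN⟩ : ∃ N, N = ρ a₀ - 1 := ⟨_, rfl⟩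
  have hN2 : N * N = 0 := by rw [hN]; exact h.N_sq
  have ha : ρ a₀ = 1 + N := by rw [hN]; exact h.rho_a
  have hai : ρ a₀⁻¹ = 1 - N := by rw [hN]; exact h.rho_ai
  have hT1 : (1 + N) * ρ t * (1 - N) = ρ (a₀ * t * a₀⁻¹) := by rw [map_mul, map_mul, ha, hai]
  have hT2 : (1 - N) * ρ t * (1 + N) = ρ (a₀⁻¹ * t * a₀) := by rw [map_mul, map_mul, ha, hai]
  obtain ⟨π, hπ⟩ : ∃ π, π = (ρ z - 1) * (-ρ c - 1) := ⟨_, rfl⟩
  have hρzz : ρ z * ρ z = 1 := by rw [← map_mul, hzz, map_one]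
  have hρcc : ρ c * ρ c = 1 := by rw [← map_mul, hcc, map_one]
  have hncc : (-ρ c) * (-ρ c) = 1 := by rw [neg_mul_neg, hρcc]
  have czc : Commute (ρ z) (ρ c) := by
    have e' := congrArg ρ (h0.Z_central z hz c (h0.Z_le hcZ))
    simp only [map_mul] at e'
    exact e'
  have i1 : (ρ z - 1) * (ρ z - 1) = ρ z - 1 := dl_idem h.h3 hρzz
  have i2 : (-ρ c - 1) * (-ρ c - 1) = -ρ c - 1 := dl_idem h.h3 hncc
  have c12 : Commute (ρ z - 1) (-ρ c - 1) :=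
    ((czc.neg_right.sub_right (Commute.one_right _)).sub_left (Commute.one_left _))
  have hππ : π * π = π := by rw [hπ]; exact dl_idem_mul c12.eq i1 i2
  have hπcomm : ∀ g : H, z * g = g * z → c * g = g * c → Commute π (ρ g) := by
    intro g hzg hcg
    have e1 : Commute (ρ z) (ρ g) := by
      have e' := congrArg ρ hzg
      simp only [map_mul] at e'
      exact e'
    have e2 : Commute (ρ c) (ρ g) := by
      have e' := congrArg ρ hcg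
      simp only [map_mul] at e'
      exact e'
    rw [hπ]
    exact (e1.sub_left (Commute.one_left _)).mul_left
      (e2.neg_left.sub_left (Commute.one_left _))
  have hCπ : ρ c * π = π := by
    rw [hπ]
    have hzc' : ρ c * (ρ z - 1) = (ρ z - 1) * ρ c :=
      (czc.symm.sub_right (Commute.one_right _)).eq
    have hcc' : ρ c * (-ρ c - 1) = -ρ c - 1 := by
      have : ρ c * (-ρ c - 1) = -(ρ c * ρ c) - ρ c := by noncomm_ring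
      rw [this, hρcc]; abel
    calc ρ c * ((ρ z - 1) * (-ρ c - 1)) = (ρ c * (ρ z - 1)) * (-ρ c - 1) := by rw [mul_assoc]
      _ = (ρ z - 1) * (ρ c * (-ρ c - 1)) := by rw [hzc', mul_assoc]
      _ = (ρ z - 1) * (-ρ c - 1) := by rw [hcc']
  have hTπ : ρ t * π = π := by
    apply dl_ring_p2 h.h3 N (ρ t) (ρ c) π hN2 hππ
    · have : Commute π (ρ a₀) := hπcomm a₀ ((mem_dl3Z.mp hz).2 a₀ h.ha₀).symm hca.symm
      rw [hN]; exact (this.sub_right (Commute.one_right _)).eq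
    · exact (hπcomm t (h0.Z_central z hz t htQ) (h0.Z_central c hcZ t htQ)).eq
    · exact hCπ
    · rw [← map_mul, r1]
    · rw [hT1, ← map_mul, ← map_mul, ← map_mul, r2]
    · rw [hT2, hT1, ← map_mul, ← map_mul, r3]
  by_contra hne
  have hπne : π ≠ 0 := by
    intro h0'
    apply hne
    have : (ρ z - 1) * (ρ c + 1) = -π := by rw [hπ]; noncomm_ring
    rw [this, h0', neg_zero]
  obtain ⟨X, hX⟩ : ∃ X : Subgroup H, X = Q ⊓ dlFix ρ π := ⟨_, rfl⟩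
  have hXmem : ∀ g, g ∈ X ↔ g ∈ Q ∧ ρ g * π = π := by
    intro g; rw [hX, Subgroup.mem_inf, mem_dlFix]
  have hXle : X ≤ Q := by rw [hX]; exact inf_le_left
  have hzX : z ∉ X := by
    intro hzX
    have e1 := ((hXmem z).mp hzX).2
    have e2 : ρ z * π = -π := by
      rw [hπ, ← mul_assoc]
      have : ρ z * (ρ z - 1) = -(ρ z - 1) := by
        have : ρ z * (ρ z - 1) = ρ z * ρ z - ρ z := by noncomm_ring
        rw [this, hρzz]; abel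
      rw [this, neg_mul]
    rw [e2] at e1
    apply hπne
    apply dl_two_mul_cancel h.h3
    rw [two_mul]
    nth_rewrite 1 [← e1]
    abel
  have hXne : X ≠ Q := fun heq => hzX (heq ▸ h0.Z_le hz)
  have hXinv : ∀ b ∈ B, ∀ g ∈ X, b * g * b⁻¹ ∈ X := by
    intro b hb g hg
    rw [hXmem] at hg ⊢
    refine ⟨h0.hBQ b hb g hg.1, ?_⟩
    have cb : Commute π (ρ b⁻¹) := hπcomm b⁻¹ (h0.B_comm z hz hzz b⁻¹ (B.inv_mem hb))
      (h0.B_comm c hcZ hcc b⁻¹ (B.inv_mem hb))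
    have cb' : Commute π (ρ b) := hπcomm b (h0.B_comm z hz hzz b hb) (h0.B_comm c hcZ hcc b hb)
    rw [map_mul, map_mul]
    calc ρ b * ρ g * ρ b⁻¹ * π = ρ b * ρ g * (ρ b⁻¹ * π) := by noncomm_ring
      _ = ρ b * (ρ g * π) * ρ b⁻¹ := by rw [← cb.eq]; noncomm_ring
      _ = (ρ b * π) * ρ b⁻¹ := by rw [hg.2]
      _ = π * (ρ b * ρ b⁻¹) := by rw [← cb'.eq]; noncomm_ring
      _ = π := by rw [← map_mul, mul_inv_cancel, map_one, mul_one]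
  have hXZ := h0.le_Z X hXle hXne hXinv
  have htZ : t ∈ dl3Z A Q := hXZ ((hXmem t).mpr ⟨htQ, hTπ⟩)
  apply heZ
  apply h.mem_Z_of_conj e he
  have e1 : a₀ * e * a₀⁻¹ * e⁻¹ = e * t * e⁻¹ := by rw [ht]; group
  rw [e1, ← h0.Z_central t htZ e he]
  have e2 : t * e * e⁻¹ = t := by group
  rw [e2]; exact htZ

/-- The commutator `[e, e^a₀]` does not depend on `e ∈ Q ∖ Z`. -/
theorem c_const (h : DL3Ctx2 ρ B A Q a₀) : ∀ e ∈ Q, e ∉ dl3Z A Q → ∀ e' ∈ Q, e' ∉ dl3Z A Q →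
    e * (a₀ * e * a₀⁻¹) * e⁻¹ * (a₀ * e * a₀⁻¹)⁻¹ =
      e' * (a₀ * e' * a₀⁻¹) * e'⁻¹ * (a₀ * e' * a₀⁻¹)⁻¹ := by
  intro e he heZ e' he' heZ'
  have h0 : DL3Ctx ρ B A Q := h.toDL3Ctx
  obtain ⟨c, hc⟩ : ∃ c, c = e * (a₀ * e * a₀⁻¹) * e⁻¹ * (a₀ * e * a₀⁻¹)⁻¹ := ⟨_, rfl⟩
  obtain ⟨c', hc'⟩ : ∃ c', c' = e' * (a₀ * e' * a₀⁻¹) * e'⁻¹ * (a₀ * e' * a₀⁻¹)⁻¹ := ⟨_, rfl⟩
  have hcZ : c ∈ dl3Z A Q := by rw [hc]; exact h0.comm_mem e he _ (h.conj_mem e he)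
  have hcc : c * c = 1 := by rw [hc]; exact h0.comm_sq e he _ (h.conj_mem e he)
  have hcZ' : c' ∈ dl3Z A Q := by rw [hc']; exact h0.comm_mem e' he' _ (h.conj_mem e' he')
  have hcc' : c' * c' = 1 := by rw [hc']; exact h0.comm_sq e' he' _ (h.conj_mem e' he')
  have p1 := h.pi_zero c' hcZ' hcc' e he heZ
  have p2 := h.pi_zero c hcZ hcc e' he' heZ'
  rw [← hc] at p1 ⊢
  rw [← hc'] at p2 ⊢
  have cc : ρ c' * ρ c = ρ c * ρ c' := by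
    have e' := congrArg ρ (h0.Z_central c' hcZ' c (h0.Z_le hcZ))
    simp only [map_mul] at e'
    exact e'
  have e1 : (ρ c' - 1) * (ρ c + 1) - (ρ c - 1) * (ρ c' + 1) =
      (ρ c' * ρ c - ρ c * ρ c') + ((ρ c' - ρ c) + (ρ c' - ρ c)) := by noncomm_ring
  rw [p1, p2, sub_zero, cc, sub_self, zero_add, ← two_mul] at e1
  have e2 : ρ c' - ρ c = 0 := dl_two_mul_cancel h.h3 e1.symm
  exact h.inj (sub_eq_zero.mp e2).symm

/-- Polarization of the constant commutator. -/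
theorem polar (h : DL3Ctx2 ρ B A Q a₀) : ∀ u ∈ Q, u ∉ dl3Z A Q → ∀ v ∈ Q, v ∉ dl3Z A Q →
    u * v ∉ dl3Z A Q →
    (v * (a₀ * u * a₀⁻¹) * v⁻¹ * (a₀ * u * a₀⁻¹)⁻¹) *
      (u * (a₀ * v * a₀⁻¹) * u⁻¹ * (a₀ * v * a₀⁻¹)⁻¹) =
    u * (a₀ * u * a₀⁻¹) * u⁻¹ * (a₀ * u * a₀⁻¹)⁻¹ := by
  intro u hu huZ v hv hvZ huv
  have h0 : DL3Ctx ρ B A Q := h.toDL3Ctx
  have hu1 := h.conj_mem u hu
  have hv1 := h.conj_mem v hv
  have k1 := h.c_const (u * v) (Q.mul_mem hu hv) huv u hu huZ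
  have k2 := h.c_const v hv hvZ u hu huZ
  have e1 : a₀ * (u * v) * a₀⁻¹ = (a₀ * u * a₀⁻¹) * (a₀ * v * a₀⁻¹) := by group
  rw [e1, h0.f_mul u hu v hv _ hu1 _ hv1, k2] at k1
  obtain ⟨c, hc⟩ : ∃ c, c = u * (a₀ * u * a₀⁻¹) * u⁻¹ * (a₀ * u * a₀⁻¹)⁻¹ := ⟨_, rfl⟩
  have hcc : c * c = 1 := by rw [hc]; exact h0.comm_sq u hu _ hu1
  rw [← hc] at k1 ⊢
  obtain ⟨p, hp⟩ : ∃ p, p = v * (a₀ * u * a₀⁻¹) * v⁻¹ * (a₀ * u * a₀⁻¹)⁻¹ := ⟨_, rfl⟩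
  obtain ⟨r, hr⟩ : ∃ r, r = u * (a₀ * v * a₀⁻¹) * u⁻¹ * (a₀ * v * a₀⁻¹)⁻¹ := ⟨_, rfl⟩
  rw [← hp, ← hr] at k1 ⊢
  calc p * r = p * (c * c) * r := by rw [hcc, mul_one]
    _ = p * c * (c * r) := by group
    _ = c := k1

/-- `Q / Z` has order 4. -/
theorem cosets (h : DL3Ctx2 ρ B A Q a₀) : ∀ x ∈ Q, x ∉ dl3Z A Q → ∀ y ∈ Q, y ∉ dl3Z A Q →
    x * y ∈ dl3Z A Q ∨ x * (a₀ * y * a₀⁻¹) ∈ dl3Z A Q ∨
      x * (a₀ * (a₀ * y * a₀⁻¹) * a₀⁻¹) ∈ dl3Z A Q := by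
  intro x hx hxZ y hy hyZ
  by_contra hcon
  push_neg at hcon
  obtain ⟨n0, n1, n2⟩ := hcon
  have h0 : DL3Ctx ρ B A Q := h.toDL3Ctx
  obtain ⟨y1, hy1⟩ : ∃ y1, y1 = a₀ * y * a₀⁻¹ := ⟨_, rfl⟩
  obtain ⟨y2, hy2⟩ : ∃ y2, y2 = a₀ * y1 * a₀⁻¹ := ⟨_, rfl⟩
  rw [← hy1] at n1 n2
  rw [← hy2] at n2
  have hy1Q : y1 ∈ Q := by rw [hy1]; exact h.conj_mem y hy
  have hy2Q : y2 ∈ Q := by rw [hy2]; exact h.conj_mem y1 hy1Q
  have hy1Z : y1 ∉ dl3Z A Q := by rw [hy1]; exact h.conj_not_mem y hyZ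
  have hy2Z : y2 ∉ dl3Z A Q := by rw [hy2]; exact h.conj_not_mem y1 hy1Z
  have hy3 : a₀ * y2 * a₀⁻¹ = y := by rw [hy2, hy1]; exact h.conj3 y
  have hx1 := h.conj_mem x hx
  obtain ⟨c, hc⟩ : ∃ c, c = x * (a₀ * x * a₀⁻¹) * x⁻¹ * (a₀ * x * a₀⁻¹)⁻¹ := ⟨_, rfl⟩
  have hcc : c * c = 1 := by rw [hc]; exact h0.comm_sq x hx _ hx1
  have q1 := h.polar x hx hxZ y hy hyZ n0
  have q2 := h.polar x hx hxZ y1 hy1Q hy1Z n1
  have q3 := h.polar x hx hxZ y2 hy2Q hy2Z n2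
  rw [← hy1] at q1
  rw [← hy2] at q2
  rw [hy3] at q3
  rw [← hc] at q1 q2 q3
  -- rewrite the first factors
  have s1 : y * (a₀ * x * a₀⁻¹) * y⁻¹ * (a₀ * x * a₀⁻¹)⁻¹ = x * y2 * x⁻¹ * y2⁻¹ := by
    have := h.f_conj y2 hy2Q x hx
    rw [hy3] at this
    rw [this]; exact h0.f_symm y2 hy2Q x hx
  have s2 : y1 * (a₀ * x * a₀⁻¹) * y1⁻¹ * (a₀ * x * a₀⁻¹)⁻¹ = x * y * x⁻¹ * y⁻¹ := by
    have := h.f_conj y hy x hx
    rw [← hy1] at this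
    rw [this]; exact h0.f_symm y hy x hx
  have s3 : y2 * (a₀ * x * a₀⁻¹) * y2⁻¹ * (a₀ * x * a₀⁻¹)⁻¹ = x * y1 * x⁻¹ * y1⁻¹ := by
    have := h.f_conj y1 hy1Q x hx
    rw [← hy2] at this
    rw [this]; exact h0.f_symm y1 hy1Q x hx
  rw [s1] at q1
  rw [s2] at q2
  rw [s3] at q3
  obtain ⟨α, hα⟩ : ∃ α, α = x * y * x⁻¹ * y⁻¹ := ⟨_, rfl⟩
  obtain ⟨β, hβ⟩ : ∃ β, β = x * y1 * x⁻¹ * y1⁻¹ := ⟨_, rfl⟩
  obtain ⟨γ, hγ⟩ : ∃ γ, γ = x * y2 * x⁻¹ * y2⁻¹ := ⟨_, rfl⟩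
  have hγγ : γ * γ = 1 := by rw [hγ]; exact h0.comm_sq x hx y2 hy2Q
  have hαZ : α ∈ dl3Z A Q := by rw [hα]; exact h0.comm_mem x hx y hy
  have hβQ : β ∈ Q := by rw [hβ]; exact h0.Z_le (h0.comm_mem x hx y1 hy1Q)
  have hαβ : α * β = β * α := h0.Z_central α hαZ β hβQ
  rw [← hβ, ← hγ] at q1
  rw [← hα, ← hγ] at q2
  rw [← hα, ← hβ] at q3
  -- q1 : γ * β = c, q2 : α * γ = c, q3 : β * α = c
  have e1 : c * c = c := by
    calc c * c = (α * γ) * (γ * β) := by rw [q1, q2]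
      _ = α * (γ * γ) * β := by group
      _ = α * β := by rw [hγγ, mul_one]
      _ = β * α := hαβ
      _ = c := q3
  have hc1 : c = 1 := by rw [hcc] at e1; exact e1.symm
  apply h.comm_ne x hx hxZ
  rw [hc] at hc1
  calc x * (a₀ * x * a₀⁻¹) = (x * (a₀ * x * a₀⁻¹) * x⁻¹ * (a₀ * x * a₀⁻¹)⁻¹) * ((a₀ * x * a₀⁻¹) * x) := by
        group
    _ = (a₀ * x * a₀⁻¹) * x := by rw [hc1, one_mul]

/-- An element of `B` fixing one nontrivial coset of `Z` in `Q` fixes them all. -/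
theorem fix_all (h : DL3Ctx2 ρ B A Q a₀) (x : H) (hx : x ∈ Q) (hxZ : x ∉ dl3Z A Q) (κ : H)
    (hκ : κ ∈ B) (hκx : κ * x * κ⁻¹ * x⁻¹ ∈ dl3Z A Q) :
    ∀ g ∈ Q, κ * g * κ⁻¹ * g⁻¹ ∈ dl3Z A Q := by
  have h0 : DL3Ctx ρ B A Q := h.toDL3Ctx
  obtain ⟨F, hF⟩ : ∃ F : Subgroup H, ∀ g, g ∈ F ↔
      (g ∈ Q ∧ κ * g * κ⁻¹ * g⁻¹ ∈ dl3Z A Q) := by
    refine ⟨{ carrier := {g | g ∈ Q ∧ κ * g * κ⁻¹ * g⁻¹ ∈ dl3Z A Q}
              mul_mem' := ?_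
              one_mem' := ?_
              inv_mem' := ?_ }, fun g => Iff.rfl⟩
    · rintro g g' ⟨hg, hgz⟩ ⟨hg', hgz'⟩
      refine ⟨Q.mul_mem hg hg', ?_⟩
      have e1 : κ * (g * g') * κ⁻¹ * (g * g')⁻¹ =
          (κ * g * κ⁻¹) * ((κ * g' * κ⁻¹ * g'⁻¹) * g⁻¹) := by group
      have e2 := h0.Z_central _ hgz' g⁻¹ (Q.inv_mem hg)
      rw [e1, e2]
      have e3 : κ * g * κ⁻¹ * (g⁻¹ * (κ * g' * κ⁻¹ * g'⁻¹)) =
          (κ * g * κ⁻¹ * g⁻¹) * (κ * g' * κ⁻¹ * g'⁻¹) := by group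
      rw [e3]; exact (dl3Z A Q).mul_mem hgz hgz'
    · refine ⟨Q.one_mem, ?_⟩
      have : κ * 1 * κ⁻¹ * (1 : H)⁻¹ = 1 := by group
      rw [this]; exact (dl3Z A Q).one_mem
    · rintro g ⟨hg, hgz⟩
      refine ⟨Q.inv_mem hg, ?_⟩
      have hzi := (dl3Z A Q).inv_mem hgz
      have e2 := h0.Z_central _ hzi g hg
      have e1 : κ * g⁻¹ * κ⁻¹ * g⁻¹⁻¹ = g⁻¹ * ((κ * g * κ⁻¹ * g⁻¹)⁻¹ * g) := by group
      rw [e1, e2]
      have e3 : g⁻¹ * (g * (κ * g * κ⁻¹ * g⁻¹)⁻¹) = (κ * g * κ⁻¹ * g⁻¹)⁻¹ := by group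
      rw [e3]; exact hzi
  have hZF : dl3Z A Q ≤ F := by
    intro z hz
    rw [hF]
    exact ⟨h0.Z_le hz, (dl3Z A Q).mul_mem (h0.Z_inv κ hκ z hz) ((dl3Z A Q).inv_mem hz)⟩
  have hxF : x ∈ F := (hF x).mpr ⟨hx, hκx⟩
  have hFa : ∀ g ∈ F, a₀ * g * a₀⁻¹ ∈ F := by
    intro g hg
    rw [hF] at hg ⊢
    obtain ⟨hgQ, hgz⟩ := hg
    refine ⟨h.conj_mem g hgQ, ?_⟩
    have hq : a₀ * (κ * g * κ⁻¹) * a₀⁻¹ ∈ Q := h.conj_mem _ (h0.hBQ κ hκ g hgQ)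
    have hd := h.ha₀c κ hκ _ hq
    have e1 : κ * (a₀ * g * a₀⁻¹) * κ⁻¹ * (a₀ * g * a₀⁻¹)⁻¹ =
        (a₀ * κ * a₀⁻¹ * κ⁻¹)⁻¹ * ((a₀ * (κ * g * κ⁻¹) * a₀⁻¹) * (a₀ * κ * a₀⁻¹ * κ⁻¹)) *
          (a₀ * g * a₀⁻¹)⁻¹ := by group
    rw [e1, ← hd]
    have e2 : (a₀ * κ * a₀⁻¹ * κ⁻¹)⁻¹ * ((a₀ * κ * a₀⁻¹ * κ⁻¹) * (a₀ * (κ * g * κ⁻¹) * a₀⁻¹)) *
          (a₀ * g * a₀⁻¹)⁻¹ = a₀ * (κ * g * κ⁻¹ * g⁻¹) * a₀⁻¹ := by group
    rw [e2]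
    exact h0.Z_inv a₀ (h0.AB h.ha₀) _ hgz
  intro g hg
  suffices hgF : g ∈ F from ((hF g).mp hgF).2
  by_cases hgZ : g ∈ dl3Z A Q
  · exact hZF hgZ
  · have key : ∀ w ∈ Q, x * w ∈ dl3Z A Q → w ∈ F := by
      intro w hw hxw
      have e : w = x⁻¹ * (x * w) := by group
      rw [e]
      exact F.mul_mem (F.inv_mem hxF) (hZF hxw)
    rcases h.cosets x hx hxZ g hg hgZ with h1 | h1 | h1
    · exact key g hg h1
    · have h2 := key _ (h.conj_mem g hg) h1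
      have h3 := hFa _ (hFa _ h2)
      rwa [h.conj3 g] at h3
    · have h2 := key _ (h.conj_mem _ (h.conj_mem g hg)) h1
      have h3 := hFa _ h2
      rwa [h.conj3 g] at h3

/-- The configuration is contradictory. -/
theorem false (h : DL3Ctx2 ρ B A Q a₀) : False := by
  have h0 : DL3Ctx ρ B A Q := h.toDL3Ctx
  have hex : ∃ x ∈ Q, x ∉ dl3Z A Q := by
    by_contra hcon
    push_neg at hcon
    exact h0.Z_ne (le_antisymm h0.Z_le hcon)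
  obtain ⟨x, hx, hxZ⟩ := hex
  obtain ⟨T, hT⟩ := h0.exists_T
  have hTB : T ≤ B := fun κ hκ => ((hT κ).mp hκ).1
  have ha₀B : a₀ ∈ B := h0.AB h.ha₀
  -- every element of B is a power of a₀ modulo T
  have hcases : ∀ b ∈ B, b ∈ T ∨ a₀ * b ∈ T ∨ a₀ * (a₀ * b) ∈ T := by
    intro b hb
    have hyQ : b * x * b⁻¹ ∈ Q := h0.hBQ b hb x hx
    have hyZ : b * x * b⁻¹ ∉ dl3Z A Q := by
      intro hc
      apply hxZ
      have h1 := h0.Z_inv b⁻¹ (B.inv_mem hb) _ hc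
      have e : b⁻¹ * (b * x * b⁻¹) * b⁻¹⁻¹ = x := by group
      rwa [e] at h1
    rcases h.cosets x hx hxZ _ hyQ hyZ with h1 | h1 | h1
    · left
      rw [hT]
      refine ⟨hb, h.fix_all x hx hxZ b hb ?_⟩
      exact h0.mul_inv_mem_Z x hx _ hyQ h1
    · right; left
      rw [hT]
      have hκ : a₀ * b ∈ B := B.mul_mem ha₀B hb
      refine ⟨hκ, h.fix_all x hx hxZ _ hκ ?_⟩
      have e : a₀ * b * x * (a₀ * b)⁻¹ = a₀ * (b * x * b⁻¹) * a₀⁻¹ := by group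
      rw [e]
      exact h0.mul_inv_mem_Z x hx _ (h.conj_mem _ hyQ) h1
    · right; right
      rw [hT]
      have hκ : a₀ * (a₀ * b) ∈ B := B.mul_mem ha₀B (B.mul_mem ha₀B hb)
      refine ⟨hκ, h.fix_all x hx hxZ _ hκ ?_⟩
      have e : a₀ * (a₀ * b) * x * (a₀ * (a₀ * b))⁻¹ =
          a₀ * (a₀ * (b * x * b⁻¹) * a₀⁻¹) * a₀⁻¹ := by group
      rw [e]
      exact h0.mul_inv_mem_Z x hx _ (h.conj_mem _ (h.conj_mem _ hyQ)) h1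
  haveI hTn : (T.subgroupOf B).Normal := by
    constructor
    intro n hn g
    rw [Subgroup.mem_subgroupOf, hT] at hn ⊢
    refine ⟨(g * n * g⁻¹).2, ?_⟩
    intro q hq
    have hq' : g.1⁻¹ * q * g.1 ∈ Q := h0.BQ' g.1 g.2 q hq
    have h1 := h0.Z_inv g.1 g.2 _ (hn.2 _ hq')
    have e : ((g * n * g⁻¹ : ↥B) : H) * q * ((g * n * g⁻¹ : ↥B) : H)⁻¹ * q⁻¹ =
        g.1 * (n.1 * (g.1⁻¹ * q * g.1) * n.1⁻¹ * (g.1⁻¹ * q * g.1)⁻¹) * g.1⁻¹ := by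
      simp only [Subgroup.coe_mul, Subgroup.coe_inv]
      group
    rw [e]; exact h1
  obtain ⟨abar, habar⟩ : ∃ abar : ↥B ⧸ T.subgroupOf B,
      abar = QuotientGroup.mk' (T.subgroupOf B) (⟨a₀, ha₀B⟩ : ↥B) := ⟨_, rfl⟩
  have hpow : ∀ b : ↥B, ∃ j : ℕ, QuotientGroup.mk' (T.subgroupOf B) b = abar⁻¹ ^ j := by
    intro b
    rcases hcases b.1 b.2 with h1 | h1 | h1
    · refine ⟨0, ?_⟩
      rw [pow_zero, QuotientGroup.mk'_apply, QuotientGroup.eq_one_iff, Subgroup.mem_subgroupOf]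
      exact h1
    · refine ⟨1, ?_⟩
      have h2 : QuotientGroup.mk' (T.subgroupOf B) ((⟨a₀, ha₀B⟩ : ↥B) * b) = 1 := by
        rw [QuotientGroup.mk'_apply, QuotientGroup.eq_one_iff, Subgroup.mem_subgroupOf]
        exact h1
      rw [map_mul, ← habar] at h2
      rw [pow_one]
      exact (inv_eq_of_mul_eq_one_right h2).symm ▸ rfl
    · refine ⟨2, ?_⟩
      have h2 : QuotientGroup.mk' (T.subgroupOf B)
          ((⟨a₀, ha₀B⟩ : ↥B) * ((⟨a₀, ha₀B⟩ : ↥B) * b)) = 1 := by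
        rw [QuotientGroup.mk'_apply, QuotientGroup.eq_one_iff, Subgroup.mem_subgroupOf]
        exact h1
      rw [map_mul, map_mul, ← habar] at h2
      rw [pow_two]
      have h3 : QuotientGroup.mk' (T.subgroupOf B) b = abar⁻¹ * abar⁻¹ *
          (abar * (abar * QuotientGroup.mk' (T.subgroupOf B) b)) := by group
      rw [h3, h2, mul_one]
  have hAT : A ≤ T := by
    rw [h0.hA, Subgroup.commutator_le]
    intro b hb b' hb'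
    obtain ⟨j, hj⟩ := hpow ⟨b, hb⟩
    obtain ⟨j', hj'⟩ := hpow ⟨b', hb'⟩
    have hcm : Commute (abar⁻¹ ^ j) (abar⁻¹ ^ j') := (Commute.refl abar⁻¹).pow_pow j j'
    have h1 : QuotientGroup.mk' (T.subgroupOf B) ⁅(⟨b, hb⟩ : ↥B), (⟨b', hb'⟩ : ↥B)⁆ = 1 := by
      rw [map_commutatorElement, hj, hj', commutatorElement_def, hcm.eq]
      group
    rw [QuotientGroup.mk'_apply, QuotientGroup.eq_one_iff, Subgroup.mem_subgroupOf] at h1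
    exact h1
  have ha₀T := ((hT a₀).mp (hAT h.ha₀)).2
  exact hxZ (h.mem_Z_of_conj x hx (ha₀T x hx))

end DL3Ctx2

theorem DL3Ctx.false {H : Type*} [Group H] [Finite H] {R : Type*} [Ring R] {ρ : H →* R}
    {B A Q : Subgroup H} (h : DL3Ctx ρ B A Q) : False := by
  obtain ⟨a₀, ha₀, hnc, hc⟩ := h.exists_a0
  exact DL3Ctx2.false (a₀ := a₀) { h with ha₀ := ha₀, ha₀nc := hnc, ha₀c := hc }

end Cfsg.Agent.H3
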