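import Cfsg.Agent.H3.DLCore3
import Cfsg.Agent.H66.HHQ

/-!
# The `p = 3` core of `l_p ≤ d_p`

`dl3_core`: in a 3-soluble group `H` with `O_3(H) = 1` and a faithful representation in
characteristic 3, a 3-subgroup `B` whose derived subgroup `A` acts quadratically with
`(a - 1)(y₂ - 1)(y₁ - 1) = 0` (`a ∈ A`, `yᵢ ∈ B`) is abelian.
-/

set_option autoImplicit false
set_option linter.style.haveILetI false
set_option linter.unusedVariables false
set_option linter.unusedSectionVars false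

namespace Cfsg.Agent.H3

open Cfsg
open scoped commutatorElement

/-- A `p`-subgroup `B` of a `p`-soluble group with `O_p = 1` normalises a `q`-subgroup (`q ≠ p`)
not centralised by a given nontrivial element of `B`. -/
theorem dl_exists_q_subgroup {H : Type*} [Group H] [Finite H] {p : ℕ} [Fact p.Prime]
    (hsol : IsPSolvable p H) (hOp : pCore p H = ⊥)
    (B : Subgroup H) (hB : IsPGroup p B) (y : H) (hyB : y ∈ B) (hy1 : y ≠ 1) :
    ∃ (q : ℕ) (_ : Fact q.Prime) (Q : Subgroup H), q ≠ p ∧ IsPGroup q Q ∧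
      B ≤ Subgroup.normalizer (Q : Set H) ∧ ∃ a ∈ Q, y * a ≠ a * y := by
  have hp : p.Prime := Fact.out
  obtain ⟨N, hN⟩ : ∃ N, N = pPrimeCore p H := ⟨_, rfl⟩
  haveI hNn : N.Normal := by rw [hN]; infer_instance
  have hNc : (Nat.card N).Coprime p := by rw [hN]; exact H14.pPrimeCore_coprime p H
  have hyN : y ∉ N := by
    intro h
    obtain ⟨k, hk⟩ := hB ⟨y, hyB⟩
    have hk' : y ^ p ^ k = 1 := congrArg Subtype.val hk
    have h1 : orderOf y ∣ Nat.card N := by
      have := orderOf_dvd_natCard (⟨y, h⟩ : N)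
      rwa [Subgroup.orderOf_mk] at this
    have h2 : orderOf y ∣ p ^ k := orderOf_dvd_of_pow_eq_one hk'
    have h3 : orderOf y ∣ Nat.gcd (Nat.card N) (p ^ k) := Nat.dvd_gcd h1 h2
    have h4 : Nat.gcd (Nat.card N) (p ^ k) = 1 := Nat.Coprime.pow_right k hNc
    rw [h4, Nat.dvd_one] at h3
    exact hy1 (orderOf_eq_one_iff.mp h3)
  have hcent := H66.centralizer_pPrimeCore_le p hsol hOp
  rw [← hN] at hcent
  have hyC : y ∉ Subgroup.centralizer (N : Set H) := fun h => hyN (hcent h)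
  have hex : ∃ (q : ℕ) (_ : Fact q.Prime) (S : Sylow q N),
      B ≤ Subgroup.normalizer (((S : Subgroup N).map N.subtype : Subgroup H) : Set H) ∧
      ∃ a ∈ (S : Subgroup N).map N.subtype, y * a ≠ a * y := by
    by_contra hcon
    push Not at hcon
    apply hyC
    have hCN : N ⊓ Subgroup.centralizer ({y} : Set H) = N := by
      apply Subgroup.eq_of_le_of_card_ge inf_le_left
      apply Nat.le_of_dvd Nat.card_pos
      rw [← Nat.factorization_prime_le_iff_dvd (Nat.card_pos.ne') (Nat.card_pos.ne')]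
      intro q hq
      haveI : Fact q.Prime := ⟨hq⟩
      obtain ⟨S, hS⟩ := H80.exists_sylow_normalized q p N hNc B hB
      have h1 : (S : Subgroup N).map N.subtype ≤ N ⊓ Subgroup.centralizer ({y} : Set H) := by
        intro a ha
        refine Subgroup.mem_inf.mpr ⟨Subgroup.map_subtype_le _ ha, ?_⟩
        rw [Subgroup.mem_centralizer_iff]
        intro z hz
        rw [Set.mem_singleton_iff] at hz
        rw [hz]
        exact hcon q ‹_› S hS a ha
      have h2 := Subgroup.card_dvd_of_le h1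
      rw [Subgroup.card_map_of_injective N.subtype_injective, Sylow.card_eq_multiplicity] at h2
      exact (Nat.Prime.pow_dvd_iff_le_factorization hq (Nat.card_pos.ne')).mp h2
    rw [Subgroup.mem_centralizer_iff]
    intro n hn
    have h3 : n ∈ N ⊓ Subgroup.centralizer ({y} : Set H) := by rw [hCN]; exact hn
    exact (Subgroup.mem_centralizer_iff.mp h3.2 y rfl).symm
  obtain ⟨q, hqF, S, hSx, a, haS, hya⟩ := hex
  have hq : q.Prime := hqF.out
  obtain ⟨Q, hQ⟩ : ∃ Q : Subgroup H, Q = (S : Subgroup N).map N.subtype := ⟨_, rfl⟩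
  rw [← hQ] at hSx haS
  have hQN : Q ≤ N := by rw [hQ]; exact Subgroup.map_subtype_le _
  have hQq : IsPGroup q Q := by rw [hQ]; exact S.isPGroup'.map N.subtype
  have hQc : (Nat.card Q).Coprime p :=
    Nat.Coprime.coprime_dvd_left (Subgroup.card_dvd_of_le hQN) hNc
  have hqp : q ≠ p := by
    intro hqp
    obtain ⟨k, hk⟩ := IsPGroup.iff_card.mp hQq
    rw [hk, hqp] at hQc
    have hk0 : k = 0 := by
      by_contra hk0
      exact hp.one_lt.ne' ((Nat.coprime_pow_left_iff (Nat.pos_of_ne_zero hk0) p p).mp hQc |>.symm ▸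
        (Nat.coprime_self p).mp ((Nat.coprime_pow_left_iff (Nat.pos_of_ne_zero hk0) p p).mp hQc))
    rw [hk0, pow_zero] at hk
    have hQbot : Q = ⊥ := Subgroup.card_eq_one.mp hk
    rw [hQbot, Subgroup.mem_bot] at haS
    rw [haS] at hya
    simp at hya
  exact ⟨q, hqF, Q, hqp, hQq, hSx, a, haS, hya⟩

theorem dl3_core {H : Type*} [Group H] [Finite H] (hsol : IsPSolvable 3 H) (hOp : pCore 3 H = ⊥)
    {K : Type*} [Field K] [IsAlgClosed K] [CharP K 3] {V : Type*} [AddCommGroup V] [Module K V]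
    [FiniteDimensional K V] (ρ : H →* Module.End K V) (hρ : Function.Injective ρ)
    (B : Subgroup H) (hB : IsPGroup 3 B)
    (hquad : ∀ a ∈ ⁅B, B⁆, (ρ a - 1) * (ρ a - 1) = 0)
    (hc2 : ∀ a ∈ ⁅B, B⁆, ∀ y₁ ∈ B, ∀ y₂ ∈ B, (ρ a - 1) * (ρ y₂ - 1) * (ρ y₁ - 1) = 0) :
    ⁅B, B⁆ = ⊥ := by
  classical
  haveI : Fact (Nat.Prime 3) := ⟨Nat.prime_three⟩
  by_contra hA
  obtain ⟨A, hAdef⟩ : ∃ A : Subgroup H, A = ⁅B, B⁆ := ⟨_, rfl⟩
  rw [← hAdef] at hA hquad hc2
  have hAB : A ≤ B := by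
    rw [hAdef, Subgroup.commutator_le]
    intro x hx y hy
    rw [commutatorElement_def]
    exact B.mul_mem (B.mul_mem (B.mul_mem hx hy) (B.inv_mem hx)) (B.inv_mem hy)
  obtain ⟨y, hyA, hy1⟩ : ∃ y ∈ A, y ≠ 1 := by
    by_contra hcon
    push Not at hcon
    exact hA ((Subgroup.eq_bot_iff_forall A).mpr hcon)
  have hex : ∃ n : ℕ, ∃ (q : ℕ) (_ : Fact q.Prime) (Q : Subgroup H), q ≠ 3 ∧ IsPGroup q Q ∧
      B ≤ Subgroup.normalizer (Q : Set H) ∧ (¬ ∀ a ∈ A, ∀ x ∈ Q, a * x = x * a) ∧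
      Nat.card Q = n := by
    obtain ⟨q, hqF, Q, hq3, hQq, hBQ, e, he, hye⟩ :=
      dl_exists_q_subgroup hsol hOp B hB y (hAB hyA) hy1
    exact ⟨Nat.card Q, q, hqF, Q, hq3, hQq, hBQ, fun hc => hye (hc y hyA e he), rfl⟩
  obtain ⟨q, hqF, Q, hq3, hQq, hBQ, hnc, hcard⟩ := Nat.find_spec hex
  have hminn := fun (m : ℕ) (hm : m < Nat.find hex) => Nat.find_min hex hm
  have hBQ' : ∀ b ∈ B, ∀ x ∈ Q, b * x * b⁻¹ ∈ Q :=
    fun b hb x hx => (Subgroup.mem_normalizer_iff.mp (hBQ hb) x).mp hx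
  have hmin : ∀ X : Subgroup H, X ≤ Q → X ≠ Q → (∀ b ∈ B, ∀ x ∈ X, b * x * b⁻¹ ∈ X) →
      ∀ a ∈ A, ∀ x ∈ X, a * x = x * a := by
    intro X hXle hXne hXinv
    by_contra hcon
    have hlt : Nat.card X < Nat.find hex := by
      rw [← hcard]
      by_contra hge
      push Not at hge
      exact hXne (Subgroup.eq_of_le_of_card_ge hXle hge)
    apply hminn _ hlt
    refine ⟨q, hqF, X, hq3, hQq.to_le hXle, ?_, hcon, rfl⟩
    intro b hb
    rw [Subgroup.mem_normalizer_iff]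
    intro x
    constructor
    · exact hXinv b hb x
    · intro hx
      have := hXinv b⁻¹ (B.inv_mem hb) _ hx
      have e : b⁻¹ * (b * x * b⁻¹) * b⁻¹⁻¹ = x := by group
      rwa [e] at this
  have hex2 : ∃ a ∈ A, ∃ x ∈ Q, a * x ≠ x * a := by
    by_contra hcon
    push Not at hcon
    exact hnc hcon
  obtain ⟨a, haA, x, hxQ, hax⟩ := hex2
  have h3 : (3 : Module.End K V) = 0 := by
    have h : (3 : K) = 0 := by exact_mod_cast CharP.cast_eq_zero K 3
    have h2 : (3 : Module.End K V) = algebraMap K (Module.End K V) 3 := (map_ofNat _ 3).symm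
    rw [h2, h, map_zero]
  have ha3 : a ^ 3 ^ (0 + 1) = 1 := by
    apply hρ
    rw [map_pow, map_one]
    obtain ⟨X, hX⟩ : ∃ X, X = ρ a - 1 := ⟨_, rfl⟩
    have hX2 : X * X = 0 := by rw [hX]; exact hquad a haA
    have ha : ρ a = 1 + X := by rw [hX]; abel
    have e0 : 3 ^ (0 + 1) = 3 := by norm_num
    rw [ha, e0, pow_succ, pow_two]
    have h1 : (1 + X) * (1 + X) * (1 + X) = 1 + (X + X + X) + (X * X + X * X + X * X)
        + X * X * X := by noncomm_ring
    have h2 : X + X + X = 0 := by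
      have : X + X + X = (1 + 1 + 1) * X := by noncomm_ring
      rw [this, show (1 + 1 + 1 : Module.End K V) = 3 by norm_num, h3, zero_mul]
    rw [h1, h2, hX2]
    simp
  have hax' : a ^ 3 ^ 0 * x ≠ x * a ^ 3 ^ 0 := by
    rw [pow_zero, pow_one]; exact hax
  obtain ⟨N, hN1, hN2⟩ := H66.hhB_aux 3 q (Ne.symm hq3) (Module.finrank K V) H V rfl ρ hρ Q hQq a 0
    ha3 (hBQ (hAB haA)) ⟨x, hxQ, hax'⟩
  have hq2 : q = 2 := by
    rcases hN2 with h | ⟨n₀, m, h1, h2, h3', h4, h5, h6⟩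
    · exfalso
      apply hN1
      rw [h]
      have e0 : 3 ^ (0 + 1) - 1 = 2 := by norm_num
      rw [e0, pow_two]
      exact hquad a haA
    · have hn₀ : n₀ = 1 := by omega
      rw [hn₀] at h4
      have h7 : q ∣ q ^ m := dvd_pow_self q (by omega)
      rw [← h4] at h7
      have h8 : q ∣ 2 := by simpa using h7
      exact (Nat.prime_dvd_prime_iff_eq hqF.out Nat.prime_two).mp h8
  subst hq2
  have ctx : DL3Ctx ρ B A Q :=
    { h3 := h3, inj := hρ, hB := hB, hA := hAdef, hquad := hquad, hc2 := hc2, hQ2 := hQq,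
      hBQ := hBQ', hmin := hmin, hnc := hnc }
  exact ctx.false

end Cfsg.Agent.H3
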