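import Mathlib.Tactic.NoncommRing
import Mathlib.Tactic.Abel
import Mathlib.Tactic.NormNum
import Mathlib.Algebra.Ring.Basic

/-!
# Ring identities in characteristic 3 used for the `p = 3` case of `l_p ≤ d_p`
-/

set_option autoImplicit false

namespace Cfsg.Agent.H3

section DLRing

variable {R : Type*} [Ring R]

theorem dl_two_mul_cancel (h3 : (3 : R) = 0) {s : R} (h : 2 * s = 0) : s = 0 := by
  have h1 : (3 : R) * s = 0 := by rw [h3, zero_mul]
  have h2 : s = 3 * s - 2 * s := by noncomm_ring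
  rw [h2, h1, h, sub_zero]

/-- `z - 1` is idempotent for an involution `z` in characteristic 3. -/
theorem dl_idem (h3 : (3 : R) = 0) {z : R} (hz : z * z = 1) : (z - 1) * (z - 1) = z - 1 := by
  have h1 : (z - 1) * (z - 1) = z * z - 2 * z + 1 := by noncomm_ring
  have h2 : (3 : R) * (z - 1) = 0 := by rw [h3, zero_mul]
  have h4 : z * z - 2 * z + 1 = (z - 1) - 3 * (z - 1) + (z * z - 1) := by noncomm_ring
  rw [h1, h4, h2, hz]; noncomm_ring

/-- The key identity: a quadratically acting unit of order 3 cannot permute a commuting triple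
of involutions with product one nontrivially. -/
theorem dl_ring_p1 (h3 : (3 : R) = 0) (N t : R) (hN : N * N = 0) (ht : t * t = 1)
    (hcomm : t * ((1 + N) * t * (1 - N)) = (1 + N) * t * (1 - N) * t)
    (hprod : (1 - N) * t * (1 + N) = t * ((1 + N) * t * (1 - N))) : t = 1 := by
  obtain ⟨t', ht'⟩ : ∃ t' : R, t' = (1 + N) * t * (1 - N) := ⟨_, rfl⟩
  rw [← ht'] at hcomm hprod
  have ht'2 : t' * t' = 1 := by
    have h1 : (1 - N) * (1 + N) = 1 - N * N := by noncomm_ring
    have h2 : (1 + N) * (1 - N) = 1 - N * N := by noncomm_ring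
    calc t' * t' = (1 + N) * t * ((1 - N) * (1 + N)) * t * (1 - N) := by rw [ht']; noncomm_ring
      _ = (1 + N) * (t * t) * (1 - N) := by rw [h1, hN]; noncomm_ring
      _ = (1 + N) * (1 - N) := by rw [ht]; noncomm_ring
      _ = 1 := by rw [h2, hN]; noncomm_ring
  -- s = t + t' + t t'
  have hs1 : t + t' + t * t' = N * t * N := by
    rw [← hprod, ht']
    have h1 : t + (1 + N) * t * (1 - N) + (1 - N) * t * (1 + N) = 3 * t - 3 * (N * t * N) + N * t * N := by
      noncomm_ring
    rw [h1, h3, zero_mul, zero_mul]; noncomm_ring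
  have hs2 : (t + t' + t * t') * (t + t' + t * t') = 0 := by
    rw [hs1]
    calc N * t * N * (N * t * N) = N * t * (N * N) * t * N := by noncomm_ring
      _ = 0 := by rw [hN]; noncomm_ring
  have hs3 : (t + t' + t * t') * (t + t' + t * t') = 2 * (t + t' + t * t') := by
    have e1 : t' * t = t * t' := hcomm.symm
    have h1 : (t + t' + t * t') * (t + t' + t * t')
        = t * t + t' * t' + t * (t' * t) * t' + t * t' + t' * t + (t * t) * t' + t * (t' * t)
          + (t' * t) * t' + t * (t' * t') := by noncomm_ring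
    rw [h1, e1, ht, ht'2]
    have h2 : t * (t * t') * t' = (t * t) * (t' * t') := by noncomm_ring
    have h3' : t * (t * t') = (t * t) * t' := by noncomm_ring
    have h4 : (t * t') * t' = t * (t' * t') := by noncomm_ring
    rw [h2, h3', h4, ht, ht'2]
    have h5 : (1 : R) + 1 + 1 * 1 + t * t' + t * t' + 1 * t' + 1 * t' + t * 1 + t * 1
        = (1 + 1 + 1) + ((t + t' + t * t') + (t + t' + t * t')) := by
      simp only [one_mul, mul_one]; abel
    have h6 : (1 + 1 + 1 : R) = 3 := by norm_num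
    rw [h5, h6, h3, zero_add, two_mul]
  have hs : t + t' + t * t' = 0 := dl_two_mul_cancel h3 (by rw [← hs3, hs2])
  have h6 : (1 + t) * (1 + t') = 1 := by
    have : (1 + t) * (1 + t') = 1 + (t + t' + t * t') := by noncomm_ring
    rw [this, hs, add_zero]
  have h7 : (1 - t) * (1 + t) = 0 := by
    have : (1 - t) * (1 + t) = 1 - t * t := by noncomm_ring
    rw [this, ht, sub_self]
  have h8 : 1 - t = 0 := by
    calc 1 - t = (1 - t) * ((1 + t) * (1 + t')) := by rw [h6, mul_one]
      _ = (1 - t) * (1 + t) * (1 + t') := by rw [mul_assoc]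
      _ = 0 := by rw [h7, zero_mul]
  exact (sub_eq_zero.mp h8).symm


/-- If `A S = 0` with `S = (yi - 1)(y - 1)`, and `π` is an idempotent commuting with `A` with
`π y π = 0 = π yi π`, then `A π = 0`. -/
theorem dl_proj_kill (h3 : (3 : R) = 0) (A y yi π : R) (hy2 : yi * y = 1)
    (hA : A * (yi - 1) * (y - 1) = 0) (hπ : π * π = π) (hAπ : A * π = π * A)
    (h1 : π * y * π = 0) (h2 : π * yi * π = 0) : A * π = 0 := by
  have hS : (yi - 1) * (y - 1) = 1 + 1 - y - yi := by
    have : (yi - 1) * (y - 1) = yi * y - yi - y + 1 := by noncomm_ring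
    rw [this, hy2]; abel
  have hA' : A * (1 + 1 - y - yi) = 0 := by rw [← hS, ← mul_assoc]; exact hA
  have e1 : π * (A * (1 + 1 - y - yi)) * π = 0 := by rw [hA', mul_zero, zero_mul]
  have e2 : π * (A * (1 + 1 - y - yi)) * π = A * (π * π + π * π - π * y * π - π * yi * π) := by
    calc π * (A * (1 + 1 - y - yi)) * π = (π * A) * ((1 + 1 - y - yi) * π) := by noncomm_ring
      _ = (A * π) * ((1 + 1 - y - yi) * π) := by rw [hAπ]
      _ = A * (π * π + π * π - π * y * π - π * yi * π) := by noncomm_ring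
  rw [e2, hπ, h1, h2, sub_zero, sub_zero] at e1
  have e3 : 2 * (A * π) = 0 := by
    rw [two_mul, ← mul_add]; exact e1
  exact dl_two_mul_cancel h3 e3

theorem dl_idem_compl {e : R} (h : e * e = e) : (1 - e) * (1 - e) = 1 - e := by
  have : (1 - e) * (1 - e) = 1 - e - e + e * e := by noncomm_ring
  rw [this, h]; abel

theorem dl_idem_mul {a b : R} (hc : a * b = b * a) (ha : a * a = a) (hb : b * b = b) :
    (a * b) * (a * b) = a * b := by
  calc a * b * (a * b) = a * (b * a) * b := by noncomm_ring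
    _ = (a * a) * (b * b) := by rw [← hc]; noncomm_ring
    _ = a * b := by rw [ha, hb]

theorem dl_compl_mul_self {e : R} (h : e * e = e) : (1 - e) * e = 0 := by
  have : (1 - e) * e = e - e * e := by noncomm_ring
  rw [this, h, sub_self]

theorem dl_self_mul_compl {e : R} (h : e * e = e) : e * (1 - e) = 0 := by
  have : e * (1 - e) = e - e * e := by noncomm_ring
  rw [this, h, sub_self]

/-- Conjugating an involution `z` that commutes with `A`: from `A (yi - 1)(y - 1) = 0` one gets
`A (z - y z yi) = 0`. -/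
theorem dl_ring_m2 (h3 : (3 : R) = 0) (A y yi z : R)
    (hy1 : y * yi = 1) (hy2 : yi * y = 1) (hz : z * z = 1)
    (hc1 : z * (y * z * yi) = (y * z * yi) * z)
    (hc2 : z * (yi * z * y) = (yi * z * y) * z)
    (hAz : A * z = z * A) (hAz1 : A * (y * z * yi) = (y * z * yi) * A)
    (hA : A * (yi - 1) * (y - 1) = 0) :
    A * (z - y * z * yi) = 0 := by
  obtain ⟨z₁, hz₁⟩ : ∃ z₁ : R, z₁ = y * z * yi := ⟨_, rfl⟩
  obtain ⟨zm, hzm⟩ : ∃ zm : R, zm = yi * z * y := ⟨_, rfl⟩
  rw [← hz₁] at hc1 hAz1 ⊢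
  rw [← hzm] at hc2
  have hz₁2 : z₁ * z₁ = 1 := by
    calc z₁ * z₁ = y * z * (yi * y) * z * yi := by rw [hz₁]; noncomm_ring
      _ = y * (z * z) * yi := by rw [hy2]; noncomm_ring
      _ = 1 := by rw [hz, mul_one, hy1]
  obtain ⟨e₀, he₀⟩ : ∃ e₀ : R, e₀ = z - 1 := ⟨_, rfl⟩
  obtain ⟨e₁, he₁⟩ : ∃ e₁ : R, e₁ = z₁ - 1 := ⟨_, rfl⟩
  obtain ⟨em, hem⟩ : ∃ em : R, em = zm - 1 := ⟨_, rfl⟩
  have i0 : e₀ * e₀ = e₀ := by rw [he₀]; exact dl_idem h3 hz
  have i1 : e₁ * e₁ = e₁ := by rw [he₁]; exact dl_idem h3 hz₁2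
  have c01 : Commute e₀ e₁ := by
    rw [he₀, he₁]
    exact (((show Commute z z₁ from hc1).sub_right (Commute.one_right z)).sub_left
        ((Commute.one_left z₁).sub_right (Commute.one_right 1)))
  have c0m : Commute e₀ em := by
    rw [he₀, hem]
    exact (((show Commute z zm from hc2).sub_right (Commute.one_right z)).sub_left
        ((Commute.one_left zm).sub_right (Commute.one_right 1)))
  have ye0 : y * e₀ = e₁ * y := by
    have a1 : e₁ * y = y * z * (yi * y) - y := by rw [he₁, hz₁]; noncomm_ring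
    rw [a1, hy2, he₀]; noncomm_ring
  have yie0 : yi * e₀ = em * yi := by
    have a1 : em * yi = yi * z * (y * yi) - yi := by rw [hem, hzm]; noncomm_ring
    rw [a1, hy1, he₀]; noncomm_ring
  have yie1 : yi * e₁ = e₀ * yi := by
    have a1 : yi * e₁ = (yi * y) * z * yi - yi := by rw [he₁, hz₁]; noncomm_ring
    rw [a1, hy2, he₀]; noncomm_ring
  have Ae0 : Commute A e₀ := by
    rw [he₀]; exact (show Commute A z from hAz).sub_right (Commute.one_right A)
  have Ae1 : Commute A e₁ := by
    rw [he₁]; exact (show Commute A z₁ from hAz1).sub_right (Commute.one_right A)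
  have i1c : (1 - e₁) * (1 - e₁) = 1 - e₁ := dl_idem_compl i1
  have i0c : (1 - e₀) * (1 - e₀) = 1 - e₀ := dl_idem_compl i0
  have c01c : Commute e₀ (1 - e₁) := (Commute.one_right e₀).sub_right c01
  have c0c1 : Commute (1 - e₀) e₁ := (Commute.one_left e₁).sub_left c01
  have y1e0 : y * (1 - e₀) = (1 - e₁) * y := by
    have : y * (1 - e₀) = y - y * e₀ := by noncomm_ring
    rw [this, ye0]; noncomm_ring
  -- first projection
  have P1 : A * (e₀ * (1 - e₁)) = 0 := by
    apply dl_proj_kill h3 A y yi (e₀ * (1 - e₁)) hy2 hA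
    · exact dl_idem_mul c01c.eq i0 i1c
    · exact (Ae0.mul_right ((Commute.one_right A).sub_right Ae1)).eq
    · have h1 : (1 - e₁) * y * e₀ = 0 := by
        rw [mul_assoc, ye0, ← mul_assoc, dl_compl_mul_self i1, zero_mul]
      calc e₀ * (1 - e₁) * y * (e₀ * (1 - e₁)) = e₀ * ((1 - e₁) * y * e₀) * (1 - e₁) := by
            noncomm_ring
        _ = 0 := by rw [h1, mul_zero, zero_mul]
    · have h1 : yi * (e₀ * (1 - e₁)) = em * (1 - e₀) * yi := by
        calc yi * (e₀ * (1 - e₁)) = (yi * e₀) - (yi * e₀) * e₁ := by noncomm_ring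
          _ = em * yi - em * (yi * e₁) := by rw [yie0, mul_assoc]
          _ = em * yi - em * (e₀ * yi) := by rw [yie1]
          _ = em * (1 - e₀) * yi := by noncomm_ring
      have h2 : e₀ * (1 - e₁) * (em * (1 - e₀)) = 0 := by
        have hc : Commute e₀ ((1 - e₁) * em) := c01c.mul_right c0m
        calc e₀ * (1 - e₁) * (em * (1 - e₀)) = (e₀ * ((1 - e₁) * em)) * (1 - e₀) := by
              noncomm_ring
          _ = (1 - e₁) * em * (e₀ * (1 - e₀)) := by rw [hc.eq]; noncomm_ring
          _ = 0 := by rw [dl_self_mul_compl i0, mul_zero]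
      calc e₀ * (1 - e₁) * yi * (e₀ * (1 - e₁)) = e₀ * (1 - e₁) * (yi * (e₀ * (1 - e₁))) := by
            noncomm_ring
        _ = e₀ * (1 - e₁) * (em * (1 - e₀)) * yi := by rw [h1]; noncomm_ring
        _ = 0 := by rw [h2, zero_mul]
  -- second projection
  have P2 : A * ((1 - e₀) * e₁) = 0 := by
    apply dl_proj_kill h3 A y yi ((1 - e₀) * e₁) hy2 hA
    · exact dl_idem_mul c0c1.eq i0c i1
    · exact (((Commute.one_right A).sub_right Ae0).mul_right Ae1).eq
    · have h1 : e₁ * y * (1 - e₀) = 0 := by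
        rw [mul_assoc, y1e0, ← mul_assoc, dl_self_mul_compl i1, zero_mul]
      calc (1 - e₀) * e₁ * y * ((1 - e₀) * e₁) = (1 - e₀) * (e₁ * y * (1 - e₀)) * e₁ := by
            noncomm_ring
        _ = 0 := by rw [h1, mul_zero, zero_mul]
    · have h1 : yi * ((1 - e₀) * e₁) = (1 - em) * e₀ * yi := by
        calc yi * ((1 - e₀) * e₁) = yi * e₁ - (yi * e₀) * e₁ := by noncomm_ring
          _ = yi * e₁ - em * (yi * e₁) := by rw [yie0, mul_assoc]
          _ = e₀ * yi - em * (e₀ * yi) := by rw [yie1]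
          _ = (1 - em) * e₀ * yi := by noncomm_ring
      have h2 : (1 - e₀) * e₁ * ((1 - em) * e₀) = 0 := by
        have hc : Commute (e₁ * (1 - em)) e₀ :=
          (c01.mul_right ((Commute.one_right e₀).sub_right c0m)).symm
        calc (1 - e₀) * e₁ * ((1 - em) * e₀) = (1 - e₀) * ((e₁ * (1 - em)) * e₀) := by
              noncomm_ring
          _ = ((1 - e₀) * e₀) * (e₁ * (1 - em)) := by rw [hc.eq]; noncomm_ring
          _ = 0 := by rw [dl_compl_mul_self i0, zero_mul]
      calc (1 - e₀) * e₁ * yi * ((1 - e₀) * e₁) = (1 - e₀) * e₁ * (yi * ((1 - e₀) * e₁)) := by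
            noncomm_ring
        _ = (1 - e₀) * e₁ * ((1 - em) * e₀) * yi := by rw [h1]; noncomm_ring
        _ = 0 := by rw [h2, zero_mul]
  have hfin : z - z₁ = e₀ * (1 - e₁) - (1 - e₀) * e₁ := by rw [he₀, he₁]; noncomm_ring
  rw [hfin, mul_sub, P1, P2, sub_zero]

end DLRing

end Cfsg.Agent.H3
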