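import Cfsg.Agent.H3.DLMain
import Cfsg.Agent.H66.ZRep
import Cfsg.Agent.H14.PLength

/-!
# `l_p ≤ d_p` for odd `p`

* `dl_comm_le_pCore`: in a `p`-soluble group `Γ` with `O_{p'}(Γ) = 1`, `p` odd, if `B` is a normal
  subgroup of a Sylow `p`-subgroup with `B'' = 1` then `B' ≤ O_p(Γ)`.
* `dl_relSeries_eq_top`: the inductive form of `l_p ≤ d_p`.
-/

set_option autoImplicit false
set_option linter.style.haveILetI false
set_option linter.unusedVariables false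
set_option linter.unusedSectionVars false

namespace Cfsg.Agent.H3

open Cfsg TensorProduct
open scoped commutatorElement

universe u

set_option maxHeartbeats 1600000 in
theorem dl_comm_le_pCore {Γ : Type u} [Group Γ] [Finite Γ] {p : ℕ} [Fact p.Prime] (hp2 : p ≠ 2)
    (hsol : IsPSolvable p Γ) (hO : pPrimeCore p Γ = ⊥) (P : Sylow p Γ) (B : Subgroup Γ)
    (hBP : B ≤ (P : Subgroup Γ)) (hBn : ∀ g ∈ (P : Subgroup Γ), ∀ b ∈ B, g * b * g⁻¹ ∈ B)
    (hB2 : ⁅⁅B, B⁆, ⁅B, B⁆⁆ = ⊥) : ⁅B, B⁆ ≤ pCore p Γ := by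
  classical
  have hp : p.Prime := Fact.out
  obtain ⟨P₁, hP₁⟩ : ∃ P₁ : Subgroup Γ, P₁ = pCore p Γ := ⟨_, rfl⟩
  haveI hP₁n : P₁.Normal := by rw [hP₁]; infer_instance
  rw [← hP₁]
  have hP₁p : IsPGroup p P₁ := by rw [hP₁]; exact H14.pCore_isPGroup p Γ
  have hP₁P : P₁ ≤ (P : Subgroup Γ) := hP₁p.le_sylow_of_normal P
  obtain ⟨Φ, hΦ⟩ : ∃ Φ : Subgroup Γ, Φ = (frattini ↥P₁).map P₁.subtype := ⟨_, rfl⟩
  haveI hΦn : Φ.Normal := by
    rw [hΦ]
    apply Subgroup.normalizer_eq_top_iff.mp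
    rw [eq_top_iff]
    refine le_trans ?_ (H1.normalizer_le_normalizer_map_of_characteristic P₁ (frattini ↥P₁))
    rw [Subgroup.normalizer_eq_top_iff.mpr hP₁n]
  obtain ⟨V, iV1, iV2, θ, ι, hθinj, hιsurj, hιmul, hιzpow, hιconj, hιeq, hVp⟩ :=
    H66.exists_faithful_zmod_rep hsol hO P₁ hP₁ Φ hΦ
  have hι1 : ι 1 = 0 := by
    have := hιzpow 1 P₁.one_mem 0
    rwa [zpow_zero, zero_smul] at this
  have hιinv : ∀ u ∈ P₁, ι u⁻¹ = - ι u := by
    intro u hu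
    have := hιzpow u hu (-1)
    rwa [zpow_neg_one, neg_one_smul] at this
  have hF : ∀ g : Γ, ∀ u ∈ P₁,
      (θ (QuotientGroup.mk' P₁ g) - 1) (ι u) = ι (g * u * g⁻¹ * u⁻¹) := by
    intro g u hu
    have h1 : g * u * g⁻¹ ∈ P₁ := hP₁n.conj_mem u hu g
    rw [LinearMap.sub_apply, Module.End.one_apply, hιconj g u hu, hιmul _ h1 _ (P₁.inv_mem hu),
      hιinv u hu, sub_eq_add_neg]
  obtain ⟨A, hA⟩ : ∃ A : Subgroup Γ, A = ⁅B, B⁆ := ⟨_, rfl⟩
  rw [← hA] at hB2 ⊢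
  have hAB : A ≤ B := by
    rw [hA, Subgroup.commutator_le]
    intro x hx y hy
    rw [commutatorElement_def]
    exact B.mul_mem (B.mul_mem (B.mul_mem hx hy) (B.inv_mem hx)) (B.inv_mem hy)
  have hAn : ∀ g ∈ (P : Subgroup Γ), ∀ a ∈ A, g * a * g⁻¹ ∈ A := by
    intro g hg a ha
    have h1 : A.map (MulAut.conj g).toMonoidHom ≤ A := by
      rw [hA, Subgroup.map_commutator]
      apply Subgroup.commutator_mono
      · rintro _ ⟨b, hb, rfl⟩
        exact hBn g hg b hb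
      · rintro _ ⟨b, hb, rfl⟩
        exact hBn g hg b hb
    exact h1 ⟨a, ha, rfl⟩
  have hAcomm : ∀ a ∈ A, ∀ w ∈ A, a * w * a⁻¹ * w⁻¹ = 1 := by
    intro a ha w hw
    have := Subgroup.commutator_mem_commutator ha hw
    rw [hB2, Subgroup.mem_bot, commutatorElement_def] at this
    exact this
  have hquadθ : ∀ a ∈ A,
      (θ (QuotientGroup.mk' P₁ a) - 1) * (θ (QuotientGroup.mk' P₁ a) - 1) = 0 := by
    intro a ha
    apply LinearMap.ext; intro v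
    obtain ⟨u, hu, rfl⟩ := hιsurj v
    rw [Module.End.mul_apply, hF a u hu, LinearMap.zero_apply]
    have hw1 : a * u * a⁻¹ * u⁻¹ ∈ P₁ := P₁.mul_mem (hP₁n.conj_mem u hu a) (P₁.inv_mem hu)
    have hw2 : a * u * a⁻¹ * u⁻¹ ∈ A := by
      have e : a * u * a⁻¹ * u⁻¹ = a * (u * a⁻¹ * u⁻¹) := by group
      rw [e]; exact A.mul_mem ha (hAn u (hP₁P hu) _ (A.inv_mem ha))
    rw [hF a _ hw1, hAcomm a ha _ hw2, hι1]
  have hc2θ : ∀ a ∈ A, ∀ y₁ ∈ B, ∀ y₂ ∈ B,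
      (θ (QuotientGroup.mk' P₁ a) - 1) * (θ (QuotientGroup.mk' P₁ y₂) - 1) *
        (θ (QuotientGroup.mk' P₁ y₁) - 1) = 0 := by
    intro a ha y₁ hy₁ y₂ hy₂
    apply LinearMap.ext; intro v
    obtain ⟨u, hu, rfl⟩ := hιsurj v
    rw [Module.End.mul_apply, Module.End.mul_apply, hF y₁ u hu, LinearMap.zero_apply]
    have hw1 : y₁ * u * y₁⁻¹ * u⁻¹ ∈ P₁ := P₁.mul_mem (hP₁n.conj_mem u hu y₁) (P₁.inv_mem hu)
    have hw1B : y₁ * u * y₁⁻¹ * u⁻¹ ∈ B := by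
      have e : y₁ * u * y₁⁻¹ * u⁻¹ = y₁ * (u * y₁⁻¹ * u⁻¹) := by group
      rw [e]; exact B.mul_mem hy₁ (hBn u (hP₁P hu) _ (B.inv_mem hy₁))
    obtain ⟨w1, hw1def⟩ : ∃ w1, w1 = y₁ * u * y₁⁻¹ * u⁻¹ := ⟨_, rfl⟩
    rw [← hw1def] at hw1 hw1B ⊢
    have hw2 : y₂ * w1 * y₂⁻¹ * w1⁻¹ ∈ P₁ :=
      P₁.mul_mem (hP₁n.conj_mem w1 hw1 y₂) (P₁.inv_mem hw1)
    have hw2A : y₂ * w1 * y₂⁻¹ * w1⁻¹ ∈ A := by
      rw [hA]
      have := Subgroup.commutator_mem_commutator hy₂ hw1B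
      rwa [commutatorElement_def] at this
    rw [hF y₂ _ hw1, hF a _ hw2, hAcomm a ha _ hw2A, hι1]
  have hsolH : IsPSolvable p (Γ ⧸ P₁) := H80.isPSolvable_quotient p P₁ hsol
  have hOpH : pCore p (Γ ⧸ P₁) = ⊥ := by
    subst hP₁
    exact H66.pCore_quotient_pCore_bot p
  haveI hVfin : Finite V :=
    Finite.of_surjective ι (fun v => by obtain ⟨u, _, h⟩ := hιsurj v; exact ⟨u, h⟩)
  obtain ⟨ρ, hρ⟩ : ∃ ρ : (Γ ⧸ P₁) →* Module.End (AlgebraicClosure (ZMod p))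
        (AlgebraicClosure (ZMod p) ⊗[ZMod p] V),
      ρ = ((Module.End.baseChangeHom (ZMod p) (AlgebraicClosure (ZMod p)) V :
        Module.End (ZMod p) V →ₐ[ZMod p] Module.End (AlgebraicClosure (ZMod p))
          (AlgebraicClosure (ZMod p) ⊗[ZMod p] V)) :
        Module.End (ZMod p) V →* Module.End (AlgebraicClosure (ZMod p))
          (AlgebraicClosure (ZMod p) ⊗[ZMod p] V)).comp θ := ⟨_, rfl⟩
  have hρapply : ∀ a : Γ ⧸ P₁, ρ a =
      Module.End.baseChangeHom (ZMod p) (AlgebraicClosure (ZMod p)) V (θ a) := by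
    intro a; rw [hρ]; rfl
  have hρinj : Function.Injective ρ := by
    intro a b hab
    rw [hρapply, hρapply] at hab
    exact hθinj (LinearMap.baseChangeHom_injective (ZMod p) V (AlgebraicClosure (ZMod p)) hab)
  have hρsub : ∀ a : Γ ⧸ P₁, ρ a - 1 =
      Module.End.baseChangeHom (ZMod p) (AlgebraicClosure (ZMod p)) V (θ a - 1) := by
    intro a; rw [map_sub, map_one, hρapply]
  have hquadρ : ∀ a ∈ A,
      (ρ (QuotientGroup.mk' P₁ a) - 1) * (ρ (QuotientGroup.mk' P₁ a) - 1) = 0 := by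
    intro a ha
    rw [hρsub, ← map_mul, hquadθ a ha, map_zero]
  have hc2ρ : ∀ a ∈ A, ∀ y₁ ∈ B, ∀ y₂ ∈ B,
      (ρ (QuotientGroup.mk' P₁ a) - 1) * (ρ (QuotientGroup.mk' P₁ y₂) - 1) *
        (ρ (QuotientGroup.mk' P₁ y₁) - 1) = 0 := by
    intro a ha y₁ hy₁ y₂ hy₂
    rw [hρsub, hρsub, hρsub, ← map_mul, ← map_mul, hc2θ a ha y₁ hy₁ y₂ hy₂, map_zero]
  obtain ⟨Bb, hBb⟩ : ∃ Bb : Subgroup (Γ ⧸ P₁), Bb = B.map (QuotientGroup.mk' P₁) := ⟨_, rfl⟩
  have hBbp : IsPGroup p Bb := by rw [hBb]; exact (P.isPGroup'.to_le hBP).map _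
  have hcomm : ⁅Bb, Bb⁆ = A.map (QuotientGroup.mk' P₁) := by
    rw [hBb, hA, Subgroup.map_commutator]
  suffices hbot : A.map (QuotientGroup.mk' P₁) = ⊥ by
    intro a ha
    have h1 : QuotientGroup.mk' P₁ a ∈ A.map (QuotientGroup.mk' P₁) :=
      Subgroup.mem_map_of_mem _ ha
    rw [hbot, Subgroup.mem_bot] at h1
    exact (QuotientGroup.eq_one_iff (N := P₁) a).mp h1
  by_cases hp3 : p = 3
  · subst hp3
    rw [← hcomm]
    apply dl3_core hsolH hOpH ρ hρinj Bb hBbp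
    · intro x hx
      rw [hcomm] at hx
      obtain ⟨a, ha, rfl⟩ := hx
      exact hquadρ a ha
    · intro x hx y₁ hy₁ y₂ hy₂
      rw [hcomm] at hx
      obtain ⟨a, ha, rfl⟩ := hx
      rw [hBb] at hy₁ hy₂
      obtain ⟨b₁, hb₁, rfl⟩ := hy₁
      obtain ⟨b₂, hb₂, rfl⟩ := hy₂
      exact hc2ρ a ha b₁ hb₁ b₂ hb₂
  · have hp5 : 5 ≤ p := by
      by_contra hlt
      push Not at hlt
      have h2 := hp.two_le
      interval_cases p
      · exact hp2 rfl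
      · exact hp3 rfl
      · exact absurd hp (by norm_num)
    rw [Subgroup.eq_bot_iff_forall]
    rintro _ ⟨a, ha, rfl⟩
    by_contra hx1
    obtain ⟨x, hx⟩ : ∃ x : Γ ⧸ P₁, x = QuotientGroup.mk' P₁ a := ⟨_, rfl⟩
    rw [← hx] at hx1
    have hxquad : (ρ x - 1) * (ρ x - 1) = 0 := by rw [hx]; exact hquadρ a ha
    have hex : ∃ k : ℕ, x ^ p ^ k = 1 := by
      obtain ⟨k, hk⟩ := P.isPGroup' ⟨a, hBP (hAB ha)⟩
      have hk' : a ^ p ^ k = 1 := congrArg Subtype.val hk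
      exact ⟨k, by rw [hx, ← map_pow, hk', map_one]⟩
    have hk0 : Nat.find hex ≠ 0 := by
      intro h0
      have := Nat.find_spec hex
      rw [h0, pow_zero, pow_one] at this
      exact hx1 this
    obtain ⟨m, hm⟩ : ∃ m, Nat.find hex = m + 1 := ⟨Nat.find hex - 1, by omega⟩
    have hxm1 : x ^ p ^ (m + 1) = 1 := by rw [← hm]; exact Nat.find_spec hex
    have hxm2 : x ^ p ^ m ≠ 1 := Nat.find_min hex (by omega)
    obtain ⟨N, hN, hcases⟩ := H66.hhB_group hsolH hOpH ρ hρinj x m hxm1 hxm2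
    have hN3 : 3 ≤ N := by
      rcases hcases with h | ⟨n₀, q, k, h1, h2, h3, h4, h5, h6, h7⟩
      · rw [h]
        calc 3 ≤ p := by omega
          _ = p ^ 1 := (pow_one p).symm
          _ ≤ p ^ (m + 1) := Nat.pow_le_pow_right hp.pos (by omega)
      · rw [h7]
        have e1 : p ^ 1 ≤ p ^ n₀ := Nat.pow_le_pow_right hp.pos h1
        rw [pow_one] at e1
        calc 3 ≤ p ^ n₀ - 1 := by omega
          _ ≤ p ^ (m + 1 - n₀) * (p ^ n₀ - 1) := Nat.le_mul_of_pos_left _ (pow_pos hp.pos _)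
    apply hN
    have e : N - 1 = 2 + (N - 3) := by omega
    rw [e, pow_add, pow_two, hxquad, zero_mul]

theorem dl_derived_map_succ {G : Type*} [Group G] (S : Subgroup G) (i : ℕ) :
    (derivedSeries ↥S (i + 1)).map S.subtype =
      ⁅(derivedSeries ↥S i).map S.subtype, (derivedSeries ↥S i).map S.subtype⁆ := by
  rw [derivedSeries_succ, Subgroup.map_commutator]

theorem dl_derived_map_le {G : Type*} [Group G] (S : Subgroup G) (i : ℕ) :
    (derivedSeries ↥S i).map S.subtype ≤ S := Subgroup.map_subtype_le _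

theorem dl_derived_map_conj {G : Type*} [Group G] (S : Subgroup G) (i : ℕ) :
    ∀ s ∈ S, ∀ t ∈ (derivedSeries ↥S i).map S.subtype,
      s * t * s⁻¹ ∈ (derivedSeries ↥S i).map S.subtype := by
  rintro s hs _ ⟨t, ht, rfl⟩
  haveI := derivedSeries_normal ↥S i
  refine ⟨(⟨s, hs⟩ : ↥S) * t * (⟨s, hs⟩ : ↥S)⁻¹, ?_, ?_⟩
  · exact Subgroup.Normal.conj_mem inferInstance t ht _
  · simp

/-- The step: if `S^(d+2) ≤ M` then `S^(d+1) ≤ O_{p',p}(G mod M)`. -/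
theorem dl_step {G : Type u} [Group G] [Finite G] {p : ℕ} [Fact p.Prime] (hp2 : p ≠ 2)
    (hsol : IsPSolvable p G) (S : Sylow p G) (d : ℕ) (M : {H : Subgroup G // H.Normal})
    (hM : (derivedSeries ↥(S : Subgroup G) (d + 2)).map (S : Subgroup G).subtype ≤ M.1) :
    (derivedSeries ↥(S : Subgroup G) (d + 1)).map (S : Subgroup G).subtype ≤
      (H14.relSeries p G M 2).1 := by
  haveI : M.1.Normal := M.2
  haveI : (H14.relSeries p G M 1).1.Normal := (H14.relSeries p G M 1).2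
  have hN := H14.relSeries_one p G M
  have hQ := H14.relSeries_two p G M
  obtain ⟨N, hNdef⟩ : ∃ N : Subgroup G, N = (H14.relSeries p G M 1).1 := ⟨_, rfl⟩
  haveI hNn : N.Normal := by rw [hNdef]; infer_instance
  have hMN : M.1 ≤ N := by rw [hNdef, hN]; exact H14.le_comap_mk' _ _
  have hsolΓ : IsPSolvable p (G ⧸ N) := H80.isPSolvable_quotient p N hsol
  have hOΓ : pPrimeCore p (G ⧸ N) = ⊥ :=
    H14.pPrimeCore_quotient_eq_bot_of_comap p M.1 N (by rw [hNdef, hN])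
  have hsurj : Function.Surjective (QuotientGroup.mk' N) := QuotientGroup.mk'_surjective _
  obtain ⟨D0, hD0⟩ : ∃ D0 : Subgroup G,
      D0 = (derivedSeries ↥(S : Subgroup G) d).map (S : Subgroup G).subtype := ⟨_, rfl⟩
  obtain ⟨D1, hD1⟩ : ∃ D1 : Subgroup G,
      D1 = (derivedSeries ↥(S : Subgroup G) (d + 1)).map (S : Subgroup G).subtype := ⟨_, rfl⟩
  obtain ⟨D2, hD2⟩ : ∃ D2 : Subgroup G,
      D2 = (derivedSeries ↥(S : Subgroup G) (d + 2)).map (S : Subgroup G).subtype := ⟨_, rfl⟩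
  have e1 : D1 = ⁅D0, D0⁆ := by rw [hD1, hD0]; exact dl_derived_map_succ _ d
  have e2 : D2 = ⁅D1, D1⁆ := by rw [hD2, hD1]; exact dl_derived_map_succ _ (d + 1)
  rw [← hD2] at hM
  rw [← hD1]
  have hD0S : D0 ≤ (S : Subgroup G) := by rw [hD0]; exact dl_derived_map_le _ d
  have hD0n : ∀ s ∈ (S : Subgroup G), ∀ t ∈ D0, s * t * s⁻¹ ∈ D0 := by
    rw [hD0]; exact dl_derived_map_conj _ d
  obtain ⟨B, hB⟩ : ∃ B : Subgroup (G ⧸ N), B = D0.map (QuotientGroup.mk' N) := ⟨_, rfl⟩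
  have hPcoe : ((Sylow.mapSurjective hsurj S : Sylow p (G ⧸ N)) : Subgroup (G ⧸ N)) =
      (S : Subgroup G).map (QuotientGroup.mk' N) := Sylow.coe_mapSurjective hsurj S
  have hBP : B ≤ ((Sylow.mapSurjective hsurj S : Sylow p (G ⧸ N)) : Subgroup (G ⧸ N)) := by
    rw [hPcoe, hB]
    exact Subgroup.map_mono hD0S
  have hBn : ∀ g ∈ ((Sylow.mapSurjective hsurj S : Sylow p (G ⧸ N)) : Subgroup (G ⧸ N)),
      ∀ b ∈ B, g * b * g⁻¹ ∈ B := by
    intro g hg b hb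
    rw [hPcoe] at hg
    obtain ⟨s, hs, rfl⟩ := hg
    rw [hB] at hb ⊢
    obtain ⟨t, ht, rfl⟩ := hb
    refine ⟨s * t * s⁻¹, hD0n s hs t ht, ?_⟩
    rw [map_mul, map_mul, map_inv]
  have hBB : ⁅B, B⁆ = D1.map (QuotientGroup.mk' N) := by
    rw [hB, e1, Subgroup.map_commutator]
  have hB2 : ⁅⁅B, B⁆, ⁅B, B⁆⁆ = ⊥ := by
    rw [hBB, ← Subgroup.map_commutator, ← e2, eq_bot_iff]
    rintro _ ⟨x, hx, rfl⟩
    rw [Subgroup.mem_bot]
    exact (QuotientGroup.eq_one_iff (N := N) x).mpr (hMN (hM hx))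
  have key := dl_comm_le_pCore hp2 hsolΓ hOΓ (Sylow.mapSurjective hsurj S) B hBP hBn hB2
  rw [hBB] at key
  intro x hx
  have h1 : QuotientGroup.mk' N x ∈ pCore p (G ⧸ N) := key (Subgroup.mem_map_of_mem _ hx)
  rw [hQ, Subgroup.mem_comap]
  subst hNdef
  exact h1

/-- Inductive form of `l_p ≤ d_p` for odd `p`. -/
theorem dl_relSeries_eq_top {G : Type u} [Group G] [Finite G] {p : ℕ} [Fact p.Prime] (hp2 : p ≠ 2)
    (hsol : IsPSolvable p G) (S : Sylow p G) :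
    ∀ (d : ℕ), (∀ (M : {H : Subgroup G // H.Normal}),
      (derivedSeries ↥(S : Subgroup G) d).map (S : Subgroup G).subtype ≤ M.1 →
      (H14.relSeries p G M (2 * d + 1)).1 = ⊤) ∧
      (∀ (M : {H : Subgroup G // H.Normal}),
      (derivedSeries ↥(S : Subgroup G) (d + 1)).map (S : Subgroup G).subtype ≤ M.1 →
      (H14.relSeries p G M (2 * (d + 1) + 1)).1 = ⊤) := by
  intro d
  induction d with
  | zero =>
    constructor
    · intro M hM
      apply H14.relSeries_eq_top_of_lcs_le p hsol S 0 M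
      rw [Subgroup.lowerCentralSeries_zero]
      rw [derivedSeries_zero, ← MonoidHom.range_eq_map, Subgroup.range_subtype] at hM
      exact hM
    · intro M hM
      apply H14.relSeries_eq_top_of_lcs_le p hsol S 1 M
      rw [Subgroup.lowerCentralSeries_succ, Subgroup.lowerCentralSeries_zero]
      rw [dl_derived_map_succ, derivedSeries_zero, ← MonoidHom.range_eq_map,
        Subgroup.range_subtype] at hM
      exact hM
  | succ d ih =>
    refine ⟨ih.2, ?_⟩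
    intro M hM
    have h1 := dl_step hp2 hsol S d M hM
    have h2 := ih.2 (H14.relSeries p G M 2) h1
    have h3 : 2 * (d + 1 + 1) + 1 = (2 * (d + 1) + 1) + 2 := by ring
    rw [h3, H14.relSeries_add_two]
    exact h2

/-- `l_p ≤ d_p` for odd `p`: the `p`-length of a `p`-soluble group is at most the derived length
of its Sylow `p`-subgroups. -/
theorem dl_pLengthLE {G : Type u} [Group G] [Finite G] {p : ℕ} [Fact p.Prime] (hp2 : p ≠ 2)
    (hsol : IsPSolvable p G) (d : ℕ)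
    (hd : ∀ P : Sylow p G, derivedSeries ↥(P : Subgroup G) d = ⊥) : PLengthLE p d G := by
  obtain ⟨S⟩ : Nonempty (Sylow p G) := inferInstance
  unfold PLengthLE
  rw [← H14.relSeries_bot]
  apply (dl_relSeries_eq_top hp2 hsol S d).1
  rw [hd S, Subgroup.map_bot]

end Cfsg.Agent.H3
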