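import Mathlib
import Cfsg.Agent.H99.EmDefs2
import Cfsg.Agent.H49.PlusPlane
import Cfsg.Agent.H49.InvOmega

/-!
# S5990 team project (helper99): piece G-ISO (helper3)

Over a finite field (any characteristic), two nondegenerate subspaces of the same even dimension
and the same type are isometric.  Built on helper49's standard models (`even_model`,
`exists_QMin_iso`, `QMin_ts_le`).
-/

set_option autoImplicit false

namespace Cfsg.Agent.H3.Em

open Cfsg.Agent.H45 Cfsg.Agent.H48.Ep Cfsg.Agent.H99.Em Cfsg.Agent.H49 Module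

universe u v w

section
variable {F : Type u} [Field F] {V : Type v} [AddCommGroup V] [Module F V]

/-- The form of a nondegenerate subspace, transported to a coordinate space, is nondegenerate. -/
theorem qi_nondeg (Q : QuadraticForm F V) (W : Submodule F V) (hW : QNd Q W)
    {E : Type w} [AddCommGroup E] [Module F E] (φ : E ≃ₗ[F] W) :
    (QuadraticMap.polarBilin ((Q.comp W.subtype).comp φ.toLinearMap)).Nondegenerate := by
  have key : ∀ a : E,
      (∀ b : E, QuadraticMap.polar ⇑Q ((φ a : W) : V) ((φ b : W) : V) = 0) → a = 0 := by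
    intro a h
    have h1 : ((φ a : W) : V) ∈ W ⊓ perp (QuadraticMap.polarBilin Q) W := by
      refine ⟨(φ a).2, fun x hx => ?_⟩
      have := h (φ.symm ⟨x, hx⟩)
      rw [LinearEquiv.apply_symm_apply] at this
      show QuadraticMap.polar ⇑Q x ((φ a : W) : V) = 0
      rw [QuadraticMap.polar_comm]; exact this
    rw [hW, Submodule.mem_bot] at h1
    have h2 : φ a = 0 := Subtype.ext h1
    exact φ.map_eq_zero_iff.mp h2
  have hpol : ∀ a b : E, QuadraticMap.polarBilin ((Q.comp W.subtype).comp φ.toLinearMap) a b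
      = QuadraticMap.polar ⇑Q ((φ a : W) : V) ((φ b : W) : V) := by
    intro a b
    simp [QuadraticMap.polar, QuadraticMap.comp_apply, map_add]
  constructor
  · intro a h
    exact key a (fun b => by rw [← hpol]; exact h b)
  · intro a h
    exact key a (fun b => by rw [QuadraticMap.polar_comm, ← hpol]; exact h b)

/-- A hyperbolic model gives plus type. -/
theorem qi_plus_of_hyp (Q : QuadraticForm F V) (W : Submodule F V) {t : ℕ}
    (φ : (Fin t ⊕ Fin t → F) ≃ₗ[F] W) (hφ : ∀ x, Q ((φ x : W) : V) = QP t F x) :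
    QPlus Q W := by
  have hinj : Function.Injective (W.subtype.comp φ.toLinearMap) :=
    W.injective_subtype.comp φ.injective
  refine ⟨(U0 t F).map (W.subtype.comp φ.toLinearMap), ?_, ?_, ?_⟩
  · rintro _ ⟨x, -, rfl⟩
    exact (φ x).2
  · rintro _ ⟨x, hx, rfl⟩
    show Q ((φ x : W) : V) = 0
    rw [hφ]; exact U0_ts t F x hx
  · rw [← (Submodule.equivMapOfInjective _ hinj (U0 t F)).finrank_eq, finrank_U0,
      ← φ.finrank_eq, finrank_plus]

theorem qi_aniso {ζ : F} (hζ : ∀ s : F, s ^ 2 + s + ζ ≠ 0) :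
    ∀ z₁ z₂ : F, z₁ ^ 2 + 1 * z₁ * z₂ + ζ * z₂ ^ 2 = 0 → z₁ = 0 ∧ z₂ = 0 := by
  intro z₁ z₂ h
  by_cases hz : z₂ = 0
  · subst hz
    refine ⟨?_, rfl⟩
    have h1 : z₁ ^ 2 = 0 := by linear_combination h
    exact pow_eq_zero_iff (two_ne_zero) |>.mp h1
  · exfalso
    apply hζ (z₁ / z₂)
    field_simp
    linear_combination h

theorem qi_disc {ζ : F} (hζ : ∀ s : F, s ^ 2 + s + ζ ≠ 0) : (1 : F) ^ 2 - 4 * ζ ≠ 0 := by
  intro h
  have h2 : (2 : F) ≠ 0 := by
    intro h2
    have : (1 : F) = 0 := by linear_combination h + 2 * ζ * h2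
    exact one_ne_zero this
  apply hζ (-1 / 2)
  field_simp
  linear_combination (-1 : F) * h

/-- An elliptic model excludes plus type. -/
theorem qi_not_plus_of_ell (Q : QuadraticForm F V) (W : Submodule F V) {k : ℕ} (ζ : F)
    (hζ : ∀ s : F, s ^ 2 + s + ζ ≠ 0)
    (φ : ((Fin k ⊕ Fin k) ⊕ Fin 2 → F) ≃ₗ[F] W)
    (hφ : ∀ x, Q ((φ x : W) : V) = QMin k F 1 ζ x) : ¬ QPlus Q W := by
  rintro ⟨U, hUW, hU0, hUd⟩
  obtain ⟨f, hf⟩ : ∃ f : ((Fin k ⊕ Fin k) ⊕ Fin 2 → F) →ₗ[F] V,
      f = W.subtype.comp φ.toLinearMap := ⟨_, rfl⟩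
  have hfx : ∀ x, f x = ((φ x : W) : V) := fun x => by rw [hf]; rfl
  have hinj : Function.Injective f := by
    rw [hf]; exact W.injective_subtype.comp φ.injective
  have hts : IsTS (QMin k F 1 ζ) (U.comap f) := by
    intro x hx
    rw [← hφ, ← hfx]
    exact hU0 _ hx
  have hle := QMin_ts_le k 1 ζ (qi_aniso hζ) (qi_disc hζ) (U.comap f) hts
  have hmap : (U.comap f).map f = U := by
    rw [Submodule.map_comap_eq, inf_eq_right]
    intro x hx
    exact ⟨φ.symm ⟨x, hUW hx⟩, by rw [hfx, LinearEquiv.apply_symm_apply]⟩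
  have hfr : finrank F ((U.comap f).map f) = finrank F (U.comap f) :=
    (Submodule.equivMapOfInjective f hinj _).finrank_eq.symm
  rw [hmap] at hfr
  have hW : finrank F W = 2 * (k + 1) := by rw [← φ.finrank_eq, finrank_minus]
  omega

end

/-- **G-ISO**: two nondegenerate subspaces of the same even dimension and type are isometric. -/
theorem qIso : StQIso.{u, v} := by
  intro F _ _ V _ _ _ Q W W' hW hW' hfr hev hpl
  obtain ⟨t, ht⟩ := hev
  have e1 : finrank F (Fin t ⊕ Fin t → F) = finrank F W := by rw [finrank_plus, ht]; ring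
  have e1' : finrank F (Fin t ⊕ Fin t → F) = finrank F W' := by rw [e1, hfr]
  obtain ⟨φ⟩ := FiniteDimensional.nonempty_linearEquiv_of_finrank_eq e1
  obtain ⟨φ'⟩ := FiniteDimensional.nonempty_linearEquiv_of_finrank_eq e1'
  rcases even_model _ (qi_nondeg Q W hW φ) with ⟨T, hT⟩ | ⟨ζ, T, hζ, hT⟩ <;>
    rcases even_model _ (qi_nondeg Q W' hW' φ') with ⟨T', hT'⟩ | ⟨ζ', T', hζ', hT'⟩
  · have h1 : ∀ x, Q ((T.trans φ x : W) : V) = QP t F x := hT
    have h1' : ∀ x, Q ((T'.trans φ' x : W') : V) = QP t F x := hT'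
    refine ⟨(T.trans φ).symm.trans (T'.trans φ'), fun x => ?_⟩
    rw [LinearEquiv.trans_apply, h1', ← h1, LinearEquiv.apply_symm_apply]
  · exfalso
    have h1 : ∀ x, Q ((T.trans φ x : W) : V) = QP t F x := hT
    have h1' : ∀ x, Q ((T'.trans φ' x : W') : V) = QMin (t - 1) F 1 ζ' x := hT'
    exact qi_not_plus_of_ell Q W' ζ' hζ' _ h1' (hpl.mp (qi_plus_of_hyp Q W _ h1))
  · exfalso
    have h1 : ∀ x, Q ((T.trans φ x : W) : V) = QMin (t - 1) F 1 ζ x := hT
    have h1' : ∀ x, Q ((T'.trans φ' x : W') : V) = QP t F x := hT'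
    exact qi_not_plus_of_ell Q W ζ hζ _ h1 (hpl.mpr (qi_plus_of_hyp Q W' _ h1'))
  · have h1 : ∀ x, Q ((T.trans φ x : W) : V) = QMin (t - 1) F 1 ζ x := hT
    have h1' : ∀ x, Q ((T'.trans φ' x : W') : V) = QMin (t - 1) F 1 ζ' x := hT'
    obtain ⟨S, hS⟩ := exists_QMin_iso (t - 1) ζ' ζ hζ' hζ
    have hSinj : Function.Injective S := by
      rw [injective_iff_map_eq_zero]
      intro x hx
      apply (QMin_nondeg (t - 1) (1 : F) ζ (qi_disc hζ)).1
      intro y
      show QuadraticMap.polar ⇑(QMin (t - 1) F 1 ζ) x y = 0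
      simp only [QuadraticMap.polar]
      rw [← hS, ← hS x, ← hS y, map_add, hx]
      simp
    refine ⟨(T.trans φ).symm.trans ((LinearEquiv.ofInjectiveEndo S hSinj).trans (T'.trans φ')),
      fun x => ?_⟩
    rw [LinearEquiv.trans_apply, LinearEquiv.trans_apply, h1', LinearEquiv.coe_ofInjectiveEndo,
      hS, ← h1, LinearEquiv.apply_symm_apply]

example : Cfsg.Agent.H99.Em.StQIso.{u, v} := qIso

end Cfsg.Agent.H3.Em
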