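import Mathlib
import Cfsg.Agent.H99.EmDefs2
import Cfsg.Agent.H49.NDTrans
import Cfsg.Agent.H3.EmQIso

/-!
# S5990 team project (helper99): piece G-ORBTRANS (helper3)

Witt: two nondegenerate subspaces of the same even dimension and type, both orthogonal to a
nondegenerate subspace `R`, are conjugate under an isometry fixing `R` pointwise.  Port of
helper48's `H48/OhOrbTrans.lean` to `(ι → F, Q)` in any characteristic, on top of helper49's
`witt_nondeg`.
-/

set_option autoImplicit false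
open scoped MatrixGroups
open scoped Matrix

namespace Cfsg.Agent.H3.Em

open Cfsg.Agent.H45 Cfsg.Agent.H48.Ep Cfsg.Agent.H99.Em Module

universe u

/-- **G-ORBTRANS**. -/
theorem orbTrans (hIso : StQIso.{u, u}) : StOrbTrans.{u} := by
  intro F _ _ ι _ _ Q hQtop hex R W W' hR hW hW' hWR hW'R hdim heven htype
  classical
  obtain ⟨B, hB⟩ : ∃ B : LinearMap.BilinForm F (ι → F), B = QuadraticMap.polarBilin Q :=
    ⟨_, rfl⟩
  have hBpol : ∀ x y, B x y = QuadraticMap.polar ⇑Q x y := fun x y => by rw [hB]; rfl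
  have hBsymm : ∀ x y, B x y = B y x := fun x y => by
    rw [hBpol, hBpol, QuadraticMap.polar_comm]
  rw [← hB] at hWR hW'R
  have hRnd : R ⊓ perp B R = ⊥ := by rw [hB]; exact hR
  have hWnd : W ⊓ perp B W = ⊥ := by rw [hB]; exact hW
  have hQnd : (QuadraticMap.polarBilin Q).Nondegenerate := by
    have h1 : ∀ y : ι → F, (∀ x, B x y = 0) → y = 0 := by
      intro y hy
      have h2 : y ∈ (⊤ : Submodule F (ι → F)) ⊓ perp B ⊤ :=
        ⟨Submodule.mem_top, fun x _ => hy x⟩
      rw [hB, hQtop] at h2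
      exact (Submodule.mem_bot F).mp h2
    rw [← hB]
    constructor
    · intro x hx
      exact h1 x (fun y => by rw [hBsymm]; exact hx y)
    · intro y hy
      exact h1 y hy
  obtain ⟨e₀, he₀⟩ := hIso F (ι → F) Q W W' hW hW' hdim heven htype
  -- the linear map: `e₀` on `W`, identity on `perp B W ⊇ R`
  have hcompl : IsCompl W (perp B W) := isCompl_perp B W hWnd
  let π : (ι → F) →ₗ[F] W := Submodule.linearProjOfIsCompl W (perp B W) hcompl
  let e : (ι → F) →ₗ[F] (ι → F) :=
    W'.subtype ∘ₗ e₀.toLinearMap ∘ₗ π + (LinearMap.id - W.subtype ∘ₗ π)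
  have hRperp : R ≤ perp B W := by
    intro x hx y hy
    rw [hBsymm]
    exact hWR hy x hx
  have heW : ∀ x : W, e (x : ι → F) = (e₀ x : W') := by
    intro x
    have h1 : π (x : ι → F) = x := Submodule.linearProjOfIsCompl_apply_left hcompl x
    simp only [e, LinearMap.add_apply, LinearMap.comp_apply, LinearMap.sub_apply,
      LinearMap.id_apply, Submodule.subtype_apply, LinearEquiv.coe_coe]
    rw [h1, sub_self, add_zero]
  have heR : ∀ x ∈ R, e x = x := by
    intro x hx
    have h1 : π x = 0 := Submodule.linearProjOfIsCompl_apply_right' hcompl (hRperp hx)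
    simp only [e, LinearMap.add_apply, LinearMap.comp_apply, LinearMap.sub_apply,
      LinearMap.id_apply, Submodule.subtype_apply, LinearEquiv.coe_coe]
    rw [h1, map_zero]
    simp
  -- `W ⊔ R` is nondegenerate
  have hU : (W ⊔ R) ⊓ LinearMap.BilinForm.orthogonal (QuadraticMap.polarBilin Q) (W ⊔ R)
      = ⊥ := by
    rw [eq_bot_iff]
    rintro x ⟨hx1, hx2⟩
    rw [Submodule.mem_bot]
    have hx2' : ∀ n ∈ W ⊔ R, B n x = 0 := by
      intro n hn
      have h1 : (QuadraticMap.polarBilin Q) n x = 0 :=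
        (LinearMap.BilinForm.mem_orthogonal_iff.mp hx2) n hn
      rw [hB]
      exact h1
    obtain ⟨y, hy, r, hr, rfl⟩ := Submodule.mem_sup.mp hx1
    have hy0 : y = 0 := by
      have h1 : y ∈ W ⊓ perp B W := by
        refine ⟨hy, fun z hz => ?_⟩
        have h3 := hx2' z (Submodule.mem_sup_left hz)
        rw [map_add, hRperp hr z hz, add_zero] at h3
        exact h3
      rw [hWnd] at h1
      exact (Submodule.mem_bot F).mp h1
    have hr0 : r = 0 := by
      have h1 : r ∈ R ⊓ perp B R := by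
        refine ⟨hr, fun z hz => ?_⟩
        have h3 := hx2' z (Submodule.mem_sup_right hz)
        rw [map_add, hBsymm z y, hRperp hz y hy, zero_add] at h3
        exact h3
      rw [hRnd] at h1
      exact (Submodule.mem_bot F).mp h1
    rw [hy0, hr0, add_zero]
  have he : ∀ x ∈ W ⊔ R, Q (e x) = Q x := by
    intro x hx
    obtain ⟨y, hy, r, hr, rfl⟩ := Submodule.mem_sup.mp hx
    rw [map_add, heW ⟨y, hy⟩, heR r hr]
    have h1 : QuadraticMap.polar ⇑Q ((e₀ ⟨y, hy⟩ : W') : ι → F) r = 0 := by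
      rw [← hBpol, hBsymm]
      exact hW'R (e₀ ⟨y, hy⟩).2 r hr
    have h3 : QuadraticMap.polar ⇑Q y r = 0 := by
      rw [← hBpol, hBsymm]
      exact hWR hy r hr
    rw [QuadraticMap.polar] at h1 h3
    have h4 := he₀ ⟨y, hy⟩
    simp only at h4
    linear_combination h1 - h3 + h4
  have hex' : Fintype.card F ≠ 2 ∨ finrank F (ι → F) ≠ 4 := by
    rw [Module.finrank_fintype_fun_eq_card]
    exact hex
  obtain ⟨g, hg⟩ := Cfsg.Agent.H49.witt_nondeg Q hQnd hex' (W ⊔ R) hU e he
  refine ⟨(g : Matrix.GeneralLinearGroup ι F), g.2, ?_, ?_⟩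
  · intro x hx
    rw [Matrix.toLin'_apply, hg x (Submodule.mem_sup_right hx), heR x hx]
  · apply le_antisymm
    · rintro y ⟨x, hx, rfl⟩
      rw [Matrix.toLin'_apply, hg x (Submodule.mem_sup_left hx), heW ⟨x, hx⟩]
      exact (e₀ ⟨x, hx⟩).2
    · intro y hy
      refine ⟨(e₀.symm ⟨y, hy⟩ : W), (e₀.symm ⟨y, hy⟩).2, ?_⟩
      rw [Matrix.toLin'_apply, hg _ (Submodule.mem_sup_left (e₀.symm ⟨y, hy⟩).2),
        heW (e₀.symm ⟨y, hy⟩), LinearEquiv.apply_symm_apply]

example (hIso : Cfsg.Agent.H99.Em.StQIso.{u, u}) : Cfsg.Agent.H99.Em.StOrbTrans.{u} :=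
  orbTrans hIso

/-- **G-ORBTRANS**, closed (with G-ISO plugged in). -/
theorem orbTransC : StOrbTrans.{u} := orbTrans qIso

example : Cfsg.Agent.H99.Em.StOrbTrans.{u} := orbTransC

end Cfsg.Agent.H3.Em
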