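import Mathlib
import Cfsg.Prelude.Def_GeometricClasses
import Cfsg.Agent.H1.HallHigman

set_option autoImplicit false

namespace Cfsg.Agent.H3.Fp

/-- The statement of S5876-D for a fixed group `G`. -/
def StD (G : Type*) [Group G] : Prop :=
  ∀ (A : Subgroup G) (_hAn : A.Normal) (_hA : ∀ a ∈ A, ∀ b ∈ A, a * b = b * a)
    (_hmax : ∀ B : Subgroup G, B.Normal → (∀ a ∈ B, ∀ b ∈ B, a * b = b * a) → A ≤ B → B ≤ A)
    (H : Subgroup G) (_hHn : H.Normal) (_hHnil : Group.IsNilpotent H) (_hAH : A ≤ H)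
    (_hHA : ∀ h ∈ H, ∀ a ∈ A, h * a = a * h)
    (y : G) (_hy : y ∈ H) (_hyA : y ∉ A),
    ∃ w ∈ H, y⁻¹ * (w⁻¹ * y * w) ∈ A ∧ y⁻¹ * (w⁻¹ * y * w) ≠ 1

/-- A subgroup with commuting elements is nilpotent. -/
theorem isNilpotent_of_comm {G : Type*} [Group G] (A : Subgroup G)
    (hA : ∀ a ∈ A, ∀ b ∈ A, a * b = b * a) : Group.IsNilpotent A := by
  refine ⟨⟨1, ?_⟩⟩
  rw [Subgroup.upperCentralSeries_one, eq_top_iff]
  intro x _
  rw [Subgroup.mem_center_iff]
  intro y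
  exact Subtype.ext (hA y.1 y.2 x.1 x.2)

/-- S5876-E, with the group-theoretic lemma D as a hypothesis. -/
theorem abstract_fix_bound_of {G : Type*} [Group G] [Finite G] [Group.IsSolvable G]
    (hD : StD G) (N : ℕ) (c : G → ℕ)
    (h1 : ∀ g x : G, 2 * c g ≤ N + c (g⁻¹ * (x⁻¹ * g * x)))
    (h2 : ∀ A : Subgroup G, A.Normal → (∀ a ∈ A, ∀ b ∈ A, a * b = b * a) →
      ∀ a ∈ A, a ≠ 1 → c a = 0)
    (g : G) (hg : g ≠ 1) : 4 * c g ≤ 3 * N := by
  classical
  -- a maximal abelian normal subgroup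
  obtain ⟨A, hAmax⟩ := Set.Finite.exists_maximal
    (s := {B : Subgroup G | B.Normal ∧ ∀ a ∈ B, ∀ b ∈ B, a * b = b * a})
    (Set.toFinite _)
    ⟨⊥, by
      refine ⟨inferInstance, ?_⟩
      intro a ha b hb
      rw [Subgroup.mem_bot.1 ha, Subgroup.mem_bot.1 hb]⟩
  obtain ⟨⟨hAn, hA⟩, hAm⟩ := hAmax
  have hmax : ∀ B : Subgroup G, B.Normal → (∀ a ∈ B, ∀ b ∈ B, a * b = b * a) → A ≤ B → B ≤ A :=
    fun B hBn hBc hAB => hAm ⟨hBn, hBc⟩ hAB
  haveI := hAn
  have hAFit : A ≤ Cfsg.fittingSubgroup G :=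
    Cfsg.Agent.H1.le_fitting A (isNilpotent_of_comm A hA)
  obtain ⟨H, hH⟩ : ∃ H : Subgroup G,
      H = Cfsg.fittingSubgroup G ⊓ Subgroup.centralizer (A : Set G) := ⟨_, rfl⟩
  have hHn : H.Normal := by
    rw [hH]
    haveI : (Subgroup.centralizer (A : Set G)).Normal := Subgroup.normal_centralizer
    infer_instance
  have hHnil : Group.IsNilpotent H := by
    haveI : Group.IsNilpotent (Cfsg.fittingSubgroup G) := Cfsg.Agent.H1.fitting_nilpotent
    have hle : H ≤ Cfsg.fittingSubgroup G := by rw [hH]; exact inf_le_left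
    exact Group.nilpotent_of_mulEquiv (Subgroup.subgroupOfEquivOfLe hle)
  have hAH : A ≤ H := by
    rw [hH]
    refine le_inf hAFit ?_
    intro a ha
    rw [Subgroup.mem_centralizer_iff]
    intro b hb
    exact hA b hb a ha
  have hHA : ∀ h ∈ H, ∀ a ∈ A, h * a = a * h := by
    intro h hh a ha
    rw [hH] at hh
    exact ((Subgroup.mem_centralizer_iff.1 hh.2) a ha).symm
  -- Claim 1
  have claim1 : ∀ y ∈ Cfsg.fittingSubgroup G, y ≠ 1 → 2 * c y ≤ N := by
    intro y hy hy1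
    by_cases hyA : y ∈ A
    · rw [h2 A hAn hA y hyA hy1]
      exact Nat.zero_le _
    by_cases hcomm : ∀ a ∈ A, y * a = a * y
    · have hyH : y ∈ H := by
        rw [hH]
        refine Subgroup.mem_inf.2 ⟨hy, ?_⟩
        rw [Subgroup.mem_centralizer_iff]
        intro a ha
        exact (hcomm a ha).symm
      obtain ⟨w, _, hzA, hz1⟩ := hD A hAn hA hmax H hHn hHnil hAH hHA y hyH hyA
      have h3 := h1 y w
      rw [h2 A hAn hA _ hzA hz1] at h3
      exact h3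
    · push Not at hcomm
      obtain ⟨a, ha, hne⟩ := hcomm
      have hzA : y⁻¹ * (a⁻¹ * y * a) ∈ A := by
        have h3 : y⁻¹ * a⁻¹ * y⁻¹⁻¹ ∈ A := hAn.conj_mem a⁻¹ (A.inv_mem ha) y⁻¹
        have h4 : y⁻¹ * (a⁻¹ * y * a) = (y⁻¹ * a⁻¹ * y⁻¹⁻¹) * a := by group
        rw [h4]
        exact A.mul_mem h3 ha
      have hz1 : y⁻¹ * (a⁻¹ * y * a) ≠ 1 := by
        intro h
        apply hne
        have h5 : a⁻¹ * y * a = y := by
          have := congrArg (fun t => y * t) h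
          simpa using this
        calc y * a = a * (a⁻¹ * y * a) := by group
          _ = a * y := by rw [h5]
      have h3 := h1 y a
      rw [h2 A hAn hA _ hzA hz1] at h3
      exact h3
  -- the goal
  by_cases hgF : g ∈ Cfsg.fittingSubgroup G
  · have := claim1 g hgF hg
    omega
  · have hgC : g ∉ Subgroup.centralizer (Cfsg.fittingSubgroup G : Set G) :=
      fun h => hgF (Cfsg.Agent.H1.centralizer_fitting_le h)
    rw [Subgroup.mem_centralizer_iff] at hgC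
    push Not at hgC
    obtain ⟨x, hx, hne⟩ := hgC
    have hFn : (Cfsg.fittingSubgroup G).Normal := inferInstance
    have hzF : g⁻¹ * (x⁻¹ * g * x) ∈ Cfsg.fittingSubgroup G := by
      have h3 : g⁻¹ * x⁻¹ * g⁻¹⁻¹ ∈ Cfsg.fittingSubgroup G :=
        hFn.conj_mem x⁻¹ ((Cfsg.fittingSubgroup G).inv_mem hx) g⁻¹
      have h4 : g⁻¹ * (x⁻¹ * g * x) = (g⁻¹ * x⁻¹ * g⁻¹⁻¹) * x := by group
      rw [h4]
      exact (Cfsg.fittingSubgroup G).mul_mem h3 hx
    have hz1 : g⁻¹ * (x⁻¹ * g * x) ≠ 1 := by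
      intro h
      apply hne
      have h5 : x⁻¹ * g * x = g := by
        have := congrArg (fun t => g * t) h
        simpa using this
      calc x * g = x * (x⁻¹ * g * x) := by rw [h5]
        _ = g * x := by group
    have h6 := claim1 _ hzF hz1
    have h7 := h1 g x
    omega

end Cfsg.Agent.H3.Fp
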