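import Mathlib

/-!
# Combinatorial and arithmetic lemmas for the Shult–Gross theorem

* `fg_orbit_reps`: a finite set on which `σ` acts freely with period `n` has a set of orbit
  representatives `T` with `|Ω| = n |T|`.
* `fg_nt`: if `q^d' + 1 = p^k` and `p^(k+s) ∣ q^u - 1` then `2 d' p^s ≤ u` (lifting the exponent).
* `fg_dim_eq`: the dimension count forcing `d = p^k - 1`.
-/

set_option autoImplicit false
set_option linter.style.haveILetI false
set_option linter.unusedVariables false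
set_option linter.unusedSectionVars false

namespace Cfsg.Agent.H3

theorem fg_orbit_reps {α : Type*} [DecidableEq α] (σ : α → α) (n : ℕ) (hn : 0 < n) :
    ∀ (Ω : Finset α), (∀ a ∈ Ω, σ a ∈ Ω) → (∀ a ∈ Ω, σ^[n] a = a) →
      (∀ a ∈ Ω, ∀ i, 0 < i → i < n → σ^[i] a ≠ a) →
      ∃ T : Finset α, T ⊆ Ω ∧ Ω.card = n * T.card ∧
        ∀ a ∈ Ω, ∃ t ∈ T, ∃ i, i < n ∧ a = σ^[i] t := by
  intro Ω
  induction Ω using Finset.strongInduction with
  | H Ω ih =>
    intro hσ hper hfree
    by_cases hΩ : Ω = ∅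
    · refine ⟨∅, Finset.empty_subset _, ?_, ?_⟩
      · rw [hΩ]; simp
      · intro a ha; rw [hΩ] at ha; simp at ha
    obtain ⟨a₀, ha₀⟩ := Finset.nonempty_iff_ne_empty.mpr hΩ
    have hiter : ∀ i, σ^[i] a₀ ∈ Ω := by
      intro i
      induction i with
      | zero => exact ha₀
      | succ i ih' => rw [Function.iterate_succ_apply']; exact hσ _ ih'
    have hinjσ : ∀ a ∈ Ω, ∀ b ∈ Ω, σ a = σ b → a = b := by
      intro a ha b hb hab
      obtain ⟨n', rfl⟩ : ∃ n', n = n' + 1 := ⟨n - 1, by omega⟩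
      have h1 := hper a ha
      have h2 := hper b hb
      rw [Function.iterate_succ_apply] at h1 h2
      rw [← h1, ← h2, hab]
    have hinj : ∀ i, i < n → ∀ j, j < n → σ^[i] a₀ = σ^[j] a₀ → i = j := by
      have key : ∀ i j, i < j → j < n → σ^[i] a₀ ≠ σ^[j] a₀ := by
        intro i j hij hj h
        have h1 : σ^[j - i] (σ^[i] a₀) = σ^[i] a₀ := by
          rw [← Function.iterate_add_apply, Nat.sub_add_cancel hij.le]; exact h.symm
        exact hfree _ (hiter i) (j - i) (by omega) (by omega) h1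
      intro i hi j hj h
      rcases Nat.lt_trichotomy i j with h' | h' | h'
      · exact absurd h (key i j h' hj)
      · exact h'
      · exact absurd h.symm (key j i h' hi)
    obtain ⟨O, hO⟩ : ∃ O : Finset α, O = (Finset.range n).image (fun i => σ^[i] a₀) := ⟨_, rfl⟩
    have hOΩ : O ⊆ Ω := by
      intro a ha
      rw [hO, Finset.mem_image] at ha
      obtain ⟨i, _, rfl⟩ := ha
      exact hiter i
    have ha₀O : a₀ ∈ O := by
      rw [hO, Finset.mem_image]
      exact ⟨0, Finset.mem_range.mpr hn, rfl⟩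
    have hlt : Ω \ O ⊂ Ω := by
      refine ⟨Finset.sdiff_subset, ?_⟩
      intro h
      have := h ha₀
      rw [Finset.mem_sdiff] at this
      exact this.2 ha₀O
    have hσ' : ∀ a ∈ Ω \ O, σ a ∈ Ω \ O := by
      intro a ha
      rw [Finset.mem_sdiff] at ha ⊢
      refine ⟨hσ a ha.1, ?_⟩
      intro h
      rw [hO, Finset.mem_image] at h
      obtain ⟨i, hi, hia⟩ := h
      apply ha.2
      rw [hO, Finset.mem_image]
      rcases Nat.eq_zero_or_pos i with hi0 | hi0
      · refine ⟨n - 1, Finset.mem_range.mpr (by omega), ?_⟩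
        apply hinjσ _ (hiter _) _ ha.1
        have h1 : σ (σ^[n - 1] a₀) = a₀ := by
          rw [← Function.iterate_succ_apply' σ (n - 1) a₀]
          have : (n - 1).succ = n := by omega
          rw [this]; exact hper a₀ ha₀
        rw [h1]
        rw [hi0] at hia
        exact hia
      · refine ⟨i - 1, Finset.mem_range.mpr (by have := Finset.mem_range.mp hi; omega), ?_⟩
        apply hinjσ _ (hiter _) _ ha.1
        rw [← Function.iterate_succ_apply' σ (i - 1) a₀]
        have : (i - 1).succ = i := by omega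
        rw [this]; exact hia
    obtain ⟨T', hT'Ω, hT'card, hT'cov⟩ := ih (Ω \ O) hlt hσ'
      (fun a ha => hper a (Finset.mem_sdiff.mp ha).1)
      (fun a ha => hfree a (Finset.mem_sdiff.mp ha).1)
    have ha₀T' : a₀ ∉ T' := by
      intro h
      have := hT'Ω h
      rw [Finset.mem_sdiff] at this
      exact this.2 ha₀O
    have hOcard : O.card = n := by
      rw [hO, Finset.card_image_of_injOn, Finset.card_range]
      intro i hi j hj h
      exact hinj i (Finset.mem_range.mp hi) j (Finset.mem_range.mp hj) h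
    refine ⟨insert a₀ T', ?_, ?_, ?_⟩
    · intro t ht
      rcases Finset.mem_insert.mp ht with rfl | ht
      · exact ha₀
      · exact (Finset.mem_sdiff.mp (hT'Ω ht)).1
    · rw [Finset.card_insert_of_notMem ha₀T', Nat.mul_succ, ← hT'card,
        Finset.card_sdiff_of_subset hOΩ, hOcard]
      have : n ≤ Ω.card := by rw [← hOcard]; exact Finset.card_le_card hOΩ
      omega
    · intro a ha
      by_cases haO : a ∈ O
      · rw [hO, Finset.mem_image] at haO
        obtain ⟨i, hi, rfl⟩ := haO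
        exact ⟨a₀, Finset.mem_insert_self _ _, i, Finset.mem_range.mp hi, rfl⟩
      · obtain ⟨t, ht, i, hi, hia⟩ := hT'cov a (Finset.mem_sdiff.mpr ⟨ha, haO⟩)
        exact ⟨t, Finset.mem_insert_of_mem ht, i, hi, hia⟩

theorem fg_nt {p q : ℕ} (hp : p.Prime) (hp2 : p ≠ 2) (hq : q.Prime) (k s d' u : ℕ) (hk : 1 ≤ k)
    (hd : q ^ d' + 1 = p ^ k) (hu : 1 ≤ u) (hdiv : p ^ (k + s) ∣ q ^ u - 1) :
    2 * d' * p ^ s ≤ u := by
  haveI : Fact p.Prime := ⟨hp⟩
  have hp3 : 3 ≤ p := by
    have := hp.two_le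
    omega
  obtain ⟨P, hP⟩ : ∃ P : ℕ, P = p ^ k := ⟨_, rfl⟩
  have hP3 : 3 ≤ P := by
    rw [hP]
    calc 3 ≤ p := hp3
      _ = p ^ 1 := (pow_one p).symm
      _ ≤ p ^ k := Nat.pow_le_pow_right hp.pos hk
  rw [← hP] at hd
  have hq2 := hq.two_le
  have hd'1 : 1 ≤ d' := by
    by_contra hcon
    have : d' = 0 := by omega
    rw [this, pow_zero] at hd
    omega
  have hpP : p ∣ P := by rw [hP]; exact dvd_pow_self p (by omega)
  haveI : NeZero P := ⟨by omega⟩
  have hqd : ((q : ZMod P)) ^ d' = -1 := by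
    have h1 : ((q ^ d' + 1 : ℕ) : ZMod P) = 0 := by rw [hd]; exact ZMod.natCast_self P
    push_cast at h1
    exact eq_neg_of_add_eq_zero_left h1
  have hq2d : ((q : ZMod P)) ^ (2 * d') = 1 := by
    rw [mul_comm, pow_mul, hqd]; norm_num
  have hPdiv : P ∣ q ^ u - 1 := by
    refine dvd_trans ?_ hdiv
    rw [hP]; exact pow_dvd_pow p (by omega)
  have hqu1 : 1 ≤ q ^ u := Nat.one_le_pow _ _ (by omega)
  have hqu : ((q : ZMod P)) ^ u = 1 := by
    have h1 : ((q ^ u - 1 : ℕ) : ZMod P) = 0 := (ZMod.natCast_eq_zero_iff _ _).mpr hPdiv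
    rw [Nat.cast_sub hqu1] at h1
    push_cast at h1
    exact sub_eq_zero.mp h1
  obtain ⟨o, ho⟩ : ∃ o : ℕ, o = orderOf (q : ZMod P) := ⟨_, rfl⟩
  have ho2d : o ∣ 2 * d' := by rw [ho]; exact orderOf_dvd_of_pow_eq_one hq2d
  have hou : o ∣ u := by rw [ho]; exact orderOf_dvd_of_pow_eq_one hqu
  have ho0 : o ≠ 0 := by
    intro h
    rw [h] at ho2d
    have := Nat.eq_zero_of_zero_dvd ho2d
    omega
  have hqo : ((q : ZMod P)) ^ o = 1 := by rw [ho]; exact pow_orderOf_eq_one _
  have hod : d' < o := by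
    have hqo1 : 1 ≤ q ^ o := Nat.one_le_pow _ _ (by omega)
    have h1 : ((q ^ o - 1 : ℕ) : ZMod P) = 0 := by
      rw [Nat.cast_sub hqo1]; push_cast; rw [hqo]; ring
    have h2 : P ∣ q ^ o - 1 := (ZMod.natCast_eq_zero_iff _ _).mp h1
    have h3 : 2 ≤ q ^ o := by
      calc 2 ≤ q := hq2
        _ = q ^ 1 := (pow_one q).symm
        _ ≤ q ^ o := Nat.pow_le_pow_right (by omega) (by omega)
    have h4 : P ≤ q ^ o - 1 := Nat.le_of_dvd (by omega) h2
    have h5 : q ^ d' < q ^ o := by omega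
    exact (Nat.pow_lt_pow_iff_right (by omega)).mp h5
  have ho_eq : o = 2 * d' := by
    obtain ⟨c, hc⟩ := ho2d
    rcases Nat.lt_or_ge c 2 with h | h
    · interval_cases c
      · omega
      · omega
    · have : o * 2 ≤ o * c := Nat.mul_le_mul_left o h
      omega
  obtain ⟨e, he⟩ := hou
  rw [ho_eq] at he
  have he1 : 1 ≤ e := by
    by_contra hcon
    have : e = 0 := by omega
    rw [this] at he
    omega
  obtain ⟨x, hx⟩ : ∃ x : ℕ, x = q ^ (2 * d') := ⟨_, rfl⟩
  have hxP : x = (P - 1) ^ 2 := by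
    rw [hx, mul_comm, pow_mul]
    congr 1
    omega
  have hx1 : 1 < x := by
    rw [hxP]
    have : 2 ≤ P - 1 := by omega
    nlinarith
  have hxsub : x - 1 = p ^ k * (P - 2) := by
    rw [hxP, ← hP]
    obtain ⟨m, rfl⟩ : ∃ m, P = m + 3 := ⟨P - 3, by omega⟩
    have e1 : m + 3 - 1 = m + 2 := by omega
    have e2 : m + 3 - 2 = m + 1 := by omega
    rw [e1, e2]
    have : (m + 2) ^ 2 = (m + 3) * (m + 1) + 1 := by ring
    rw [this]; simp
  have hpx1 : p ∣ x - 1 := by
    rw [hxsub]; exact dvd_mul_of_dvd_left (dvd_pow_self p (by omega)) _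
  have hpx : ¬ p ∣ x := by
    intro h
    rw [hx] at h
    have h1 : p ∣ q := hp.dvd_of_dvd_pow h
    have h2 : p ∣ q ^ d' := dvd_pow h1 (by omega)
    have h3 : p ∣ q ^ d' + 1 := by rw [hd]; exact hpP
    have h4 : p ∣ 1 := (Nat.dvd_add_right h2).mp h3
    exact hp.one_lt.ne' (Nat.dvd_one.mp h4)
  have hpP2 : ¬ p ∣ P - 2 := by
    intro h
    have h1 : p ∣ P - (P - 2) := Nat.dvd_sub hpP h
    have h2 : P - (P - 2) = 2 := by omega
    rw [h2] at h1
    have := (Nat.prime_dvd_prime_iff_eq hp Nat.prime_two).mp h1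
    exact hp2 this
  have hval1 : padicValNat p (x - 1) = k := by
    rw [hxsub, padicValNat.mul (by positivity) (by omega), padicValNat.prime_pow,
      padicValNat.eq_zero_of_not_dvd hpP2, add_zero]
  have hodd : Odd p := hp.odd_of_ne_two hp2
  have hlte := padicValNat.pow_sub_pow hodd hx1 (by simpa using hpx1) hpx (n := e) (by omega)
  rw [one_pow, hval1] at hlte
  have hxe : x ^ e = q ^ u := by rw [hx, ← pow_mul, he]
  have hne : x ^ e - 1 ≠ 0 := by
    have : 1 < x ^ e := Nat.one_lt_pow (by omega) hx1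
    omega
  have hle : k + s ≤ padicValNat p (x ^ e - 1) := by
    apply (padicValNat_dvd_iff_le hne).mp
    rw [hxe]; exact hdiv
  rw [hlte] at hle
  have hs : s ≤ padicValNat p e := by omega
  have hpse : p ^ s ∣ e := (padicValNat_dvd_iff_le (by omega)).mpr hs
  have hps : p ^ s ≤ e := Nat.le_of_dvd (by omega) hpse
  rw [he]
  exact Nat.mul_le_mul_left _ hps

theorem fg_dim_eq {p k d t c : ℕ} (hp : p.Prime) (hp2 : p ≠ 2) (hk : 1 ≤ k) (hd2 : 2 ≤ d)
    (ht : p ^ k * t = d ^ 2 - 1) (hc : c ≤ t + 1) (hb : d ^ 2 ≤ (p ^ k - 1) * c) :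
    d = p ^ k - 1 := by
  have hp3 : 3 ≤ p := by
    have := hp.two_le
    omega
  obtain ⟨P, hP⟩ : ∃ P : ℕ, P = p ^ k := ⟨_, rfl⟩
  have hP3 : 3 ≤ P := by
    rw [hP]
    calc 3 ≤ p := hp3
      _ = p ^ 1 := (pow_one p).symm
      _ ≤ p ^ k := Nat.pow_le_pow_right hp.pos hk
  rw [← hP] at ht hb ⊢
  have hd4 : 4 ≤ d ^ 2 := by nlinarith
  have h1 : d ^ 2 ≤ (P - 1) * (t + 1) := le_trans hb (Nat.mul_le_mul_left _ hc)
  obtain ⟨m, rfl⟩ : ∃ m, P = m + 1 := ⟨P - 1, by omega⟩
  have e1 : m + 1 - 1 = m := by omega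
  rw [e1] at h1 hb ⊢
  have ht' : (m + 1) * t + 1 = d ^ 2 := by omega
  have hdm : d ≤ m := by
    by_contra hcon
    have h2 : m + 1 ≤ d := by omega
    have h3 : (m + 1) * d ^ 2 ≤ m * ((m + 1) * t + (m + 1)) := by nlinarith
    have h4 : (m + 1) * t = d ^ 2 - 1 := by omega
    have h5 : (m + 1) * d ^ 2 ≤ m * (d ^ 2 + m) := by
      have : (m + 1) * t + (m + 1) = d ^ 2 + m := by omega
      rw [this] at h3; exact h3
    have h6 : d ^ 2 ≤ m * m := by nlinarith
    have h7 : (m + 1) * (m + 1) ≤ d * d := Nat.mul_le_mul h2 h2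
    nlinarith
  have hdvd : (m + 1) ∣ (d - 1) * (d + 1) := by
    have : (d - 1) * (d + 1) = d ^ 2 - 1 := by
      obtain ⟨d', rfl⟩ : ∃ d', d = d' + 1 := ⟨d - 1, by omega⟩
      have e2 : d' + 1 - 1 = d' := by omega
      rw [e2]
      have : (d' + 1) ^ 2 = d' * (d' + 1 + 1) + 1 := by ring
      rw [this]; simp
    rw [this, ← ht]
    exact dvd_mul_right _ _
  by_cases hpd : p ∣ d - 1
  · have hpd' : ¬ p ∣ d + 1 := by
      intro h
      have h1 : p ∣ (d + 1) - (d - 1) := Nat.dvd_sub h hpd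
      have h2 : (d + 1) - (d - 1) = 2 := by omega
      rw [h2] at h1
      exact hp2 ((Nat.prime_dvd_prime_iff_eq hp Nat.prime_two).mp h1)
    have hcop : Nat.Coprime (m + 1) (d + 1) := by
      rw [hP]
      exact Nat.Coprime.pow_left _ ((Nat.Prime.coprime_iff_not_dvd hp).mpr hpd')
    have h3 : (m + 1) ∣ d - 1 := hcop.dvd_of_dvd_mul_right hdvd
    have h4 : m + 1 ≤ d - 1 := Nat.le_of_dvd (by omega) h3
    omega
  · have hcop : Nat.Coprime (m + 1) (d - 1) := by
      rw [hP]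
      exact Nat.Coprime.pow_left _ ((Nat.Prime.coprime_iff_not_dvd hp).mpr hpd)
    have h3 : (m + 1) ∣ d + 1 := hcop.dvd_of_dvd_mul_left hdvd
    have h4 : m + 1 ≤ d + 1 := Nat.le_of_dvd (by omega) h3
    omega

end Cfsg.Agent.H3
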