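import Mathlib
import Cfsg.Agent.H66.Fpf4
import Cfsg.Agent.H66.HHB

/-!
# Utilities for the Shult–Gross theorem

Powers of automorphisms, the stabiliser lemma `fg_beta_mem`, surjectivity of `x ↦ x⁻¹ τ(x)`
modulo an invariant normal subgroup, and freeness modulo the centre.
-/

set_option autoImplicit false
set_option linter.style.haveILetI false
set_option linter.unusedVariables false
set_option linter.unusedSectionVars false

namespace Cfsg.Agent.H3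

open scoped commutatorElement

theorem fg_beta_mem {A : Type*} [Group A] {p : ℕ} (hp : p.Prime) (n : ℕ) (x : A)
    (hx : x ^ p ^ (n + 1) = 1) (S : Subgroup A) (i : ℕ) (hi0 : 0 < i) (hi : i < p ^ (n + 1))
    (h : x ^ i ∈ S) : x ^ p ^ n ∈ S := by
  obtain ⟨a, ha, hmem⟩ := H66.pow_prime_pow_mem hp S x n i hx hi0 h
  have han : a ≤ n := by
    by_contra hcon
    push Not at hcon
    have : p ^ (n + 1) ≤ p ^ a := Nat.pow_le_pow_right hp.pos hcon
    omega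
  have e : x ^ p ^ n = (x ^ p ^ a) ^ p ^ (n - a) := by
    rw [← pow_mul, ← pow_add, Nat.add_sub_cancel' han]
  rw [e]; exact S.pow_mem hmem _

theorem fg_pow_succ_apply {Q : Type*} [Group Q] (σ : MulAut Q) (i : ℕ) (x : Q) :
    (σ ^ (i + 1)) x = σ ((σ ^ i) x) := by
  rw [pow_succ', MulAut.mul_apply]

theorem fg_pow_succ_apply' {Q : Type*} [Group Q] (σ : MulAut Q) (i : ℕ) (x : Q) :
    (σ ^ (i + 1)) x = (σ ^ i) (σ x) := by
  rw [pow_succ, MulAut.mul_apply]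

theorem fg_pow_add_apply {Q : Type*} [Group Q] (σ : MulAut Q) (i j : ℕ) (x : Q) :
    (σ ^ (i + j)) x = (σ ^ i) ((σ ^ j) x) := by
  rw [pow_add, MulAut.mul_apply]

theorem fg_pow_iter {Q : Type*} [Group Q] (σ : MulAut Q) (i : ℕ) (x : Q) :
    (σ ^ i) x = (⇑σ)^[i] x := by
  induction i generalizing x with
  | zero => simp
  | succ i ih => rw [fg_pow_succ_apply', ih, Function.iterate_succ_apply]

theorem fg_pow_mem {Q : Type*} [Group Q] (σ : MulAut Q) (U : Subgroup Q)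
    (hU : ∀ x ∈ U, σ x ∈ U) (i : ℕ) : ∀ x ∈ U, (σ ^ i) x ∈ U := by
  induction i with
  | zero => intro x hx; simpa using hx
  | succ i ih => intro x hx; rw [fg_pow_succ_apply]; exact hU _ (ih x hx)

theorem fg_center_iff {Q : Type*} [Group Q] (τ : MulAut Q) (z : Q) :
    z ∈ Subgroup.center Q ↔ τ z ∈ Subgroup.center Q := by
  have h2 : z ∈ (Subgroup.center Q).comap τ.toMonoidHom ↔ z ∈ Subgroup.center Q := by
    rw [(Subgroup.centerCharacteristic (G := Q)).fixed τ]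
  exact ⟨fun hx => h2.mpr hx, fun hx => h2.mp hx⟩

/-- Compatibility of powers: `X^i ρ(h) = ρ(σ^i h) X^i`. -/
theorem fg_pow_compat {R : Type*} [Monoid R] {Q : Type*} [Group Q] (ρ : Q →* R) (σ : MulAut Q)
    (X : R) (hX : ∀ h, X * ρ h = ρ (σ h) * X) (i : ℕ) (h : Q) :
    X ^ i * ρ h = ρ ((σ ^ i) h) * X ^ i := by
  induction i generalizing h with
  | zero => simp
  | succ i ih =>
    rw [pow_succ, mul_assoc, hX, ← mul_assoc, ih, mul_assoc, fg_pow_succ_apply']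

/-- If `τ` acts freely modulo the invariant normal subgroup `Z`, then `x ↦ x⁻¹ τ(x)` is onto
modulo `Z` on every `τ`-invariant subgroup. -/
theorem fg_quot_surj {Q : Type*} [Group Q] [Finite Q] (Z : Subgroup Q) [Z.Normal] (τ : MulAut Q)
    (hZ : ∀ z, z ∈ Z ↔ τ z ∈ Z) (hfree : ∀ x, x⁻¹ * τ x ∈ Z → x ∈ Z)
    (R : Subgroup Q) (hR : ∀ r ∈ R, τ r ∈ R) (r : Q) (hr : r ∈ R) :
    ∃ r' ∈ R, (r'⁻¹ * τ r')⁻¹ * r ∈ Z := by
  have hmap : Z.map (τ : Q →* Q) = Z := by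
    apply le_antisymm
    · rintro _ ⟨x, hx, rfl⟩; exact (hZ x).mp hx
    · intro x hx
      refine ⟨τ.symm x, (hZ _).mpr (by rw [MulEquiv.apply_symm_apply]; exact hx), ?_⟩
      exact MulEquiv.apply_symm_apply τ x
  obtain ⟨τ', hτ'⟩ : ∃ τ' : MulAut (Q ⧸ Z),
      ∀ g, τ' (QuotientGroup.mk' Z g) = QuotientGroup.mk' Z (τ g) :=
    ⟨QuotientGroup.congr Z Z τ hmap, fun g => rfl⟩
  obtain ⟨N, hN⟩ : ∃ N : Subgroup (Q ⧸ Z), N = R.map (QuotientGroup.mk' Z) := ⟨_, rfl⟩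
  have hNτ : ∀ x ∈ N, τ' x ∈ N := by
    intro x hx
    rw [hN] at hx ⊢
    obtain ⟨y, hy, rfl⟩ := hx
    exact ⟨τ y, hR y hy, (hτ' y).symm⟩
  have hfix : ∀ g ∈ N, τ' g = g → g = 1 := by
    intro g _ hg
    obtain ⟨x, rfl⟩ := QuotientGroup.mk'_surjective Z g
    rw [hτ'] at hg
    have h1 : (τ x)⁻¹ * x ∈ Z := QuotientGroup.eq.mp hg
    have h2 : x⁻¹ * τ x ∈ Z := by
      have := Z.inv_mem h1
      rwa [mul_inv_rev, inv_inv] at this
    exact (QuotientGroup.eq_one_iff x).mpr (hfree x h2)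
  obtain ⟨h, hh, hrh⟩ := H66.exists_inv_mul_map τ' N hNτ hfix (QuotientGroup.mk' Z r)
    (by rw [hN]; exact ⟨r, hr, rfl⟩)
  rw [hN] at hh
  obtain ⟨r', hr', rfl⟩ := hh
  refine ⟨r', hr', ?_⟩
  rw [hτ', ← map_inv, ← map_mul] at hrh
  exact QuotientGroup.eq.mp hrh.symm

/-- Freeness modulo the centre for all proper powers, from freeness of `σ^(p^n)`. -/
theorem fg_S1 {Q : Type*} [Group Q] {p : ℕ} (hp : p.Prime) (n : ℕ) (σ : MulAut Q)
    (hσ : σ ^ p ^ (n + 1) = 1)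
    (hβU : ∀ x : Q, x⁻¹ * (σ ^ p ^ n) x ∈ Subgroup.center Q → x ∈ Subgroup.center Q)
    (i : ℕ) (hi0 : 0 < i) (hi : i < p ^ (n + 1)) (x : Q)
    (hx : x⁻¹ * (σ ^ i) x ∈ Subgroup.center Q) : x ∈ Subgroup.center Q := by
  obtain ⟨St, hSt⟩ : ∃ St : Subgroup (MulAut Q), ∀ τ, τ ∈ St ↔ x⁻¹ * τ x ∈ Subgroup.center Q := by
    refine ⟨{ carrier := {τ | x⁻¹ * τ x ∈ Subgroup.center Q}
              mul_mem' := ?_, one_mem' := ?_, inv_mem' := ?_ }, fun τ => Iff.rfl⟩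
    · intro τ τ' h h'
      have e : x⁻¹ * (τ * τ') x = (x⁻¹ * τ x) * τ (x⁻¹ * τ' x) := by
        rw [MulAut.mul_apply, map_mul, map_inv]; group
      show x⁻¹ * (τ * τ') x ∈ Subgroup.center Q
      rw [e]; exact Subgroup.mul_mem _ h ((fg_center_iff τ _).mp h')
    · show x⁻¹ * (1 : MulAut Q) x ∈ Subgroup.center Q
      rw [MulAut.one_apply, inv_mul_cancel]; exact Subgroup.one_mem _
    · intro τ h
      show x⁻¹ * τ⁻¹ x ∈ Subgroup.center Q
      have e : τ (x⁻¹ * τ⁻¹ x) = (x⁻¹ * τ x)⁻¹ := by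
        rw [map_mul, map_inv, MulAut.apply_inv_self]; group
      apply (fg_center_iff τ _).mpr
      rw [e]; exact Subgroup.inv_mem _ h
  have h1 := fg_beta_mem hp n σ hσ St i hi0 hi ((hSt _).mpr hx)
  exact hβU x ((hSt _).mp h1)

end Cfsg.Agent.H3
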