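import Mathlib
import Cfsg.Agent.H3.FpfUtil
import Cfsg.Agent.H3.FpfOrbit
import Cfsg.Agent.H66.HHB

/-!
# The Shult–Gross theorem: the non-abelian (special) case, group-theoretic parts

* `fg_freeR`: an automorphism acting trivially on the central character and freely modulo the
  centre acts freely modulo the scalar subgroup `R`.
* `fg_mu_inv`: the automorphism `a` preserves the scalar character of `R`.
* `fg_exc`: the exceptional (Fermat) configuration is impossible.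
-/

set_option autoImplicit false
set_option linter.style.haveILetI false
set_option linter.unusedVariables false
set_option linter.unusedSectionVars false

namespace Cfsg.Agent.H3

open scoped commutatorElement

theorem fg_freeR {K : Type*} [Field K] {Q : Type*} [Group Q] [Finite Q] {Y : Type*}
    [AddCommGroup Y] [Module K Y]
    (ρ₁ : Q →* Module.End K Y) (hcl : ∀ x y : Q, ⁅x, y⁆ ∈ Subgroup.center Q)
    (R : Subgroup Q) (hRmem : ∀ h, h ∈ R ↔ ∀ b, ρ₁ (h * b) = ρ₁ (b * h))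
    (τ : MulAut Q) (hτZ : ∀ z ∈ Subgroup.center Q, ρ₁ (τ z) = ρ₁ z)
    (hτfree : ∀ x, x⁻¹ * τ x ∈ Subgroup.center Q → x ∈ Subgroup.center Q)
    (h : Q) (hh : τ h * h⁻¹ ∈ R) : h ∈ R := by
  have hcomm1 : ∀ u : Q, u ∈ R → ∀ c, ρ₁ ⁅u, c⁆ = 1 := by
    intro u hu c
    have h1 := (hRmem u).mp hu c
    rw [commutatorElement_def]
    have e : u * c * u⁻¹ * c⁻¹ = (u * c) * (u⁻¹ * c⁻¹) := by group
    rw [e, map_mul, h1, ← map_mul]
    have e2 : c * u * (u⁻¹ * c⁻¹) = 1 := by group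
    rw [e2, map_one]
  have hcomm2 : ∀ u : Q, (∀ c, ρ₁ ⁅u, c⁆ = 1) → u ∈ R := by
    intro u hu
    rw [hRmem]
    intro b
    have e : u * b = ⁅u, b⁆ * (b * u) := by rw [commutatorElement_def]; group
    rw [e, map_mul, hu b, one_mul]
  apply hcomm2
  have hcen : ∀ z ∈ Subgroup.center Q, ∀ g : Q, g * z = z * g :=
    fun z hz g => Subgroup.mem_center_iff.mp hz g
  have hχmul : ∀ c c' : Q, ρ₁ ⁅h, c * c'⁆ = ρ₁ ⁅h, c⁆ * ρ₁ ⁅h, c'⁆ := by
    intro c c'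
    have e : ⁅h, c * c'⁆ = ⁅h, c⁆ * (c * ⁅h, c'⁆ * c⁻¹) := by
      simp only [commutatorElement_def]; group
    have e2 : c * ⁅h, c'⁆ * c⁻¹ = ⁅h, c'⁆ := by
      rw [hcen _ (hcl h c') c, mul_inv_cancel_right]
    rw [e, e2, map_mul]
  have hχZ : ∀ z ∈ Subgroup.center Q, ρ₁ ⁅h, z⁆ = 1 := by
    intro z hz
    have e : ⁅h, z⁆ = 1 := by
      rw [commutatorElement_def, hcen z hz h]; group
    rw [e, map_one]
  have hχinv : ∀ c : Q, ρ₁ ⁅h, c⁻¹⁆ * ρ₁ ⁅h, c⁆ = 1 := by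
    intro c
    rw [← hχmul, inv_mul_cancel]
    have e : ⁅h, (1 : Q)⁆ = 1 := by rw [commutatorElement_def]; group
    rw [e, map_one]
  have hχτ : ∀ b : Q, ρ₁ ⁅h, τ b⁆ = ρ₁ ⁅h, b⁆ := by
    intro b
    obtain ⟨r, hr⟩ : ∃ r, r = τ h * h⁻¹ := ⟨_, rfl⟩
    have hτh : τ h = r * h := by rw [hr]; group
    have h1 : ρ₁ (τ ⁅h, b⁆) = ρ₁ ⁅h, b⁆ := hτZ _ (hcl h b)
    have h2 : τ ⁅h, b⁆ = ⁅r * h, τ b⁆ := by
      rw [map_commutatorElement, hτh]
    have h3 : ⁅r * h, τ b⁆ = (r * ⁅h, τ b⁆ * r⁻¹) * ⁅r, τ b⁆ := by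
      simp only [commutatorElement_def]; group
    have h4 : r * ⁅h, τ b⁆ * r⁻¹ = ⁅h, τ b⁆ := by
      rw [hcen _ (hcl h (τ b)) r, mul_inv_cancel_right]
    rw [h2, h3, h4, map_mul, hcomm1 r (hr ▸ hh) (τ b), mul_one] at h1
    exact h1
  intro c
  obtain ⟨b, -, hb⟩ := fg_quot_surj (Subgroup.center Q) τ (fg_center_iff τ) hτfree ⊤
    (fun _ _ => Subgroup.mem_top _) c (Subgroup.mem_top c)
  obtain ⟨z, hz⟩ : ∃ z, z = (b⁻¹ * τ b)⁻¹ * c := ⟨_, rfl⟩
  have hc : c = b⁻¹ * τ b * z := by rw [hz]; group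
  rw [hc, hχmul, hχmul, hχZ z (hz ▸ hb), mul_one, hχτ]
  exact hχinv b

theorem fg_mu_inv {K : Type*} [Field K] {Q : Type*} [Group Q] [Finite Q] {W : Type*}
    [AddCommGroup W] [Module K W] {p : ℕ} (hp : p.Prime) (k : ℕ)
    (ρ : Q →* Module.End K W) (a : MulAut Q) (haP : a ^ p ^ (k + 1) = 1)
    (Xs : Module.End K W) (hXs : ∀ h, Xs * ρ h = ρ (a h) * Xs) (hXsP : Xs ^ p ^ (k + 1) = 1)
    (Y₁ : Submodule K W) (ρ₁ : Q →* Module.End K ↥Y₁)
    (hρ₁ : ∀ (h : Q) (y : ↥Y₁), ((ρ₁ h y : ↥Y₁) : W) = ρ h (y : W)) (hY₁ne : Y₁ ≠ ⊥)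
    (R : Subgroup Q) (hRs : ∀ r ∈ R, ∃ c : K, ρ₁ r = c • 1)
    (haR : ∀ r, r ∈ R ↔ a r ∈ R)
    (haZ : ∀ z ∈ Subgroup.center Q, ρ₁ (a z) = ρ₁ z)
    (hβfree : ∀ x, x⁻¹ * (a ^ p ^ k) x ∈ Subgroup.center Q → x ∈ Subgroup.center Q)
    (hFIX : ∀ v : W, (∀ z ∈ Subgroup.center Q, ∀ c : K, ρ₁ z = c • 1 → ρ z v = c • v) →
      Xs v = v → v = 0) :
    ∀ r ∈ R, ρ₁ (a r) = ρ₁ r := by
  classical
  obtain ⟨P, hP⟩ : ∃ P : ℕ, P = p ^ (k + 1) := ⟨_, rfl⟩
  rw [← hP] at haP hXsP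
  have hP0 : 0 < P := by rw [hP]; exact pow_pos hp.pos _
  obtain ⟨β, hβ⟩ : ∃ β : MulAut Q, β = a ^ p ^ k := ⟨_, rfl⟩
  rw [← hβ] at hβfree
  have hpow : ∀ i h, Xs ^ i * ρ h = ρ ((a ^ i) h) * Xs ^ i := fg_pow_compat ρ a Xs hXs
  have haRi : ∀ i r, r ∈ R ↔ (a ^ i) r ∈ R := by
    intro i
    induction i with
    | zero => intro r; simp
    | succ i ih => intro r; rw [fg_pow_succ_apply]; exact (ih r).trans (haR _)
  have haZi : ∀ i, ∀ z ∈ Subgroup.center Q, ρ₁ ((a ^ i) z) = ρ₁ z := by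
    intro i
    induction i with
    | zero => intro z _; simp
    | succ i ih =>
      intro z hz
      rw [fg_pow_succ_apply, haZ _ ((fg_center_iff (a ^ i) z).mp hz), ih z hz]
  obtain ⟨Sμ, hSμ⟩ : ∃ Sμ : Subgroup (MulAut Q),
      ∀ τ, τ ∈ Sμ ↔ (∀ r, r ∈ R ↔ τ r ∈ R) ∧ ∀ r ∈ R, ρ₁ (τ r) = ρ₁ r := by
    refine ⟨{ carrier := {τ | (∀ r, r ∈ R ↔ τ r ∈ R) ∧ ∀ r ∈ R, ρ₁ (τ r) = ρ₁ r}
              mul_mem' := ?_, one_mem' := ?_, inv_mem' := ?_ }, fun τ => Iff.rfl⟩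
    · rintro τ τ' ⟨h1, h2⟩ ⟨h1', h2'⟩
      refine ⟨fun r => ?_, fun r hr => ?_⟩
      · rw [MulAut.mul_apply]; exact (h1' r).trans (h1 _)
      · rw [MulAut.mul_apply, h2 _ ((h1' r).mp hr), h2' r hr]
    · exact ⟨fun r => by rw [MulAut.one_apply], fun r _ => by rw [MulAut.one_apply]⟩
    · rintro τ ⟨h1, h2⟩
      refine ⟨fun r => ?_, fun r hr => ?_⟩
      · have := h1 (τ⁻¹ r)
        rw [MulAut.apply_inv_self] at this
        exact this.symm
      · have hr' : τ⁻¹ r ∈ R := by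
          have := h1 (τ⁻¹ r)
          rw [MulAut.apply_inv_self] at this
          exact this.mpr hr
        have := h2 _ hr'
        rw [MulAut.apply_inv_self] at this
        exact this.symm
  by_contra hcon
  have ha_not : a ∉ Sμ := by
    intro h
    exact hcon ((hSμ a).mp h).2
  have hβ_not : β ∉ Sμ := by
    intro hβS
    obtain ⟨hβ1, hβ2⟩ := (hSμ β).mp hβS
    apply ha_not
    rw [hSμ]
    refine ⟨haR, ?_⟩
    intro r hr
    obtain ⟨r', hr', hz⟩ := fg_quot_surj (Subgroup.center Q) β (fg_center_iff β) hβfree R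
      (fun r hr => (hβ1 r).mp hr) r hr
    obtain ⟨z, hzdef⟩ : ∃ z, z = (r'⁻¹ * β r')⁻¹ * r := ⟨_, rfl⟩
    rw [← hzdef] at hz
    have hr_eq : r = r'⁻¹ * β r' * z := by rw [hzdef]; group
    have h1 : ρ₁ r = ρ₁ z := by
      rw [hr_eq, map_mul, map_mul, hβ2 r' hr', H66.rho_inv_mul, one_mul]
    have hcomm : a (β r') = β (a r') := by
      rw [hβ, ← MulAut.mul_apply, ← MulAut.mul_apply, ← pow_succ', ← pow_succ]
    have h2 : ρ₁ (a r) = ρ₁ z := by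
      have e : a r = (a r')⁻¹ * β (a r') * a z := by
        rw [hr_eq, map_mul, map_mul, map_inv, hcomm]
      rw [e, map_mul, map_mul, hβ2 (a r') ((haR r').mp hr'), H66.rho_inv_mul, one_mul, haZ z hz]
    rw [h1, h2]
  have hfree_not : ∀ i, 0 < i → i < P → a ^ i ∉ Sμ := by
    intro i hi0 hi h
    apply hβ_not
    rw [hβ]
    exact fg_beta_mem hp k a (hP ▸ haP) Sμ i hi0 (hP ▸ hi) h
  obtain ⟨y₀, hy₀, hy₀0⟩ := Submodule.exists_mem_ne_zero_of_ne_bot hY₁ne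
  obtain ⟨mu, hmu⟩ : ∃ mu : Q → K, ∀ r ∈ R, ρ₁ r = mu r • 1 := by
    refine ⟨fun r => if hr : r ∈ R then Classical.choose (hRs r hr) else 0, ?_⟩
    intro r hr
    simp only [dif_pos hr]
    exact Classical.choose_spec (hRs r hr)
  have hscal : ∀ (h : Q) (c : K), ρ₁ h = c • 1 → ∀ y ∈ Y₁, ρ h y = c • y := by
    intro h c hc y hy
    have h1 := hρ₁ h ⟨y, hy⟩
    rw [hc] at h1
    simpa using h1.symm
  have hmove : ∀ (i : ℕ) (h : Q) (w : W), ρ h ((Xs ^ i) w) = (Xs ^ i) (ρ ((a ^ i)⁻¹ h) w) := by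
    intro i h w
    have h1 := hpow i ((a ^ i)⁻¹ h)
    rw [MulAut.apply_inv_self] at h1
    have h2 := congrArg (fun f : Module.End K W => f w) h1
    simp only [Module.End.mul_apply] at h2
    exact h2.symm
  obtain ⟨v, hv⟩ : ∃ v : W, v = ∑ i ∈ Finset.range P, (Xs ^ i) y₀ := ⟨_, rfl⟩
  have hXsv : Xs v = v := by
    rw [hv, map_sum]
    have h1 : ∀ i ∈ Finset.range P, Xs ((Xs ^ i) y₀) = (Xs ^ (i + 1)) y₀ := by
      intro i _; rw [pow_succ', Module.End.mul_apply]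
    rw [Finset.sum_congr rfl h1]
    have h2 := Finset.sum_range_succ' (fun i => (Xs ^ i) y₀) P
    have h3 := Finset.sum_range_succ (fun i => (Xs ^ i) y₀) P
    rw [h3] at h2
    simp only [hXsP, pow_zero] at h2
    exact (add_right_cancel h2).symm
  have hZv : ∀ z ∈ Subgroup.center Q, ∀ c : K, ρ₁ z = c • 1 → ρ z v = c • v := by
    intro z hz c hc
    rw [hv, map_sum, Finset.smul_sum]
    apply Finset.sum_congr rfl
    intro i _
    rw [hmove]
    have hz' : (a ^ i)⁻¹ z ∈ Subgroup.center Q := (fg_center_iff ((a ^ i)⁻¹) z).mp hz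
    have h1 := haZi i _ hz'
    rw [MulAut.apply_inv_self] at h1
    rw [hscal _ c (by rw [← h1]; exact hc) y₀ hy₀, map_smul]
  have hv0 : v = 0 := hFIX v hZv hXsv
  have hdist : ∀ i j, i < j → j < P → ∃ r ∈ R, mu ((a ^ i)⁻¹ r) ≠ mu ((a ^ j)⁻¹ r) := by
    intro i j hij hj
    have h1 := hfree_not (j - i) (by omega) (by omega)
    rw [hSμ] at h1
    push Not at h1
    obtain ⟨r', hr', hne⟩ := h1 (haRi (j - i))
    refine ⟨(a ^ j) r', (haRi j r').mp hr', ?_⟩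
    rw [MulAut.inv_apply_self]
    have e : (a ^ i)⁻¹ ((a ^ j) r') = (a ^ (j - i)) r' := by
      have : j = i + (j - i) := by omega
      nth_rewrite 1 [this]
      rw [fg_pow_add_apply, MulAut.inv_apply_self]
    rw [e]
    intro hmu_eq
    apply hne
    rw [hmu _ ((haRi (j - i) r').mp hr'), hmu r' hr', hmu_eq]
  have hw := H66.weight_indep (K := K) (V := W) (fun h : Q => ρ h) (R : Set Q)
    (fun (i : ℕ) (r : Q) => mu ((a ^ i)⁻¹ r)) (Finset.range P) (by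
      intro i hi j hj hij
      rw [Finset.mem_range] at hi hj
      rcases Nat.lt_or_gt_of_ne hij with h | h
      · exact hdist i j h hj
      · obtain ⟨r, hr, hne⟩ := hdist j i h hi
        exact ⟨r, hr, hne.symm⟩)
    (fun i => (Xs ^ i) y₀) (by
      intro i _ r hr
      show ρ r ((Xs ^ i) y₀) = mu ((a ^ i)⁻¹ r) • (Xs ^ i) y₀
      rw [hmove]
      have hr' : (a ^ i)⁻¹ r ∈ R := by
        have := haRi i ((a ^ i)⁻¹ r)
        rw [MulAut.apply_inv_self] at this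
        exact this.mpr hr
      rw [hscal _ _ (hmu _ hr') y₀ hy₀, map_smul])
    (by rw [← hv]; exact hv0) 0 (Finset.mem_range.mpr hP0)
  simp at hw
  exact hy₀0 hw

theorem fg_exc {K : Type*} [Field K] {Q : Type*} [Group Q] [Finite Q] {Y : Type*}
    [AddCommGroup Y] [Module K Y]
    {p q : ℕ} (hp : p.Prime) (hp2 : p ≠ 2) (hq : q.Prime) (hQ : IsPGroup q Q)
    (n s k : ℕ) (hnsk : n + 1 = s + k) (hk : 1 ≤ k)
    (σ : MulAut Q) (hσ : σ ^ p ^ (n + 1) = 1) (hfpf : ∀ x, σ x = x → x = 1)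
    (hcl : ∀ x y : Q, ⁅x, y⁆ ∈ Subgroup.center Q)
    (hS1 : ∀ i, 0 < i → i < p ^ (n + 1) → ∀ x : Q,
      x⁻¹ * (σ ^ i) x ∈ Subgroup.center Q → x ∈ Subgroup.center Q)
    (hmin : ∀ U : Subgroup Q, U ≠ ⊤ → (∀ x ∈ U, σ x ∈ U) → U ≤ Subgroup.center Q)
    (ρ₁ : Q →* Module.End K Y)
    (R : Subgroup Q) (hRmem : ∀ h, h ∈ R ↔ ∀ b, ρ₁ (h * b) = ρ₁ (b * h)) (hRtop : R ≠ ⊤)
    (d : ℕ) (hRidx : R.index = d ^ 2) (hd : d + 1 = p ^ k)
    (haR : ∀ r, r ∈ R ↔ (σ ^ p ^ s) r ∈ R)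
    (haZ : ∀ z ∈ Subgroup.center Q, ρ₁ ((σ ^ p ^ s) z) = ρ₁ z) : False := by
  classical
  haveI : Fact q.Prime := ⟨hq⟩
  obtain ⟨e, he⟩ := IsPGroup.iff_card.mp hQ
  have hp3 : 3 ≤ p := by have := hp.two_le; omega
  have hPk : 3 ≤ p ^ k :=
    le_trans hp3 (by
      calc p = p ^ 1 := (pow_one p).symm
        _ ≤ p ^ k := Nat.pow_le_pow_right hp.pos hk)
  have hd2 : 2 ≤ d := by omega
  have hps : 0 < p ^ s := pow_pos hp.pos _
  have hZR : Subgroup.center Q ≤ R := by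
    intro z hz
    rw [hRmem]; intro b
    rw [Subgroup.mem_center_iff.mp hz b]
  have hZtop : Subgroup.center Q ≠ ⊤ := fun h => hRtop (top_le_iff.mp (h ▸ hZR))
  obtain ⟨d', hd'e, hdd'⟩ : ∃ d' ≤ e, d = q ^ d' := by
    have h1 : d ∣ q ^ e := by
      rw [← he]
      exact (dvd_pow_self d two_ne_zero).trans (hRidx ▸ Subgroup.index_dvd_card R)
    exact (Nat.dvd_prime_pow hq).mp h1
  have hd'1 : 1 ≤ d' := by
    by_contra hcon
    have : d' = 0 := by omega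
    rw [this, pow_zero] at hdd'
    omega
  obtain ⟨u, hue, hZu⟩ : ∃ u ≤ e, (Subgroup.center Q).index = q ^ u :=
    (Nat.dvd_prime_pow hq).mp (he ▸ Subgroup.index_dvd_card _)
  have hu1 : 1 ≤ u := by
    by_contra hcon
    have : u = 0 := by omega
    rw [this, pow_zero] at hZu
    exact hZtop (Subgroup.index_eq_one.mp hZu)
  have hdiv : p ^ (k + s) ∣ q ^ u - 1 := by
    haveI : Fintype (Q ⧸ Subgroup.center Q) := Fintype.ofFinite _
    have hmap : (Subgroup.center Q).map (σ : Q →* Q) = Subgroup.center Q := by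
      apply le_antisymm
      · rintro _ ⟨x, hx, rfl⟩; exact (fg_center_iff σ x).mp hx
      · intro x hx
        refine ⟨σ.symm x,
          (fg_center_iff σ _).mpr (by rw [MulEquiv.apply_symm_apply]; exact hx), ?_⟩
        exact MulEquiv.apply_symm_apply σ x
    obtain ⟨σ', hσ'⟩ : ∃ σ' : MulAut (Q ⧸ Subgroup.center Q),
        ∀ g, σ' (QuotientGroup.mk' (Subgroup.center Q) g) =
          QuotientGroup.mk' (Subgroup.center Q) (σ g) :=
      ⟨QuotientGroup.congr _ _ σ hmap, fun g => rfl⟩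
    have hiter : ∀ (i : ℕ) (g : Q), (⇑σ')^[i] (QuotientGroup.mk' (Subgroup.center Q) g) =
        QuotientGroup.mk' (Subgroup.center Q) ((σ ^ i) g) := by
      intro i
      induction i with
      | zero => intro g; simp
      | succ i ih => intro g; rw [Function.iterate_succ_apply', ih, hσ', fg_pow_succ_apply]
    obtain ⟨T, -, hcard, -⟩ := fg_orbit_reps (⇑σ') (p ^ (n + 1)) (pow_pos hp.pos _)
      (Finset.univ.erase 1) (by
        intro x hx
        rw [Finset.mem_erase] at hx ⊢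
        refine ⟨fun h => hx.1 ?_, Finset.mem_univ _⟩
        apply σ'.injective
        rw [h, map_one]) (by
        intro x _
        obtain ⟨g, rfl⟩ := QuotientGroup.mk'_surjective _ x
        rw [hiter, hσ, MulAut.one_apply]) (by
        intro x hx i hi0 hi h
        rw [Finset.mem_erase] at hx
        obtain ⟨g, rfl⟩ := QuotientGroup.mk'_surjective _ x
        rw [hiter] at h
        apply hx.1
        apply (QuotientGroup.eq_one_iff g).mpr
        apply hS1 i hi0 hi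
        exact QuotientGroup.eq.mp h.symm)
    rw [Finset.card_erase_of_mem (Finset.mem_univ _), Finset.card_univ,
      ← Nat.card_eq_fintype_card, ← Subgroup.index_eq_card, hZu] at hcard
    rw [hcard, add_comm k s, ← hnsk]
    exact dvd_mul_right _ _
  have hnt := fg_nt hp hp2 hq k s d' u hk (by rw [← hdd']; exact hd) hu1 hdiv
  obtain ⟨I₀, hI₀⟩ : ∃ I₀ : Subgroup Q,
      I₀ = ⨅ i : Fin (p ^ s - 1), R.comap ((σ ^ ((i : ℕ) + 1) : MulAut Q) : Q →* Q) :=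
    ⟨_, rfl⟩
  have hI₀mem : ∀ x, x ∈ I₀ ↔ ∀ j, 0 < j → j < p ^ s → (σ ^ j) x ∈ R := by
    intro x
    rw [hI₀, Subgroup.mem_iInf]
    constructor
    · intro h j hj0 hj
      have h1 := h ⟨j - 1, by omega⟩
      rw [Subgroup.mem_comap] at h1
      have e : j - 1 + 1 = j := by omega
      simp only [e] at h1
      exact h1
    · intro h i
      rw [Subgroup.mem_comap]
      exact h (i + 1) (by omega) (by have := i.2; omega)
  have hI₀idx : I₀.index ≤ (d ^ 2) ^ (p ^ s - 1) := by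
    rw [hI₀]
    refine le_trans (Subgroup.index_iInf_le _) ?_
    have h1 : ∀ i ∈ (Finset.univ : Finset (Fin (p ^ s - 1))),
        (R.comap ((σ ^ ((i : ℕ) + 1) : MulAut Q) : Q →* Q)).index = d ^ 2 := by
      intro i _
      rw [Subgroup.index_comap_of_surjective _ (MulEquiv.surjective _), hRidx]
    rw [Finset.prod_congr rfl h1, Finset.prod_const, Finset.card_univ, Fintype.card_fin]
  have haRm : ∀ (m : ℕ) (r : Q), r ∈ R → ((σ ^ p ^ s) ^ m) r ∈ R := by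
    intro m
    induction m with
    | zero => intro r hr; simpa using hr
    | succ m ih => intro r hr; rw [fg_pow_succ_apply]; exact (haR _).mp (ih r hr)
  have hnotle : ¬ I₀ ≤ R := by
    intro hle
    have hall : ∀ x ∈ I₀, ∀ j, (σ ^ j) x ∈ R := by
      intro x hx j
      have e : j = p ^ s * (j / p ^ s) + j % p ^ s := (Nat.div_add_mod j (p ^ s)).symm
      rw [e, fg_pow_add_apply, pow_mul]
      apply haRm
      by_cases h0 : j % p ^ s = 0
      · rw [h0, pow_zero, MulAut.one_apply]; exact hle hx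
      · exact (hI₀mem x).mp hx _ (Nat.pos_of_ne_zero h0) (Nat.mod_lt _ hps)
    have hσI : ∀ x ∈ I₀, σ x ∈ I₀ := by
      intro x hx
      rw [hI₀mem]
      intro j _ _
      rw [← fg_pow_succ_apply']
      exact hall x hx (j + 1)
    have hI₀top : I₀ ≠ ⊤ := fun h => hRtop (top_le_iff.mp (h ▸ hle))
    have hI₀Z := hmin I₀ hI₀top hσI
    have h1 : (Subgroup.center Q).index ≤ I₀.index :=
      Nat.le_of_dvd (Nat.pos_of_ne_zero Subgroup.index_ne_zero_of_finite)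
        (Subgroup.index_dvd_of_le hI₀Z)
    have h2 : d ^ (2 * p ^ s) ≤ q ^ u := by
      rw [hdd', ← pow_mul]
      apply Nat.pow_le_pow_right hq.pos
      calc d' * (2 * p ^ s) = 2 * d' * p ^ s := by ring
        _ ≤ u := hnt
    have h3 : (d ^ 2) ^ (p ^ s - 1) < d ^ (2 * p ^ s) := by
      rw [← pow_mul]
      apply Nat.pow_lt_pow_right (by omega)
      obtain ⟨M, hM⟩ : ∃ M, M = p ^ s := ⟨_, rfl⟩
      rw [← hM] at hps ⊢
      omega
    rw [hZu] at h1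
    omega
  obtain ⟨x, hxI, hxR⟩ : ∃ x ∈ I₀, x ∉ R := by
    by_contra hcon
    push Not at hcon
    exact hnotle hcon
  rw [hRmem] at hxR
  push Not at hxR
  obtain ⟨b, hb⟩ := hxR
  obtain ⟨z₀, hz₀⟩ : ∃ z₀, z₀ = ⁅x, b⁆ := ⟨_, rfl⟩
  have hz₀Z : z₀ ∈ Subgroup.center Q := hz₀ ▸ hcl x b
  have hz₀ne : ρ₁ z₀ ≠ 1 := by
    intro h
    apply hb
    have e : x * b = ⁅x, b⁆ * (b * x) := by rw [commutatorElement_def]; group
    rw [e, map_mul, ← hz₀, h, one_mul]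
  have hz₀j : ∀ j, 0 < j → j < p ^ s → ρ₁ ((σ ^ j) z₀) = 1 := by
    intro j hj0 hj
    have h1 := (hI₀mem x).mp hxI j hj0 hj
    have h2 := (hRmem _).mp h1 ((σ ^ j) b)
    rw [hz₀, map_commutatorElement, commutatorElement_def]
    have e : (σ ^ j) x * (σ ^ j) b * ((σ ^ j) x)⁻¹ * ((σ ^ j) b)⁻¹ =
        ((σ ^ j) x * (σ ^ j) b) * (((σ ^ j) x)⁻¹ * ((σ ^ j) b)⁻¹) := by group
    rw [e, map_mul, h2, ← map_mul]
    have e2 : (σ ^ j) b * (σ ^ j) x * (((σ ^ j) x)⁻¹ * ((σ ^ j) b)⁻¹) = 1 := by group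
    rw [e2, map_one]
  obtain ⟨zz, hzz0, hzzS⟩ : ∃ zz : ℕ → Q, zz 0 = 1 ∧ ∀ m, zz (m + 1) = zz m * (σ ^ m) z₀ :=
    ⟨fun m => Nat.rec 1 (fun m acc => acc * (σ ^ m) z₀) m, rfl, fun m => rfl⟩
  have hA : ∀ m, m < p ^ s → ρ₁ (zz (m + 1)) = ρ₁ z₀ := by
    intro m
    induction m with
    | zero => intro _; rw [hzzS, hzz0, pow_zero, MulAut.one_apply, one_mul]
    | succ m ih =>
      intro hm
      rw [hzzS, map_mul, ih (by omega), hz₀j (m + 1) (by omega) hm, mul_one]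
  have hcen : ∀ z ∈ Subgroup.center Q, ∀ g : Q, g * z = z * g :=
    fun z hz g => Subgroup.mem_center_iff.mp hz g
  have hB : ∀ m, σ (zz m) * z₀ = zz m * (σ ^ m) z₀ := by
    intro m
    induction m with
    | zero => rw [hzz0, map_one, pow_zero, MulAut.one_apply]
    | succ m ih =>
      rw [hzzS, map_mul, ← fg_pow_succ_apply, mul_assoc, hcen z₀ hz₀Z, ← mul_assoc, ih]
  obtain ⟨w, hw⟩ : ∃ w, w = zz (p ^ s) := ⟨_, rfl⟩
  obtain ⟨Z₀, hZ₀⟩ : ∃ Z₀ : Subgroup Q,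
      ∀ z, z ∈ Z₀ ↔ z ∈ Subgroup.center Q ∧ ∀ m, ρ₁ ((σ ^ m) z) = 1 := by
    refine ⟨{ carrier := {z | z ∈ Subgroup.center Q ∧ ∀ m, ρ₁ ((σ ^ m) z) = 1}
              mul_mem' := ?_, one_mem' := ?_, inv_mem' := ?_ }, fun z => Iff.rfl⟩
    · rintro z z' ⟨h1, h2⟩ ⟨h1', h2'⟩
      exact ⟨Subgroup.mul_mem _ h1 h1', fun m => by rw [map_mul, map_mul, h2, h2', one_mul]⟩
    · exact ⟨Subgroup.one_mem _, fun m => by rw [map_one, map_one]⟩
    · rintro z ⟨h1, h2⟩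
      refine ⟨Subgroup.inv_mem _ h1, fun m => ?_⟩
      have := H66.rho_inv_mul ρ₁ ((σ ^ m) z)
      rw [h2 m, mul_one] at this
      rw [map_inv]; exact this
  have hZ₀σ : ∀ z ∈ Z₀, σ z ∈ Z₀ := by
    intro z hz
    rw [hZ₀] at hz ⊢
    refine ⟨(fg_center_iff σ z).mp hz.1, fun m => ?_⟩
    rw [← fg_pow_succ_apply']; exact hz.2 (m + 1)
  have hwmem : w⁻¹ * σ w ∈ Z₀ := by
    have h1 := hB (p ^ s)
    rw [← hw] at h1
    have e : w⁻¹ * σ w = (σ ^ p ^ s) z₀ * z₀⁻¹ := by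
      have : σ w = w * (σ ^ p ^ s) z₀ * z₀⁻¹ := by rw [← h1]; group
      rw [this]; group
    rw [e, hZ₀]
    refine ⟨Subgroup.mul_mem _ ((fg_center_iff _ z₀).mp hz₀Z) (Subgroup.inv_mem _ hz₀Z),
      fun m => ?_⟩
    have hc : (σ ^ m) ((σ ^ p ^ s) z₀) = (σ ^ p ^ s) ((σ ^ m) z₀) := by
      rw [← fg_pow_add_apply, ← fg_pow_add_apply, add_comm]
    rw [map_mul, map_mul, hc, haZ _ ((fg_center_iff _ z₀).mp hz₀Z), map_inv]
    exact H66.rho_mul_inv ρ₁ _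
  have hwZ₀ := H66.fpf_quotient σ Z₀ hZ₀σ hfpf w hwmem
  have h1 := ((hZ₀ w).mp hwZ₀).2 0
  rw [pow_zero, MulAut.one_apply, hw] at h1
  have h2 := hA (p ^ s - 1) (by omega)
  rw [Nat.sub_add_cancel hps] at h2
  exact hz₀ne (h2 ▸ h1)

end Cfsg.Agent.H3
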