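import Mathlib
import Cfsg.Agent.H3.FpfSpecial
import Cfsg.Agent.H92.Fg1
import Cfsg.Agent.H92.Fg4
import Cfsg.Agent.H38.Fg5
import Cfsg.Agent.H38.Fg6
import Cfsg.Agent.Lib.Lead.Fg7

/-!
# The Shult–Gross theorem: the non-abelian (special) case is impossible
-/

set_option autoImplicit false
set_option linter.style.haveILetI false
set_option linter.unusedVariables false
set_option linter.unusedSectionVars false

namespace Cfsg.Agent.H3

open scoped commutatorElement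

set_option maxHeartbeats 1600000 in
theorem fg_special_false {K : Type*} [Field K] [IsAlgClosed K] {Q : Type*} [Group Q] [Finite Q]
    {W : Type*} [AddCommGroup W] [Module K W] [FiniteDimensional K W]
    {p q : ℕ} (hp : p.Prime) (hp2 : p ≠ 2) (hq : q.Prime) (hQ : IsPGroup q Q)
    (hqK : (q : K) ≠ 0) (hpK : (p : K) ≠ 0)
    (n : ℕ) (σ : MulAut Q) (hσ : σ ^ p ^ (n + 1) = 1) (hfpf : ∀ x, σ x = x → x = 1)
    (hcl : ∀ x y : Q, ⁅x, y⁆ ∈ Subgroup.center Q)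
    (hnab : ∃ x y : Q, x * y ≠ y * x)
    (hβZ : ∀ z ∈ Subgroup.center Q, (σ ^ p ^ n) z = z)
    (hβU : ∀ x : Q, x⁻¹ * (σ ^ p ^ n) x ∈ Subgroup.center Q → x ∈ Subgroup.center Q)
    (hmin : ∀ U : Subgroup Q, U ≠ ⊤ → (∀ x ∈ U, σ x ∈ U) → U ≤ Subgroup.center Q)
    (ρ : Q →* Module.End K W) (hρ : Function.Injective ρ)
    (X : Module.End K W) (hX : ∀ h, X * ρ h = ρ (σ h) * X) (hXN : X ^ p ^ (n + 1) = 1)
    (hsum : ∑ i ∈ Finset.range (p ^ (n + 1)), X ^ i = 0) : False := by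
  classical
  haveI : Fact q.Prime := ⟨hq⟩
  obtain ⟨e, he⟩ := IsPGroup.iff_card.mp hQ
  have hcast : ∀ k : ℕ, k ∣ Nat.card Q → (k : K) ≠ 0 := by
    intro k hk
    rw [he] at hk
    obtain ⟨j, -, rfl⟩ := (Nat.dvd_prime_pow hq).mp hk
    rw [Nat.cast_pow]; exact pow_ne_zero _ hqK
  have hcen : ∀ z ∈ Subgroup.center Q, ∀ g : Q, g * z = z * g :=
    fun z hz g => Subgroup.mem_center_iff.mp hz g
  have hS1 := fg_S1 hp n σ hσ hβU
  obtain ⟨x₁, b₁, hxb⟩ := hnab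
  obtain ⟨z₁, hz₁⟩ : ∃ z₁, z₁ = ⁅x₁, b₁⁆ := ⟨_, rfl⟩
  have hz₁Z : z₁ ∈ Subgroup.center Q := hz₁ ▸ hcl x₁ b₁
  have hz₁ne : z₁ ≠ 1 := by
    intro h
    apply hxb
    rw [hz₁, commutatorElement_eq_one_iff_mul_comm] at h
    exact h
  have hρz₁ : ρ z₁ ≠ 1 := fun h => hz₁ne (hρ (by rw [h, map_one]))
  obtain ⟨U, hU⟩ : ∃ U : Submodule K W, U = LinearMap.range (ρ z₁ - 1) := ⟨_, rfl⟩
  have hUne : U ≠ ⊥ := by
    rw [hU]
    intro h
    rw [LinearMap.range_eq_bot] at h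
    exact hρz₁ (sub_eq_zero.mp h)
  have hUinv : ∀ h : Q, ∀ w ∈ U, ρ h w ∈ U := by
    intro h w hw
    rw [hU] at hw ⊢
    obtain ⟨w', rfl⟩ := hw
    refine ⟨ρ h w', ?_⟩
    have e : ρ h * ρ z₁ = ρ z₁ * ρ h := by rw [← map_mul, ← map_mul, hcen z₁ hz₁Z h]
    have e' := congrArg (fun f : Module.End K W => f w') e
    simp only [Module.End.mul_apply] at e'
    simp only [LinearMap.sub_apply, Module.End.one_apply, map_sub]
    rw [e']
  obtain ⟨Y₁, ⟨hY₁ne, hY₁U, hY₁inv⟩, hY₁min'⟩ :=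
    (wellFounded_lt : WellFounded ((· < ·) : Submodule K W → Submodule K W → Prop)).has_min
      {Y : Submodule K W | Y ≠ ⊥ ∧ Y ≤ U ∧ ∀ h : Q, ∀ y ∈ Y, ρ h y ∈ Y}
      ⟨U, hUne, le_rfl, hUinv⟩
  have hY₁min : ∀ U' : Submodule K W, U' ≤ Y₁ → (∀ h : Q, ∀ w ∈ U', ρ h w ∈ U') →
      U' = ⊥ ∨ U' = Y₁ := by
    intro U' hU' hinv
    by_contra hcon
    push Not at hcon
    exact hY₁min' U' ⟨hcon.1, hU'.trans hY₁U, hinv⟩ (lt_of_le_of_ne hU' hcon.2)
  haveI hY₁nt : Nontrivial ↥Y₁ := Submodule.nontrivial_iff_ne_bot.mpr hY₁ne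
  obtain ⟨ρ₁, hρ₁def⟩ : ∃ ρ₁ : Q →* Module.End K ↥Y₁, ρ₁ = H66.resRep ρ Y₁ hY₁inv := ⟨_, rfl⟩
  have hρ₁ : ∀ (h : Q) (y : ↥Y₁), ((ρ₁ h y : ↥Y₁) : W) = ρ h (y : W) := by
    intro h y; rw [hρ₁def]; rfl
  have hirr : ∀ U' : Submodule K ↥Y₁, (∀ h : Q, ∀ y ∈ U', ρ₁ h y ∈ U') → U' = ⊥ ∨ U' = ⊤ := by
    rw [hρ₁def]; exact H66.resRep_irr ρ Y₁ hY₁inv hY₁min
  have hZs : ∀ z ∈ Subgroup.center Q, ∃ c : K, ρ₁ z = c • 1 := by
    intro z hz
    exact H66.schur_scalar ρ₁ hirr (ρ₁ z)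
      (fun a => by rw [← map_mul, ← map_mul, hcen z hz a])
  have hρ₁z₁ : ρ₁ z₁ ≠ 1 := by
    intro h
    obtain ⟨y, hy, hy0⟩ := Submodule.exists_mem_ne_zero_of_ne_bot hY₁ne
    have hfixy : ρ z₁ y = y := by
      have h1 := hρ₁ z₁ ⟨y, hy⟩
      rw [h] at h1
      exact h1.symm
    have hyU := hY₁U hy
    rw [hU] at hyU
    obtain ⟨w, hw⟩ := hyU
    have hw' : ρ z₁ w = w + y := by
      rw [← hw]; simp
    have hpow : ∀ i : ℕ, (ρ z₁ ^ i) w = w + i • y := by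
      intro i
      induction i with
      | zero => simp
      | succ i ih =>
        rw [pow_succ', Module.End.mul_apply, ih, map_add, map_nsmul, hw', hfixy, add_smul,
          one_smul]
        abel
    have h1 := hpow (orderOf z₁)
    rw [← map_pow, pow_orderOf_eq_one, map_one, Module.End.one_apply] at h1
    have h2 : (orderOf z₁) • y = 0 := by
      have h1' : w + 0 = w + orderOf z₁ • y := by rw [add_zero]; exact h1
      exact (add_left_cancel h1').symm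
    have h3 : ((orderOf z₁ : ℕ) : K) • y = 0 := by rw [Nat.cast_smul_eq_nsmul]; exact h2
    rcases smul_eq_zero.mp h3 with h4 | h4
    · exact hcast _ (orderOf_dvd_natCard z₁) h4
    · exact hy0 h4
  obtain ⟨St, hSt⟩ : ∃ St : Subgroup (MulAut Q),
      ∀ τ, τ ∈ St ↔ ∀ z ∈ Subgroup.center Q, ρ₁ (τ z) = ρ₁ z := by
    refine ⟨{ carrier := {τ | ∀ z ∈ Subgroup.center Q, ρ₁ (τ z) = ρ₁ z}
              mul_mem' := ?_, one_mem' := ?_, inv_mem' := ?_ }, fun τ => Iff.rfl⟩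
    · intro τ τ' h h' z hz
      rw [MulAut.mul_apply, h _ ((fg_center_iff τ' z).mp hz), h' z hz]
    · intro z _; rw [MulAut.one_apply]
    · intro τ h z hz
      have := h _ ((fg_center_iff τ⁻¹ z).mp hz)
      rw [MulAut.apply_inv_self] at this
      exact this.symm
  have hσSt : σ ∉ St := by
    intro h
    rw [hSt] at h
    obtain ⟨h', hh', hz⟩ := H66.exists_inv_mul_map σ (Subgroup.center Q)
      (fun x hx => (fg_center_iff σ x).mp hx) (fun g _ => hfpf g) z₁ hz₁Z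
    apply hρ₁z₁
    rw [hz, map_mul, h h' hh']
    exact H66.rho_inv_mul ρ₁ h'
  have hβSt : σ ^ p ^ n ∈ St := by
    rw [hSt]; intro z hz; rw [hβZ z hz]
  have hex : ∃ s, σ ^ p ^ s ∈ St := ⟨n, hβSt⟩
  obtain ⟨s, hsSt, hsmin⟩ : ∃ s, σ ^ p ^ s ∈ St ∧ ∀ t < s, σ ^ p ^ t ∉ St :=
    ⟨Nat.find hex, Nat.find_spec hex, fun t ht => Nat.find_min hex ht⟩
  have hsn : s ≤ n := by
    by_contra hcon
    push Not at hcon
    exact hsmin n hcon hβSt
  have hs1 : 1 ≤ s := by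
    by_contra hcon
    have h0 : s = 0 := by omega
    rw [h0, pow_zero, pow_one] at hsSt
    exact hσSt hsSt
  have hStfree : ∀ j, 0 < j → j < p ^ s → σ ^ j ∉ St := by
    intro j hj0 hj h
    obtain ⟨a', ha', hmem⟩ := H66.pow_prime_pow_mem hp St σ n j hσ hj0 h
    have : a' < s := by
      by_contra hcon
      push Not at hcon
      have := Nat.pow_le_pow_right hp.pos hcon
      omega
    exact hsmin a' this hmem
  obtain ⟨k, hk⟩ : ∃ k, n + 1 = s + k := ⟨n + 1 - s, by omega⟩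
  have hk1 : 1 ≤ k := by omega
  obtain ⟨P, hP⟩ : ∃ P, P = p ^ k := ⟨_, rfl⟩
  have hNP : p ^ (n + 1) = p ^ s * P := by rw [hP, hk, pow_add]
  have hP0 : 0 < P := by rw [hP]; exact pow_pos hp.pos _
  have hPK : (P : K) ≠ 0 := by rw [hP, Nat.cast_pow]; exact pow_ne_zero _ hpK
  obtain ⟨a, ha⟩ : ∃ a : MulAut Q, a = σ ^ p ^ s := ⟨_, rfl⟩
  have haP : a ^ P = 1 := by rw [ha, ← pow_mul, ← hNP, hσ]
  have haSt : a ∈ St := ha ▸ hsSt
  have haZ : ∀ z ∈ Subgroup.center Q, ρ₁ (a z) = ρ₁ z := (hSt a).mp haSt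
  have hβa : σ ^ p ^ n = a ^ p ^ (k - 1) := by
    rw [ha, ← pow_mul, ← pow_add]; congr 2; omega
  obtain ⟨Xs, hXsdef⟩ : ∃ Xs : Module.End K W, Xs = X ^ p ^ s := ⟨_, rfl⟩
  have hXsP : Xs ^ P = 1 := by rw [hXsdef, ← pow_mul, ← hNP, hXN]
  have hXs : ∀ h, Xs * ρ h = ρ (a h) * Xs := by
    intro h; rw [hXsdef, ha]; exact fg_pow_compat ρ σ X hX _ h
  obtain ⟨lam, hlam⟩ : ∃ lam : Q → K, ∀ z ∈ Subgroup.center Q, ρ₁ z = lam z • 1 := by
    refine ⟨fun z => if hz : z ∈ Subgroup.center Q then Classical.choose (hZs z hz) else 0, ?_⟩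
    intro z hz
    simp only [dif_pos hz]
    exact Classical.choose_spec (hZs z hz)
  have hFIX : ∀ v : W, (∀ z ∈ Subgroup.center Q, ∀ c : K, ρ₁ z = c • 1 → ρ z v = c • v) →
      Xs v = v → v = 0 := by
    intro v hv hXv
    refine H92.fg_fix ρ σ X hX (Subgroup.center Q) (fun τ z hz => (fg_center_iff τ z).mp hz)
      lam (p ^ s) P (pow_pos hp.pos _) hPK (by rw [← hNP]; exact hsum) ?_ v
      (fun z hz => hv z hz _ (hlam z hz)) (by rw [← hXsdef]; exact hXv)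
    intro j hj0 hj
    have h1 := hStfree j hj0 hj
    rw [hSt] at h1
    push Not at h1
    obtain ⟨z, hz, hne⟩ := h1
    refine ⟨z, hz, fun h => hne ?_⟩
    rw [hlam _ ((fg_center_iff (σ ^ j) z).mp hz), hlam z hz, h]
  obtain ⟨R, hRmem⟩ : ∃ R : Subgroup Q, ∀ h, h ∈ R ↔ ∀ b, ρ₁ (h * b) = ρ₁ (b * h) := by
    refine ⟨{ carrier := {h | ∀ b, ρ₁ (h * b) = ρ₁ (b * h)}
              mul_mem' := ?_, one_mem' := ?_, inv_mem' := ?_ }, fun h => Iff.rfl⟩
    · intro x y hx hy b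
      show ρ₁ (x * y * b) = ρ₁ (b * (x * y))
      calc ρ₁ (x * y * b) = ρ₁ x * ρ₁ (y * b) := by rw [mul_assoc, map_mul]
        _ = ρ₁ x * ρ₁ (b * y) := by rw [hy b]
        _ = ρ₁ (x * b) * ρ₁ y := by rw [← map_mul, ← mul_assoc, map_mul]
        _ = ρ₁ (b * x) * ρ₁ y := by rw [hx b]
        _ = ρ₁ (b * (x * y)) := by rw [← map_mul, mul_assoc]
    · intro b; show ρ₁ (1 * b) = ρ₁ (b * 1); rw [one_mul, mul_one]
    · intro x hx b
      show ρ₁ (x⁻¹ * b) = ρ₁ (b * x⁻¹)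
      have h1 := hx (x⁻¹ * b * x⁻¹)
      have e1 : x * (x⁻¹ * b * x⁻¹) = b * x⁻¹ := by group
      have e2 : x⁻¹ * b * x⁻¹ * x = x⁻¹ * b := by group
      rw [e1, e2] at h1
      exact h1.symm
  have hZR : Subgroup.center Q ≤ R := by
    intro z hz; rw [hRmem]; intro b; rw [hcen z hz b]
  have hRs : ∀ r ∈ R, ∃ c : K, ρ₁ r = c • 1 := by
    intro r hr
    exact H66.schur_scalar ρ₁ hirr (ρ₁ r)
      (fun b => by rw [← map_mul, ← map_mul, (hRmem r).mp hr b])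
  have hcommR : ∀ x y : Q, x * y * x⁻¹ * y⁻¹ ∈ R := by
    intro x y
    have := hcl x y
    rw [commutatorElement_def] at this
    exact hZR this
  have hnd : ∀ x : Q, (∀ y : Q, ρ₁ (y * x * y⁻¹ * x⁻¹) = 1) → x ∈ R := by
    intro x hx
    rw [hRmem]; intro b
    have e : b * x = (b * x * b⁻¹ * x⁻¹) * (x * b) := by group
    have h1 : ρ₁ (b * x) = ρ₁ (x * b) := by
      rw [e, map_mul ρ₁ (b * x * b⁻¹ * x⁻¹) (x * b), hx b, one_mul]
    exact h1.symm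
  have hRnorm : R.Normal := by
    constructor
    intro r hr g
    have e : g * r * g⁻¹ = (g * r * g⁻¹ * r⁻¹) * r := by group
    rw [e]; exact R.mul_mem (hcommR g r) hr
  have hx₁R : x₁ ∉ R := by
    intro h
    apply hρ₁z₁
    have h1 := (hRmem x₁).mp h b₁
    rw [hz₁, commutatorElement_def]
    have e : x₁ * b₁ * x₁⁻¹ * b₁⁻¹ = (x₁ * b₁) * (x₁⁻¹ * b₁⁻¹) := by group
    rw [e, map_mul ρ₁ (x₁ * b₁) (x₁⁻¹ * b₁⁻¹), h1, ← map_mul]
    have e2 : b₁ * x₁ * (x₁⁻¹ * b₁⁻¹) = 1 := by group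
    rw [e2, map_one]
  have hRtop : R ≠ ⊤ := fun h => hx₁R (h ▸ Subgroup.mem_top x₁)
  obtain ⟨d, hd⟩ : ∃ d, d = Module.finrank K ↥Y₁ := ⟨_, rfl⟩
  have hd2 : d ^ 2 = R.index := by
    rw [hd]; exact H66.finrank_sq_eq_index ρ₁ R hirr hcommR hRs hnd
  have hStR : ∀ τ ∈ St, ∀ r, r ∈ R → τ r ∈ R := by
    intro τ hτ r hr
    rw [hRmem]; intro b
    obtain ⟨b', rfl⟩ : ∃ b', b = τ b' := ⟨τ⁻¹ b, by rw [MulAut.apply_inv_self]⟩
    rw [← map_mul, ← map_mul]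
    have e : r * b' = ⁅r, b'⁆ * (b' * r) := by rw [commutatorElement_def]; group
    have h1 : ρ₁ ⁅r, b'⁆ = 1 := by
      have h2 := (hRmem r).mp hr b'
      rw [commutatorElement_def]
      have e3 : r * b' * r⁻¹ * b'⁻¹ = (r * b') * (r⁻¹ * b'⁻¹) := by group
      rw [e3, map_mul ρ₁ (r * b') (r⁻¹ * b'⁻¹), h2, ← map_mul]
      have e4 : b' * r * (r⁻¹ * b'⁻¹) = 1 := by group
      rw [e4, map_one]
    calc ρ₁ (τ (r * b')) = ρ₁ (τ ⁅r, b'⁆ * τ (b' * r)) := by rw [← map_mul τ, ← e]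
      _ = ρ₁ (τ ⁅r, b'⁆) * ρ₁ (τ (b' * r)) := map_mul ρ₁ _ _
      _ = ρ₁ (τ (b' * r)) := by rw [(hSt τ).mp hτ _ (hcl r b'), h1, one_mul]
  have haR : ∀ r, r ∈ R ↔ a r ∈ R := by
    intro r
    refine ⟨hStR a haSt r, fun h => ?_⟩
    have := hStR a⁻¹ (St.inv_mem haSt) _ h
    rwa [MulAut.inv_apply_self] at this
  have haiSt : ∀ i, a ^ i ∈ St := fun i => St.pow_mem haSt i
  have hfreeR : ∀ h : Q, h ∉ R → ∀ i, 0 < i → i < P → (a ^ i) h * h⁻¹ ∉ R := by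
    intro h hh i hi0 hi hmem
    apply hh
    refine fg_freeR ρ₁ hcl R hRmem (a ^ i) ((hSt _).mp (haiSt i)) ?_ h hmem
    intro x hx
    rw [ha, ← pow_mul] at hx
    refine hS1 (p ^ s * i) (Nat.mul_pos (pow_pos hp.pos _) hi0) ?_ x hx
    rw [hNP]; exact Nat.mul_lt_mul_of_pos_left hi (pow_pos hp.pos _)
  have hμa : ∀ r ∈ R, ρ₁ (a r) = ρ₁ r := by
    obtain ⟨k', hk'⟩ : ∃ k', k = k' + 1 := ⟨k - 1, by omega⟩
    refine fg_mu_inv hp k' ρ a (by rw [← hk', ← hP]; exact haP) Xs hXs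
      (by rw [← hk', ← hP]; exact hXsP) Y₁ ρ₁ hρ₁ hY₁ne R hRs haR haZ ?_ hFIX
    intro x hx
    apply hβU
    rw [hβa]
    have : k - 1 = k' := by omega
    rw [this]; exact hx
  obtain ⟨g, g', hgg', hg'g, hgP, hint⟩ := H38.fg_intertwiner ρ₁ hirr R hcommR hRs hnd hcast
    a P hP0 haP hμa (by
      intro h hh
      have hP1 : 1 < P := by rw [hP]; exact Nat.one_lt_pow (by omega) hp.one_lt
      have := hfreeR h hh 1 Nat.one_pos hP1
      rwa [pow_one] at this)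
  have hsub_ne : Y₁.subtype ≠ 0 := by
    intro h
    obtain ⟨y, hy, hy0⟩ := Submodule.exists_mem_ne_zero_of_ne_bot hY₁ne
    apply hy0
    have := congrArg (fun f : ↥Y₁ →ₗ[K] W => f ⟨y, hy⟩) h
    simpa using this
  obtain ⟨f, κ, hf0, hfc, hκ, hXf⟩ := Lib.Lead.fg_hom_eig ρ ρ₁ a Xs P hP0 hXsP hXs g g' hgg' hg'g
    hgP hint Y₁.subtype hsub_ne (by
      intro h
      apply LinearMap.ext
      intro y
      simp only [LinearMap.comp_apply, Submodule.subtype_apply]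
      exact (hρ₁ h y).symm)
  have hfc' : ∀ (h : Q) (y : ↥Y₁), ρ h (f y) = f (ρ₁ h y) := by
    intro h y
    have := congrArg (fun F : ↥Y₁ →ₗ[K] W => F y) (hfc h)
    simpa using this
  have hfinj : ∀ y : ↥Y₁, f y = 0 → y = 0 := by
    intro y hy
    rcases hirr (LinearMap.ker f) (by
      intro h y hy
      rw [LinearMap.mem_ker] at hy ⊢
      rw [← hfc', hy, map_zero]) with h | h
    · have : y ∈ LinearMap.ker f := hy
      rw [h] at this
      exact (Submodule.mem_bot K).mp this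
    · exfalso; apply hf0
      exact LinearMap.ker_eq_top.mp h
  have hκ0 : κ ≠ 0 := by
    intro h; rw [h, zero_pow (by omega)] at hκ; exact zero_ne_one hκ
  obtain ⟨g₁, hg₁⟩ : ∃ g₁ : Module.End K ↥Y₁, g₁ = κ • g := ⟨_, rfl⟩
  obtain ⟨g₁', hg₁'⟩ : ∃ g₁' : Module.End K ↥Y₁, g₁' = κ⁻¹ • g' := ⟨_, rfl⟩
  have hg₁g₁' : g₁ * g₁' = 1 := by
    rw [hg₁, hg₁', smul_mul_smul_comm, mul_inv_cancel₀ hκ0, hgg', one_smul]
  have hg₁'g₁ : g₁' * g₁ = 1 := by
    rw [hg₁, hg₁', smul_mul_smul_comm, inv_mul_cancel₀ hκ0, hg'g, one_smul]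
  have hg₁P : g₁ ^ P = 1 := by rw [hg₁, smul_pow, hκ, hgP, one_smul]
  have hint₁ : ∀ h, g₁ * ρ₁ h = ρ₁ (a h) * g₁ := by
    intro h; rw [hg₁, smul_mul_assoc, hint, mul_smul_comm]
  have hfix₁ : ∀ y, g₁ y = y → y = 0 := by
    intro y hy
    apply hfinj
    apply hFIX
    · intro z hz c hc
      rw [hfc', hc, LinearMap.smul_apply, Module.End.one_apply, map_smul]
    · have h1 := congrArg (fun F : ↥Y₁ →ₗ[K] W => F y) hXf
      simp only [LinearMap.comp_apply, LinearMap.smul_apply] at h1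
      rw [h1, ← map_smul]
      have : κ • g y = g₁ y := by rw [hg₁]; rfl
      rw [this, hy]
  obtain ⟨C, hC⟩ : ∃ C : Submodule K (Module.End K ↥Y₁), ∀ B, B ∈ C ↔ B * g₁ = g₁ * B := by
    refine ⟨{ carrier := {B | B * g₁ = g₁ * B}
              add_mem' := ?_, zero_mem' := ?_, smul_mem' := ?_ }, fun B => Iff.rfl⟩
    · intro B B' h h'
      show (B + B') * g₁ = g₁ * (B + B')
      rw [add_mul, mul_add, h, h']
    · show (0 : Module.End K ↥Y₁) * g₁ = g₁ * 0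
      rw [zero_mul, mul_zero]
    · intro c B h
      show (c • B) * g₁ = g₁ * (c • B)
      rw [smul_mul_assoc, mul_smul_comm, h]
  haveI := hRnorm
  haveI : Fintype (Q ⧸ R) := Fintype.ofFinite _
  have hmapR : R.map (a : Q →* Q) = R := by
    apply le_antisymm
    · rintro _ ⟨x, hx, rfl⟩; exact (haR x).mp hx
    · intro x hx
      refine ⟨a.symm x, (haR _).mpr (by rw [MulEquiv.apply_symm_apply]; exact hx), ?_⟩
      exact MulEquiv.apply_symm_apply a x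
  obtain ⟨a', ha'⟩ : ∃ a' : MulAut (Q ⧸ R),
      ∀ g, a' (QuotientGroup.mk' R g) = QuotientGroup.mk' R (a g) :=
    ⟨QuotientGroup.congr R R a hmapR, fun g => rfl⟩
  have hiter : ∀ (i : ℕ) (g : Q),
      (⇑a')^[i] (QuotientGroup.mk' R g) = QuotientGroup.mk' R ((a ^ i) g) := by
    intro i
    induction i with
    | zero => intro g; simp
    | succ i ih => intro g; rw [Function.iterate_succ_apply', ih, ha', fg_pow_succ_apply]
  obtain ⟨T', -, hcard, hT'⟩ := fg_orbit_reps (⇑a') P hP0 (Finset.univ.erase 1) (by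
      intro x hx
      rw [Finset.mem_erase] at hx ⊢
      refine ⟨fun h => hx.1 ?_, Finset.mem_univ _⟩
      apply a'.injective
      rw [h, map_one]) (by
      intro x _
      obtain ⟨g, rfl⟩ := QuotientGroup.mk'_surjective _ x
      rw [hiter, haP, MulAut.one_apply]) (by
      intro x hx i hi0 hi h
      rw [Finset.mem_erase] at hx
      obtain ⟨g, rfl⟩ := QuotientGroup.mk'_surjective _ x
      rw [hiter] at h
      have hg : g ∉ R := fun hg => hx.1 ((QuotientGroup.eq_one_iff g).mpr hg)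
      apply hfreeR g hg i hi0 hi
      apply (QuotientGroup.eq_one_iff (N := R) _).mp
      show QuotientGroup.mk' R ((a ^ i) g * g⁻¹) = 1
      rw [map_mul, map_inv, h, mul_inv_cancel])
  rw [Finset.card_erase_of_mem (Finset.mem_univ _), Finset.card_univ,
    ← Nat.card_eq_fintype_card, ← Subgroup.index_eq_card, ← hd2] at hcard
  obtain ⟨T, hTdef⟩ : ∃ T : Finset Q, T = T'.image Quotient.out := ⟨_, rfl⟩
  have hT : ∀ h : Q, h ∉ R → ∃ t ∈ T, ∃ i, i < P ∧ ((a ^ i) t)⁻¹ * h ∈ R := by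
    intro h hh
    have hmem : QuotientGroup.mk' R h ∈ Finset.univ.erase (1 : Q ⧸ R) := by
      rw [Finset.mem_erase]
      exact ⟨fun h1 => hh ((QuotientGroup.eq_one_iff h).mp h1), Finset.mem_univ _⟩
    obtain ⟨t', ht', i, hi, hti⟩ := hT' _ hmem
    refine ⟨Quotient.out t', by rw [hTdef]; exact Finset.mem_image_of_mem _ ht', i, hi, ?_⟩
    have e : t' = QuotientGroup.mk' R (Quotient.out t') := (QuotientGroup.out_eq' t').symm
    rw [e, hiter] at hti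
    exact QuotientGroup.eq.mp hti.symm
  have hCbound := H38.fg_comm_bound ρ₁ hirr a P hP0 hPK g₁ g₁' hg₁g₁' hg₁'g₁ hg₁P hint₁ R hRs
    T hT C (fun B hB => (hC B).mp hB)
  have hCdiag := H92.fg_diag_bound P hP0 hPK g₁ hg₁P hfix₁ C (fun B hB => (hC B).mpr hB)
  have hTcard : T.card ≤ T'.card := by rw [hTdef]; exact Finset.card_image_le
  have hd2' : 2 ≤ d := by
    by_contra hcon
    have hR1 : R.index ≠ 1 := fun h => hRtop (Subgroup.index_eq_one.mp h)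
    have hR0 : R.index ≠ 0 := Subgroup.index_ne_zero_of_finite
    have h01 : d = 0 ∨ d = 1 := by omega
    rcases h01 with h | h
    · rw [h] at hd2; exact hR0 (by simpa using hd2.symm)
    · rw [h] at hd2; exact hR1 (by simpa using hd2.symm)
  have hdP : d = p ^ k - 1 := by
    refine fg_dim_eq hp hp2 hk1 hd2' (t := T'.card) (c := Module.finrank K C) ?_ (by omega) ?_
    · rw [← hP]; exact hcard.symm
    · rw [← hP, hd]; exact hCdiag
  exact fg_exc hp hp2 hq hQ n s k hk hk1 σ hσ hfpf hcl hS1 hmin ρ₁ R hRmem hRtop d hd2.symm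
    (by rw [hdP]; exact Nat.sub_add_cancel (Nat.one_le_pow _ _ hp.pos))
    (by rw [← ha]; exact haR) (by rw [← ha]; exact haZ)

end Cfsg.Agent.H3
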