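import Mathlib
import Cfsg.Agent.H3.FpfMain
import Cfsg.Agent.H60.Fg3
import Cfsg.Agent.Lib.Lead.Fg2

/-!
# The Shult–Gross theorem: the linear core

`fg_core`: let `H` be a finite solvable group acting faithfully on an `𝔽_r`-module `V`, `σ` a
fixed-point-free automorphism of `H` with `σ^(p^(n+1)) = 1` (`p` odd, `p ≠ r`) and `S` a
fixed-point-free linear map of `V` with `S^(p^(n+1)) = 1` compatible with `σ`.  Then `σ^(p^n)`
centralises every `σ`-invariant subgroup of `H` of order prime to `r`.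
-/

set_option autoImplicit false
set_option linter.style.haveILetI false
set_option linter.unusedVariables false
set_option linter.unusedSectionVars false

namespace Cfsg.Agent.H3

open TensorProduct
open scoped commutatorElement

set_option maxHeartbeats 1600000 in
theorem fg_core {H : Type*} [Group H] [Finite H] {r p : ℕ} [Fact r.Prime] (hp : p.Prime)
    (hp2 : p ≠ 2) (hrp : r ≠ p)
    {V : Type*} [AddCommGroup V] [Module (ZMod r) V] [Finite V]
    (hsol : Group.IsSolvable H)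
    (θ : H →* Module.End (ZMod r) V) (hθ : Function.Injective θ)
    (n : ℕ) (σ : MulAut H) (hσ : σ ^ p ^ (n + 1) = 1) (hσfix : ∀ h, σ h = h → h = 1)
    (S : Module.End (ZMod r) V) (hSN : S ^ p ^ (n + 1) = 1) (hSfix : ∀ v, S v = v → v = 0)
    (hSθ : ∀ h v, S (θ h v) = θ (σ h) (S v))
    (M : Subgroup H) (hMσ : ∀ x ∈ M, σ x ∈ M) (hMr : (Nat.card M).Coprime r) :
    ∀ x ∈ M, (σ ^ p ^ n) x = x := by
  classical
  have hr : r.Prime := Fact.out
  by_contra hcon
  push Not at hcon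
  obtain ⟨Q₀, hQS, hQmin⟩ :=
    (wellFounded_lt : WellFounded ((· < ·) : Subgroup H → Subgroup H → Prop)).has_min
      {Q : Subgroup H | Q ≤ M ∧ (∀ x ∈ Q, σ x ∈ Q) ∧ ∃ x ∈ Q, (σ ^ p ^ n) x ≠ x}
      ⟨M, le_rfl, hMσ, hcon⟩
  obtain ⟨hQM, hQσ, x₀, hx₀Q, hx₀⟩ := hQS
  have hmin₀ : ∀ R : Subgroup H, R ≤ Q₀ → R ≠ Q₀ → (∀ x ∈ R, σ x ∈ R) →
      ∀ x ∈ R, (σ ^ p ^ n) x = x := by
    intro R hRQ hne hRσ
    by_contra hc
    push Not at hc
    exact hQmin R ⟨hRQ.trans hQM, hRσ, hc⟩ (lt_of_le_of_ne hRQ hne)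
  have hQσ' : ∀ x, x ∈ Q₀ ↔ σ x ∈ Q₀ := by
    intro x
    refine ⟨hQσ x, fun h => ?_⟩
    have h1 := fg_pow_mem σ Q₀ hQσ (p ^ (n + 1) - 1) (σ x) h
    rw [← fg_pow_succ_apply', Nat.sub_add_cancel (Nat.one_le_pow _ _ hp.pos), hσ,
      MulAut.one_apply] at h1
    exact h1
  obtain ⟨τ, hτ⟩ : ∃ τ : MulAut ↥Q₀, ∀ y : ↥Q₀, ((τ y : ↥Q₀) : H) = σ y := by
    refine ⟨{ toFun := fun y => ⟨σ y, (hQσ' y).mp y.2⟩
              invFun := fun y => ⟨σ.symm y,
                (hQσ' _).mpr (by rw [MulEquiv.apply_symm_apply]; exact y.2)⟩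
              left_inv := fun y => Subtype.ext (by simp)
              right_inv := fun y => Subtype.ext (by simp)
              map_mul' := fun y z => Subtype.ext (by simp) }, fun y => rfl⟩
  have hτpow : ∀ (i : ℕ) (y : ↥Q₀), (((τ ^ i) y : ↥Q₀) : H) = (σ ^ i) y := by
    intro i
    induction i with
    | zero => intro y; simp
    | succ i ih => intro y; rw [fg_pow_succ_apply, hτ, ih, fg_pow_succ_apply]
  have hτN : τ ^ p ^ (n + 1) = 1 := by
    apply MulEquiv.ext
    intro y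
    apply Subtype.ext
    rw [hτpow, hσ]; simp
  have hτfix : ∀ y, τ y = y → y = 1 := by
    intro y hy
    apply Subtype.ext
    have := congrArg Subtype.val hy
    rw [hτ] at this
    exact hσfix _ this
  have hne : ∃ y, (τ ^ p ^ n) y ≠ y := by
    refine ⟨⟨x₀, hx₀Q⟩, fun h => hx₀ ?_⟩
    have := congrArg Subtype.val h
    rw [hτpow] at this
    exact this
  have hminτ : ∀ U : Subgroup ↥Q₀, U ≠ ⊤ → (∀ x ∈ U, τ x ∈ U) →
      ∀ x ∈ U, (τ ^ p ^ n) x = x := by
    intro U hU hUτ x hx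
    apply Subtype.ext
    rw [hτpow]
    refine hmin₀ (U.map Q₀.subtype) ?_ ?_ ?_ x ⟨x, hx, rfl⟩
    · rintro _ ⟨y, _, rfl⟩; exact y.2
    · intro h
      apply hU
      rw [eq_top_iff]
      intro y _
      have hy : (y : H) ∈ U.map Q₀.subtype := by rw [h]; exact y.2
      obtain ⟨y', hy', e⟩ := hy
      have : y' = y := Subtype.ext e
      rwa [← this]
    · rintro _ ⟨y, hy, rfl⟩
      exact ⟨τ y, hUτ y hy, hτ y⟩
  haveI := hsol
  have hsolQ : Group.IsSolvable ↥Q₀ := inferInstance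
  obtain ⟨⟨q, hq, hqp, hQq⟩, hcl, hab, hnab⟩ :=
    H60.fg_struct hsolQ hp n τ hτN hτfix hne hminτ
  have hcopQ : (Nat.card ↥Q₀).Coprime r :=
    Nat.Coprime.coprime_dvd_left (Subgroup.card_dvd_of_le hQM) hMr
  have hcastK : ∀ m : ℕ, m.Coprime r → (m : AlgebraicClosure (ZMod r)) ≠ 0 := by
    intro m hm h
    rw [CharP.cast_eq_zero_iff (AlgebraicClosure (ZMod r)) r] at h
    have h2 : r ∣ Nat.gcd m r := Nat.dvd_gcd h dvd_rfl
    rw [hm] at h2
    exact hr.one_lt.ne' (Nat.dvd_one.mp h2)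
  obtain ⟨ρ, hρ⟩ : ∃ ρ : ↥Q₀ →* Module.End (AlgebraicClosure (ZMod r))
        (AlgebraicClosure (ZMod r) ⊗[ZMod r] V),
      ρ = ((Module.End.baseChangeHom (ZMod r) (AlgebraicClosure (ZMod r)) V :
        Module.End (ZMod r) V →ₐ[ZMod r] Module.End (AlgebraicClosure (ZMod r))
          (AlgebraicClosure (ZMod r) ⊗[ZMod r] V)) :
        Module.End (ZMod r) V →* Module.End (AlgebraicClosure (ZMod r))
          (AlgebraicClosure (ZMod r) ⊗[ZMod r] V)).comp (θ.comp Q₀.subtype) := ⟨_, rfl⟩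
  have hρapply : ∀ a : ↥Q₀, ρ a =
      Module.End.baseChangeHom (ZMod r) (AlgebraicClosure (ZMod r)) V (θ (a : H)) := by
    intro a; rw [hρ]; rfl
  have hρinj : Function.Injective ρ := by
    intro a b hab
    rw [hρapply, hρapply] at hab
    exact Subtype.ext
      (hθ (LinearMap.baseChangeHom_injective (ZMod r) V (AlgebraicClosure (ZMod r)) hab))
  obtain ⟨X, hXdef⟩ : ∃ X : Module.End (AlgebraicClosure (ZMod r))
        (AlgebraicClosure (ZMod r) ⊗[ZMod r] V),
      X = Module.End.baseChangeHom (ZMod r) (AlgebraicClosure (ZMod r)) V S := ⟨_, rfl⟩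
  have hX : ∀ h, X * ρ h = ρ (τ h) * X := by
    intro h
    rw [hXdef, hρapply, hρapply, ← map_mul, ← map_mul, hτ]
    congr 1
    apply LinearMap.ext
    intro v
    simp only [Module.End.mul_apply]
    exact hSθ h v
  have hXN : X ^ p ^ (n + 1) = 1 := by rw [hXdef, ← map_pow, hSN, map_one]
  have hSsum : ∑ i ∈ Finset.range (p ^ (n + 1)), S ^ i = 0 := by
    apply LinearMap.ext
    intro v
    rw [LinearMap.zero_apply]
    apply hSfix
    rw [LinearMap.sum_apply, map_sum]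
    have h1 : ∀ i ∈ Finset.range (p ^ (n + 1)), S ((S ^ i) v) = (S ^ (i + 1)) v := by
      intro i _; rw [pow_succ', Module.End.mul_apply]
    rw [Finset.sum_congr rfl h1]
    have h2 := Finset.sum_range_succ' (fun i => (S ^ i) v) (p ^ (n + 1))
    have h3 := Finset.sum_range_succ (fun i => (S ^ i) v) (p ^ (n + 1))
    rw [h3] at h2
    simp only [hSN, pow_zero] at h2
    exact (add_right_cancel h2).symm
  have hsum : ∑ i ∈ Finset.range (p ^ (n + 1)), X ^ i = 0 := by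
    rw [hXdef]
    simp_rw [← map_pow]
    rw [← map_sum, hSsum, map_zero]
  by_cases hcomm : ∀ x y : ↥Q₀, x * y = y * x
  · have htriv := Lib.Lead.fg_frob_triv ρ hρinj τ X (p ^ (n + 1)) (pow_pos hp.pos _) hX hsum
      (hab hcomm) (hcastK _ hcopQ)
    obtain ⟨y, hy⟩ := hne
    apply hy
    rw [htriv y, map_one]
  · push Not at hcomm
    obtain ⟨hβZ, hβU⟩ := hnab hcomm
    haveI : Fact q.Prime := ⟨hq⟩
    have hqr : q ≠ r := by
      intro h
      obtain ⟨e, he⟩ := IsPGroup.iff_card.mp hQq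
      have he0 : e ≠ 0 := by
        intro h0
        rw [h0, pow_zero] at he
        obtain ⟨y, hy⟩ := hne
        haveI : Subsingleton ↥Q₀ := (Nat.card_eq_one_iff_unique.mp he).1
        apply hy
        exact Subsingleton.elim _ _
      have h1 : r ∣ Nat.card ↥Q₀ := by rw [he, ← h]; exact dvd_pow_self q he0
      have h2 : r ∣ Nat.gcd (Nat.card ↥Q₀) r := Nat.dvd_gcd h1 dvd_rfl
      rw [hcopQ] at h2
      exact hr.one_lt.ne' (Nat.dvd_one.mp h2)
    have hqK : (q : AlgebraicClosure (ZMod r)) ≠ 0 :=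
      hcastK q ((Nat.coprime_primes hq hr).mpr hqr)
    have hpK : (p : AlgebraicClosure (ZMod r)) ≠ 0 :=
      hcastK p ((Nat.coprime_primes hp hr).mpr (Ne.symm hrp))
    have hmin' : ∀ U : Subgroup ↥Q₀, U ≠ ⊤ → (∀ x ∈ U, τ x ∈ U) →
        U ≤ Subgroup.center ↥Q₀ := by
      intro U hU hUτ u hu
      apply hβU
      rw [hminτ U hU hUτ u hu, inv_mul_cancel]
      exact Subgroup.one_mem _
    exact fg_special_false hp hp2 hq hQq hqK hpK n τ hτN hτfix hcl hcomm hβZ hβU hmin' ρ hρinj X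
      hX hXN hsum

end Cfsg.Agent.H3
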