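import Mathlib
import Cfsg.Agent.H3.FpfCore
import Cfsg.Agent.H27.Fg8

/-!
# The Shult–Gross theorem

`fg_chain`: a finite solvable group with a fixed-point-free automorphism `σ`, `σ^(p^n) = 1`,
`p` odd, has a normal series of length `n` with nilpotent factors.
-/

set_option autoImplicit false
set_option linter.style.haveILetI false
set_option linter.unusedVariables false
set_option linter.unusedSectionVars false

namespace Cfsg.Agent.H3

open Cfsg
open scoped commutatorElement

universe u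

theorem fg_not_dvd_card {G : Type*} [Group G] [Finite G] {p : ℕ} (hp : p.Prime) (m : ℕ)
    (σ : MulAut G) (hσ : σ ^ p ^ m = 1) (hfpf : ∀ g, σ g = g → g = 1) : ¬ p ∣ Nat.card G := by
  haveI : Fact p.Prime := ⟨hp⟩
  have hA : IsPGroup p (Subgroup.zpowers σ) := by
    rintro ⟨a, ha⟩
    obtain ⟨k, rfl⟩ := Subgroup.mem_zpowers_iff.mp ha
    refine ⟨m, Subtype.ext ?_⟩
    rw [Subgroup.coe_pow, Subgroup.coe_one]
    show (σ ^ k) ^ p ^ m = 1
    rw [← zpow_natCast, ← zpow_mul, mul_comm, zpow_mul, zpow_natCast, hσ, one_zpow]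
  have h1 := hA.card_modEq_card_fixedPoints G
  have h2 : Nat.card (MulAction.fixedPoints (Subgroup.zpowers σ) G) = 1 := by
    rw [Nat.card_eq_one_iff_unique]
    refine ⟨⟨?_⟩, ⟨⟨1, ?_⟩⟩⟩
    · rintro ⟨x, hx⟩ ⟨y, hy⟩
      apply Subtype.ext
      have hx1 : x = 1 := hfpf x (hx ⟨σ, Subgroup.mem_zpowers σ⟩)
      have hy1 : y = 1 := hfpf y (hy ⟨σ, Subgroup.mem_zpowers σ⟩)
      show x = y
      rw [hx1, hy1]
    · intro a
      exact map_one (a : MulAut G)
  rw [h2] at h1
  intro hdvd
  have h0 : Nat.card G % p = 0 := Nat.mod_eq_zero_of_dvd hdvd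
  have h3 : Nat.card G % p = 1 % p := h1
  rw [h0, Nat.mod_eq_of_lt hp.one_lt] at h3
  exact zero_ne_one h3

set_option maxHeartbeats 1600000 in
theorem fg_chain : ∀ (n : ℕ) {G : Type u} [Group G] [Finite G], Group.IsSolvable G →
    ∀ {p : ℕ}, p.Prime → p ≠ 2 →
    ∀ (σ : MulAut G), σ ^ p ^ n = 1 → (∀ g : G, σ g = g → g = 1) →
    ∃ F : Fin (n + 1) → Subgroup G, F 0 = ⊥ ∧ F (Fin.last n) = ⊤ ∧ Monotone F ∧
      (∀ i, (F i).Normal) ∧
      ∀ i : Fin n, ∃ k : ℕ, (F i.succ).lowerCentralSeries k ≤ F i.castSucc := by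
  intro n
  induction n with
  | zero =>
    intro G _ _ hsol p hp hp2 σ hσ hfpf
    rw [pow_zero, pow_one] at hσ
    have htriv : ∀ g : G, g = 1 := fun g => hfpf g (by rw [hσ, MulAut.one_apply])
    refine ⟨fun _ => ⊥, rfl, ?_, fun _ _ _ => le_rfl, fun _ => inferInstance, fun i => i.elim0⟩
    symm
    rw [eq_bot_iff]
    intro g _
    rw [Subgroup.mem_bot]; exact htriv g
  | succ n ih =>
    intro G _ _ hsol p hp hp2 σ hσ hfpf
    haveI := hsol
    obtain ⟨β, hβ⟩ : ∃ β : MulAut G, β = σ ^ p ^ n := ⟨_, rfl⟩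
    obtain ⟨K, hK⟩ : ∃ K : Subgroup G, K = Subgroup.closure {y | ∃ g, y = g⁻¹ * β g} :=
      ⟨_, rfl⟩
    have hgen : ∀ g, g⁻¹ * β g ∈ K := fun g => by
      rw [hK]; exact Subgroup.subset_closure ⟨g, rfl⟩
    have hpcard : ¬ p ∣ Nat.card G := fg_not_dvd_card hp (n + 1) σ hσ hfpf
    have hKle : ∀ r : ℕ, r.Prime → K ≤ pPrimePCore r G := by
      intro r hr
      haveI : Fact r.Prime := ⟨hr⟩
      by_cases hrp : r = p
      · rw [hrp]
        haveI : Fact p.Prime := ⟨hp⟩
        rw [H66.pPrimePCore_eq_top_of_coprime p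
          ((Nat.Coprime.symm ((Nat.Prime.coprime_iff_not_dvd hp).mpr hpcard)))]
        exact le_top
      · rw [hK, Subgroup.closure_le]
        rintro _ ⟨g, rfl⟩
        rw [hβ]
        exact H27.fg_frame hp n σ hσ hfpf r hrp
          (fun H _ _ V _ _ _ hsolH θ hθ τ hτ hτfix S hS hSfix hSθ M hM hMr =>
            fg_core hp hp2 hrp hsolH θ hθ n τ hτ hτfix S hS hSfix hSθ M hM hMr) g
    have hKnil : Group.IsNilpotent ↥K := H66.isNilpotent_of_le_pPrimePCore K hKle
    have hKn : K.Normal := by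
      constructor
      intro y hy x
      have hy' := hy
      rw [hK] at hy'
      induction hy' using Subgroup.closure_induction with
      | mem y hy'' =>
        obtain ⟨g, rfl⟩ := hy''
        have e : x * (g⁻¹ * β g) * x⁻¹ =
            ((g * x⁻¹)⁻¹ * β (g * x⁻¹)) * ((x⁻¹)⁻¹ * β x⁻¹)⁻¹ := by
          simp only [map_mul, map_inv]; group
        rw [e]
        exact K.mul_mem (hgen _) (K.inv_mem (hgen _))
      | one => simpa using K.one_mem
      | mul a b ha hb iha ihb =>
        have e : x * (a * b) * x⁻¹ = (x * a * x⁻¹) * (x * b * x⁻¹) := by group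
        rw [e]
        exact K.mul_mem (iha (by rw [hK]; exact ha)) (ihb (by rw [hK]; exact hb))
      | inv a ha iha =>
        have e : x * a⁻¹ * x⁻¹ = (x * a * x⁻¹)⁻¹ := by group
        rw [e]
        exact K.inv_mem (iha (by rw [hK]; exact ha))
    have hσβ : ∀ g, σ (β g) = β (σ g) := by
      intro g
      rw [hβ, ← fg_pow_succ_apply, ← fg_pow_succ_apply']
    have hKσ : ∀ x ∈ K, σ x ∈ K := by
      intro x hx
      have hx' := hx
      rw [hK] at hx'
      induction hx' using Subgroup.closure_induction with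
      | mem y hy =>
        obtain ⟨g, rfl⟩ := hy
        rw [map_mul, map_inv, hσβ]
        exact hgen _
      | one => rw [map_one]; exact K.one_mem
      | mul a b ha hb iha ihb =>
        rw [map_mul]
        exact K.mul_mem (iha (by rw [hK]; exact ha)) (ihb (by rw [hK]; exact hb))
      | inv a ha iha =>
        rw [map_inv]
        exact K.inv_mem (iha (by rw [hK]; exact ha))
    have hmap : K.map (σ : G →* G) = K := by
      apply Subgroup.eq_of_le_of_card_ge
      · rintro _ ⟨x, hx, rfl⟩; exact hKσ x hx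
      · rw [Subgroup.card_map_of_injective (MulEquiv.injective σ)]
    haveI := hKn
    obtain ⟨σ', hσ'⟩ : ∃ σ' : MulAut (G ⧸ K),
        ∀ g, σ' (QuotientGroup.mk' K g) = QuotientGroup.mk' K (σ g) :=
      ⟨QuotientGroup.congr K K σ hmap, fun g => rfl⟩
    have hσ'pow : ∀ (i : ℕ) (g : G),
        (σ' ^ i) (QuotientGroup.mk' K g) = QuotientGroup.mk' K ((σ ^ i) g) := by
      intro i
      induction i with
      | zero => intro g; simp
      | succ i ihi => intro g; rw [fg_pow_succ_apply, ihi, hσ', fg_pow_succ_apply]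
    have hσ'n : σ' ^ p ^ n = 1 := by
      apply MulEquiv.ext
      intro x
      obtain ⟨g, rfl⟩ := QuotientGroup.mk'_surjective K x
      rw [hσ'pow, MulAut.one_apply, ← hβ]
      exact (QuotientGroup.eq.mpr (hgen g)).symm
    have hσ'fix : ∀ x, σ' x = x → x = 1 := by
      intro x hx
      obtain ⟨g, rfl⟩ := QuotientGroup.mk'_surjective K x
      rw [hσ'] at hx
      have h1 : (σ g)⁻¹ * g ∈ K := QuotientGroup.eq.mp hx
      have h2 : g⁻¹ * σ g ∈ K := by
        have := K.inv_mem h1
        rwa [mul_inv_rev, inv_inv] at this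
      exact (QuotientGroup.eq_one_iff g).mpr (H66.fpf_quotient σ K hKσ hfpf g h2)
    obtain ⟨F', hF0, hFtop, hFmono, hFn, hFstep⟩ :=
      ih (G := G ⧸ K) inferInstance hp hp2 σ' hσ'n hσ'fix
    refine ⟨Fin.cons ⊥ (fun i => (F' i).comap (QuotientGroup.mk' K)), ?_, ?_, ?_, ?_, ?_⟩
    · rfl
    · have e : Fin.last (n + 1) = (Fin.last n).succ := rfl
      rw [e, Fin.cons_succ, hFtop, Subgroup.comap_top]
    · intro i j hij
      rcases Fin.eq_zero_or_eq_succ i with rfl | ⟨i', rfl⟩
      · rw [Fin.cons_zero]; exact bot_le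
      · rcases Fin.eq_zero_or_eq_succ j with rfl | ⟨j', rfl⟩
        · exact absurd hij (by simp)
        · rw [Fin.cons_succ, Fin.cons_succ]
          exact Subgroup.comap_mono (hFmono (Fin.succ_le_succ_iff.mp hij))
    · intro i
      rcases Fin.eq_zero_or_eq_succ i with rfl | ⟨i', rfl⟩
      · rw [Fin.cons_zero]; infer_instance
      · rw [Fin.cons_succ]
        haveI := hFn i'
        infer_instance
    · intro i
      rw [Fin.cons_succ]
      rcases Fin.eq_zero_or_eq_succ i with rfl | ⟨i', rfl⟩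
      · rw [Fin.castSucc_zero, Fin.cons_zero, hF0]
        have hker : (⊥ : Subgroup (G ⧸ K)).comap (QuotientGroup.mk' K) = K :=
          QuotientGroup.ker_mk' K
        rw [hker]
        obtain ⟨k, hk⟩ := (Subgroup.isNilpotent_iff_lowerCentralSeries K).mp hKnil
        exact ⟨k, hk.le⟩
      · obtain ⟨k, hk⟩ := hFstep i'
        refine ⟨k, ?_⟩
        rw [← Fin.succ_castSucc, Fin.cons_succ, ← Subgroup.map_le_iff_le_comap,
          Subgroup.map_lowerCentralSeries,
          Subgroup.map_comap_eq_self_of_surjective (QuotientGroup.mk'_surjective K)]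
        exact hk

end Cfsg.Agent.H3
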