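import Cfsg.Agent.S0001
import Mathlib

set_option autoImplicit false

namespace Cfsg.Agent.H3

open scoped Pointwise

open scoped IsMulCommutative in
/-- An abelian Hall subgroup with no fusion has a normal complement (the kernel of the transfer). -/
theorem hall_transfer_complement {G : Type*} [Group G] [Finite G] (H : Subgroup G)
    (hc : IsMulCommutative H) (hHall : Nat.Coprime (Nat.card H) H.index)
    (hfus : ∀ x ∈ H, ∀ g : G, g⁻¹ * x * g ∈ H → g⁻¹ * x * g = x) :
    ∃ N : Subgroup G, N.Normal ∧ N.IsComplement' H := by
  let V : G →* H := MonoidHom.transfer (MonoidHom.id H)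
  have hV : ∀ x : H, V (x : G) = x ^ H.index := by
    intro x
    have key : ∀ (k : ℕ) (g₀ : G), g₀⁻¹ * (x : G) ^ k * g₀ ∈ H →
        g₀⁻¹ * (x : G) ^ k * g₀ = (x : G) ^ k :=
      fun k g₀ h => hfus _ (Subgroup.pow_mem _ x.2 k) g₀ h
    have h1 := MonoidHom.transfer_eq_pow (MonoidHom.id H) (x : G) key
    apply Subtype.ext
    have h2 := congrArg Subtype.val h1
    simpa using h2
  have hsurj : Function.Surjective V := by
    intro y
    obtain ⟨x, hx⟩ := (powCoprime hHall).surjective y
    refine ⟨(x : G), ?_⟩
    rw [hV]; exact hx
  have hidx : V.ker.index = Nat.card H := by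
    rw [Subgroup.index_ker, MonoidHom.range_eq_top.mpr hsurj, Subgroup.card_top]
  have hcardN : Nat.card V.ker = H.index := by
    have h1 := Subgroup.card_mul_index V.ker
    have h2 := Subgroup.index_mul_card H
    rw [hidx, ← h2] at h1
    exact Nat.eq_of_mul_eq_mul_right Nat.card_pos h1
  refine ⟨V.ker, inferInstance, ?_⟩
  apply Subgroup.isComplement'_of_coprime
  · rw [hcardN]; exact Subgroup.index_mul_card H
  · rw [hcardN]; exact hHall.symm

universe u

/-- A Hall subgroup that is central in its normalizer has a normal complement. -/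
theorem hall_central_complement_aux : ∀ (n : ℕ) (G : Type u) [Group G] [Finite G],
    Nat.card G = n → ∀ H : Subgroup G, Nat.Coprime (Nat.card H) H.index →
    Subgroup.normalizer (H : Set G) ≤ Subgroup.centralizer (H : Set G) →
    ∃ N : Subgroup G, N.Normal ∧ N.IsComplement' H := by
  intro n
  induction n using Nat.strong_induction_on with
  | _ n ih =>
    intro G _ _ hn H hHall hNC
    have hcomm : ∀ a ∈ H, ∀ b ∈ H, a * b = b * a := fun a ha b hb =>
      (hNC (Subgroup.le_normalizer hb) a ha)
    have hc : IsMulCommutative H := ⟨⟨fun a b => Subtype.ext (hcomm a a.2 b b.2)⟩⟩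
    apply hall_transfer_complement H hc hHall
    intro x hx g hxg
    set y := g⁻¹ * x * g with hy
    by_cases hC : Subgroup.centralizer ({y} : Set G) = ⊤
    · have hg : g ∈ Subgroup.centralizer ({y} : Set G) := by rw [hC]; trivial
      have h1 : y * g = g * y := (Subgroup.mem_centralizer_iff.mp hg) y rfl
      have h2 : g * y = x * g := by rw [hy]; group
      have h3 : y * g = x * g := h1.trans h2
      exact mul_right_cancel h3
    · set C := Subgroup.centralizer ({y} : Set G) with hCdef
      have hcard : Nat.card C < n := by
        rw [← hn]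
        by_contra hcon
        have hle : Nat.card C ≤ Nat.card G := Subgroup.card_le_card_group C
        exact hC (Subgroup.eq_top_of_card_eq C (le_antisymm hle (not_lt.mp hcon)))
      have hHC : H ≤ C := by
        intro h hh
        rw [hCdef, Subgroup.mem_centralizer_iff]
        intro z hz
        rw [Set.mem_singleton_iff] at hz
        subst hz
        exact hcomm _ hxg h hh
      have hH1C : MulAut.conj g⁻¹ • H ≤ C := by
        intro u hu
        rw [Subgroup.mem_pointwise_smul_iff_inv_smul_mem] at hu
        have hu' : g * u * g⁻¹ ∈ H := by simpa [MulAut.smul_def] using hu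
        rw [hCdef, Subgroup.mem_centralizer_iff]
        intro z hz
        rw [Set.mem_singleton_iff] at hz
        subst hz
        have h1 := hcomm x hx _ hu'
        -- x * (g u g⁻¹) = (g u g⁻¹) * x
        calc g⁻¹ * x * g * u = g⁻¹ * (x * (g * u * g⁻¹)) * g := by group
          _ = g⁻¹ * ((g * u * g⁻¹) * x) * g := by rw [h1]
          _ = u * (g⁻¹ * x * g) := by group
      have hcardH' : Nat.card (H.subgroupOf C) = Nat.card H :=
        Nat.card_congr (Subgroup.subgroupOfEquivOfLe hHC).toEquiv
      have hHall' : Nat.Coprime (Nat.card (H.subgroupOf C)) (H.subgroupOf C).index := by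
        rw [hcardH']
        exact Nat.Coprime.coprime_dvd_right (Subgroup.relIndex_dvd_index_of_le hHC) hHall
      have hNC' : Subgroup.normalizer ((H.subgroupOf C : Subgroup C) : Set C) ≤
          Subgroup.centralizer ((H.subgroupOf C : Subgroup C) : Set C) := by
        intro c hc
        have hcN : (c : G) ∈ Subgroup.normalizer (H : Set G) := by
          rw [Subgroup.mem_normalizer_iff]
          intro h
          constructor
          · intro hh
            exact (Subgroup.mem_normalizer_iff.mp hc ⟨h, hHC hh⟩).mp hh
          · intro hh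
            have hhC : h ∈ C := by
              have : h = (c : G)⁻¹ * ((c : G) * h * (c : G)⁻¹) * (c : G) := by group
              rw [this]
              exact C.mul_mem (C.mul_mem (C.inv_mem c.2) (hHC hh)) c.2
            exact (Subgroup.mem_normalizer_iff.mp hc ⟨h, hhC⟩).mpr hh
        have hcC := hNC hcN
        rw [Subgroup.mem_centralizer_iff]
        intro h hh
        apply Subtype.ext
        exact (Subgroup.mem_centralizer_iff.mp hcC) (h : G) hh
      obtain ⟨M, hMn, hM⟩ := ih (Nat.card C) hcard C rfl (H.subgroupOf C) hHall' hNC'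
      have hMcard : Nat.card M = (H.subgroupOf C).index := hM.index_eq_card.symm
      have hcardH1 : Nat.card ((MulAut.conj g⁻¹ • H).subgroupOf C) = Nat.card H := by
        rw [Nat.card_congr (Subgroup.subgroupOfEquivOfLe hH1C).toEquiv]
        exact (Nat.card_congr (Subgroup.equivSMul (MulAut.conj g⁻¹) H).toEquiv).symm
      have hM1 : M.IsComplement' ((MulAut.conj g⁻¹ • H).subgroupOf C) := by
        apply Subgroup.isComplement'_of_coprime
        · rw [hcardH1, ← hcardH']; exact hM.card_mul_card
        · rw [hcardH1, ← hcardH', hMcard]; exact hHall'.symm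
      have hMcop : (Nat.card M).Coprime M.index := by
        rw [hM.symm.index_eq_card, hMcard]; exact hHall'.symm
      have hsol : Group.IsSolvable (C ⧸ M) := by
        have hcs : ∀ a b : H.subgroupOf C, a * b = b * a := by
          intro a b
          apply Subtype.ext
          apply Subtype.ext
          exact hcomm _ a.2 _ b.2
        have : Group.IsSolvable (H.subgroupOf C) := Group.isSolvable_of_comm hcs
        exact Group.isSolvable_of_surjective (f := (hM.symm.QuotientMulEquiv.symm : H.subgroupOf C →* C ⧸ M))
          hM.symm.QuotientMulEquiv.symm.surjective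
      obtain ⟨c, hcconj⟩ := Cfsg.Agent.S0001.result M hMcop (Or.inr hsol) (H.subgroupOf C)
        ((MulAut.conj g⁻¹ • H).subgroupOf C) hM hM1
      have hiff : ∀ u : G, u ∈ C → ((c : G)⁻¹ * u * (c : G) ∈ H ↔ g * u * g⁻¹ ∈ H) := by
        intro u hu
        have h1 : (⟨u, hu⟩ : C) ∈ MulAut.conj c • H.subgroupOf C ↔
            (⟨u, hu⟩ : C) ∈ (MulAut.conj g⁻¹ • H).subgroupOf C := by rw [hcconj]
        rw [Subgroup.mem_pointwise_smul_iff_inv_smul_mem, Subgroup.mem_subgroupOf,
          Subgroup.mem_subgroupOf, Subgroup.mem_pointwise_smul_iff_inv_smul_mem] at h1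
        simpa [MulAut.smul_def] using h1
      have hgc : g * (c : G) ∈ Subgroup.normalizer (H : Set G) := by
        rw [Subgroup.mem_normalizer_iff]
        intro h
        have e : g * (c : G) * h * (g * (c : G))⁻¹ = g * ((c : G) * h * (c : G)⁻¹) * g⁻¹ := by group
        rw [e]
        constructor
        · intro hh
          have hu : (c : G) * h * (c : G)⁻¹ ∈ C := C.mul_mem (C.mul_mem c.2 (hHC hh)) (C.inv_mem c.2)
          apply (hiff _ hu).mp
          have : (c : G)⁻¹ * ((c : G) * h * (c : G)⁻¹) * (c : G) = h := by group
          rw [this]; exact hh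
        · intro hk
          have hu : (c : G) * h * (c : G)⁻¹ ∈ C := by
            apply hH1C
            rw [Subgroup.mem_pointwise_smul_iff_inv_smul_mem]
            have e3 : (MulAut.conj g⁻¹)⁻¹ • ((c : G) * h * (c : G)⁻¹) =
                g * ((c : G) * h * (c : G)⁻¹) * g⁻¹ := by
              simp [MulAut.smul_def, mul_assoc]
            rw [e3]; exact hk
          have := (hiff _ hu).mpr hk
          have e2 : (c : G)⁻¹ * ((c : G) * h * (c : G)⁻¹) * (c : G) = h := by group
          rwa [e2] at this
      have hcent := hNC hgc
      have h1 : x * (g * (c : G)) = g * (c : G) * x := (Subgroup.mem_centralizer_iff.mp hcent) x hx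
      have h2 : y * (c : G) = (c : G) * y := (Subgroup.mem_centralizer_iff.mp c.2) y rfl
      -- y = c y c⁻¹ = c g⁻¹ x g c⁻¹ ... derive y = x
      have h3 : (c : G) * y = (c : G) * x := by
        calc (c : G) * y = y * (c : G) := h2.symm
          _ = g⁻¹ * (x * (g * (c : G))) := by rw [hy]; group
          _ = g⁻¹ * (g * (c : G) * x) := by rw [h1]
          _ = (c : G) * x := by group
      exact mul_left_cancel h3

end Cfsg.Agent.H3
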