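import Cfsg.Agent.H59.JzKillDefs
import Cfsg.Agent.H8.JzResAof
import Cfsg.Agent.H3.JzOut1

/-!
# K-NV (helper3, for helper59 / helper64, S2951/S2952): `kNV : StKNV`

`N_G(Ω₁Z(O₂(L))) = L` for the maximal 2-local `L`.
-/

set_option autoImplicit false
open Cfsg

namespace Cfsg.Agent.H3.Jk

universe u
open Subgroup Cfsg.Agent.H3.Jz Cfsg.Agent.H59.JzK Cfsg.Agent.H64.Jz

/-- `Ω₁Z(X) ≤ X`. -/
theorem jkOmegaCenterLe {G : Type u} [Group G] (X : Subgroup G) : omegaCenterOf X ≤ X := by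
  unfold omegaCenterOf omegaOne
  rw [Subgroup.closure_le]
  intro y hy
  exact hy.1.1

/-- For a maximal 2-local `L`: `O₂(L) ≠ 1`. -/
theorem jkCoreNeBot {G : Type u} [Group G] (L : Subgroup G) (h : IsMaximalTwoLocal L) :
    pCoreOf 2 L ≠ ⊥ := by
  obtain ⟨⟨P, hP, hP1, hLP⟩, -⟩ := h
  have hPL : P ≤ L := by rw [hLP]; exact le_normalizer
  have hPQ : P ≤ pCoreOf 2 L := Cfsg.Agent.H51.le_pCoreOf 2 hPL (le_of_eq hLP) hP
  intro h0
  apply hP1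
  rw [h0] at hPQ
  exact le_bot_iff.1 hPQ

/-- `L` normalizes `Ω₁Z(O₂(L))`. -/
theorem jkLeNormV {G : Type u} [Group G] (L : Subgroup G) :
    L ≤ normalizer (Vof L : Set G) := by
  intro l hl
  apply jzMemNormalizerOfMapConj
  have hQl : (pCoreOf 2 L).map (MulAut.conj l).toMonoidHom = pCoreOf 2 L := by
    rw [← Cfsg.Agent.H51.pCoreOf_map 2 L (MulAut.conj l),
      jzMapConjOfMemNormalizer L l (le_normalizer hl)]
  have h1 := Cfsg.Agent.H14.omegaOne_center_conj 2 l (pCoreOf 2 L)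
  rw [hQl] at h1
  exact h1

/-- For a maximal 2-local `L`: `N_G(Ω₁Z(O₂(L))) = L`. -/
theorem jkNormV {G : Type u} [Group G] [Finite G] (L : Subgroup G) (h : IsMaximalTwoLocal L) :
    normalizer (Vof L : Set G) = L := by
  have hQ1 := jkCoreNeBot L h
  have hQ2 : IsPGroup 2 ↥(pCoreOf 2 L) := Cfsg.Agent.H51.pCoreOf_isPGroup 2 L
  have hV1 : Vof L ≠ ⊥ := Cfsg.Agent.H8.JzA.omegaCenterOf_ne_bot (pCoreOf 2 L) hQ2 hQ1
  have hV2 : IsPGroup 2 ↥(Vof L) := hQ2.to_le (jkOmegaCenterLe _)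
  exact h.2 _ ⟨Vof L, hV2, hV1, rfl⟩ (jkLeNormV L)

/-- K-NV. -/
theorem kNV : Cfsg.Agent.H59.JzK.StKNV.{u} := by
  intro G _ _ S M K L T' K' L' hR
  obtain ⟨hB, -, -, -⟩ := hR
  obtain ⟨-, -, -, -, -, -, -, hLmax, -⟩ := hB
  exact jkNormV L hLmax

example : Cfsg.Agent.H59.JzK.StKNV.{u} := kNV

end Cfsg.Agent.H3.Jk
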