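import Cfsg.Agent.H64.JzDefs
import Cfsg.Agent.S2950
import Cfsg.Agent.Helper55.UqBase
import Cfsg.Agent.H14.Thompson

/-!
# S2953 (team project JY): the piece PAIR

Two base configurations `(S, M, T, K₁, L₁)` and `(S₂, M₂, T, K₂, L₂)` on the same `T` whose
maximal 2-locals differ: the components differ and `⟨K₁ T, K₂ T⟩` has trivial 2-core.
-/

set_option autoImplicit false

open Cfsg

namespace Cfsg.Agent.H3.Jy

open Cfsg.Agent.H64.Jz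

universe u

/-- The maximal 2-local of a base configuration is the only one over `K ⊔ J(T)` (S2950). -/
theorem jyBaseUnique {G : Type u} [Group G] [Finite G] {S : Sylow 2 G} {M T K L : Subgroup G}
    (hB : Base S M T K L) (L' : Subgroup G) (hL' : IsMaximalTwoLocal L')
    (hKL' : K ⊔ thompsonSubgroupOf 2 T ≤ L') : L' = L := by
  have hB' := hB
  obtain ⟨hZN, hO, hM, hMJ, hT, hTS, hK, hLmax, hKL⟩ := hB'
  have hZN' := hZN
  obtain ⟨hL, hN, hZ⟩ := hZN'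
  obtain ⟨L₀, hL₀, hKL₀, huniq, -, -⟩ :=
    Cfsg.Agent.S2950.result hL hN hZ hO S M hM hMJ T hT K hK
  rw [huniq L' hL' hKL', huniq L hLmax hKL]

/-- A subgroup over `K ⊔ T` with a non-trivial 2-core lies in the maximal 2-local of the base
configuration. -/
theorem jyLeOfCore {G : Type u} [Group G] [Finite G] {S : Sylow 2 G} {M T K L : Subgroup G}
    (hB : Base S M T K L) (X : Subgroup G) (hKX : K ⊔ thompsonSubgroupOf 2 T ≤ X)
    (hX : pCoreOf 2 X ≠ ⊥) : X ≤ L := by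
  have h2loc : IsTwoLocal (Subgroup.normalizer (pCoreOf 2 X : Set G)) :=
    ⟨_, Cfsg.Agent.Helper55.Uq.pCoreOf_isPGroup X, hX, rfl⟩
  obtain ⟨L', hL', hle⟩ := Cfsg.Agent.Helper55.Uq.exists_maximalTwoLocal h2loc
  have hXL' : X ≤ L' := (Cfsg.Agent.Helper55.Uq.le_normalizer_pCoreOf' X).trans hle
  have e : L' = L := jyBaseUnique hB L' hL' (hKX.trans hXL')
  rw [← e]
  exact hXL'

/-- JY-PAIR. -/
theorem pair {G : Type u} [Group G] [Finite G] (S : Sylow 2 G) (M T K₁ L₁ : Subgroup G)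
    (S₂ : Sylow 2 G) (M₂ K₂ L₂ : Subgroup G)
    (h1 : Base S M T K₁ L₁) (h2 : Base S₂ M₂ T K₂ L₂) (hne : L₁ ≠ L₂) :
    K₁ ≠ K₂ ∧ pCoreOf 2 ((K₁ ⊔ T) ⊔ (K₂ ⊔ T)) = ⊥ := by
  have hJ : thompsonSubgroupOf 2 T ≤ T := Cfsg.Agent.H14.thompsonSubgroupOf_le 2 T
  have h1' := h1
  obtain ⟨-, -, -, -, -, -, -, hL1max, hKL1⟩ := h1'
  have h2' := h2
  obtain ⟨-, -, -, -, -, -, -, hL2max, hKL2⟩ := h2'
  refine ⟨?_, ?_⟩
  · intro hK
    subst hK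
    exact hne (jyBaseUnique h2 L₁ hL1max hKL1)
  · by_contra hQ
    have hP1 : K₁ ⊔ thompsonSubgroupOf 2 T ≤ (K₁ ⊔ T) ⊔ (K₂ ⊔ T) :=
      (sup_le_sup_left hJ K₁).trans le_sup_left
    have hP2 : K₂ ⊔ thompsonSubgroupOf 2 T ≤ (K₁ ⊔ T) ⊔ (K₂ ⊔ T) :=
      (sup_le_sup_left hJ K₂).trans le_sup_right
    obtain ⟨L', hL', hle⟩ := Cfsg.Agent.Helper55.Uq.exists_maximalTwoLocal
      (⟨_, Cfsg.Agent.Helper55.Uq.pCoreOf_isPGroup ((K₁ ⊔ T) ⊔ (K₂ ⊔ T)), hQ, rfl⟩ :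
        IsTwoLocal (Subgroup.normalizer (pCoreOf 2 ((K₁ ⊔ T) ⊔ (K₂ ⊔ T)) : Set G)))
    have hXL' : (K₁ ⊔ T) ⊔ (K₂ ⊔ T) ≤ L' :=
      (Cfsg.Agent.Helper55.Uq.le_normalizer_pCoreOf' _).trans hle
    have e1 : L' = L₁ := jyBaseUnique h1 L' hL' (hP1.trans hXL')
    have e2 : L' = L₂ := jyBaseUnique h2 L' hL' (hP2.trans hXL')
    exact hne (e1.symm.trans e2)

end Cfsg.Agent.H3.Jy
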