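import Cfsg.Agent.H64.JyDefs
import Cfsg.Agent.H3.JyPair

/-!
# S2953 (team project JY): the piece PAIR in the exact form of `H64/JyDefs.lean`
-/

set_option autoImplicit false

open Cfsg

namespace Cfsg.Agent.H3.Jy

open Cfsg.Agent.H64.Jz Cfsg.Agent.H64.Jy

universe u

/-- JY-PAIR, exact form. -/
theorem stPair : StPair.{u} := fun S S₂ M M₂ T K₁ L₁ K₂ L₂ h1 h2 hne =>
  pair S M T K₁ L₁ S₂ M₂ K₂ L₂ h1 h2 hne

example : Cfsg.Agent.H64.Jy.StPair.{u} := stPair.{u}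

end Cfsg.Agent.H3.Jy
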