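import Cfsg.Agent.H64.JzDefs
import Cfsg.Agent.H51.SyFinal
import Cfsg.Agent.H86.TsJS
import Cfsg.Agent.H60.TsOV
import Cfsg.Agent.H35.UqSylEx

/-!
# JZ-OUT2 (helper3, for helper64, S2951/S2952): `out2 : StOut2`

`T = S`, `N_G(J(S)) ≤ L`, `X` a 2-local over `J(S)` with `X ⊄ L`.  Take a Sylow 2-subgroup `S_X`
of `X` over `J(S)`; `J(S_X) = J(S)` (TS-JS in `G`), `X` is in the family of `S_X` (TS-OV with
`M := L`), and the generation form of EXIST (`H51.Sy.existGen_proved`, `M' := L`) gives a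
`J(S_X)`-component of `X` outside `L`.
-/

set_option autoImplicit false
open Cfsg

namespace Cfsg.Agent.H3.Jz

universe u
open Subgroup

/-- JZ-OUT2. -/
theorem out2 : Cfsg.Agent.H64.Jz.StOut2.{u} := by
  intro G _ _ S M T K L hB hTS hNJL hX
  have hB' := hB
  obtain ⟨hZN, hO2, hM, hNJ, hTmax, hTS', hK, hLmax, hKJL⟩ := hB'
  have hZN' := hZN
  obtain ⟨hZ1, hZ2, hZ3⟩ := hZN'
  obtain ⟨X, hX2, hJX, hXL⟩ := hX
  have h2 : Fact (Nat.Prime 2) := ⟨Nat.prime_two⟩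
  have hS2 : IsPGroup 2 ↥(S : Subgroup G) := S.isPGroup'
  have hJS : thompsonSubgroupOf 2 (S : Subgroup G) ≤ (S : Subgroup G) :=
    Cfsg.Agent.H14.thompsonSubgroupOf_le 2 _
  have hJ2 : IsPGroup 2 ↥(thompsonSubgroupOf 2 (S : Subgroup G)) := hS2.to_le hJS
  obtain ⟨SX, hJSX, hSXsyl⟩ := Cfsg.Agent.H35.Uq.sylEx _ X hJ2 hJX
  have hSX2 : IsPGroup 2 ↥SX := hSXsyl.2.1
  -- `S` is a Sylow 2-subgroup of `⊤`
  have hStop : IsSylowTwoIn (S : Subgroup G) ⊤ := by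
    refine ⟨le_top, hS2, ?_⟩
    rw [Subgroup.relIndex_top_right]
    have h3 : ¬ 2 ∣ (S : Subgroup G).index := S.not_dvd_index
    exact Nat.not_even_iff_odd.1 (fun h => h3 (even_iff_two_dvd.1 h))
  have hJeq : thompsonSubgroupOf 2 SX = thompsonSubgroupOf 2 (S : Subgroup G) :=
    Cfsg.Agent.H86.Ts.js _ ⊤ hStop SX hSX2 le_top hJSX
  have hov : X ∈ jOvergroups SX :=
    Cfsg.Agent.H60.Ts.ov hZ1 L SX X hX2 hXL hSXsyl (by rw [hJeq]; exact hNJL)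
  have hSX1 : SX ≠ ⊥ := by
    intro h
    have hov' := hov
    obtain ⟨-, hnot, -⟩ := hov'
    apply hnot
    have h0 : thompsonSubgroupOf 2 SX ≤ SX := Cfsg.Agent.H14.thompsonSubgroupOf_le 2 SX
    refine h0.trans ?_
    rw [h]
    exact bot_le
  obtain ⟨K', hK'J, -, hK'L⟩ := Cfsg.Agent.H51.Sy.existGen_proved hZ1 hZ2 hZ3 SX hSX2 hSX1 X hov L
    (by rw [hJeq]; exact inf_le_left.trans hNJL) hXL
  refine ⟨K', ?_, hK'L⟩
  exact ((Cfsg.Agent.H58.Uq.k0_congr T SX (by rw [hJeq, hTS])).2 K').1 hK'J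

example : Cfsg.Agent.H64.Jz.StOut2.{u} := out2

end Cfsg.Agent.H3.Jz
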