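import Cfsg.Agent.H3.MaxClass3

set_option autoImplicit false

namespace Cfsg.Agent.H3

universe u

/-- The abelianization of a nonabelian finite `p`-group is not cyclic. -/
theorem not_isCyclic_abelianization {X : Type*} [Group X] [Finite X] {p : ℕ} [Fact p.Prime]
    (hXp : IsPGroup p X) (hna : ¬ IsMulCommutative X) : ¬ IsCyclic (X ⧸ commutator X) := by
  intro hcyc
  obtain ⟨q, hq⟩ := IsCyclic.exists_generator (α := X ⧸ commutator X)
  obtain ⟨g, rfl⟩ := QuotientGroup.mk'_surjective (commutator X) q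
  have h1 : Subgroup.zpowers g ⊔ commutator X = ⊤ := by
    rw [eq_top_iff]
    intro h _
    obtain ⟨i, hi⟩ := Subgroup.mem_zpowers_iff.mp (hq ((QuotientGroup.mk' (commutator X)) h))
    rw [← map_zpow] at hi
    have h2 : (g ^ i)⁻¹ * h ∈ commutator X := QuotientGroup.eq.mp hi
    have e : h = g ^ i * ((g ^ i)⁻¹ * h) := by group
    rw [e]
    exact Subgroup.mul_mem_sup (Subgroup.zpow_mem _ (Subgroup.mem_zpowers g) i) h2
  have h2 : Subgroup.zpowers g ⊔ frattini X = ⊤ :=
    top_le_iff.mp (h1 ▸ sup_le_sup_left (commutator_le_frattini hXp) _)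
  have h3 : Subgroup.zpowers g = ⊤ := frattini_nongenerating h2
  apply hna
  refine ⟨⟨fun a b => ?_⟩⟩
  have ha : a ∈ Subgroup.zpowers g := h3 ▸ Subgroup.mem_top a
  have hb : b ∈ Subgroup.zpowers g := h3 ▸ Subgroup.mem_top b
  obtain ⟨i, rfl⟩ := Subgroup.mem_zpowers_iff.mp ha
  obtain ⟨j, rfl⟩ := Subgroup.mem_zpowers_iff.mp hb
  exact ((Commute.refl g).zpow_zpow i j).eq

/-- A non-cyclic group of order four is a Klein four-group. -/
theorem isKleinFour_of_card_four {Q : Type*} [Group Q] (hcard : Nat.card Q = 4)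
    (hnc : ¬ IsCyclic Q) : IsKleinFour Q := by
  have hfin : Finite Q := Nat.finite_of_card_ne_zero (by rw [hcard]; norm_num)
  refine ⟨hcard, ?_⟩
  have hsq : ∀ q : Q, q ^ 2 = 1 := by
    intro q
    have hdvd : orderOf q ∣ 2 ^ 2 := by
      have := orderOf_dvd_natCard q
      rw [hcard] at this
      exact this
    obtain ⟨i, hi, hi'⟩ := (Nat.dvd_prime_pow Nat.prime_two).mp hdvd
    have hi2 : i ≠ 2 := by
      rintro rfl
      exact hnc (isCyclic_of_orderOf_eq_card q (by rw [hi', hcard]; norm_num))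
    have hi1 : i ≤ 1 := by omega
    have h2 : orderOf q ∣ 2 := by
      rw [hi']
      exact (pow_dvd_pow 2 hi1).trans (by norm_num)
    exact orderOf_dvd_iff_pow_eq_one.mp h2
  have h1 : Monoid.exponent Q ∣ 2 := Monoid.exponent_dvd_iff_forall_pow_eq_one.mpr hsq
  have h2 : Monoid.exponent Q ≠ 1 := by
    intro h
    rw [Monoid.exp_eq_one_iff] at h
    have : Nat.card Q = 1 := Nat.card_unique
    omega
  rcases (Nat.dvd_prime Nat.prime_two).mp h1 with h | h
  · exact absurd h h2
  · exact h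

/-- The commutator quotient of a `2`-group of maximal class is a Klein four-group. -/
theorem maxclass_two_kleinFour (n : ℕ) (X : Type u) [Group X] [Finite X]
    (hn : 3 ≤ n) (hX : Nat.card X = 2 ^ n) (hc : Group.nilpotencyClass X = n - 1) :
    IsKleinFour (X ⧸ commutator X) := by
  have hfact : Fact (Nat.Prime 2) := ⟨Nat.prime_two⟩
  have hXp : IsPGroup 2 X := IsPGroup.of_card hX
  have hnil : Group.IsNilpotent X := hXp.isNilpotent
  obtain ⟨x, t, hidx, ht, hCcard, hZ, hZC, htt, hy⟩ := maxclass_two_structure n X hn hX hc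
  have hCcomm : ∀ a ∈ Subgroup.zpowers x, ∀ b ∈ Subgroup.zpowers x, a * b = b * a := by
    intro a ha b hb
    obtain ⟨i, rfl⟩ := Subgroup.mem_zpowers_iff.mp ha
    obtain ⟨j, rfl⟩ := Subgroup.mem_zpowers_iff.mp hb
    exact ((Commute.refl x).zpow_zpow i j).eq
  have hB := card_le_mul_card_inf_centralizer (Subgroup.zpowers x) (commutator X) t
    (fun c _ => Subgroup.commutator_mem_commutator (Subgroup.mem_top c) (Subgroup.mem_top t))
  have hle : Subgroup.zpowers x ⊓ Subgroup.centralizer {t} ≤ Subgroup.center X := by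
    intro c hc
    obtain ⟨hc1, hc2⟩ := Subgroup.mem_inf.mp hc
    apply mem_center_of_index_two _ hidx ht
    · intro d hd; exact hCcomm d hd c hc1
    · exact (Subgroup.mem_centralizer_iff.mp hc2) t rfl
  have h2 : Nat.card (Subgroup.zpowers x ⊓ Subgroup.centralizer {t} : Subgroup X) ≤ 2 := by
    rw [← hZ]; exact Subgroup.card_le_of_le hle
  have h3 : 2 ^ (n - 1) ≤ Nat.card (commutator X) * 2 := by
    rw [← hCcard]
    exact hB.trans (Nat.mul_le_mul_left _ h2)
  have h4 := Subgroup.card_mul_index (commutator X)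
  rw [hX] at h4
  have hna : ¬ IsMulCommutative X := by
    intro hcomm
    have h5 := Group.IsNilpotent.nilpotencyClass_le_one_iff.mpr hcomm
    omega
  have hnc := not_isCyclic_abelianization hXp hna
  apply isKleinFour_of_card_four _ hnc
  show (commutator X).index = 4
  have hdvd : (commutator X).index ∣ 2 ^ n := by
    rw [← hX]; exact Subgroup.index_dvd_card _
  obtain ⟨i, hi, hi'⟩ := (Nat.dvd_prime_pow Nat.prime_two).mp hdvd
  have hi0 : i ≠ 0 := by
    rintro rfl
    rw [pow_zero] at hi'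
    apply hnc
    have : Nat.card (X ⧸ commutator X) = 1 := hi'
    have : Subsingleton (X ⧸ commutator X) := (Nat.card_eq_one_iff_unique.mp this).1
    exact isCyclic_of_subsingleton
  have hi1 : i ≠ 1 := by
    rintro rfl
    rw [pow_one] at hi'
    apply hnc
    have : Nat.card (X ⧸ commutator X) = 2 := hi'
    exact isCyclic_of_prime_card this
  have hi2 : i ≤ 2 := by
    by_contra hcon
    have h5 : 2 ^ 3 ≤ 2 ^ i := Nat.pow_le_pow_right (by norm_num) (by omega)
    have h6 : 2 ^ n = 2 ^ (n - 1) * 2 := by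
      rw [← pow_succ]; congr 1; omega
    rw [hi'] at h4
    -- card X' * 2^i = 2^n ≤ card X' * 2 * 2
    have h7 : Nat.card (commutator X) * 2 ^ i ≤ Nat.card (commutator X) * 2 * 2 := by
      rw [h4, h6]
      exact Nat.mul_le_mul_right 2 h3
    have hpos : 0 < Nat.card (commutator X) := Nat.card_pos
    nlinarith
  have : i = 2 := by omega
  rw [hi', this]
  norm_num

open scoped commutatorElement in
/-- If `M` is an abelian subgroup of index `2` in a nonabelian finite group `X`, then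
`|Z(X)| |X'| ≤ |M|`. -/
theorem card_center_mul_card_commutator_le {X : Type*} [Group X] [Finite X] (M : Subgroup X)
    (hidx : M.index = 2) (hM : ∀ a ∈ M, ∀ b ∈ M, a * b = b * a) (hna : ¬ IsMulCommutative X) :
    Nat.card (Subgroup.center X) * Nat.card (commutator X) ≤ Nat.card M := by
  have hMn : M.Normal := Subgroup.normal_of_index_eq_two hidx
  obtain ⟨t, ht⟩ : ∃ t : X, t ∉ M := by
    by_contra hcon
    push Not at hcon
    have h1 : M = ⊤ := (Subgroup.eq_top_iff' _).mpr hcon
    rw [h1, Subgroup.index_top] at hidx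
    omega
  have hsplit : ∀ a : X, a ∉ M → a * t⁻¹ ∈ M := by
    intro a ha
    rw [Subgroup.mul_mem_iff_of_index_two hidx]
    constructor
    · intro h; exact absurd h ha
    · intro h; exact absurd (M.inv_mem_iff.mp h) ht
  have hZM : Subgroup.center X ≤ M := by
    intro z hz
    by_contra hzM
    apply hna
    have hMZ : M ≤ Subgroup.center X := by
      intro m hm
      apply mem_center_of_index_two M hidx hzM
      · intro c hc; exact hM c hc m hm
      · exact (Subgroup.mem_center_iff.mp hz m).symm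
    have hcen : ∀ a : X, a ∈ Subgroup.center X := by
      intro a
      by_cases ha : a ∈ M
      · exact hMZ ha
      · have h1 : a * z⁻¹ ∈ M := by
          rw [Subgroup.mul_mem_iff_of_index_two hidx]
          constructor
          · intro h; exact absurd h ha
          · intro h; exact absurd (M.inv_mem_iff.mp h) hzM
        have e : a = (a * z⁻¹) * z := by group
        rw [e]
        exact Subgroup.mul_mem _ (hMZ h1) hz
    exact ⟨⟨fun a b => (Subgroup.mem_center_iff.mp (hcen b) a)⟩⟩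
  have hφmem : ∀ c ∈ M, c * t * c⁻¹ * t⁻¹ ∈ M := by
    intro c hc
    have h1 : t * c⁻¹ * t⁻¹ ∈ M := hMn.conj_mem _ (M.inv_mem hc) t
    have e : c * t * c⁻¹ * t⁻¹ = c * (t * c⁻¹ * t⁻¹) := by group
    rw [e]
    exact M.mul_mem hc h1
  let φ : M →* M := MonoidHom.mk' (fun c => ⟨(c : X) * t * (c : X)⁻¹ * t⁻¹, hφmem c c.2⟩) (by
    intro a b
    apply Subtype.ext
    show ((a * b : M) : X) * t * ((a * b : M) : X)⁻¹ * t⁻¹ =
      ((a : X) * t * (a : X)⁻¹ * t⁻¹) * ((b : X) * t * (b : X)⁻¹ * t⁻¹)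
    push_cast
    have h1 : t * (a : X)⁻¹ * t⁻¹ ∈ M := hMn.conj_mem _ (M.inv_mem a.2) t
    have h2 := hM _ (hφmem b b.2) _ h1
    calc (a : X) * b * t * ((a : X) * b)⁻¹ * t⁻¹
        = a * (((b : X) * t * (b : X)⁻¹ * t⁻¹) * (t * (a : X)⁻¹ * t⁻¹)) := by group
      _ = a * ((t * (a : X)⁻¹ * t⁻¹) * ((b : X) * t * (b : X)⁻¹ * t⁻¹)) := by rw [h2]
      _ = _ := by group)
  have hφ : ∀ c : M, ((φ c : M) : X) = (c : X) * t * (c : X)⁻¹ * t⁻¹ := fun c => rfl
  have hker : Nat.card (Subgroup.center X) ≤ Nat.card φ.ker := by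
    apply Nat.card_le_card_of_injective (fun z : Subgroup.center X => (⟨⟨z.1, hZM z.2⟩, by
      rw [MonoidHom.mem_ker]
      apply Subtype.ext
      rw [hφ]
      show (z : X) * t * (z : X)⁻¹ * t⁻¹ = 1
      have h1 := Subgroup.mem_center_iff.mp z.2 t
      rw [← h1]
      group⟩ : φ.ker))
    intro z₁ z₂ h
    apply Subtype.ext
    exact congrArg (fun k : φ.ker => ((k : M) : X)) h
  have hI : ∀ c ∈ M, c * t * c⁻¹ * t⁻¹ ∈ φ.range.map M.subtype := by
    intro c hc
    exact ⟨φ ⟨c, hc⟩, ⟨⟨c, hc⟩, rfl⟩, rfl⟩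
  have hcase2 : ∀ a ∈ M, ∀ b : X, b ∉ M → ⁅a, b⁆ ∈ φ.range.map M.subtype := by
    intro a ha b hb
    have hm := hsplit b hb
    have e1 : a * (b * t⁻¹) = (b * t⁻¹) * a := hM a ha _ hm
    have e2 : (b * t⁻¹) * (a * t * a⁻¹ * t⁻¹) = (a * t * a⁻¹ * t⁻¹) * (b * t⁻¹) :=
      hM _ hm _ (hφmem a ha)
    have e3 : ⁅a, b⁆ = a * t * a⁻¹ * t⁻¹ := by
      rw [commutatorElement_def]
      calc a * b * a⁻¹ * b⁻¹ = (a * (b * t⁻¹)) * t * a⁻¹ * t⁻¹ * (b * t⁻¹)⁻¹ := by group
        _ = ((b * t⁻¹) * a) * t * a⁻¹ * t⁻¹ * (b * t⁻¹)⁻¹ := by rw [e1]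
        _ = ((b * t⁻¹) * (a * t * a⁻¹ * t⁻¹)) * (b * t⁻¹)⁻¹ := by group
        _ = ((a * t * a⁻¹ * t⁻¹) * (b * t⁻¹)) * (b * t⁻¹)⁻¹ := by rw [e2]
        _ = a * t * a⁻¹ * t⁻¹ := by group
    rw [e3]
    exact hI a ha
  have hrange : Nat.card (commutator X) ≤ Nat.card φ.range := by
    rw [← Subgroup.card_subtype M φ.range]
    apply Subgroup.card_le_of_le
    rw [commutator_def, Subgroup.commutator_le]
    intro a _ b _
    by_cases ha : a ∈ M
    · by_cases hb : b ∈ M
      · have e : ⁅a, b⁆ = 1 := by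
          rw [commutatorElement_def, hM a ha b hb]
          group
        rw [e]
        exact Subgroup.one_mem _
      · exact hcase2 a ha b hb
    · by_cases hb : b ∈ M
      · have h1 := hcase2 b hb a ha
        have e : ⁅a, b⁆ = ⁅b, a⁆⁻¹ := (commutatorElement_inv b a).symm
        rw [e]
        exact Subgroup.inv_mem _ h1
      · have hm := hsplit a ha
        have hm' := hsplit b hb
        have hu : (b * t⁻¹) * (a * t⁻¹)⁻¹ ∈ M := M.mul_mem hm' (M.inv_mem hm)
        have hv := hI _ hu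
        have hvM := hφmem _ hu
        have e3 : (a * t⁻¹) * (((b * t⁻¹) * (a * t⁻¹)⁻¹) * t * ((b * t⁻¹) * (a * t⁻¹)⁻¹)⁻¹ * t⁻¹)⁻¹ =
            (((b * t⁻¹) * (a * t⁻¹)⁻¹) * t * ((b * t⁻¹) * (a * t⁻¹)⁻¹)⁻¹ * t⁻¹)⁻¹ * (a * t⁻¹) :=
          hM _ hm _ (M.inv_mem hvM)
        have e4 : (a * t⁻¹) * (b * t⁻¹) = (b * t⁻¹) * (a * t⁻¹) := hM _ hm _ hm'
        have e5 : ⁅a, b⁆ =
            (((b * t⁻¹) * (a * t⁻¹)⁻¹) * t * ((b * t⁻¹) * (a * t⁻¹)⁻¹)⁻¹ * t⁻¹)⁻¹ := by
          rw [commutatorElement_def]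
          calc a * b * a⁻¹ * b⁻¹
              = ((a * t⁻¹) * (((b * t⁻¹) * (a * t⁻¹)⁻¹) * t * ((b * t⁻¹) * (a * t⁻¹)⁻¹)⁻¹ * t⁻¹)⁻¹)
                * (b * t⁻¹) * (a * t⁻¹)⁻¹ * (b * t⁻¹)⁻¹ := by group
            _ = ((((b * t⁻¹) * (a * t⁻¹)⁻¹) * t * ((b * t⁻¹) * (a * t⁻¹)⁻¹)⁻¹ * t⁻¹)⁻¹ * (a * t⁻¹))
                * (b * t⁻¹) * (a * t⁻¹)⁻¹ * (b * t⁻¹)⁻¹ := by rw [e3]
            _ = (((b * t⁻¹) * (a * t⁻¹)⁻¹) * t * ((b * t⁻¹) * (a * t⁻¹)⁻¹)⁻¹ * t⁻¹)⁻¹ *
                ((a * t⁻¹) * (b * t⁻¹)) * (a * t⁻¹)⁻¹ * (b * t⁻¹)⁻¹ := by group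
            _ = (((b * t⁻¹) * (a * t⁻¹)⁻¹) * t * ((b * t⁻¹) * (a * t⁻¹)⁻¹)⁻¹ * t⁻¹)⁻¹ *
                ((b * t⁻¹) * (a * t⁻¹)) * (a * t⁻¹)⁻¹ * (b * t⁻¹)⁻¹ := by rw [e4]
            _ = _ := by group
        rw [e5]
        exact Subgroup.inv_mem _ hv
  have hcard : Nat.card φ.ker * Nat.card φ.range = Nat.card M := by
    rw [← Subgroup.index_ker]
    exact Subgroup.card_mul_index _
  calc Nat.card (Subgroup.center X) * Nat.card (commutator X)
      ≤ Nat.card φ.ker * Nat.card φ.range := Nat.mul_le_mul hker hrange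
    _ = Nat.card M := hcard

/-- The preimage of a cyclic subgroup modulo a central subgroup is abelian. -/
theorem comap_cyclic_comm {X : Type*} [Group X] (N : Subgroup X) [N.Normal]
    (hN : N ≤ Subgroup.center X) (C₁ : Subgroup (X ⧸ N)) [IsCyclic C₁] :
    ∀ a ∈ C₁.comap (QuotientGroup.mk' N), ∀ b ∈ C₁.comap (QuotientGroup.mk' N),
      a * b = b * a := by
  obtain ⟨γ, hγ⟩ := IsCyclic.exists_generator (α := C₁)
  obtain ⟨c, hc'⟩ := QuotientGroup.mk'_surjective N (γ : X ⧸ N)
  have F1 : ∀ h ∈ C₁.comap (QuotientGroup.mk' N), ∃ i : ℤ, ∃ z ∈ N, h = c ^ i * z := by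
    intro h hh
    rw [Subgroup.mem_comap] at hh
    obtain ⟨i, hi⟩ := Subgroup.mem_zpowers_iff.mp (hγ ⟨_, hh⟩)
    have h1 : (QuotientGroup.mk' N) (c ^ i) = (QuotientGroup.mk' N) h := by
      rw [map_zpow, hc']
      have h0 := congrArg Subtype.val hi
      rw [Subgroup.coe_zpow] at h0
      exact h0
    exact ⟨i, (c ^ i)⁻¹ * h, QuotientGroup.eq.mp h1, by group⟩
  intro a ha b hb
  obtain ⟨i, z, hz, rfl⟩ := F1 a ha
  obtain ⟨j, z', hz', rfl⟩ := F1 b hb
  have hzc : ∀ g : X, g * z = z * g := Subgroup.mem_center_iff.mp (hN hz)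
  have hzc' : ∀ g : X, g * z' = z' * g := Subgroup.mem_center_iff.mp (hN hz')
  have hcc : c ^ i * c ^ j = c ^ j * c ^ i := ((Commute.refl c).zpow_zpow i j).eq
  calc c ^ i * z * (c ^ j * z') = c ^ i * (z * c ^ j) * z' := by group
    _ = c ^ i * (c ^ j * z) * z' := by rw [hzc]
    _ = (c ^ i * c ^ j) * (z * z') := by group
    _ = (c ^ j * c ^ i) * (z' * z) := by rw [hcc, hzc' z]
    _ = c ^ j * (c ^ i * z') * z := by group
    _ = c ^ j * (z' * c ^ i) * z := by rw [hzc']
    _ = c ^ j * z' * (c ^ i * z) := by group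

/-- Transport of the nilpotency class along an equality of normal subgroups. -/
theorem nilpotencyClass_quotient_eq {X : Type u} [Group X] (N : Subgroup X) [N.Normal]
    (h : N = Subgroup.center X) :
    Group.nilpotencyClass (X ⧸ N) = Group.nilpotencyClass (X ⧸ Subgroup.center X) := by
  subst h
  rfl

/-- Taussky: a `2`-group whose commutator subgroup has index `4` has maximal class. -/
theorem taussky_aux : ∀ (n : ℕ) (X : Type u) [Group X] [Finite X], 2 ≤ n → Nat.card X = 2 ^ n →
    (commutator X).index = 4 → Group.nilpotencyClass X = n - 1 := by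
  have hfact : Fact (Nat.Prime 2) := ⟨Nat.prime_two⟩
  intro n
  induction n with
  | zero => intro X _ _ hn; omega
  | succ n ih =>
    intro X _ _ hn hX hidx
    have hXp : IsPGroup 2 X := IsPGroup.of_card hX
    have hnil : Group.IsNilpotent X := hXp.isNilpotent
    have hnt : Nontrivial X := by
      rw [← Finite.one_lt_card_iff_nontrivial, hX]
      exact Nat.one_lt_pow (by omega) (by norm_num)
    have hcard' : Nat.card (commutator X) * 4 = 2 ^ (n + 1) := by
      rw [← hidx, ← hX]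
      exact Subgroup.card_mul_index _
    by_cases hn2 : n + 1 = 2
    · have h1 : Nat.card (commutator X) = 1 := by
        rw [hn2] at hcard'
        omega
      have h2 : commutator X = ⊥ := Subgroup.card_eq_one.mp h1
      have hcomm : IsMulCommutative X := (commutator_eq_bot_iff X).mp h2
      have h3 := Group.IsNilpotent.nilpotencyClass_le_one_iff.mpr hcomm
      have h0 : Group.nilpotencyClass X ≠ 0 := by
        intro h0
        rw [Group.nilpotencyClass_zero_iff_subsingleton] at h0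
        exact not_subsingleton X h0
      omega
    · have hn3 : 3 ≤ n + 1 := by omega
      have hX'card : Nat.card (commutator X) = 2 ^ (n - 1) := by
        have h1 : 2 ^ (n + 1) = 2 ^ (n - 1) * 4 := by
          rw [show (4 : ℕ) = 2 ^ 2 by norm_num, ← pow_add]
          congr 1
          omega
        rw [h1] at hcard'
        exact Nat.eq_of_mul_eq_mul_right (by norm_num) hcard'
      have hne : commutator X ≠ ⊥ := by
        intro h
        rw [h, Subgroup.card_bot] at hX'card
        have h1 : 2 ^ 1 ≤ 2 ^ (n - 1) := Nat.pow_le_pow_right (by norm_num) (by omega)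
        omega
      have hna : ¬ IsMulCommutative X := fun h => hne ((commutator_eq_bot_iff X).mpr h)
      obtain ⟨w, hwX', hwΩ, hw1⟩ := normal_exists_central_order_p hXp (commutator X) hne
      have hwc : w ∈ Subgroup.center X := hwΩ.1
      have hw2 : w ^ 2 = 1 := hwΩ.2
      have hNc : Subgroup.zpowers w ≤ Subgroup.center X := (Subgroup.zpowers_le).mpr hwc
      have hNX' : Subgroup.zpowers w ≤ commutator X := (Subgroup.zpowers_le).mpr hwX'
      have hNn : (Subgroup.zpowers w).Normal := ⟨fun a ha g => by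
        have h1 := Subgroup.mem_center_iff.mp (hNc ha) g
        rw [h1, mul_inv_cancel_right]
        exact ha⟩
      have hNcard : Nat.card (Subgroup.zpowers w) = 2 := by
        rw [Nat.card_zpowers]
        exact orderOf_eq_prime hw2 hw1
      have hQcard : Nat.card (X ⧸ Subgroup.zpowers w) = 2 ^ n := by
        have h1 := Subgroup.card_eq_card_quotient_mul_card_subgroup (Subgroup.zpowers w)
        rw [hX, hNcard, pow_succ] at h1
        exact (Nat.eq_of_mul_eq_mul_right (by norm_num) h1).symm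
      have hQidx : (commutator (X ⧸ Subgroup.zpowers w)).index = 4 := by
        have h1 : commutator (X ⧸ Subgroup.zpowers w) =
            (commutator X).map (QuotientGroup.mk' (Subgroup.zpowers w)) := by
          rw [map_commutator_eq, MonoidHom.range_eq_top.mpr (QuotientGroup.mk'_surjective _),
            commutator_def]
        rw [h1, ← Subgroup.index_comap_of_surjective _
          (QuotientGroup.mk'_surjective (Subgroup.zpowers w)),
          Subgroup.comap_map_eq, QuotientGroup.ker_mk', sup_eq_left.mpr hNX']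
        exact hidx
      have hQclass := ih (X ⧸ Subgroup.zpowers w) (by omega) hQcard hQidx
      obtain ⟨C₁, hC₁cyc, hC₁idx⟩ : ∃ C₁ : Subgroup (X ⧸ Subgroup.zpowers w),
          IsCyclic C₁ ∧ C₁.index = 2 := by
        by_cases hn' : 3 ≤ n
        · exact exists_cyclic_index_two n _ hn' hQcard hQclass
        · have hn2' : n = 2 := by omega
          subst hn2'
          obtain ⟨g, hg⟩ := exists_prime_orderOf_dvd_card' 2 (G := X ⧸ Subgroup.zpowers w)
            (by rw [hQcard]; norm_num)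
          refine ⟨Subgroup.zpowers g, inferInstance, ?_⟩
          have h1 := Subgroup.card_mul_index (Subgroup.zpowers g)
          rw [Nat.card_zpowers, hg, hQcard] at h1
          omega
      have hMidx : (C₁.comap (QuotientGroup.mk' (Subgroup.zpowers w))).index = 2 := by
        rw [Subgroup.index_comap_of_surjective _ (QuotientGroup.mk'_surjective _)]
        exact hC₁idx
      have hMcomm := comap_cyclic_comm (Subgroup.zpowers w) hNc C₁
      have hL2 := card_center_mul_card_commutator_le _ hMidx hMcomm hna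
      have hMcard : Nat.card (C₁.comap (QuotientGroup.mk' (Subgroup.zpowers w))) = 2 ^ n := by
        have h1 := Subgroup.card_mul_index (C₁.comap (QuotientGroup.mk' (Subgroup.zpowers w)))
        rw [hMidx, hX, pow_succ] at h1
        exact Nat.eq_of_mul_eq_mul_right (by norm_num) h1
      rw [hMcard, hX'card] at hL2
      have hZle : Nat.card (Subgroup.center X) ≤ 2 := by
        have h1 : 2 ^ n = 2 * 2 ^ (n - 1) := by
          rw [← pow_succ']; congr 1; omega
        rw [h1] at hL2
        exact Nat.le_of_mul_le_mul_right hL2 (by positivity)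
      have hNZ : Subgroup.zpowers w = Subgroup.center X :=
        Subgroup.eq_of_le_of_card_ge hNc (by rw [hNcard]; exact hZle)
      rw [Group.nilpotencyClass_eq_quotient_center_plus_one, ← nilpotencyClass_quotient_eq _ hNZ,
        hQclass]
      omega

end Cfsg.Agent.H3
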