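import Cfsg.Agent.H3.MaxClass4
import Cfsg.Agent.H3.Meta1

set_option autoImplicit false

namespace Cfsg.Agent.H3

universe u

/-- If two consecutive lower central terms agree the series is constant from there on. -/
theorem lcs_const_of_eq {G : Type*} [Group G] {i : ℕ}
    (h : (⊤ : Subgroup G).lowerCentralSeries (i + 1) = (⊤ : Subgroup G).lowerCentralSeries i) :
    ∀ j, i ≤ j → (⊤ : Subgroup G).lowerCentralSeries j = (⊤ : Subgroup G).lowerCentralSeries i := by
  intro j hj
  induction j, hj using Nat.le_induction with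
  | base => rfl
  | succ j hj ih =>
    rw [Subgroup.lowerCentralSeries_succ, ih, ← Subgroup.lowerCentralSeries_succ, h]

/-- Orders of the lower central terms in a group of maximal class. -/
theorem maxclass_lcs_card {p : ℕ} [Fact p.Prime] (n : ℕ) (G : Type u) [Group G] [Finite G]
    (hG : Nat.card G = p ^ n) (hn : 3 ≤ n) (hcl : Group.nilpotencyClass G = n - 1) :
    ∀ i, 1 ≤ i → i ≤ n - 1 →
      Nat.card ((⊤ : Subgroup G).lowerCentralSeries i) = p ^ (n - 1 - i) := by
  have hp : p.Prime := Fact.out
  have hGp : IsPGroup p G := IsPGroup.of_card hG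
  haveI := hGp.isNilpotent
  have hbot : (⊤ : Subgroup G).lowerCentralSeries (n - 1) = ⊥ := by
    rw [← hcl]; exact Subgroup.lowerCentralSeries_nilpotencyClass
  have hstrict : ∀ i, i < n - 1 →
      (⊤ : Subgroup G).lowerCentralSeries (i + 1) < (⊤ : Subgroup G).lowerCentralSeries i := by
    intro i hi
    refine lt_of_le_of_ne (Subgroup.lowerCentralSeries_antitone _ (Nat.le_succ i)) ?_
    intro heq
    have h1 := lcs_const_of_eq heq (n - 1) (by omega)
    have hLi : (⊤ : Subgroup G).lowerCentralSeries i = ⊥ := by rw [← h1]; exact hbot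
    have := Subgroup.lowerCentralSeries_eq_bot_iff_nilpotencyClass_le.mp hLi
    omega
  have hlow : ∀ k, k ≤ n - 1 →
      p ^ k ≤ Nat.card ((⊤ : Subgroup G).lowerCentralSeries (n - 1 - k)) := by
    intro k
    induction k with
    | zero => intro _; simp [hbot]
    | succ k ih =>
      intro hk
      have h1 := ih (by omega)
      have h2 := card_mul_le_of_lt hGp (hstrict (n - 1 - (k+1)) (by omega))
      have h3 : n - 1 - (k + 1) + 1 = n - 1 - k := by omega
      rw [h3] at h2
      calc p ^ (k+1) = p * p ^ k := by ring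
        _ ≤ p * Nat.card ((⊤ : Subgroup G).lowerCentralSeries (n - 1 - k)) :=
            Nat.mul_le_mul_left _ h1
        _ ≤ _ := h2
  have hna : ¬ IsMulCommutative G := by
    intro hc
    have h1 : (⊤ : Subgroup G).lowerCentralSeries 1 = ⊥ := by
      rw [Subgroup.lowerCentralSeries_succ, Subgroup.commutator_eq_bot_iff_le_centralizer]
      intro g _
      rw [Subgroup.mem_centralizer_iff]
      intro h _
      exact hc.is_comm.comm h g
    have := Subgroup.lowerCentralSeries_eq_bot_iff_nilpotencyClass_le.mp h1
    omega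
  have hup1 : Nat.card ((⊤ : Subgroup G).lowerCentralSeries 1) * p ^ 2 ≤ p ^ n := by
    rw [Subgroup.top_lowerCentralSeries_one]
    have hnc := not_isCyclic_abelianization hGp hna
    have hQp : IsPGroup p (G ⧸ commutator G) := hGp.to_quotient _
    obtain ⟨k, hk⟩ := IsPGroup.iff_card.mp hQp
    have hk2 : 2 ≤ k := by
      by_contra hlt
      push Not at hlt
      apply hnc
      interval_cases k
      · have : Subsingleton (G ⧸ commutator G) := by
          rw [← Finite.card_le_one_iff_subsingleton, hk, pow_zero]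
        infer_instance
      · exact isCyclic_of_prime_card (p := p) (by simpa using hk)
    have hmul := Subgroup.card_eq_card_quotient_mul_card_subgroup (commutator G)
    rw [hG, hk] at hmul
    rw [hmul, mul_comm]
    exact Nat.mul_le_mul_right _ (Nat.pow_le_pow_right hp.pos hk2)
  have hup : ∀ i, 1 ≤ i → i ≤ n - 1 →
      Nat.card ((⊤ : Subgroup G).lowerCentralSeries i) * p ^ (i + 1) ≤ p ^ n := by
    intro i hi
    induction i, hi using Nat.le_induction with
    | base => intro _; exact hup1
    | succ i hi ih =>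
      intro hle
      have h1 := ih (by omega)
      have h2 := card_mul_le_of_lt hGp (hstrict i (by omega))
      calc Nat.card ((⊤ : Subgroup G).lowerCentralSeries (i+1)) * p ^ (i + 1 + 1)
          = (p * Nat.card ((⊤ : Subgroup G).lowerCentralSeries (i+1))) * p ^ (i+1) := by ring
        _ ≤ Nat.card ((⊤ : Subgroup G).lowerCentralSeries i) * p ^ (i+1) :=
            Nat.mul_le_mul_right _ h2
        _ ≤ p ^ n := h1
  intro i hi hin
  apply le_antisymm
  · have h1 := hup i hi hin
    have hsplit : p ^ n = p ^ (n - 1 - i) * p ^ (i + 1) := by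
      rw [← pow_add]; congr 1; omega
    rw [hsplit] at h1
    exact Nat.le_of_mul_le_mul_right h1 (pow_pos hp.pos _)
  · have h1 := hlow (n - 1 - i) (by omega)
    have h3 : n - 1 - (n - 1 - i) = i := by omega
    rwa [h3] at h1

/-- A noncyclic group of order `p^2` has exactly `p + 1` subgroups of order `p`. -/
theorem card_subgroups_of_card_sq {p : ℕ} [Fact p.Prime] (Q : Type*) [Group Q] [Finite Q]
    (hQ : Nat.card Q = p ^ 2) (hnc : ¬ IsCyclic Q) :
    Nat.card {M : Subgroup Q // Nat.card M = p} = p + 1 := by
  classical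
  have hp : p.Prime := Fact.out
  haveI : Fintype Q := Fintype.ofFinite Q
  haveI : Fintype (Subgroup Q) := Fintype.ofFinite _
  have hord : ∀ x : Q, x ≠ 1 → orderOf x = p := by
    intro x hx
    have hdvd : orderOf x ∣ p ^ 2 := hQ ▸ orderOf_dvd_natCard x
    obtain ⟨k, hk, hk2⟩ := (Nat.dvd_prime_pow hp).mp hdvd
    interval_cases k
    · rw [pow_zero] at hk2; exact absurd (orderOf_eq_one_iff.mp hk2) hx
    · simpa using hk2
    · exfalso; apply hnc
      exact isCyclic_of_orderOf_eq_card x (by rw [hk2, hQ])
  have hzp : ∀ x : Q, x ≠ 1 → Nat.card (Subgroup.zpowers x) = p := by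
    intro x hx; rw [Nat.card_zpowers, hord x hx]
  set T : Finset (Subgroup Q) := Finset.univ.filter (fun M => Nat.card M = p) with hT
  set S : Finset Q := Finset.univ.filter (fun x => x ≠ 1) with hS
  have hScard : S.card = p ^ 2 - 1 := by
    rw [hS, Finset.filter_ne', Finset.card_erase_of_mem (Finset.mem_univ _), Finset.card_univ,
      ← Nat.card_eq_fintype_card, hQ]
  have hfib : ∀ M ∈ T, (S.filter (fun x => Subgroup.zpowers x = M)).card = p - 1 := by
    intro M hM
    have hMc : Nat.card M = p := (Finset.mem_filter.mp hM).2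
    have heq : S.filter (fun x => Subgroup.zpowers x = M)
        = (Finset.univ.filter (fun x => x ∈ M)).erase 1 := by
      ext x
      simp only [hS, Finset.mem_filter, Finset.mem_univ, true_and, Finset.mem_erase]
      constructor
      · rintro ⟨hx, hxM⟩
        exact ⟨hx, hxM ▸ Subgroup.mem_zpowers x⟩
      · rintro ⟨hx, hxM⟩
        refine ⟨hx, Subgroup.eq_of_le_of_card_ge ?_ ?_⟩
        · rwa [Subgroup.zpowers_le]
        · rw [hzp x hx, hMc]
    rw [heq, Finset.card_erase_of_mem (by simp [M.one_mem])]
    congr 1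
    rw [← hMc, Nat.card_eq_fintype_card, Fintype.card_subtype]
  have hmaps : ∀ x ∈ S, Subgroup.zpowers x ∈ T := by
    intro x hx
    have hx1 : x ≠ 1 := (Finset.mem_filter.mp hx).2
    exact Finset.mem_filter.mpr ⟨Finset.mem_univ _, hzp x hx1⟩
  have hsum := Finset.card_eq_sum_card_fiberwise hmaps
  rw [Finset.sum_congr rfl hfib, Finset.sum_const, smul_eq_mul, hScard] at hsum
  have hTc : T.card = p + 1 := by
    have h2 : p ^ 2 - 1 = (p + 1) * (p - 1) := by
      obtain ⟨q, rfl⟩ : ∃ q, p = q + 1 := ⟨p - 1, by have := hp.pos; omega⟩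
      simp only [Nat.add_sub_cancel]
      have : (q + 1) ^ 2 = (q + 1 + 1) * q + 1 := by ring
      omega
    rw [h2] at hsum
    exact (Nat.eq_of_mul_eq_mul_right (by have := hp.two_le; omega) hsum).symm
  rw [Nat.card_eq_fintype_card, Fintype.card_subtype, ← hTc]

end Cfsg.Agent.H3
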