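import Mathlib
import Cfsg.Agent.H76.NCZDefs
import Cfsg.Agent.S1417
import Cfsg.Agent.S1428

/-!
# S1353 team sub-project NCZ (helper76): piece NCZ-CASE2 (helper3)

In the configuration `Cfg`, `P` does not centralize `A`: otherwise S1428 gives
`C_{M_σ}(P) ≤ C_{M_σ}(a)` for every `a ∈ A`, so `C_{M_σ}(P) ≤ C_{M_σ}(A) = 1` (S1417).
-/

set_option autoImplicit false

namespace Cfsg.Agent.H3.NCKill

open Cfsg Subgroup Cfsg.Agent.H76.NCKill

universe u

/-- **NCZ-CASE2**. -/
theorem case2 {G : Type u} [Group G] [Finite G] : StCase2 G := by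
  intro hG M E A P R r p _ hC hPA
  have hr : r.Prime := Fact.out
  obtain ⟨hEM, -, -, -⟩ := hC.compl
  have hAM : A ≤ M := hC.AE.trans hEM
  obtain ⟨-, -, -, h4, -, -⟩ :=
    Cfsg.Agent.S1417.result hG M hC.coatom r hC.tau2 A ⟨hAM, hC.Ael, hC.Acard⟩
  apply hC.Kstar
  rw [eq_bot_iff, ← h4]
  intro x hx
  refine ⟨hx.1, ?_⟩
  show x ∈ centralizer (A : Set G)
  rw [mem_centralizer_iff]
  intro a ha
  by_cases ha1 : a = 1
  · rw [ha1, one_mul, mul_one]
  · have hord : orderOf a = r := orderOf_eq_prime (hC.Ael.2 a ha) ha1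
    have hRE : zpowers a ≤ E ⊓ centralizer (P : Set G) := by
      rw [zpowers_le]
      refine ⟨hC.AE ha, ?_⟩
      show a ∈ centralizer (P : Set G)
      rw [mem_centralizer_iff]
      intro g hg
      exact ((mem_centralizer_iff.mp (hPA hg)) a ha).symm
    have hRcard : (Nat.card (zpowers a)).Prime := by
      rw [Nat.card_zpowers, hord]; exact hr
    have h5 := Cfsg.Agent.S1428.result hG M hC.coatom E hC.compl p hC.tau1 P hC.PE hC.Pcard
      (zpowers a) hRE hRcard
    exact (mem_centralizer_iff.mp (h5 hx).2) a (mem_zpowers a)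

example {G : Type u} [Group G] [Finite G] : Cfsg.Agent.H76.NCKill.StCase2 G := case2

end Cfsg.Agent.H3.NCKill
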