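import Cfsg.Agent.H3.OddComm
import Cfsg.Agent.H3.Meta1
import Cfsg.Agent.H3.Narrow
import Cfsg.Prelude.Def_OddOrderLocal

set_option autoImplicit false

namespace Cfsg.Agent.H3

open scoped commutatorElement

/-- For odd `p`, a `p`-subgroup `R` has a subgroup `D` of exponent `p`, invariant under the
normalizer of `R`, with `[D, R]` central in `D`, on which `p'`-elements of the normalizer act
faithfully (modulo the centralizer of `R`). -/
theorem odd_core {G : Type*} [Group G] [Finite G] {p : ℕ} [Fact p.Prime] (hp : p ≠ 2)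
    (R : Subgroup G) (hR : IsPGroup p R) :
    ∃ D : Subgroup G, D ≤ R ∧
      (∀ g ∈ Subgroup.normalizer (R : Set G), ∀ x ∈ D, g * x * g⁻¹ ∈ D) ∧
      (∀ x ∈ D, x ^ p = 1) ∧
      (∀ a ∈ D, ∀ r ∈ R, ∀ c ∈ D, ⁅a, r⁆ * c = c * ⁅a, r⁆) ∧
      (∀ g ∈ Subgroup.normalizer (R : Set G), (orderOf g).Coprime p →
        (∀ x ∈ D, g * x * g⁻¹ = x) → ∀ x ∈ R, g * x * g⁻¹ = x) := by
  have hpp : p.Prime := Fact.out
  obtain ⟨H, K, hHchar, hKchar, hKH, hKD, hDK, hpow, hcomm⟩ := critical_subgroup_exists hR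
  let D' : Subgroup R :=
    { carrier := {x | x ∈ H ∧ x ^ p = 1}
      mul_mem' := by
        intro a b ha hb
        refine ⟨H.mul_mem ha.1 hb.1, ?_⟩
        rw [mul_pow_of_central_elementary hpp hp H K hKD hpow hcomm ha.1 hb.1, ha.2, hb.2,
          one_mul]
      one_mem' := ⟨H.one_mem, one_pow p⟩
      inv_mem' := by
        intro a ha
        exact ⟨H.inv_mem ha.1, by rw [inv_pow, ha.2, inv_one]⟩ }
  have hnorm : ∀ a ∈ Subgroup.normalizer (R : Set G), ∀ x ∈ R, a * x * a⁻¹ ∈ R :=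
    fun a ha x hx => (Subgroup.mem_normalizer_iff.mp ha x).mp hx
  let c := conjHom (Subgroup.normalizer (R : Set G)) R hnorm
  have hcD' : ∀ (g : Subgroup.normalizer (R : Set G)) (x : R), x ∈ D' → c g x ∈ D' := by
    intro g x hx
    exact ⟨Subgroup.characteristic_iff_le_comap.mp hHchar (c g) hx.1,
      by rw [← map_pow, hx.2, map_one]⟩
  refine ⟨D'.map R.subtype, Subgroup.map_subtype_le _, ?_, ?_, ?_, ?_⟩
  · rintro g hg _ ⟨x, hx, rfl⟩
    exact ⟨c ⟨g, hg⟩ x, hcD' ⟨g, hg⟩ x hx, rfl⟩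
  · rintro _ ⟨x, hx, rfl⟩
    have := hx.2
    rw [← map_pow, this, map_one]
  · rintro _ ⟨a, ha, rfl⟩ r hr _ ⟨d, hd, rfl⟩
    have h1 : ⁅a, (⟨r, hr⟩ : R)⁆ ∈ K := hcomm a ha.1 ⟨r, hr⟩
    have h2 := Subgroup.mem_centralizer_iff.mp (hKD h1) d hd.1
    have h3 : (R.subtype ⁅a, (⟨r, hr⟩ : R)⁆) * R.subtype d
        = R.subtype d * R.subtype ⁅a, (⟨r, hr⟩ : R)⁆ := by
      rw [← map_mul, ← map_mul, h2]
    rw [map_commutatorElement] at h3
    exact h3
  · intro g hg hcop hcen x hx
    set φ := c ⟨g, hg⟩ with hφ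
    have hφord : (orderOf φ).Coprime p :=
      Nat.Coprime.coprime_dvd_left
        ((orderOf_map_dvd c ⟨g, hg⟩).trans (by rw [Subgroup.orderOf_mk])) hcop
    have hφ1 : φ = 1 := by
      apply coprime_aut_trivial_of_omega_critical hp hR H K hHchar hKH hKD hDK hpow hcomm φ hφord
      intro y hyH hyp
      apply Subtype.ext
      have := hcen (y : G) ⟨y, ⟨hyH, hyp⟩, rfl⟩
      exact this
    have h1 := congrArg (fun ψ : MulAut R => ((ψ ⟨x, hx⟩ : R) : G)) hφ1
    exact h1

/-- A section of prime order, invariant under a subgroup `N`: the derived subgroup of `N` and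
all `(p-1)`-th powers of `N` act trivially on it. -/
theorem section_prime {G : Type*} [Group G] [Finite G] {p : ℕ} [Fact p.Prime]
    (N X Y : Subgroup G) (hXN : X ≤ N) (hYX : Y ≤ X)
    (hXn : ∀ g ∈ N, ∀ x ∈ X, g * x * g⁻¹ ∈ X) (hYn : ∀ g ∈ N, ∀ y ∈ Y, g * y * g⁻¹ ∈ Y)
    (hcard : Nat.card X = p * Nat.card Y) :
    (∀ y ∈ ⁅N, N⁆, ∀ x ∈ X, ⁅y, x⁆ ∈ Y) ∧ (∀ a ∈ N, ∀ x ∈ X, ⁅a ^ (p - 1), x⁆ ∈ Y) := by
  have hpp : p.Prime := Fact.out
  haveI hY'n : (Y.subgroupOf N).Normal := ⟨fun y hy g => by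
    rw [Subgroup.mem_subgroupOf] at hy ⊢
    simpa using hYn g g.2 y hy⟩
  haveI hX'n : (X.subgroupOf N).Normal := ⟨fun x hx g => by
    rw [Subgroup.mem_subgroupOf] at hx ⊢
    simpa using hXn g g.2 x hx⟩
  set π := QuotientGroup.mk' (Y.subgroupOf N) with hπ
  set Xb : Subgroup (↥N ⧸ Y.subgroupOf N) := (X.subgroupOf N).map π with hXb
  haveI hXbn : Xb.Normal := Subgroup.Normal.map hX'n π (QuotientGroup.mk'_surjective _)
  have hcomap : Xb.comap π = X.subgroupOf N := by
    rw [hXb, Subgroup.comap_map_eq_self]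
    rw [hπ, QuotientGroup.ker_mk']
    intro y hy
    rw [Subgroup.mem_subgroupOf] at hy ⊢
    exact hYX hy
  have hcX : Nat.card (X.subgroupOf N) = Nat.card X :=
    Nat.card_congr (Subgroup.subgroupOfEquivOfLe hXN).toEquiv
  have hcY : Nat.card (Y.subgroupOf N) = Nat.card Y :=
    Nat.card_congr (Subgroup.subgroupOfEquivOfLe (hYX.trans hXN)).toEquiv
  have hcXb : Nat.card Xb = p := by
    have h1 := card_comap_mk' (Y.subgroupOf N) Xb
    rw [hcomap, hcX, hcY, hcard, mul_comm] at h1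
    exact (Nat.eq_of_mul_eq_mul_left Nat.card_pos h1).symm
  haveI : IsCyclic Xb := isCyclic_of_prime_card hcXb
  let e := IsCyclic.mulAutMulEquiv ↥Xb
  have hcommAut : ∀ f g : MulAut ↥Xb, f * g = g * f := by
    intro f g
    apply e.injective
    rw [map_mul, map_mul, mul_comm]
  have hexpAut : ∀ f : MulAut ↥Xb, f ^ (p - 1) = 1 := by
    intro f
    have h1 : Nat.card (MulAut ↥Xb) = p - 1 := by
      rw [Nat.card_congr e.toEquiv]
      haveI : NeZero (Nat.card ↥Xb) := ⟨Nat.card_pos.ne'⟩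
      rw [Nat.card_eq_fintype_card, ZMod.card_units_eq_totient, hcXb, Nat.totient_prime hpp]
    rw [← h1]; exact pow_card_eq_one'
  let θ : ↥N →* MulAut ↥Xb := (MulAut.conjNormal).comp π
  have hker : ∀ g : ↥N, θ g = 1 → ∀ x ∈ X, ⁅(g : G), x⁆ ∈ Y := by
    intro g hg x hx
    have hx' : (⟨x, hXN hx⟩ : ↥N) ∈ X.subgroupOf N := by
      rw [Subgroup.mem_subgroupOf]; exact hx
    have h1 := congrArg (fun ψ : MulAut ↥Xb =>
      ((ψ ⟨π ⟨x, hXN hx⟩, Subgroup.mem_map_of_mem π hx'⟩ : ↥Xb) : ↥N ⧸ Y.subgroupOf N)) hg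
    simp only [θ, MonoidHom.comp_apply, MulAut.conjNormal_apply, MulAut.one_apply] at h1
    have h2 : π (⁅g, (⟨x, hXN hx⟩ : ↥N)⁆) = 1 := by
      rw [commutatorElement_def, map_mul, map_mul, map_mul, map_inv, map_inv, h1, mul_inv_cancel]
    have h3 := (QuotientGroup.eq_one_iff _).mp h2
    rw [Subgroup.mem_subgroupOf] at h3
    exact h3
  have hθcomm : ∀ g ∈ commutator ↥N, θ g = 1 := by
    have h1 : commutator ↥N ≤ θ.ker := by
      rw [commutator_def, Subgroup.commutator_le]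
      intro a _ b _
      rw [MonoidHom.mem_ker, map_commutatorElement, commutatorElement_eq_one_iff_mul_comm]
      exact hcommAut _ _
    exact fun g hg => h1 hg
  refine ⟨?_, ?_⟩
  · intro y hy x hx
    have hmap : Subgroup.map N.subtype (commutator ↥N) = ⁅N, N⁆ := by
      rw [commutator_def, Subgroup.map_commutator, ← MonoidHom.range_eq_map,
        Subgroup.range_subtype]
    rw [← hmap] at hy
    obtain ⟨g, hg, rfl⟩ := hy
    exact hker g (hθcomm g hg) x hx
  · intro a ha x hx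
    have h1 : θ ((⟨a, ha⟩ : ↥N) ^ (p - 1)) = 1 := by rw [map_pow]; exact hexpAut _
    exact hker ((⟨a, ha⟩ : ↥N) ^ (p - 1)) h1 x hx

/-- Strict inclusion of subgroups of a `p`-subgroup multiplies the order by at least `p`. -/
theorem card_mul_le_of_lt' {G : Type*} [Group G] [Finite G] {p : ℕ} [Fact p.Prime]
    {A B : Subgroup G} (hB : IsPGroup p B) (h : A < B) : p * Nat.card A ≤ Nat.card B := by
  have hp : p.Prime := Fact.out
  obtain ⟨a, ha⟩ := IsPGroup.iff_card.mp (hB.to_le h.le)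
  obtain ⟨b, hb⟩ := IsPGroup.iff_card.mp hB
  have hlt : Nat.card A < Nat.card B := by
    by_contra hcon
    push Not at hcon
    exact h.ne (Subgroup.eq_of_le_of_card_ge h.le hcon)
  rw [ha, hb] at hlt ⊢
  have hab : a < b := (Nat.pow_lt_pow_iff_right hp.one_lt).mp hlt
  calc p * p ^ a = p ^ (a + 1) := by ring
    _ ≤ p ^ b := Nat.pow_le_pow_right hp.pos hab

/-- Orbit counting for conjugation of a nontrivial element whose conjugates lie in `Q`. -/
theorem card_le_centralizer_mul {G : Type*} [Group G] [Finite G] (B Q : Subgroup G) (e : G)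
    (he : e ≠ 1) (h : ∀ b ∈ B, b * e * b⁻¹ ∈ Q) :
    Nat.card B ≤ Nat.card (B ⊓ Subgroup.centralizer {e} : Subgroup G) * (Nat.card Q - 1) := by
  classical
  haveI := Fintype.ofFinite G
  set sB : Finset G := Finset.univ.filter (· ∈ B) with hsB
  set sK : Finset G := Finset.univ.filter (· ∈ B ⊓ Subgroup.centralizer {e}) with hsK
  set sQ : Finset G := (Finset.univ.filter (· ∈ Q)).erase 1 with hsQ
  have hB : Nat.card B = sB.card := by
    rw [Nat.card_eq_fintype_card, Fintype.card_subtype]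
  have hK : Nat.card (B ⊓ Subgroup.centralizer {e} : Subgroup G) = sK.card := by
    rw [Nat.card_eq_fintype_card, Fintype.card_subtype]
  have hQ : Nat.card Q - 1 = sQ.card := by
    rw [hsQ, Finset.card_erase_of_mem (by simp [Q.one_mem]), Nat.card_eq_fintype_card,
      Fintype.card_subtype]
  rw [hB, hK, hQ]
  have h1 := Finset.card_le_mul_card_image (f := fun b : G => b * e * b⁻¹) sB sK.card (by
    intro a ha
    obtain ⟨b₀, hb₀, rfl⟩ := Finset.mem_image.mp ha
    have hb₀B : b₀ ∈ B := (Finset.mem_filter.mp hb₀).2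
    apply Finset.card_le_card_of_injOn (fun x => b₀⁻¹ * x)
    · intro x hx
      have hx' := Finset.mem_filter.mp (Finset.mem_coe.mp hx)
      have hxB : x ∈ B := (Finset.mem_filter.mp hx'.1).2
      have hxe : x * e * x⁻¹ = b₀ * e * b₀⁻¹ := hx'.2
      rw [Finset.mem_coe, hsK, Finset.mem_filter]
      refine ⟨Finset.mem_univ _, Subgroup.mem_inf.mpr ⟨B.mul_mem (B.inv_mem hb₀B) hxB, ?_⟩⟩
      rw [Subgroup.mem_centralizer_iff]
      intro y hy
      rw [Set.mem_singleton_iff] at hy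
      rw [hy]
      have h2 : e = b₀⁻¹ * (x * e * x⁻¹) * b₀ := by rw [hxe]; group
      calc e * (b₀⁻¹ * x) = (b₀⁻¹ * (x * e * x⁻¹) * b₀) * (b₀⁻¹ * x) := by rw [← h2]
        _ = b₀⁻¹ * x * e := by group
    · intro x _ y _ hxy
      exact mul_left_cancel hxy)
  refine h1.trans (Nat.mul_le_mul_left _ (Finset.card_le_card ?_))
  intro a ha
  obtain ⟨b, hb, rfl⟩ := Finset.mem_image.mp ha
  have hbB : b ∈ B := (Finset.mem_filter.mp hb).2
  rw [hsQ, Finset.mem_erase, Finset.mem_filter]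
  refine ⟨?_, Finset.mem_univ _, h b hbB⟩
  intro h2
  apply he
  have : e = b⁻¹ * (b * e * b⁻¹) * b := by group
  rw [this, h2]; group

/-- Adjoining a commuting element of order `p` to a subgroup of exponent `p`. -/
theorem sup_zpowers_exp {G : Type*} [Group G] {p : ℕ} (H : Subgroup G) (e : G)
    (hc : ∀ h ∈ H, h * e = e * h) (hH : ∀ h ∈ H, h ^ p = 1) (he : e ^ p = 1) :
    ∀ x ∈ H ⊔ Subgroup.zpowers e, x ^ p = 1 ∧ x * e = e * x := by
  intro x hx
  obtain ⟨h, hh, w, hw, rfl⟩ := mem_sup_of_normalizes H (Subgroup.zpowers e) (by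
    intro w hw h hh
    obtain ⟨i, rfl⟩ := Subgroup.mem_zpowers_iff.mp hw
    have h1 : Commute h (e ^ i) := (show Commute h e from hc h hh).zpow_right i
    have e1 : e ^ i * h * (e ^ i)⁻¹ = h := by
      rw [← h1.eq, mul_inv_cancel_right]
    rw [e1]; exact hh) hx
  obtain ⟨i, rfl⟩ := Subgroup.mem_zpowers_iff.mp hw
  have h1 : Commute h (e ^ i) := (show Commute h e from hc h hh).zpow_right i
  refine ⟨?_, ?_⟩
  · rw [h1.mul_pow, hH h hh, one_mul, ← zpow_natCast, ← zpow_mul, mul_comm, zpow_mul,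
      zpow_natCast, he, one_zpow]
  · have h2 : Commute (e ^ i) e := (Commute.refl e).zpow_left i
    have h3 : Commute (h * e ^ i) e := (show Commute h e from hc h hh).mul_left h2
    exact h3.eq

/-- In a group where `C(R₀) = R₀ × R₁` with `R₀` of order `p` and `R₁` cyclic, subgroups of
exponent `p` of the centralizer of `R₀` have order at most `p²`. -/
theorem narrow_bound {R : Type*} [Group R] [Finite R] {p : ℕ} [Fact p.Prime]
    (R₀ R₁ : Subgroup R) (h0 : Nat.card R₀ = p) (h1 : IsCyclic R₁)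
    (hc : ∀ a ∈ R₀, ∀ b ∈ R₁, a * b = b * a)
    (hsup : R₀ ⊔ R₁ = Subgroup.centralizer (R₀ : Set R))
    (X : Subgroup R) (hX : X ≤ Subgroup.centralizer (R₀ : Set R)) (hXe : ∀ x ∈ X, x ^ p = 1) :
    Nat.card X ≤ p ^ 2 := by
  classical
  have hpp : p.Prime := Fact.out
  haveI := Fintype.ofFinite R
  have hdec : ∀ x ∈ X, ∃ a ∈ R₀, ∃ b ∈ R₁, x = a * b := by
    intro x hx
    have hx' : x ∈ R₀ ⊔ R₁ := by rw [hsup]; exact hX hx
    exact mem_sup_of_normalizes R₀ R₁ (by
      intro b hb a ha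
      have h2 : b * a * b⁻¹ = a := by rw [← hc a ha b hb, mul_inv_cancel_right]
      rw [h2]; exact ha) hx'
  set F₀ : Finset R := Finset.univ.filter (· ∈ R₀) with hF₀
  set F₁ : Finset R := Finset.univ.filter (fun b => b ∈ R₁ ∧ b ^ p = 1) with hF₁
  have hcard0 : F₀.card = p := by
    rw [← h0, Nat.card_eq_fintype_card, Fintype.card_subtype]
  have hcard1 : F₁.card ≤ p := by
    haveI := h1
    have h2 := IsCyclic.card_pow_eq_one_le (α := ↥R₁) (n := p) hpp.pos
    refine le_trans ?_ h2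
    have h3 : F₁ ⊆ (Finset.univ.filter (fun a : ↥R₁ => a ^ p = 1)).image Subtype.val := by
      intro b hb
      obtain ⟨-, hb1, hb2⟩ := Finset.mem_filter.mp hb
      rw [Finset.mem_image]
      refine ⟨⟨b, hb1⟩, ?_, rfl⟩
      rw [Finset.mem_filter]
      exact ⟨Finset.mem_univ _, Subtype.ext (by rw [Subgroup.coe_pow]; exact hb2)⟩
    exact (Finset.card_le_card h3).trans Finset.card_image_le
  have hXsub : (Finset.univ.filter (· ∈ X)) ⊆ Finset.image₂ (· * ·) F₀ F₁ := by
    intro x hx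
    have hxX : x ∈ X := (Finset.mem_filter.mp hx).2
    obtain ⟨a, ha, b, hb, rfl⟩ := hdec x hxX
    rw [Finset.mem_image₂]
    refine ⟨a, Finset.mem_filter.mpr ⟨Finset.mem_univ _, ha⟩, b,
      Finset.mem_filter.mpr ⟨Finset.mem_univ _, hb, ?_⟩, rfl⟩
    have hab : Commute a b := hc a ha b hb
    have h2 := hXe _ hxX
    rw [hab.mul_pow] at h2
    have h3 : a ^ p = 1 := by
      have : (⟨a, ha⟩ : ↥R₀) ^ p = 1 := by rw [← h0]; exact pow_card_eq_one'
      exact congrArg Subtype.val this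
    rwa [h3, one_mul] at h2
  calc Nat.card X = (Finset.univ.filter (· ∈ X)).card := by
        rw [Nat.card_eq_fintype_card, Fintype.card_subtype]
    _ ≤ (Finset.image₂ (· * ·) F₀ F₁).card := Finset.card_le_card hXsub
    _ ≤ F₀.card * F₁.card := Finset.card_image₂_le _ _ _
    _ ≤ p * p := by rw [hcard0]; exact Nat.mul_le_mul_left _ hcard1
    _ = p ^ 2 := by ring

/-- **Automorphisms of narrow `p`-groups of rank at least three** (Bender–Glauberman 5.5(a,b)).
If `R` is a narrow `p`-subgroup (`p` odd) containing an elementary abelian subgroup of order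
`p ^ 3`, then every `p'`-element of the derived subgroup of `N(R)` centralizes `R`, and the
`(p-1)`-th power of every `p'`-element of `N(R)` centralizes `R`. -/
theorem narrow_core {G : Type*} [Group G] [Finite G] {p : ℕ} [Fact p.Prime] (hp : p ≠ 2)
    (R : Subgroup G) (hR : IsPGroup p R) (hn : Cfsg.IsNarrow p ↥R)
    (hr : ¬ Cfsg.PRankLE p 2 ↥R) :
    (∀ y ∈ ⁅Subgroup.normalizer (R : Set G), Subgroup.normalizer (R : Set G)⁆,
        (orderOf y).Coprime p → ∀ x ∈ R, y * x * y⁻¹ = x) ∧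
    (∀ a ∈ Subgroup.normalizer (R : Set G), (orderOf a).Coprime p →
        ∀ x ∈ R, a ^ (p - 1) * x * (a ^ (p - 1))⁻¹ = x) := by
  have hpp : p.Prime := Fact.out
  rcases hn with hn | ⟨R₀, R₁, hR₀, hR₁, hinf, hcomm, hsup⟩
  · exact absurd hn hr
  set N := Subgroup.normalizer (R : Set G) with hN
  have hRN : R ≤ N := Subgroup.le_normalizer
  have hnorm : ∀ g ∈ N, ∀ x ∈ R, g * x * g⁻¹ ∈ R :=
    fun g hg x hx => (Subgroup.mem_normalizer_iff.mp hg x).mp hx
  obtain ⟨D, hDR, hDnorm, hDexp, hDcen, hDfaith⟩ := odd_core hp R hR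
  -- the element `e`
  haveI hcyc0 : IsCyclic ↥R₀ := isCyclic_of_prime_card hR₀
  obtain ⟨e₀, he₀⟩ := IsCyclic.exists_generator (α := ↥R₀)
  have hord0 : orderOf e₀ = p := by
    rw [orderOf_eq_card_of_forall_mem_zpowers he₀, hR₀]
  set e : G := ((e₀ : ↥R) : G) with he
  have heR : e ∈ R := (e₀ : ↥R).2
  have horde : orderOf e = p := by
    rw [he, Subgroup.orderOf_coe, Subgroup.orderOf_coe, hord0]
  have hep : e ^ p = 1 := by rw [← horde]; exact pow_orderOf_eq_one e
  have he1 : e ≠ 1 := by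
    intro h
    rw [h, orderOf_one] at horde
    exact hpp.one_lt.ne horde
  -- the bound for subgroups of exponent `p` commuting with `e`
  have hBLG : ∀ X : Subgroup G, X ≤ R → (∀ x ∈ X, x * e = e * x) → (∀ x ∈ X, x ^ p = 1) →
      Nat.card X ≤ p ^ 2 := by
    intro X hXR hXc hXe
    have h1 := narrow_bound R₀ R₁ hR₀ hR₁ hcomm hsup (X.subgroupOf R) (by
      intro x hx
      rw [Subgroup.mem_subgroupOf] at hx
      rw [Subgroup.mem_centralizer_iff]
      intro a ha
      obtain ⟨k, hk⟩ := Subgroup.mem_zpowers_iff.mp (he₀ ⟨a, ha⟩)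
      have hk' : a = (e₀ : ↥R) ^ k := by
        have h := congrArg Subtype.val hk
        simp only [Subgroup.coe_zpow] at h
        exact h.symm
      have h2 : Commute (e₀ : ↥R) x := by
        apply Subtype.ext
        show e * (x : G) = (x : G) * e
        exact (hXc _ hx).symm
      rw [hk']
      exact (h2.zpow_left k).eq) (by
      intro x hx
      rw [Subgroup.mem_subgroupOf] at hx
      apply Subtype.ext
      rw [Subgroup.coe_pow]
      exact hXe _ hx)
    rwa [Nat.card_congr (Subgroup.subgroupOfEquivOfLe hXR).toEquiv] at h1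
  -- a large elementary abelian subgroup
  have hr' : ∃ B : Subgroup ↥R, IsMulCommutative B ∧ (∀ a ∈ B, a ^ p = 1) ∧
      p ^ 2 < Nat.card B := by
    by_contra hcon
    apply hr
    intro B hBc hBe
    by_contra hlt
    exact hcon ⟨B, hBc, hBe, not_le.mp hlt⟩
  obtain ⟨B₀, hB₀c, hB₀e, hB₀card⟩ := hr'
  set B : Subgroup G := B₀.map R.subtype with hB
  have hBR : B ≤ R := Subgroup.map_subtype_le _
  have hBcard : p ^ 2 < Nat.card B := by rw [hB, Subgroup.card_subtype]; exact hB₀card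
  have hBc : ∀ x ∈ B, ∀ y ∈ B, x * y = y * x := by
    rintro _ ⟨x, hx, rfl⟩ _ ⟨y, hy, rfl⟩
    have h1 := hB₀c.is_comm.comm ⟨x, hx⟩ ⟨y, hy⟩
    have h2 : x * y = y * x := congrArg Subtype.val h1
    rw [← map_mul, ← map_mul, h2]
  have hBe : ∀ x ∈ B, x ^ p = 1 := by
    rintro _ ⟨x, hx, rfl⟩
    rw [← map_pow, hB₀e x hx, map_one]
  have hBp : IsPGroup p B := hR.to_le hBR
  have hBcard3 : p ^ 3 ≤ Nat.card B := by
    obtain ⟨k, hk⟩ := IsPGroup.iff_card.mp hBp
    rw [hk] at hBcard ⊢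
    have hk2 : 2 < k := (Nat.pow_lt_pow_iff_right hpp.one_lt).mp hBcard
    exact Nat.pow_le_pow_right hpp.pos hk2
  -- Step A: `e ∉ D`
  have heD : e ∉ D := by
    intro heD
    have hconj : ∀ r ∈ R, (r * e * r⁻¹) * e = e * (r * e * r⁻¹) := by
      intro r hr
      have h := hDcen e heD r hr e heD
      rw [commutatorElement_def] at h
      have h2 : (r * e⁻¹ * r⁻¹) * e = e * (r * e⁻¹ * r⁻¹) := by
        have h3 := congrArg (fun t => e⁻¹ * t) h
        simp only [mul_assoc, inv_mul_cancel_left] at h3 ⊢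
        exact h3
      have h4 : Commute (r * e⁻¹ * r⁻¹)⁻¹ e :=
        (show Commute (r * e⁻¹ * r⁻¹) e from h2).inv_left
      have h5 : (r * e⁻¹ * r⁻¹)⁻¹ = r * e * r⁻¹ := by group
      rw [h5] at h4
      exact h4.eq
    set Q : Subgroup G := Subgroup.closure {x | ∃ r ∈ R, x = r * e * r⁻¹} with hQ
    have hQD : Q ≤ D := by
      rw [hQ, Subgroup.closure_le]
      rintro _ ⟨r, hr, rfl⟩
      exact hDnorm r (hRN hr) e heD
    have hQe : ∀ x ∈ Q, x * e = e * x := by
      intro x hx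
      have h1 : Q ≤ Subgroup.centralizer {e} := by
        rw [hQ, Subgroup.closure_le]
        rintro _ ⟨r, hr, rfl⟩
        show r * e * r⁻¹ ∈ Subgroup.centralizer {e}
        rw [Subgroup.mem_centralizer_iff]
        intro y hy
        rw [Set.mem_singleton_iff] at hy
        rw [hy]
        exact (hconj r hr).symm
      have h2 := Subgroup.mem_centralizer_iff.mp (h1 hx) e (Set.mem_singleton e)
      exact h2.symm
    have hQcard : Nat.card Q ≤ p ^ 2 :=
      hBLG Q (hQD.trans hDR) hQe (fun x hx => hDexp x (hQD hx))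
    have hBQ : ∀ b ∈ B, b * e * b⁻¹ ∈ Q := by
      intro b hb
      exact Subgroup.subset_closure ⟨b, hBR hb, rfl⟩
    have h1 := card_le_centralizer_mul B Q e he1 hBQ
    set B₁ : Subgroup G := B ⊓ Subgroup.centralizer {e} with hB₁
    have hB₁c : ∀ x ∈ B₁, x * e = e * x := by
      intro x hx
      have h2 := Subgroup.mem_centralizer_iff.mp (Subgroup.mem_inf.mp hx).2 e
        (Set.mem_singleton e)
      exact h2.symm
    have hsupB := sup_zpowers_exp B₁ e hB₁c (fun x hx => hBe x (Subgroup.mem_inf.mp hx).1) hep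
    have hsupR : B₁ ⊔ Subgroup.zpowers e ≤ R :=
      sup_le ((inf_le_left).trans hBR) (by rw [Subgroup.zpowers_le]; exact heR)
    have hsupcard : Nat.card (B₁ ⊔ Subgroup.zpowers e : Subgroup G) ≤ p ^ 2 :=
      hBLG _ hsupR (fun x hx => (hsupB x hx).2) (fun x hx => (hsupB x hx).1)
    by_cases heB : e ∈ B₁
    · have heB' : e ∈ B := (Subgroup.mem_inf.mp heB).1
      have h2 := hBLG B hBR (fun x hx => hBc x hx e heB') hBe
      omega
    · have hlt : B₁ < B₁ ⊔ Subgroup.zpowers e := by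
        refine lt_of_le_of_ne le_sup_left ?_
        intro h2
        apply heB
        rw [h2]
        exact (le_sup_right : Subgroup.zpowers e ≤ B₁ ⊔ Subgroup.zpowers e)
          (Subgroup.mem_zpowers e)
      have h2 := card_mul_le_of_lt' (hR.to_le hsupR) hlt
      have h3 : Nat.card B₁ ≤ p := by
        have h4 : p * Nat.card B₁ ≤ p * p := by
          calc p * Nat.card B₁ ≤ Nat.card (B₁ ⊔ Subgroup.zpowers e : Subgroup G) := h2
            _ ≤ p ^ 2 := hsupcard
            _ = p * p := by ring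
        exact Nat.le_of_mul_le_mul_left h4 hpp.pos
      have h5 : Nat.card B ≤ p * (p ^ 2 - 1) := by
        calc Nat.card B ≤ Nat.card B₁ * (Nat.card Q - 1) := h1
          _ ≤ p * (p ^ 2 - 1) := Nat.mul_le_mul h3 (Nat.sub_le_sub_right hQcard 1)
      have h6 : p * (p ^ 2 - 1) < p ^ 3 := by
        have h7 : 1 ≤ p ^ 2 := Nat.one_le_pow _ _ hpp.pos
        have h8 : p * (p ^ 2 - 1) = p ^ 3 - p := by
          rw [Nat.mul_sub, mul_one]; ring_nf
        rw [h8]
        have h9 : p ≤ p ^ 3 := by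
          calc p = p ^ 1 := (pow_one p).symm
            _ ≤ p ^ 3 := Nat.pow_le_pow_right hpp.pos (by norm_num)
        have := hpp.pos
        omega
      omega
  -- Step B: the centralizer of `e` in `D` has order at most `p`
  set K₀ : Subgroup G := D ⊓ Subgroup.centralizer {e} with hK₀
  have hK₀card : Nat.card K₀ ≤ p := by
    have hK₀c : ∀ x ∈ K₀, x * e = e * x := by
      intro x hx
      have h2 := Subgroup.mem_centralizer_iff.mp (Subgroup.mem_inf.mp hx).2 e
        (Set.mem_singleton e)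
      exact h2.symm
    have hsupK := sup_zpowers_exp K₀ e hK₀c (fun x hx => hDexp x (Subgroup.mem_inf.mp hx).1) hep
    have hsupR : K₀ ⊔ Subgroup.zpowers e ≤ R :=
      sup_le ((inf_le_left).trans hDR) (by rw [Subgroup.zpowers_le]; exact heR)
    have hsupcard : Nat.card (K₀ ⊔ Subgroup.zpowers e : Subgroup G) ≤ p ^ 2 :=
      hBLG _ hsupR (fun x hx => (hsupK x hx).2) (fun x hx => (hsupK x hx).1)
    have hlt : K₀ < K₀ ⊔ Subgroup.zpowers e := by
      refine lt_of_le_of_ne le_sup_left ?_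
      intro h2
      apply heD
      have h3 : e ∈ K₀ := by
        rw [h2]
        exact (le_sup_right : Subgroup.zpowers e ≤ K₀ ⊔ Subgroup.zpowers e)
          (Subgroup.mem_zpowers e)
      exact (Subgroup.mem_inf.mp h3).1
    have h2 := card_mul_le_of_lt' (hR.to_le hsupR) hlt
    have h4 : p * Nat.card K₀ ≤ p * p := by
      calc p * Nat.card K₀ ≤ Nat.card (K₀ ⊔ Subgroup.zpowers e : Subgroup G) := h2
        _ ≤ p ^ 2 := hsupcard
        _ = p * p := by ring
    exact Nat.le_of_mul_le_mul_left h4 hpp.pos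
  -- Step C: the series `Y i = D ⊓ Z_i(R)`
  set Z : ℕ → Subgroup G := fun i => (Subgroup.upperCentralSeries ↥R i).map R.subtype with hZ
  set Y : ℕ → Subgroup G := fun i => D ⊓ Z i with hY
  have hZnorm : ∀ i, ∀ g ∈ N, ∀ x ∈ Z i, g * x * g⁻¹ ∈ Z i := by
    rintro i g hg _ ⟨x, hx, rfl⟩
    have hchar : (Subgroup.upperCentralSeries ↥R i).Characteristic := inferInstance
    exact ⟨conjHom N R hnorm ⟨g, hg⟩ x,
      Subgroup.characteristic_iff_le_comap.mp hchar (conjHom N R hnorm ⟨g, hg⟩) hx, rfl⟩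
  have hYnorm : ∀ i, ∀ g ∈ N, ∀ x ∈ Y i, g * x * g⁻¹ ∈ Y i := by
    intro i g hg x hx
    exact Subgroup.mem_inf.mpr ⟨hDnorm g hg x (Subgroup.mem_inf.mp hx).1,
      hZnorm i g hg x (Subgroup.mem_inf.mp hx).2⟩
  have hYD : ∀ i, Y i ≤ D := fun i => inf_le_left
  have hYmono : ∀ i, Y i ≤ Y (i + 1) := by
    intro i
    apply inf_le_inf_left
    exact Subgroup.map_mono (Subgroup.upperCentralSeries_mono ↥R (Nat.le_succ i))
  have hYstep : ∀ i, ∀ x ∈ Y (i + 1), ∀ r ∈ R, ⁅x, r⁆ ∈ Y i := by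
    intro i x hx r hr
    have hxD : x ∈ D := (Subgroup.mem_inf.mp hx).1
    obtain ⟨x', hx', hxx⟩ := (Subgroup.mem_inf.mp hx).2
    refine Subgroup.mem_inf.mpr ⟨?_, ?_⟩
    · rw [commutatorElement_def]
      have h1 := hDnorm r (hRN hr) x⁻¹ (D.inv_mem hxD)
      have h2 : x * r * x⁻¹ * r⁻¹ = x * (r * x⁻¹ * r⁻¹) := by group
      rw [h2]
      exact D.mul_mem hxD h1
    · have h1 := Subgroup.mem_upperCentralSeries_succ_iff.mp hx' ⟨r, hr⟩
      refine ⟨⁅x', (⟨r, hr⟩ : ↥R)⁆, h1, ?_⟩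
      rw [map_commutatorElement, hxx]
      rfl
  have hY0 : Y 0 = ⊥ := by
    simp only [hY, hZ]
    rw [Subgroup.upperCentralSeries_zero, Subgroup.map_bot, inf_bot_eq]
  haveI hnil : Group.IsNilpotent ↥R := hR.isNilpotent
  have hYtop : Y (Group.nilpotencyClass ↥R) = D := by
    simp only [hY, hZ]
    rw [Subgroup.upperCentralSeries_nilpotencyClass, ← MonoidHom.range_eq_map, Subgroup.range_subtype]
    exact inf_eq_left.mpr hDR
  have hcomE : ∀ x ∈ D, ∀ c ∈ D, ⁅x, e⁆ * c = c * ⁅x, e⁆ := fun x hx c hc => hDcen x hx e heR c hc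
  have hcomD : ∀ x ∈ D, ⁅x, e⁆ ∈ D := by
    intro x hx
    rw [commutatorElement_def]
    have h1 := hDnorm e (hRN heR) x⁻¹ (D.inv_mem hx)
    have h2 : x * e * x⁻¹ * e⁻¹ = x * (e * x⁻¹ * e⁻¹) := by group
    rw [h2]
    exact D.mul_mem hx h1
  have hYcard : ∀ i, Nat.card (Y (i + 1)) ≤ p * Nat.card (Y i) := by
    intro i
    let φ : ↥(Y (i + 1)) →* ↥(Y i) := MonoidHom.mk'
      (fun x => ⟨⁅(x : G), e⁆, hYstep i x x.2 e heR⟩) (by
        intro x y
        apply Subtype.ext
        show ⁅(x : G) * (y : G), e⁆ = ⁅(x : G), e⁆ * ⁅(y : G), e⁆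
        have hxD : (x : G) ∈ D := hYD _ x.2
        have hyD : (y : G) ∈ D := hYD _ y.2
        have h1 : ⁅(x : G) * (y : G), e⁆ = (x : G) * ⁅(y : G), e⁆ * (x : G)⁻¹ * ⁅(x : G), e⁆ := by
          simp only [commutatorElement_def]; group
        have h2 : (x : G) * ⁅(y : G), e⁆ * (x : G)⁻¹ = ⁅(y : G), e⁆ := by
          rw [← hcomE _ hyD _ hxD, mul_inv_cancel_right]
        rw [h1, h2]
        exact hcomE _ hyD _ (hcomD _ hxD))
    have hkercard : Nat.card φ.ker ≤ p := by
      refine le_trans ?_ hK₀card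
      apply Nat.card_le_card_of_injective
        (fun x : φ.ker => (⟨((x : ↥(Y (i + 1))) : G), by
          have hx : φ (x : ↥(Y (i + 1))) = 1 := x.2
          have hx' : ⁅(((x : ↥(Y (i + 1))) : G)), e⁆ = 1 := congrArg Subtype.val hx
          rw [commutatorElement_eq_one_iff_mul_comm] at hx'
          refine Subgroup.mem_inf.mpr ⟨hYD _ (x : ↥(Y (i + 1))).2, ?_⟩
          rw [Subgroup.mem_centralizer_iff]
          intro y hy
          rw [Set.mem_singleton_iff] at hy
          rw [hy]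
          exact hx'.symm⟩ : ↥K₀))
      intro x y hxy
      apply Subtype.ext
      apply Subtype.ext
      have h := congrArg (fun t : ↥K₀ => (t : G)) hxy
      exact h
    have h1 := Subgroup.card_eq_card_quotient_mul_card_subgroup φ.ker
    have h2 : Nat.card (↥(Y (i + 1)) ⧸ φ.ker) = Nat.card φ.range :=
      Nat.card_congr (QuotientGroup.quotientKerEquivRange φ).toEquiv
    have h3 : Nat.card φ.range ≤ Nat.card ↥(Y i) := Subgroup.card_le_card_group _
    calc Nat.card (Y (i + 1)) = Nat.card φ.range * Nat.card φ.ker := by rw [h1, h2]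
      _ ≤ Nat.card ↥(Y i) * p := Nat.mul_le_mul h3 hkercard
      _ = p * Nat.card (Y i) := mul_comm _ _
  -- Step D: stability
  have hcommN : ⁅N, N⁆ ≤ N := by
    rw [Subgroup.commutator_le]
    intro a ha b hb
    exact N.mul_mem (N.mul_mem (N.mul_mem ha hb) (N.inv_mem ha)) (N.inv_mem hb)
  have hstab : ∀ i, (∀ y ∈ ⁅N, N⁆, ∀ x ∈ Y (i + 1), ⁅y, x⁆ ∈ Y i) ∧
      (∀ a ∈ N, ∀ x ∈ Y (i + 1), ⁅a ^ (p - 1), x⁆ ∈ Y i) := by
    intro i
    by_cases hEq : Y i = Y (i + 1)
    · have hgen : ∀ g ∈ N, ∀ x ∈ Y (i + 1), ⁅g, x⁆ ∈ Y i := by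
        intro g hg x hx
        rw [hEq, commutatorElement_def]
        exact (Y (i + 1)).mul_mem (hYnorm (i + 1) g hg x hx) ((Y (i + 1)).inv_mem hx)
      exact ⟨fun y hy => hgen y (hcommN hy), fun a ha => hgen _ (N.pow_mem ha _)⟩
    · have hlt : Y i < Y (i + 1) := lt_of_le_of_ne (hYmono i) hEq
      have h1 := card_mul_le_of_lt' (hR.to_le ((hYD (i + 1)).trans hDR)) hlt
      exact section_prime N (Y (i + 1)) (Y i) (((hYD (i + 1)).trans hDR).trans hRN) (hYmono i)
        (hYnorm (i + 1)) (hYnorm i) (le_antisymm (hYcard i) h1)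
  -- Step E: stability implies centralizing
  have hfinal : ∀ g ∈ N, (orderOf g).Coprime p → (∀ i, ∀ x ∈ Y (i + 1), ⁅g, x⁆ ∈ Y i) →
      ∀ x ∈ R, g * x * g⁻¹ = x := by
    intro g hg hcop hst
    have hall : ∀ i, ∀ x ∈ Y i, g * x * g⁻¹ = x := by
      intro i
      induction i with
      | zero =>
        intro x hx
        rw [hY0, Subgroup.mem_bot] at hx
        rw [hx]; group
      | succ i ih =>
        intro x hx
        have hc := hst i x hx
        set c := ⁅g, x⁆ with hcdef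
        have hgc : g * c * g⁻¹ = c := ih c hc
        have hgx : g * x * g⁻¹ = c * x := by
          rw [hcdef, commutatorElement_def]; group
        have hpow : ∀ n : ℕ, g ^ n * x * (g ^ n)⁻¹ = c ^ n * x := by
          intro n
          induction n with
          | zero => simp
          | succ n ihn =>
            have h1 : g ^ (n + 1) * x * (g ^ (n + 1))⁻¹ = g * (g ^ n * x * (g ^ n)⁻¹) * g⁻¹ := by
              rw [pow_succ']; group
            rw [h1, ihn]
            have h2 : g * (c ^ n * x) * g⁻¹ = (g * c * g⁻¹) ^ n * (g * x * g⁻¹) := by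
              rw [conj_pow]; group
            rw [h2, hgc, hgx, pow_succ, mul_assoc]
        have h1 := hpow (orderOf g)
        rw [pow_orderOf_eq_one, one_mul, inv_one, mul_one] at h1
        have h2 : c ^ orderOf g = 1 := by
          have := mul_right_cancel (b := x) (a := c ^ orderOf g) (c := 1) (by rw [one_mul]; exact h1.symm)
          exact this
        have h3 : c ^ p = 1 := hDexp c (hYD i hc)
        have h4 : orderOf c ∣ Nat.gcd (orderOf g) p :=
          Nat.dvd_gcd (orderOf_dvd_of_pow_eq_one h2) (orderOf_dvd_of_pow_eq_one h3)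
        rw [hcop, Nat.dvd_one, orderOf_eq_one_iff] at h4
        rw [hgx, h4, one_mul]
    apply hDfaith g hg hcop
    intro x hx
    apply hall (Group.nilpotencyClass ↥R)
    rw [hYtop]; exact hx
  refine ⟨?_, ?_⟩
  · intro y hy hcop
    exact hfinal y (hcommN hy) hcop (fun i => (hstab i).1 y hy)
  · intro a ha hcop
    apply hfinal (a ^ (p - 1)) (N.pow_mem ha _)
      (Nat.Coprime.coprime_dvd_left (orderOf_pow_dvd (p - 1)) hcop)
    exact fun i => (hstab i).2 a ha

end Cfsg.Agent.H3
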