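import Cfsg.Agent.H3.NarrowCore

set_option autoImplicit false

namespace Cfsg.Agent.H3

open scoped commutatorElement

/-- A cyclic `p`-section `X / Y` invariant under a subgroup `N`: an element of `N` whose order
is coprime to the orders of the automorphism groups of cyclic `p`-groups acts trivially. -/
theorem section_cyclic {G : Type*} [Group G] [Finite G] {p : ℕ} [Fact p.Prime]
    (N X Y : Subgroup G) (hXN : X ≤ N) (hYX : Y ≤ X)
    (hXn : ∀ g ∈ N, ∀ x ∈ X, g * x * g⁻¹ ∈ X) (hYn : ∀ g ∈ N, ∀ y ∈ Y, g * y * g⁻¹ ∈ Y)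
    (hXp : IsPGroup p X) (g₀ : G) (hg₀ : g₀ ∈ X)
    (hgen : ∀ x ∈ X, ∃ k : ℤ, ∃ y ∈ Y, x = y * g₀ ^ k)
    (a : G) (ha : a ∈ N) (hcop : ∀ m : ℕ, (orderOf a).Coprime (Nat.totient (p ^ m))) :
    ∀ x ∈ X, ⁅a, x⁆ ∈ Y := by
  have hpp : p.Prime := Fact.out
  haveI hY'n : (Y.subgroupOf N).Normal := ⟨fun y hy g => by
    rw [Subgroup.mem_subgroupOf] at hy ⊢
    simpa using hYn g g.2 y hy⟩
  haveI hX'n : (X.subgroupOf N).Normal := ⟨fun x hx g => by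
    rw [Subgroup.mem_subgroupOf] at hx ⊢
    simpa using hXn g g.2 x hx⟩
  set π := QuotientGroup.mk' (Y.subgroupOf N) with hπ
  set Xb : Subgroup (↥N ⧸ Y.subgroupOf N) := (X.subgroupOf N).map π with hXb
  haveI hXbn : Xb.Normal := Subgroup.Normal.map hX'n π (QuotientGroup.mk'_surjective _)
  have hX'p : IsPGroup p (X.subgroupOf N) := hXp.comap_subtype
  have hXbp : IsPGroup p Xb := hX'p.map π
  obtain ⟨m, hm⟩ := IsPGroup.iff_card.mp hXbp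
  have hg₀' : (⟨g₀, hXN hg₀⟩ : ↥N) ∈ X.subgroupOf N := by
    rw [Subgroup.mem_subgroupOf]; exact hg₀
  haveI : IsCyclic Xb := by
    refine ⟨⟨⟨π ⟨g₀, hXN hg₀⟩, Subgroup.mem_map_of_mem π hg₀'⟩, ?_⟩⟩
    rintro ⟨xb, hxb⟩
    obtain ⟨x', hx', rfl⟩ := hxb
    have hx'' : (x' : G) ∈ X := Subgroup.mem_subgroupOf.mp hx'
    obtain ⟨k, y, hy, hxy⟩ := hgen _ hx''
    refine Subgroup.mem_zpowers_iff.mpr ⟨k, ?_⟩
    apply Subtype.ext
    rw [Subgroup.coe_zpow]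
    show (π ⟨g₀, hXN hg₀⟩) ^ k = π x'
    have hy' : (⟨y, hXN (hYX hy)⟩ : ↥N) ∈ Y.subgroupOf N := by
      rw [Subgroup.mem_subgroupOf]; exact hy
    have hx'eq : x' = ⟨y, hXN (hYX hy)⟩ * (⟨g₀, hXN hg₀⟩ : ↥N) ^ k := by
      apply Subtype.ext
      rw [Subgroup.coe_mul, Subgroup.coe_zpow]
      exact hxy
    have hy1 : π ⟨y, hXN (hYX hy)⟩ = 1 := (QuotientGroup.eq_one_iff _).mpr hy'
    rw [hx'eq, map_mul, hy1, one_mul, map_zpow]
  let e := IsCyclic.mulAutMulEquiv ↥Xb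
  have hcardAut : Nat.card (MulAut ↥Xb) = Nat.totient (p ^ m) := by
    rw [Nat.card_congr e.toEquiv]
    haveI : NeZero (Nat.card ↥Xb) := ⟨Nat.card_pos.ne'⟩
    rw [Nat.card_eq_fintype_card, ZMod.card_units_eq_totient, hm]
  let θ : ↥N →* MulAut ↥Xb := (MulAut.conjNormal).comp π
  have hker : ∀ g : ↥N, θ g = 1 → ∀ x ∈ X, ⁅(g : G), x⁆ ∈ Y := by
    intro g hg x hx
    have hx' : (⟨x, hXN hx⟩ : ↥N) ∈ X.subgroupOf N := by
      rw [Subgroup.mem_subgroupOf]; exact hx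
    have h1 := congrArg (fun ψ : MulAut ↥Xb =>
      ((ψ ⟨π ⟨x, hXN hx⟩, Subgroup.mem_map_of_mem π hx'⟩ : ↥Xb) : ↥N ⧸ Y.subgroupOf N)) hg
    simp only [θ, MonoidHom.comp_apply, MulAut.conjNormal_apply, MulAut.one_apply] at h1
    have h2 : π (⁅g, (⟨x, hXN hx⟩ : ↥N)⁆) = 1 := by
      rw [commutatorElement_def, map_mul, map_mul, map_mul, map_inv, map_inv, h1, mul_inv_cancel]
    have h3 := (QuotientGroup.eq_one_iff _).mp h2
    rw [Subgroup.mem_subgroupOf] at h3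
    exact h3
  have hθa : θ ⟨a, ha⟩ = 1 := by
    have h1 : orderOf (θ ⟨a, ha⟩) ∣ orderOf a := by
      have := orderOf_map_dvd θ (⟨a, ha⟩ : ↥N)
      rwa [Subgroup.orderOf_mk] at this
    have h2 : orderOf (θ ⟨a, ha⟩) ∣ Nat.totient (p ^ m) := by
      rw [← hcardAut]; exact orderOf_dvd_natCard _
    have h3 : orderOf (θ ⟨a, ha⟩) ∣ Nat.gcd (orderOf a) (Nat.totient (p ^ m)) :=
      Nat.dvd_gcd h1 h2
    rw [hcop m, Nat.dvd_one, orderOf_eq_one_iff] at h3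
    exact h3
  exact hker ⟨a, ha⟩ hθa

end Cfsg.Agent.H3
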