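import Mathlib
import Cfsg.Agent.H86.NdDefs
import Cfsg.Agent.H95.OhFin
import Cfsg.Agent.H60.OtCommon

/-!
# S5989 / S5991 team project (helper86): piece ND-BACK (helper3)

An invariant subspace spanned by `c j + e` pairwise orthogonal nonsingular vectors with
prescribed discriminant class (`1 ≤ e < dim C_V(T)`): an orthogonal basis of helper60's
fixed-point-free invariant nondegenerate subspace of dimension `c j` (`fin_back`, `fin_ortho`),
completed by `e` orthogonal fixed vectors of adjusted discriminant (`fin_subdisc`).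
-/

set_option autoImplicit false

namespace Cfsg.Agent.H3.Nd

open Cfsg.Agent.H45 Cfsg.Agent.H42.Spd Cfsg.Agent.H42.Ti Cfsg.Agent.H14.Ot Cfsg.Agent.H95.Oh
  Cfsg.Agent.H86.Ev2 Cfsg.Agent.H86.Nd Module

universe u v

/-- Transport of a family along an equality of lengths. -/
theorem nd_cast_fam {V : Type v} {n m : ℕ} (h : n = m) (P : ∀ k : ℕ, (Fin k → V) → Prop)
    (x : Fin n → V) (hx : P n x) : ∃ x' : Fin m → V, P m x' := by
  subst h
  exact ⟨x, hx⟩

/-- **ND-BACK**. -/
theorem ndBack : StNdBack.{u, v} := by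
  intro F _ _ V _ _ _ r B T hC j e δ hj he hek hδ
  obtain ⟨hKR, hKRtop, hsplit⟩ := Cfsg.Agent.H95.Oh.fin_split F V r T hC.cast_ne hC.pow
  obtain ⟨W₁, hW₁, hW₁nd, hW₁K, hW₁dim⟩ := Cfsg.Agent.H95.Oh.fin_back F V r B T hC j hj
  obtain ⟨x₀, hx₀⟩ := Cfsg.Agent.H95.Oh.fin_ortho F V B hC.two_ne hC.symm W₁ hW₁nd
  obtain ⟨x, hxW, hxo, hxn, hxspan⟩ := nd_cast_fam hW₁dim
    (fun k (x : Fin k → V) => (∀ a, x a ∈ W₁) ∧ (∀ a b, a ≠ b → B (x a) (x b) = 0) ∧
      (∀ a, B (x a) (x a) ≠ 0) ∧ Submodule.span F (Set.range x) = W₁) x₀ hx₀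
  have hUK : ∀ y ∈ LinearMap.range (T - 1), ∀ k ∈ LinearMap.ker (T - 1), B y k = 0 := by
    rintro _ ⟨z, rfl⟩ k hk
    have hTk : T k = k := by
      have h := LinearMap.mem_ker.mp hk
      rw [LinearMap.sub_apply, Module.End.one_apply, sub_eq_zero] at h
      exact h
    have h1 : B (T z) (T k) = B z k := hC.isom z k
    rw [hTk] at h1
    rw [LinearMap.sub_apply, Module.End.one_apply, map_sub, LinearMap.sub_apply, h1, sub_self]
  have hKnd : LinearMap.ker (T - 1) ⊓ perp B (LinearMap.ker (T - 1)) = ⊥ :=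
    Cfsg.Agent.H60.Ot.ker_nondeg B T hC.symm hC.nondeg hKRtop hUK
  have hKdim : e + 1 ≤ finrank F ↥(LinearMap.ker (T - 1)) := by
    have h : kk T ⊤ = finrank F ↥(LinearMap.ker (T - 1)) := by unfold kk; rw [top_inf_eq]
    omega
  have hδ' : δ * ∏ a, B (x a) (x a) ≠ 0 :=
    mul_ne_zero hδ (Finset.prod_ne_zero_iff.mpr (fun a _ => hxn a))
  obtain ⟨y, hyK, hyo, hyn, hysq⟩ := Cfsg.Agent.H95.Oh.fin_subdisc F V B hC.two_ne hC.symm
    (LinearMap.ker (T - 1)) hKnd e (δ * ∏ a, B (x a) (x a)) he hKdim hδ'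
  have hW₁R : W₁ ≤ LinearMap.range (T - 1) := by
    have h := hsplit W₁ hW₁
    rw [hW₁K, bot_sup_eq] at h
    exact inf_eq_left.mp h
  have hxy : ∀ a b, B (x a) (y b) = 0 := fun a b => hUK (x a) (hW₁R (hxW a)) (y b) (hyK b)
  have hTy : ∀ b, T (y b) = y b := by
    intro b
    have h := LinearMap.mem_ker.mp (hyK b)
    rw [LinearMap.sub_apply, Module.End.one_apply, sub_eq_zero] at h
    exact h
  refine ⟨Fin.append x y, ⟨?_, ?_⟩, ?_, ?_⟩
  · intro a b hab
    induction a using Fin.addCases with
    | left a =>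
      induction b using Fin.addCases with
      | left b =>
        rw [Fin.append_left, Fin.append_left]
        exact hxo a b (fun h => hab (by rw [h]))
      | right b =>
        rw [Fin.append_left, Fin.append_right]
        exact hxy a b
    | right a =>
      induction b using Fin.addCases with
      | left b =>
        rw [Fin.append_left, Fin.append_right, hC.symm]
        exact hxy b a
      | right b =>
        rw [Fin.append_right, Fin.append_right]
        exact hyo a b (fun h => hab (by rw [h]))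
  · intro a
    induction a using Fin.addCases with
    | left a => rw [Fin.append_left]; exact hxn a
    | right a => rw [Fin.append_right]; exact hyn a
  · rw [Fin.prod_univ_add]
    simp only [Fin.append_left, Fin.append_right]
    rw [← mul_assoc]
    exact hysq
  · rw [Module.End.mem_invtSubmodule, Submodule.span_le]
    rintro _ ⟨a, rfl⟩
    rw [SetLike.mem_coe, Submodule.mem_comap]
    induction a using Fin.addCases with
    | left a =>
      rw [Fin.append_left]
      have hW₁' := hW₁
      rw [Module.End.mem_invtSubmodule] at hW₁'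
      have h1 : T (x a) ∈ W₁ := hW₁' (hxW a)
      rw [← hxspan] at h1
      refine Submodule.span_mono ?_ h1
      rintro _ ⟨b, rfl⟩
      exact ⟨Fin.castAdd e b, by rw [Fin.append_left]⟩
    | right a =>
      rw [Fin.append_right, hTy]
      exact Submodule.subset_span ⟨Fin.natAdd _ a, by rw [Fin.append_right]⟩

example : Cfsg.Agent.H86.Nd.StNdBack.{u, v} := ndBack

end Cfsg.Agent.H3.Nd
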