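import Mathlib
import Cfsg.Agent.H86.NdDefs
import Cfsg.Agent.H49.NDTrans

/-!
# S5989 / S5991 team project (helper86): piece ND-ORBTRANS (helper3)

Witt: two isometric nondegenerate subspaces, both orthogonal to a nondegenerate subspace `R`,
are conjugate under an isometry fixing `R` pointwise.  Port of helper48's `H48/OhOrbTrans.lean`
on top of helper49's `witt_nondeg`.
-/

set_option autoImplicit false
open scoped MatrixGroups
open scoped Matrix

namespace Cfsg.Agent.H3.Nd

open Cfsg.Agent.H45 Cfsg.Agent.H86.Ev2 Cfsg.Agent.H86.Nd Module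

universe u

/-- **ND-ORBTRANS**. -/
theorem ndOrbTrans : StNdOrbTrans.{u} := by
  intro F _ _ ι _ _ Q B h2 hBr R W W' hRnd hWnd hW'nd hWR hW'R hiso
  classical
  have hBpol : ∀ x y, B x y = QuadraticMap.polar ⇑Q x y := hBr.pol
  have hBsymm : ∀ x y, B x y = B y x := hBr.symm
  have hQnd : (QuadraticMap.polarBilin Q).Nondegenerate := by
    have h1 : ∀ x : ι → F, (∀ y, QuadraticMap.polarBilin Q x y = 0) → x = 0 := by
      intro x hx
      exact hBr.nd x (fun y => by rw [hBpol]; exact hx y)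
    constructor
    · intro x hx
      exact h1 x hx
    · intro y hy
      refine h1 y (fun x => ?_)
      have := hy x
      rw [QuadraticMap.polarBilin_apply_apply] at this ⊢
      rw [QuadraticMap.polar_comm]; exact this
  obtain ⟨e₀, he₀B⟩ := hiso
  have he₀ : ∀ x : W, Q ((e₀ x : W') : ι → F) = Q (x : ι → F) := by
    intro x
    have h1 := he₀B x x
    rw [hBr.diag, hBr.diag] at h1
    exact mul_left_cancel₀ h2 h1
  -- the linear map: `e₀` on `W`, identity on `perp B W ⊇ R`
  have hcompl : IsCompl W (perp B W) := isCompl_perp B W hWnd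
  let π : (ι → F) →ₗ[F] W := Submodule.linearProjOfIsCompl W (perp B W) hcompl
  let e : (ι → F) →ₗ[F] (ι → F) :=
    W'.subtype ∘ₗ e₀.toLinearMap ∘ₗ π + (LinearMap.id - W.subtype ∘ₗ π)
  have hRperp : R ≤ perp B W := by
    intro x hx y hy
    rw [hBsymm]
    exact hWR hy x hx
  have heW : ∀ x : W, e (x : ι → F) = (e₀ x : W') := by
    intro x
    have h1 : π (x : ι → F) = x := Submodule.linearProjOfIsCompl_apply_left hcompl x
    simp only [e, LinearMap.add_apply, LinearMap.comp_apply, LinearMap.sub_apply,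
      LinearMap.id_apply, Submodule.subtype_apply, LinearEquiv.coe_coe]
    rw [h1, sub_self, add_zero]
  have heR : ∀ x ∈ R, e x = x := by
    intro x hx
    have h1 : π x = 0 := Submodule.linearProjOfIsCompl_apply_right' hcompl (hRperp hx)
    simp only [e, LinearMap.add_apply, LinearMap.comp_apply, LinearMap.sub_apply,
      LinearMap.id_apply, Submodule.subtype_apply, LinearEquiv.coe_coe]
    rw [h1, map_zero]
    simp
  -- `W ⊔ R` is nondegenerate
  have hU : (W ⊔ R) ⊓ LinearMap.BilinForm.orthogonal (QuadraticMap.polarBilin Q) (W ⊔ R)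
      = ⊥ := by
    rw [eq_bot_iff]
    rintro x ⟨hx1, hx2⟩
    rw [Submodule.mem_bot]
    have hx2' : ∀ n ∈ W ⊔ R, B n x = 0 := by
      intro n hn
      have h1 : (QuadraticMap.polarBilin Q) n x = 0 :=
        (LinearMap.BilinForm.mem_orthogonal_iff.mp hx2) n hn
      rw [hBpol]
      exact h1
    obtain ⟨y, hy, r, hr, rfl⟩ := Submodule.mem_sup.mp hx1
    have hy0 : y = 0 := by
      have h1 : y ∈ W ⊓ perp B W := by
        refine ⟨hy, fun z hz => ?_⟩
        have h3 := hx2' z (Submodule.mem_sup_left hz)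
        rw [map_add, hRperp hr z hz, add_zero] at h3
        exact h3
      rw [hWnd] at h1
      exact (Submodule.mem_bot F).mp h1
    have hr0 : r = 0 := by
      have h1 : r ∈ R ⊓ perp B R := by
        refine ⟨hr, fun z hz => ?_⟩
        have h3 := hx2' z (Submodule.mem_sup_right hz)
        rw [map_add, hBsymm z y, hRperp hz y hy, zero_add] at h3
        exact h3
      rw [hRnd] at h1
      exact (Submodule.mem_bot F).mp h1
    rw [hy0, hr0, add_zero]
  have he : ∀ x ∈ W ⊔ R, Q (e x) = Q x := by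
    intro x hx
    obtain ⟨y, hy, r, hr, rfl⟩ := Submodule.mem_sup.mp hx
    rw [map_add, heW ⟨y, hy⟩, heR r hr]
    have h1 : QuadraticMap.polar ⇑Q ((e₀ ⟨y, hy⟩ : W') : ι → F) r = 0 := by
      rw [← hBpol, hBsymm]
      exact hW'R (e₀ ⟨y, hy⟩).2 r hr
    have h3 : QuadraticMap.polar ⇑Q y r = 0 := by
      rw [← hBpol, hBsymm]
      exact hWR hy r hr
    rw [QuadraticMap.polar] at h1 h3
    have h4 := he₀ ⟨y, hy⟩
    simp only at h4
    linear_combination h1 - h3 + h4
  have hex' : Fintype.card F ≠ 2 ∨ finrank F (ι → F) ≠ 4 := by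
    left
    intro hc
    have h3 := Nat.cast_card_eq_zero F
    rw [hc] at h3
    exact h2 (by exact_mod_cast h3)
  obtain ⟨g, hg⟩ := Cfsg.Agent.H49.witt_nondeg Q hQnd hex' (W ⊔ R) hU e he
  refine ⟨(g : Matrix.GeneralLinearGroup ι F), g.2, ?_, ?_⟩
  · intro x hx
    rw [Matrix.toLin'_apply, hg x (Submodule.mem_sup_right hx), heR x hx]
  · apply le_antisymm
    · rintro y ⟨x, hx, rfl⟩
      rw [Matrix.toLin'_apply, hg x (Submodule.mem_sup_left hx), heW ⟨x, hx⟩]
      exact (e₀ ⟨x, hx⟩).2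
    · intro y hy
      refine ⟨(e₀.symm ⟨y, hy⟩ : W), (e₀.symm ⟨y, hy⟩).2, ?_⟩
      rw [Matrix.toLin'_apply, hg _ (Submodule.mem_sup_left (e₀.symm ⟨y, hy⟩).2),
        heW (e₀.symm ⟨y, hy⟩), LinearEquiv.apply_symm_apply]

example : Cfsg.Agent.H86.Nd.StNdOrbTrans.{u} := ndOrbTrans

end Cfsg.Agent.H3.Nd
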