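import Mathlib
import Cfsg.Agent.H86.NdDefs
import Cfsg.Agent.H86.Ev2Fin
import Cfsg.Agent.H91.Ev2UnipBase

/-!
# S5989 / S5991 team project (helper86): piece ND-RPME (helper3)

S5991, `r = p`, `k` odd (`d = k + 1` even): an element of order `p` of `Ω⁻_{2d}(q)` fixing no
member of the set of nondegenerate `m`-spaces isometric to `W₀` (`m` odd).  The element has
Jordan type `(3, 1, 2^(k-1))` with a fixed nonsingular vector `p₀` whose norm class is chosen
against the discriminant class of `W₀`.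
-/

set_option autoImplicit false

namespace Cfsg.Agent.H3.Nd

open Cfsg.Agent.H45 Cfsg.Agent.H42.Spd Cfsg.Agent.H42.Ti Cfsg.Agent.H14.Ot Cfsg.Agent.H95.Oh
  Cfsg.Agent.H86.Ev2 Cfsg.Agent.H86.Nd Module

universe u

theorem rp_sq_of_mul_sq {F : Type u} [Field F] {ν t s : F} (ht : t ≠ 0)
    (h : ν * (t * t) = s * s) : IsSquare ν := by
  refine ⟨s / t, ?_⟩
  field_simp
  linear_combination h

theorem rp_prod_ne {F : Type u} [Field F] {V : Type u} [AddCommGroup V] [Module F V]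
    (B : V →ₗ[F] V →ₗ[F] F) {n : ℕ} (w : Fin n → V) (hw : OrthoFam B w) :
    ∏ a, B (w a) (w a) ≠ 0 :=
  Finset.prod_ne_zero_iff.mpr (fun a _ => hw.2 a)

/-- **ND-RPME**. -/
theorem rpMEven (hO : StUniOmega.{u}) (h4 : StUex4M.{u}) (hA : StUnip4A.{u, u})
    (hB : StUnip4B.{u, u}) (hD : StDiscPerp.{u, u}) : StRpMEven.{u} := by
  intro F _ _ p _ _ k m a b hp hab hk hk3 hm hmk W₀ hW₀
  classical
  have hpP : p.Prime := Fact.out
  have h2 : (2 : F) ≠ 0 := by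
    intro h
    have h1 : ((2 : ℕ) : F) = 0 := by exact_mod_cast h
    have h3 : p ∣ 2 := (CharP.cast_eq_zero_iff F p 2).mp h1
    exact hp ((Nat.prime_dvd_prime_iff_eq hpP Nat.prime_two).mp h3)
  obtain ⟨B, hBr, -⟩ := brM_bridge fin_brM F k a b h2 hab
  -- the discriminants of `W₀` and of the whole space, a nonsquare
  obtain ⟨v₀, hv₀, hv₀span⟩ := hBr.exists_ortho fin_ortho h2 m W₀ hW₀
  have htop : (⊤ : Submodule F (MI k → F)) ⊓ perp B ⊤ = ⊥ := by
    rw [eq_bot_iff]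
    rintro y ⟨-, hy⟩
    rw [Submodule.mem_bot]
    exact hBr.nd y (fun z => by rw [hBr.symm]; exact hy z Submodule.mem_top)
  obtain ⟨u, -, huo, hun, huspan⟩ := fin_ortho F (MI k → F) B h2 hBr.symm ⊤ htop
  have hu : OrthoFam B u := ⟨huo, hun⟩
  obtain ⟨ν, hν⟩ : ∃ ν : F, ¬ IsSquare ν := by
    apply FiniteField.exists_nonsquare
    rw [ringChar.eq F p]
    exact hp
  have hν0 : ν ≠ 0 := by
    rintro rfl
    exact hν ⟨0, by simp⟩
  obtain ⟨δ₀, hδ₀⟩ : ∃ δ₀ : F, δ₀ = ∏ a, B (v₀ a) (v₀ a) := ⟨_, rfl⟩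
  obtain ⟨D, hD'⟩ : ∃ D : F, D = ∏ a, B (u a) (u a) := ⟨_, rfl⟩
  have hδ₀0 : δ₀ ≠ 0 := by rw [hδ₀]; exact rp_prod_ne B v₀ hv₀
  have hD0 : D ≠ 0 := by rw [hD']; exact rp_prod_ne B u hu
  obtain ⟨α, hα⟩ : ∃ α : F, α = if m % 4 = 1 then 2 * ν * δ₀ else 2 * ν * δ₀ * D := ⟨_, rfl⟩
  have hα0 : α ≠ 0 := by
    rw [hα]
    split_ifs
    · exact mul_ne_zero (mul_ne_zero h2 hν0) hδ₀0
    · exact mul_ne_zero (mul_ne_zero (mul_ne_zero h2 hν0) hδ₀0) hD0
  obtain ⟨x, hxiso, hx3, hx2rank, hxrank, p₀, hp₀fix, hp₀Q, hp₀sq⟩ :=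
    h4 F k a b α h2 hab hk hα0
  have hx1 : x ≠ 1 := by
    rintro rfl
    have h1 : Matrix.toLin' ((1 : Matrix.GeneralLinearGroup (MI k) F) :
        Matrix (MI k) (MI k) F) - 1 = 0 := by
      rw [Units.val_one, Matrix.toLin'_one]; exact sub_self _
    rw [h1, mul_zero, LinearMap.range_zero, finrank_bot] at hx2rank
    exact zero_ne_one hx2rank
  obtain ⟨hxΩ, hxp, hxsc⟩ := hO F p (MI k) (Cfsg.Agent.H49.QMin k F a b) hp hBr.polar_nd x
    hxiso hx3 hx1
  refine ⟨x, hxΩ, hxp, hxsc, ?_⟩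
  rintro W ⟨hWm, hWnd, hWiso⟩ hWinv
  obtain ⟨T, hT⟩ : ∃ T : Module.End F (MI k → F),
      T = Matrix.toLin' (x : Matrix (MI k) (MI k) F) := ⟨_, rfl⟩
  rw [← hT] at hx3 hx2rank hxrank hp₀fix hWinv
  have hTiso : ∀ y z, B (T y) (T z) = B y z := by rw [hT]; exact (hBr.iso x).mp hxiso
  have hdimV : finrank F (MI k → F) = 2 * k + 2 := by
    rw [Module.finrank_fintype_fun_eq_card]; simp; ring
  have hV4 : finrank F (MI k → F) % 4 = 0 := by
    rw [hdimV]; obtain ⟨t, rfl⟩ := hk; omega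
  have hrank : 2 * finrank F ↥(LinearMap.range (T - 1)) = finrank F (MI k → F) := by
    rw [hdimV]; exact hxrank
  have hWnd' : W ⊓ perp B W = ⊥ := (hBr.ndW W).mp hWnd
  have hWinv' : W ∈ T.invtSubmodule := (map_le_iff_invt T W).mp hWinv
  obtain ⟨w, hw, hwspan⟩ := hBr.exists_ortho fin_ortho h2 m W ⟨hWm, hWnd⟩
  obtain ⟨Pw, hPw⟩ : ∃ Pw : F, Pw = ∏ a, B (w a) (w a) := ⟨_, rfl⟩
  have hPw0 : Pw ≠ 0 := by rw [hPw]; exact rp_prod_ne B w hw
  -- the discriminant class of `W` is that of `W₀`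
  have hWdisc : IsSquare (Pw * δ₀) := by
    rw [hPw, hδ₀]
    apply fin_discInv F (MI k → F) B hBr.symm m w v₀ hw hv₀
    obtain ⟨e, he⟩ := hWiso
    refine ⟨(LinearEquiv.ofEq _ _ hwspan).trans (e.trans (LinearEquiv.ofEq _ _ hv₀span.symm)),
      ?_⟩
    intro y z
    have h1 : ∀ y' z' : W, B ((e y' : W₀) : MI k → F) ((e z' : W₀) : MI k → F)
        = B (y' : MI k → F) (z' : MI k → F) := by
      intro y' z'
      rw [hBr.pol, hBr.pol]
      have h3 := he (y' + z')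
      rw [map_add] at h3
      have h4 := he y'
      have h5 := he z'
      simp only [Submodule.coe_add] at h3
      show Cfsg.quadFormMinus k F a b _ - Cfsg.quadFormMinus k F a b _
        - Cfsg.quadFormMinus k F a b _ = Cfsg.quadFormMinus k F a b _
        - Cfsg.quadFormMinus k F a b _ - Cfsg.quadFormMinus k F a b _
      rw [h3, h4, h5]
    exact h1 (LinearEquiv.ofEq _ _ hwspan y) (LinearEquiv.ofEq _ _ hwspan z)
  have hp₀B : B p₀ p₀ ≠ 0 := by rw [hBr.diag]; exact mul_ne_zero h2 hp₀Q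
  have hdiag : B p₀ p₀ = 2 * Cfsg.quadFormMinus k F a b p₀ := hBr.diag p₀
  obtain ⟨s1, hs1⟩ := hWdisc
  obtain ⟨s4, hs4⟩ := hp₀sq
  have hs10 : s1 ≠ 0 := by
    rintro rfl
    rw [mul_zero] at hs1
    exact mul_ne_zero hPw0 hδ₀0 hs1
  by_cases hm4 : m % 4 = 1
  · rw [if_pos hm4] at hα
    obtain ⟨v, c, U, hvW, hc, hvv, hUW, hUTI, hUv, hUdim, hUev⟩ :=
      hA F (MI k → F) B T h2 hBr.symm hBr.nd hTiso hx3 hx2rank hrank hV4 p₀ hp₀fix hp₀B W
        hWinv' hWnd' (by rw [hWm]; exact hm4)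
    have hvv0 : B v v ≠ 0 := by rw [hvv]; exact mul_ne_zero (mul_ne_zero hc hc) hp₀B
    obtain ⟨s2, hs2⟩ := hB F (MI k → F) B h2 hBr.symm W v U hWnd' hvW hvv0 hUW hUTI hUv hUdim
      hUev m w hw hwspan
    rw [← hPw] at hs2
    have hs20 : s2 ≠ 0 := by
      rintro rfl
      rw [mul_zero] at hs2
      exact mul_ne_zero hvv0 hPw0 hs2
    apply hν
    apply rp_sq_of_mul_sq (t := s1 * s2) (s := s4 * c * Pw) (mul_ne_zero hs10 hs20)
    have e : ν * ((s1 * s1) * (s2 * s2)) = (s4 * s4) * (c * c) * (Pw * Pw) := by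
      rw [← hs1, ← hs2, ← hs4, hvv, hα, hdiag]; ring
    linear_combination e
  · have hm3 : m % 4 = 3 := by obtain ⟨t, rfl⟩ := hm; omega
    rw [if_neg hm4] at hα
    -- the orthogonal complement of `W`
    have hcompl : IsCompl W (perp B W) := Cfsg.Agent.H91.Ev2.isCompl_perp' B W hWnd'
    have hW'dim : finrank F W + finrank F ↥(perp B W) = finrank F (MI k → F) := by
      have h := Submodule.finrank_sup_add_finrank_inf_eq W (perp B W)
      rw [hcompl.sup_eq_top, hcompl.inf_eq_bot, finrank_top, finrank_bot, add_zero] at h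
      exact h.symm
    have hW'nd : perp B W ⊓ perp B (perp B W) = ⊥ := by
      rw [eq_bot_iff]
      rintro y ⟨hy1, hy2⟩
      rw [Submodule.mem_bot]
      apply hBr.nd
      intro z
      have hz : z ∈ W ⊔ perp B W := by rw [hcompl.sup_eq_top]; exact Submodule.mem_top
      obtain ⟨z1, hz1, z2, hz2, rfl⟩ := Submodule.mem_sup.mp hz
      rw [map_add, hBr.symm y z1, hy1 z1 hz1, hBr.symm y z2, hy2 z2 hz2, add_zero]
    have hN3 : ∀ z, (T - 1) ((T - 1) ((T - 1) z)) = 0 := by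
      intro z
      have h := LinearMap.congr_fun hx3 z
      rw [pow_succ, pow_two, Module.End.mul_apply, Module.End.mul_apply,
        LinearMap.zero_apply] at h
      exact h
    have hWN : ∀ y ∈ W, (T - 1) y ∈ W := by
      intro y hy
      have hWi := hWinv'
      rw [Module.End.mem_invtSubmodule] at hWi
      rw [LinearMap.sub_apply, Module.End.one_apply]
      exact W.sub_mem (hWi hy) hy
    have hW'inv : perp B W ∈ T.invtSubmodule := by
      rw [Module.End.mem_invtSubmodule]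
      intro y hy
      rw [Submodule.mem_comap]
      have h1 := Cfsg.Agent.H91.Ev2.perp_inv B T hBr.symm hTiso hN3 W hWN y hy
      have h3 : T y = (T - 1) y + y := by
        rw [LinearMap.sub_apply, Module.End.one_apply]; abel
      rw [h3]
      exact (perp B W).add_mem h1 hy
    have hW'4 : finrank F ↥(perp B W) % 4 = 1 := by
      rw [hWm] at hW'dim
      omega
    obtain ⟨v, c, U, hvW, hc, hvv, hUW, hUTI, hUv, hUdim, hUev⟩ :=
      hA F (MI k → F) B T h2 hBr.symm hBr.nd hTiso hx3 hx2rank hrank hV4 p₀ hp₀fix hp₀B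
        (perp B W) hW'inv hW'nd hW'4
    have hvv0 : B v v ≠ 0 := by rw [hvv]; exact mul_ne_zero (mul_ne_zero hc hc) hp₀B
    obtain ⟨w', -, hw'o, hw'n, hw'span⟩ :=
      fin_ortho F (MI k → F) B h2 hBr.symm (perp B W) hW'nd
    have hw' : OrthoFam B w' := ⟨hw'o, hw'n⟩
    obtain ⟨Pw', hPw'⟩ : ∃ Pw' : F, Pw' = ∏ a, B (w' a) (w' a) := ⟨_, rfl⟩
    have hPw'0 : Pw' ≠ 0 := by rw [hPw']; exact rp_prod_ne B w' hw'
    obtain ⟨s2, hs2⟩ := hB F (MI k → F) B h2 hBr.symm (perp B W) v U hW'nd hvW hvv0 hUW hUTI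
      hUv hUdim hUev _ w' hw' hw'span
    rw [← hPw'] at hs2
    obtain ⟨s3, hs3⟩ := hD F (MI k → F) B hBr.symm hBr.nd W hWnd' m w hw hwspan _ w' hw'
      hw'span _ u hu huspan
    rw [← hPw, ← hPw', ← hD'] at hs3
    have hs20 : s2 ≠ 0 := by
      rintro rfl
      rw [mul_zero] at hs2
      exact mul_ne_zero hvv0 hPw'0 hs2
    have hs30 : s3 ≠ 0 := by
      rintro rfl
      rw [mul_zero] at hs3
      exact mul_ne_zero (mul_ne_zero hPw0 hPw'0) hD0 hs3
    apply hν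
    apply rp_sq_of_mul_sq (t := s1 * s2 * s3) (s := s4 * c * Pw * Pw')
      (mul_ne_zero (mul_ne_zero hs10 hs20) hs30)
    have e : ν * ((s1 * s1) * (s2 * s2) * (s3 * s3))
        = (s4 * s4) * (c * c) * (Pw * Pw) * (Pw' * Pw') := by
      rw [← hs1, ← hs2, ← hs3, ← hs4, hvv, hα, hdiag]; ring
    linear_combination e

example (hO : Cfsg.Agent.H86.Nd.StUniOmega.{u}) (h4 : Cfsg.Agent.H86.Nd.StUex4M.{u})
    (hA : Cfsg.Agent.H86.Nd.StUnip4A.{u, u}) (hB : Cfsg.Agent.H86.Nd.StUnip4B.{u, u})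
    (hD : Cfsg.Agent.H86.Nd.StDiscPerp.{u, u}) : Cfsg.Agent.H86.Nd.StRpMEven.{u} :=
  rpMEven hO h4 hA hB hD

end Cfsg.Agent.H3.Nd
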