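import Mathlib
import Cfsg.Agent.H99.OrtDefs

set_option autoImplicit false
open scoped MatrixGroups

namespace Cfsg.Agent.H3.Ort

universe u

section

set_option linter.unusedSectionVars false

variable {F : Type*} [Field F] {I J : Type*} [Fintype I] [DecidableEq I] [Fintype J]
  [DecidableEq J]

/-- The block embedding `g ↦ diag(g, 1)`. -/
def blkM (g : Matrix I I F) : Matrix (I ⊕ J) (I ⊕ J) F := Matrix.fromBlocks g 0 0 1

theorem blkM_one : (blkM (1 : Matrix I I F) : Matrix (I ⊕ J) (I ⊕ J) F) = 1 :=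
  Matrix.fromBlocks_one

theorem blkM_mul (g h : Matrix I I F) :
    (blkM (g * h) : Matrix (I ⊕ J) (I ⊕ J) F) = blkM g * blkM h := by
  unfold blkM
  rw [Matrix.fromBlocks_multiply]
  simp

theorem blkM_injective : Function.Injective (blkM : Matrix I I F → Matrix (I ⊕ J) (I ⊕ J) F) := by
  intro g h hgh
  unfold blkM at hgh
  exact (Matrix.fromBlocks_inj.1 hgh).1

theorem det_blkM (g : Matrix I I F) : (blkM g : Matrix (I ⊕ J) (I ⊕ J) F).det = g.det := by
  unfold blkM
  rw [Matrix.det_fromBlocks_zero₂₁, Matrix.det_one, mul_one]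

theorem blkM_transpose_mul (g A : Matrix I I F) (D : Matrix J J F) :
    (blkM g : Matrix (I ⊕ J) (I ⊕ J) F).transpose * Matrix.fromBlocks A 0 0 D * blkM g =
      Matrix.fromBlocks (g.transpose * A * g) 0 0 D := by
  unfold blkM
  rw [Matrix.fromBlocks_transpose, Matrix.fromBlocks_multiply, Matrix.fromBlocks_multiply]
  simp

theorem blkM_sub_one (g : Matrix I I F) :
    (blkM g : Matrix (I ⊕ J) (I ⊕ J) F) - 1 = Matrix.fromBlocks (g - 1) 0 0 0 := by
  unfold blkM
  ext (i | i) (j | j) <;> simp [Matrix.sub_apply, Matrix.one_apply]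

end

/-- S5981-PAD: padding, reindexing to `Fin n`, intersecting with `SL`. -/
theorem pad : Cfsg.Agent.H99.Ort.StPad.{u} := by
  classical
  intro F _ _ q k c m n r hq hn hk hc A₁ hA₁ K₂ x₁ hK₂ hx₁ hx₁r hx₁1 a'
  have hcard : Fintype.card ((Fin k × Fin c) ⊕ Fin m) = n := by
    simp [hn]
  obtain ⟨e⟩ : Nonempty (((Fin k × Fin c) ⊕ Fin m) ≃ Fin n) :=
    ⟨Fintype.equivFinOfCardEq hcard⟩
  obtain ⟨R, hR⟩ : ∃ R : Matrix ((Fin k × Fin c) ⊕ Fin m) ((Fin k × Fin c) ⊕ Fin m) F ≃ₐ[F]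
      Matrix (Fin n) (Fin n) F, R = Matrix.reindexAlgEquiv F F e := ⟨_, rfl⟩
  have hRt : ∀ M, (R M).transpose = R M.transpose := by
    intro M
    rw [hR]
    rfl
  have hRdet : ∀ M, (R M).det = M.det := by
    intro M
    rw [hR]
    exact Matrix.det_reindexAlgEquiv F F e M
  obtain ⟨KA, hKA⟩ : ∃ KA : Matrix (Fin k × Fin c) (Fin k × Fin c) F,
      KA = Matrix.kroneckerMap (· * ·) (1 : Matrix (Fin k) (Fin k) F) A₁ := ⟨_, rfl⟩
  rw [← hKA] at hK₂ hx₁
  have hKAt : KA.transpose = KA := by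
    rw [hKA, ← Matrix.kroneckerMap_transpose, Matrix.transpose_one, hA₁]
  have hKAdet : KA.det = A₁.det ^ k := by
    rw [hKA]
    have := Matrix.det_kronecker (1 : Matrix (Fin k) (Fin k) F) A₁
    rw [Matrix.det_one, one_pow, one_mul, Fintype.card_fin] at this
    exact this
  obtain ⟨B₀, hB₀⟩ : ∃ B₀ : Matrix ((Fin k × Fin c) ⊕ Fin m) ((Fin k × Fin c) ⊕ Fin m) F,
      B₀ = Matrix.fromBlocks KA 0 0 (Matrix.diagonal a') := ⟨_, rfl⟩
  -- the embedding
  obtain ⟨φ, hφ⟩ : ∃ φ : Matrix (Fin k × Fin c) (Fin k × Fin c) F →* Matrix (Fin n) (Fin n) F,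
      ∀ g, φ g = R (blkM g) :=
    ⟨{ toFun := fun g => R (blkM g)
       map_one' := by rw [blkM_one, map_one]
       map_mul' := by intro g h; rw [blkM_mul, map_mul] }, fun g => rfl⟩
  have hφinj : Function.Injective φ := by
    intro g h hgh
    rw [hφ, hφ] at hgh
    exact blkM_injective (R.injective hgh)
  have hφpres : ∀ g : Matrix (Fin k × Fin c) (Fin k × Fin c) F, g.transpose * KA * g = KA →
      (φ g).transpose * R B₀ * φ g = R B₀ := by
    intro g hg
    rw [hφ, hRt, ← map_mul, ← map_mul, hB₀, blkM_transpose_mul, hg]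
  have hφdet : ∀ g, (φ g).det = g.det := by
    intro g
    rw [hφ, hRdet, det_blkM]
  obtain ⟨ι, hι⟩ : ∃ ι : GL (Fin k × Fin c) F →* GL (Fin n) F,
      ∀ g, ((ι g : GL (Fin n) F) : Matrix (Fin n) (Fin n) F) = φ g :=
    ⟨Units.map φ, fun g => rfl⟩
  have hιinj : Function.Injective ι := by
    intro g h hgh
    apply Units.ext
    apply hφinj
    rw [← hι, ← hι, hgh]
  refine ⟨R B₀, (K₂.map ι) ⊓ (Matrix.GeneralLinearGroup.det).ker, φ x₁, ?_, ?_, ?_, ?_, ?_, ?_,
    ?_, ?_⟩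
  · -- symmetric
    rw [hRt, hB₀, Matrix.fromBlocks_transpose, hKAt, Matrix.diagonal_transpose,
      Matrix.transpose_zero, Matrix.transpose_zero]
  · -- determinant
    rw [hRdet, hB₀, Matrix.det_fromBlocks_zero₂₁, Matrix.det_diagonal, hKAdet]
  · -- the group preserves the form and has determinant one
    rintro g ⟨⟨g₂, hg₂, rfl⟩, hdet⟩
    refine ⟨?_, ?_⟩
    · rw [hι]
      exact hφpres _ (hK₂ g₂ hg₂)
    · have h1 : Matrix.GeneralLinearGroup.det (ι g₂) = 1 := hdet
      have h2 := congrArg Units.val h1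
      exact h2
  · -- the index
    obtain ⟨H, hH⟩ : ∃ H : Subgroup (GL (Fin n) F), H = K₂.map ι := ⟨_, rfl⟩
    rw [← hH]
    have hc1 : Nat.card K₂ = Nat.card H := by
      rw [hH]
      exact Nat.card_congr (K₂.equivMapOfInjective ι hιinj).toEquiv
    obtain ⟨d, hd⟩ : ∃ d : H →* Fˣ, d = (Matrix.GeneralLinearGroup.det).comp H.subtype :=
      ⟨_, rfl⟩
    have hker : d.ker = ((H ⊓ (Matrix.GeneralLinearGroup.det).ker).subgroupOf H) := by
      ext x
      rw [MonoidHom.mem_ker, Subgroup.mem_subgroupOf, Subgroup.mem_inf, MonoidHom.mem_ker, hd]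
      simp
    have hc2 : Nat.card d.ker = Nat.card ↥(H ⊓ (Matrix.GeneralLinearGroup.det).ker) := by
      rw [hker]
      exact Nat.card_congr (Subgroup.subgroupOfEquivOfLe inf_le_left).toEquiv
    have hc3 : Nat.card d.ker * d.ker.index = Nat.card H := Subgroup.card_mul_index d.ker
    have hc4 : d.ker.index ∣ q - 1 := by
      rw [Subgroup.index_ker]
      have h1 : Nat.card d.range ∣ Nat.card Fˣ := Subgroup.card_subgroup_dvd_card d.range
      have h2 : Nat.card Fˣ = q - 1 := by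
        rw [Nat.card_eq_fintype_card, Fintype.card_units, hq]
      rwa [h2] at h1
    rw [hc1, ← hc3, hc2]
    exact Nat.mul_dvd_mul_left _ hc4
  · exact hφpres x₁ hx₁
  · rw [← map_pow, hx₁r, map_one]
  · intro h
    have hx1 : x₁ = 1 := hφinj (h.trans (map_one φ).symm)
    haveI : Nonempty (Fin k × Fin c) := ⟨(⟨0, by omega⟩, ⟨0, by omega⟩)⟩
    rw [hx1, sub_self, Matrix.det_zero] at hx₁1
    exact not_isUnit_zero hx₁1
  · intro hm
    haveI : IsEmpty (Fin m) := by rw [hm]; infer_instance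
    have h1 : φ x₁ - 1 = R (blkM x₁ - 1) := by
      rw [hφ, map_sub, map_one]
    rw [h1, hRdet, blkM_sub_one, Matrix.det_fromBlocks_zero₂₁,
      Matrix.det_isEmpty (A := (0 : Matrix (Fin m) (Fin m) F)), mul_one]
    exact hx₁1

example : Cfsg.Agent.H99.Ort.StPad.{u} := pad

end Cfsg.Agent.H3.Ort
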