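import Mathlib
import Cfsg.Agent.H26.P2Defs
import Cfsg.Agent.H99.AltSq
import Cfsg.Agent.H83.Basic

/-!
# S4705 team project (helper26): piece P2-KEY (helper3)

The key identity `χ(y)² - χ(y²) = (p - 3) χ(y^s)` on `p`-regular elements: the exterior square
`Λ²χ` is the sum of the Galois conjugates `ξ_ν`, `1 ≤ ν ≤ (p-1)/2`, `ν ≠ 2` (assembly of the
pieces SING, XI, INJ, SUM, DECOMP).
-/

set_option autoImplicit false

namespace Cfsg.Agent.H3.P2

open Cfsg Cfsg.Agent.H26.P2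
open scoped ComplexConjugate

universe u

theorem key_cd {G : Type u} [Group G] {χ : G → ℂ} {n : ℕ} (h : χ 1 = (n : ℂ)) :
    charDegree χ = n := by
  unfold charDegree
  rw [h]
  simp

/-- **P2-KEY**. -/
theorem key (hS : StSing.{u}) (hX : StXi.{u}) (hI : StInj.{u}) (hU : StSum.{u})
    (hD : StDecomp.{u}) : StKey.{u} := by
  intro G _ _ p _ P χ μ s H
  classical
  haveI : Fintype G := Fintype.ofFinite G
  have hpP : p.Prime := Fact.out
  have hp5 := H.hp5
  -- the degree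
  obtain ⟨n₀, hn₀pos, hχ1⟩ := Cfsg.Agent.H83.IsIrrCharacter.one_eq H.irr
  have hn₀ : n₀ + 2 = p := by rw [← key_cd hχ1]; exact H.deg
  -- the pieces
  have hSing : SingC p P := hS p P H.cardP H.cen H.nor H.zreg
  obtain ⟨ξ, hξ⟩ := hX p P χ μ s H
  obtain ⟨Ψ, hΨ⟩ : ∃ Ψ : G → ℂ, Ψ = fun g => (χ g ^ 2 - χ (g * g)) / 2 := ⟨_, rfl⟩
  have hχchar : IsCharacter G χ := by
    obtain ⟨k, ρ, -, h⟩ := H.irr
    exact ⟨k, ρ, h⟩
  have hΨchar : IsCharacter G Ψ := by
    rw [hΨ]; exact Cfsg.Agent.H99.AltSq.altSq_isCharacter χ hχchar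
  have hχcf : IsClassFunction G χ := Cfsg.Agent.H83.IsIrrCharacter.isClassFunction H.irr
  have hΨcf : IsClassFunction G Ψ := by
    intro g h
    rw [hΨ]
    simp only
    have e : h * g * h⁻¹ * (h * g * h⁻¹) = h * (g * g) * h⁻¹ := by group
    rw [e, hχcf g h, hχcf (g * g) h]
  have hnd : ∀ ν : ℕ, 1 ≤ ν → 2 * ν + 1 ≤ p → ¬ p ∣ ν := fun ν h1 h2 hd => by
    have := Nat.le_of_dvd (by omega) hd
    omega
  have hG0 : (Nat.card G : ℂ) ≠ 0 := Nat.cast_ne_zero.mpr Nat.card_pos.ne'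
  have hZ0 : (Nat.card (Subgroup.center G) : ℂ) ≠ 0 := Nat.cast_ne_zero.mpr Nat.card_pos.ne'
  have hp0 : (p : ℂ) ≠ 0 := Nat.cast_ne_zero.mpr hpP.pos.ne'
  -- the inner products `⟨Ψ, ξ_ν⟩`
  obtain ⟨R, hR⟩ : ∃ R : ℂ, R = ∑ g ∈ Finset.univ.filter (fun g : G => ¬ p ∣ orderOf g),
      Ψ g * conj (χ (g ^ s)) := ⟨_, rfl⟩
  have hinner : ∀ ν : ℕ, 1 ≤ ν → 2 * ν + 1 ≤ p →
      classInner Ψ (ξ ν).1 = (Nat.card G : ℂ)⁻¹ * R
        + (if ν = 2 then -(2 * (p : ℂ) - 6) else 6) / (2 * (p : ℂ)) := by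
    intro ν h1 h2
    obtain ⟨hreg, hsing⟩ := hξ ν (hnd ν h1 h2)
    unfold classInner
    rw [← Finset.sum_filter_add_sum_filter_not Finset.univ (fun g : G => p ∣ orderOf g)]
    have e1 : ∑ g ∈ Finset.univ.filter (fun g : G => ¬ p ∣ orderOf g),
        Ψ g * conj ((ξ ν).1 g) = R := by
      rw [hR]
      apply Finset.sum_congr rfl
      intro g hg
      rw [hreg g (Finset.mem_filter.mp hg).2]
    have hFcf : IsClassFunction G (fun g => Ψ g * conj ((ξ ν).1 g)) := by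
      intro g h
      simp only
      rw [hΨcf g h, (Cfsg.Agent.H83.IsIrrCharacter.isClassFunction (ξ ν).2) g h]
    have e2 := hSing (fun g => Ψ g * conj ((ξ ν).1 g)) hFcf
    beta_reduce at e2
    have e3 : ∑ᶠ (g : G) (_ : p ∣ orderOf g), Ψ g * conj ((ξ ν).1 g)
        = ∑ g ∈ Finset.univ.filter (fun g : G => p ∣ orderOf g), Ψ g * conj ((ξ ν).1 g) := by
      apply finsum_cond_eq_sum_of_cond_iff
      intro g _
      simp
    have e4 : ∑ᶠ (x : ↥(P : Subgroup G)) (_ : x ≠ 1), ∑ᶠ z : Subgroup.center G,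
        Ψ ((x : G) * (z : G)) * conj ((ξ ν).1 ((x : G) * (z : G)))
        = (Nat.card (Subgroup.center G) : ℂ) * (if ν = 2 then -(2 * (p : ℂ) - 6) else 6) := by
      rw [← hU p P χ μ s H ν h1 h2]
      apply finsum_congr; intro x
      apply finsum_congr; intro hx
      apply finsum_congr; intro z
      rw [hsing x z z.2, hΨ]
    rw [e3, e4] at e2
    rw [e1]
    obtain ⟨S, hSdef⟩ : ∃ S : ℂ, S = ∑ g ∈ Finset.univ.filter (fun g : G => p ∣ orderOf g),
        Ψ g * conj ((ξ ν).1 g) := ⟨_, rfl⟩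
    rw [← hSdef] at e2 ⊢
    obtain ⟨c, hc⟩ : ∃ c : ℂ, c = (if ν = 2 then -(2 * (p : ℂ) - 6) else 6) := ⟨_, rfl⟩
    rw [← hc] at e2 ⊢
    have h5 : S * (2 * (p : ℂ)) = (Nat.card G : ℂ) * c :=
      mul_left_cancel₀ hZ0 (by linear_combination e2)
    field_simp
    linear_combination h5
  -- the decomposition of `Ψ`
  obtain ⟨n, hn⟩ : ∃ n : ℕ, 2 * n + 1 = p := by
    rcases hpP.eq_two_or_odd with h | h
    · omega
    · exact ⟨p / 2, by omega⟩
  have hn3 : 3 ≤ n := by omega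
  have hdec := hD Ψ hΨchar n (fun i => ξ (i + 1)) n₀ hn3 hn₀pos ?_ ?_ ?_ ?_ ?_
  · intro y hy
    have h1 := congrFun hdec y
    have h2 : ∑ i ∈ (Finset.range n).erase 1, (ξ (i + 1)).1 y
        = ((n - 1 : ℕ) : ℂ) * χ (y ^ s) := by
      have h3 : ∀ i ∈ (Finset.range n).erase 1, (ξ (i + 1)).1 y = χ (y ^ s) := by
        intro i hi
        have hi' := Finset.mem_range.mp (Finset.mem_erase.mp hi).2
        exact (hξ (i + 1) (hnd (i + 1) (by omega) (by omega))).1 y hy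
      rw [Finset.sum_congr rfl h3, Finset.sum_const, Finset.card_erase_of_mem
        (Finset.mem_range.mpr (by omega)), Finset.card_range, nsmul_eq_mul]
    rw [h2, hΨ] at h1
    simp only at h1
    have h4 : ((n - 1 : ℕ) : ℂ) = (n : ℂ) - 1 := by
      rw [Nat.cast_sub (by omega)]; simp
    have h5 : (p : ℂ) = 2 * (n : ℂ) + 1 := by rw [← hn]; push_cast; ring
    rw [h4] at h1
    rw [h5]
    linear_combination 2 * h1
  · -- distinctness
    intro i j hi hj hij
    by_contra hne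
    have hval : ∀ i' : ℕ, i' < n → ∀ x : ↥(P : Subgroup G),
        (ξ (i' + 1)).1 (x : G) = χ ((x : G) ^ (i' + 1)) := by
      intro i' hi' x
      have h := (hξ (i' + 1) (hnd (i' + 1) (by omega) (by omega))).2 x 1
        (Subgroup.one_mem _)
      rw [mul_one, one_pow, mul_one] at h
      exact h
    beta_reduce at hij
    rcases lt_or_gt_of_ne hne with hlt | hlt
    · obtain ⟨x, hx⟩ := hI p P χ μ s H (i + 1) (j + 1) (by omega) (by omega) (by omega)
      apply hx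
      rw [← hval i hi x, ← hval j hj x, hij]
    · obtain ⟨x, hx⟩ := hI p P χ μ s H (j + 1) (i + 1) (by omega) (by omega) (by omega)
      apply hx
      rw [← hval i hi x, ← hval j hj x, hij]
  · -- degrees
    intro i hi
    apply key_cd
    have h := (hξ (i + 1) (hnd (i + 1) (by omega) (by omega))).1 1
      (by rw [orderOf_one]; exact hpP.one_lt.ne' ∘ Nat.dvd_one.mp)
    rw [one_pow] at h
    rw [h, hχ1]
  · -- the degree of `Ψ`
    rw [hΨ]
    simp only
    rw [mul_one, hχ1]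
    have h4 : ((n - 1 : ℕ) : ℂ) = (n : ℂ) - 1 := by
      rw [Nat.cast_sub (by omega)]; simp
    have h5 : (n₀ : ℂ) = 2 * (n : ℂ) - 1 := by
      have : n₀ + 1 = 2 * n := by omega
      have h6 : ((n₀ + 1 : ℕ) : ℂ) = ((2 * n : ℕ) : ℂ) := by rw [this]
      push_cast at h6
      linear_combination h6
    rw [Nat.cast_mul, h4, h5]
    ring
  · -- equal multiplicities
    intro i hi hi1
    rw [hinner (i + 1) (by omega) (by omega), hinner (0 + 1) (by omega) (by omega),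
      if_neg (by omega), if_neg (by omega)]
  · -- the exceptional multiplicity
    rw [hinner (1 + 1) (by omega) (by omega), hinner (0 + 1) (by omega) (by omega),
      if_pos (by omega), if_neg (by omega)]
    field_simp
    ring

example (hS : Cfsg.Agent.H26.P2.StSing.{u}) (hX : Cfsg.Agent.H26.P2.StXi.{u})
    (hI : Cfsg.Agent.H26.P2.StInj.{u}) (hU : Cfsg.Agent.H26.P2.StSum.{u})
    (hD : Cfsg.Agent.H26.P2.StDecomp.{u}) : Cfsg.Agent.H26.P2.StKey.{u} :=
  key hS hX hI hU hD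

end Cfsg.Agent.H3.P2
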