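import Mathlib
import Cfsg.Agent.H3.Meta1

set_option autoImplicit false

namespace Cfsg.Agent.H3

/-- An elementary abelian group of order `p^2`. -/
structure IsPlane (p : ℕ) (V : Type*) [CommGroup V] : Prop where
  exp : ∀ a : V, a ^ p = 1
  card : Nat.card V = p ^ 2

section
variable {V : Type*} [CommGroup V] {p : ℕ} [Fact p.Prime]

theorem IsPlane.finite (hV : IsPlane p V) : Finite V :=
  Nat.finite_of_card_ne_zero (by rw [hV.card]; exact pow_ne_zero _ (Fact.out : p.Prime).ne_zero)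

theorem IsPlane.card_zpowers (hV : IsPlane p V) {u : V} (hu : u ≠ 1) :
    Nat.card (Subgroup.zpowers u) = p := by
  rw [Nat.card_zpowers]
  exact orderOf_eq_prime (hV.exp u) hu

theorem IsPlane.mem_zpowers_symm (hV : IsPlane p V) {u x : V} (hx : x ∈ Subgroup.zpowers u)
    (hx1 : x ≠ 1) : u ∈ Subgroup.zpowers x := by
  haveI := hV.finite
  have hu1 : u ≠ 1 := by
    rintro rfl
    rw [Subgroup.zpowers_one_eq_bot, Subgroup.mem_bot] at hx
    exact hx1 hx
  have hle : Subgroup.zpowers x ≤ Subgroup.zpowers u := by rwa [Subgroup.zpowers_le]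
  have heq : Subgroup.zpowers x = Subgroup.zpowers u :=
    Subgroup.eq_of_le_of_card_ge hle (by rw [hV.card_zpowers hx1, hV.card_zpowers hu1])
  rw [heq]; exact Subgroup.mem_zpowers u

theorem IsPlane.inf_eq_bot (hV : IsPlane p V) {u w : V} (hw : w ∉ Subgroup.zpowers u) :
    Subgroup.zpowers u ⊓ Subgroup.zpowers w = ⊥ := by
  rw [eq_bot_iff]
  intro x hx
  rw [Subgroup.mem_bot]
  by_contra hx1
  have h1 := hV.mem_zpowers_symm (Subgroup.mem_inf.mp hx).2 hx1
  exact hw ((Subgroup.zpowers_le.mpr (Subgroup.mem_inf.mp hx).1) h1)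

theorem IsPlane.eq_top_of_mem (hV : IsPlane p V) (K : Subgroup V) {u w : V} (hu : u ≠ 1)
    (hw : w ∉ Subgroup.zpowers u) (huK : u ∈ K) (hwK : w ∈ K) : K = ⊤ := by
  haveI := hV.finite
  have hp : p.Prime := Fact.out
  have hVp : IsPGroup p V := IsPGroup.of_card hV.card
  have hlt : Subgroup.zpowers u < K := by
    refine lt_of_le_of_ne (by rwa [Subgroup.zpowers_le]) ?_
    intro h; exact hw (h ▸ hwK)
  have h1 := card_mul_le_of_lt hVp hlt
  rw [hV.card_zpowers hu] at h1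
  apply Subgroup.eq_top_of_card_eq
  apply le_antisymm (Subgroup.card_le_card_group K)
  rw [hV.card, pow_two]; exact h1

theorem IsPlane.sup_eq_top (hV : IsPlane p V) {u w : V} (hu : u ≠ 1)
    (hw : w ∉ Subgroup.zpowers u) : Subgroup.zpowers u ⊔ Subgroup.zpowers w = ⊤ :=
  hV.eq_top_of_mem _ hu hw (Subgroup.mem_sup_left (Subgroup.mem_zpowers u))
    (Subgroup.mem_sup_right (Subgroup.mem_zpowers w))

theorem IsPlane.exists_decomp (hV : IsPlane p V) {u w : V} (hu : u ≠ 1)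
    (hw : w ∉ Subgroup.zpowers u) (v : V) :
    ∃ a ∈ Subgroup.zpowers u, ∃ b ∈ Subgroup.zpowers w, a * b = v := by
  have : v ∈ Subgroup.zpowers u ⊔ Subgroup.zpowers w := by
    rw [hV.sup_eq_top hu hw]; exact Subgroup.mem_top v
  exact Subgroup.mem_sup.mp this

theorem IsPlane.exists_ne_one (hV : IsPlane p V) : ∃ u : V, u ≠ 1 := by
  haveI := hV.finite
  have hp : p.Prime := Fact.out
  by_contra h
  push Not at h
  have h1 : Nat.card V = 1 := by
    haveI : Subsingleton V := ⟨fun a b => by rw [h a, h b]⟩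
    exact Nat.card_of_subsingleton 1
  rw [hV.card] at h1
  have := hp.one_lt
  nlinarith [this]

theorem IsPlane.exists_not_mem (hV : IsPlane p V) (u : V) : ∃ w : V, w ∉ Subgroup.zpowers u := by
  haveI := hV.finite
  have hp : p.Prime := Fact.out
  by_contra h
  push Not at h
  have htop : Subgroup.zpowers u = ⊤ := (Subgroup.eq_top_iff' _).mpr h
  have hcard : Nat.card (Subgroup.zpowers u) = p ^ 2 := by
    rw [htop, Subgroup.card_top, hV.card]
  by_cases hu : u = 1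
  · subst hu
    rw [Subgroup.zpowers_one_eq_bot, Subgroup.card_bot] at hcard
    have := hp.one_lt; nlinarith
  · rw [hV.card_zpowers hu] at hcard
    have := hp.one_lt; nlinarith

theorem map_mem_zpowers_of_mem {φ : MulAut V} {u : V} (hφ : φ u ∈ Subgroup.zpowers u) {a : V}
    (ha : a ∈ Subgroup.zpowers u) : φ a ∈ Subgroup.zpowers u := by
  obtain ⟨i, rfl⟩ := Subgroup.mem_zpowers_iff.mp ha
  rw [map_zpow]; exact Subgroup.zpow_mem _ hφ i

/-- An automorphism fixing three distinct lines is a power map. -/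
theorem IsPlane.three_lines (hV : IsPlane p V) (φ : MulAut V) {u w x : V} (hu : u ≠ 1)
    (hw : w ∉ Subgroup.zpowers u) (hxu : x ∉ Subgroup.zpowers u) (hxw : x ∉ Subgroup.zpowers w)
    (h1 : φ u ∈ Subgroup.zpowers u) (h2 : φ w ∈ Subgroup.zpowers w)
    (h3 : φ x ∈ Subgroup.zpowers x) : ∃ γ : ℤ, ∀ v, φ v = v ^ γ := by
  obtain ⟨γ, hγ⟩ := Subgroup.mem_zpowers_iff.mp h3
  refine ⟨γ, ?_⟩
  let E : Subgroup V := MonoidHom.eqLocus φ.toMonoidHom (zpowGroupHom γ)
  have hE : ∀ v, v ∈ E ↔ φ v = v ^ γ := fun v => Iff.rfl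
  obtain ⟨a, ha, b, hb, hab⟩ := hV.exists_decomp hu hw x
  have hφa := map_mem_zpowers_of_mem h1 ha
  have hφb := map_mem_zpowers_of_mem h2 hb
  have heq : φ a * φ b = a ^ γ * b ^ γ := by rw [← map_mul, hab, ← hγ, ← hab, mul_zpow]
  have hkey : φ a * (a ^ γ)⁻¹ = b ^ γ * (φ b)⁻¹ := by
    rw [mul_inv_eq_iff_eq_mul, mul_comm (b ^ γ * (φ b)⁻¹), ← mul_assoc, eq_mul_inv_iff_mul_eq]
    exact heq
  have hmem : φ a * (a ^ γ)⁻¹ ∈ Subgroup.zpowers u ⊓ Subgroup.zpowers w := by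
    refine Subgroup.mem_inf.mpr
      ⟨Subgroup.mul_mem _ hφa (Subgroup.inv_mem _ (Subgroup.zpow_mem _ ha γ)), ?_⟩
    rw [hkey]
    exact Subgroup.mul_mem _ (Subgroup.zpow_mem _ hb γ) (Subgroup.inv_mem _ hφb)
  rw [hV.inf_eq_bot hw, Subgroup.mem_bot] at hmem
  have haE : φ a = a ^ γ := by rwa [mul_inv_eq_one] at hmem
  have hbE : φ b = b ^ γ := by
    rw [haE] at heq; exact mul_left_cancel heq
  have ha1 : a ≠ 1 := by
    rintro rfl; rw [one_mul] at hab; exact hxw (hab ▸ hb)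
  have hb1 : b ≠ 1 := by
    rintro rfl; rw [mul_one] at hab; exact hxu (hab ▸ ha)
  have huE : u ∈ E :=
    (Subgroup.zpowers_le.mpr ((hE a).mpr haE)) (hV.mem_zpowers_symm ha ha1)
  have hwE : w ∈ E :=
    (Subgroup.zpowers_le.mpr ((hE b).mpr hbE)) (hV.mem_zpowers_symm hb hb1)
  have htop := hV.eq_top_of_mem E hu hw huE hwE
  intro v
  exact (hE v).mp (htop ▸ Subgroup.mem_top v)

end

/-- The automorphisms fixing every cyclic subgroup. -/
def scal (V : Type*) [CommGroup V] : Subgroup (MulAut V) where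
  carrier := {φ | ∀ v, φ v ∈ Subgroup.zpowers v ∧ φ⁻¹ v ∈ Subgroup.zpowers v}
  one_mem' := fun v => ⟨Subgroup.mem_zpowers v, by simp⟩
  mul_mem' := by
    intro φ ψ hφ hψ v
    refine ⟨?_, ?_⟩
    · rw [MulAut.mul_apply]
      exact (Subgroup.zpowers_le.mpr (hψ v).1) (hφ (ψ v)).1
    · rw [mul_inv_rev, MulAut.mul_apply]
      exact (Subgroup.zpowers_le.mpr (hφ v).2) (hψ (φ⁻¹ v)).2
  inv_mem' := by
    intro φ hφ v
    refine ⟨(hφ v).2, ?_⟩
    rw [inv_inv]; exact (hφ v).1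

section
variable {V : Type*} [CommGroup V] {p : ℕ} [Fact p.Prime]

theorem IsPlane.mem_scal_of (hV : IsPlane p V) {φ : MulAut V}
    (h : ∀ v, φ v ∈ Subgroup.zpowers v) : φ ∈ scal V := by
  intro v
  refine ⟨h v, ?_⟩
  by_cases hv : v = 1
  · subst hv; simp
  · have h1 := h (φ⁻¹ v)
    rw [MulAut.apply_inv_self] at h1
    exact hV.mem_zpowers_symm h1 hv

theorem IsPlane.scal_exists_zpow (hV : IsPlane p V) {φ : MulAut V} (h : φ ∈ scal V) :
    ∃ γ : ℤ, ∀ v, φ v = v ^ γ := by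
  obtain ⟨u, hu⟩ := hV.exists_ne_one
  obtain ⟨w, hw⟩ := hV.exists_not_mem u
  have hxu : u * w ∉ Subgroup.zpowers u := by
    intro hx
    apply hw
    have := Subgroup.mul_mem _ (Subgroup.inv_mem _ (Subgroup.mem_zpowers u)) hx
    rwa [inv_mul_cancel_left] at this
  have hxw : u * w ∉ Subgroup.zpowers w := by
    intro hx
    have h1 := Subgroup.mul_mem _ hx (Subgroup.inv_mem _ (Subgroup.mem_zpowers w))
    rw [mul_inv_cancel_right] at h1
    exact hw (hV.mem_zpowers_symm h1 hu)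
  exact hV.three_lines φ hu hw hxu hxw (h u).1 (h w).1 (h (u * w)).1

theorem IsPlane.scal_comm (hV : IsPlane p V) {φ : MulAut V} (h : φ ∈ scal V) (ψ : MulAut V) :
    φ * ψ = ψ * φ := by
  obtain ⟨γ, hγ⟩ := hV.scal_exists_zpow h
  ext v
  rw [MulAut.mul_apply, MulAut.mul_apply, hγ, hγ, map_zpow]

theorem IsPlane.not_scal_three (hV : IsPlane p V) (φ : MulAut V) (hφ : φ ∉ scal V) {u w x : V}
    (hu : u ≠ 1) (hw : w ∉ Subgroup.zpowers u)
    (h1 : φ u ∈ Subgroup.zpowers u) (h2 : φ w ∈ Subgroup.zpowers w)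
    (h3 : φ x ∈ Subgroup.zpowers x) : x ∈ Subgroup.zpowers u ∨ x ∈ Subgroup.zpowers w := by
  by_contra hcon
  push Not at hcon
  obtain ⟨γ, hγ⟩ := hV.three_lines φ hu hw hcon.1 hcon.2 h1 h2 h3
  apply hφ
  apply hV.mem_scal_of
  intro v
  rw [hγ]; exact Subgroup.zpow_mem_zpowers v γ

/-- If a set `X` of automorphisms, containing a non-scalar one, has a common eigenvector `u` and is
normalized by a set `Y` of automorphisms of odd order, then `u` is an eigenvector of `Y` too. -/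
theorem IsPlane.normal_fix (hV : IsPlane p V) (X Y : Set (MulAut V))
    (hodd : ∀ y ∈ Y, Odd (orderOf y)) (hnorm : ∀ y ∈ Y, ∀ x ∈ X, y⁻¹ * x * y ∈ X)
    (hns : ∃ x ∈ X, x ∉ scal V) {u : V} (hu1 : u ≠ 1)
    (hu : ∀ x ∈ X, x u ∈ Subgroup.zpowers u) :
    ∀ y ∈ Y, y u ∈ Subgroup.zpowers u := by
  intro y hy
  by_contra hyu
  have htr : ∀ a : V, (∀ x ∈ X, x a ∈ Subgroup.zpowers a) →
      ∀ x ∈ X, x (y a) ∈ Subgroup.zpowers (y a) := by
    intro a ha x hx
    have h1 := ha _ (hnorm y hy x hx)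
    obtain ⟨i, hi⟩ := Subgroup.mem_zpowers_iff.mp h1
    have h2 : x (y a) = y ((y⁻¹ * x * y) a) := by
      simp only [MulAut.mul_apply, MulAut.apply_inv_self]
    rw [h2, ← hi, map_zpow]
    exact Subgroup.zpow_mem_zpowers _ i
  obtain ⟨x₀, hx₀, hx₀s⟩ := hns
  have hw := htr u hu
  have hyw := htr (y u) hw
  rcases hV.not_scal_three x₀ hx₀s hu1 hyu (hu x₀ hx₀) (hw x₀ hx₀) (hyw x₀ hx₀) with h | h
  · have h2 : ∀ m : ℕ, ((y * y) ^ m) u ∈ Subgroup.zpowers u := by
      intro m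
      induction m with
      | zero => simp
      | succ m ih =>
        rw [pow_succ, MulAut.mul_apply]
        exact map_mem_zpowers_of_mem ih h
    obtain ⟨k, hk⟩ := hodd y hy
    have hy2 : (y * y) ^ (k + 1) = y := by
      rw [← pow_two, ← pow_mul]
      have h3 : 2 * (k + 1) = orderOf y + 1 := by omega
      rw [h3, pow_succ, pow_orderOf_eq_one, one_mul]
    exact hyu (hy2 ▸ h2 (k + 1))
  · obtain ⟨j, hj⟩ := Subgroup.mem_zpowers_iff.mp h
    rw [← map_zpow] at hj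
    have h3 := y.injective hj
    exact hyu (h3 ▸ Subgroup.zpow_mem_zpowers u j)

end

end Cfsg.Agent.H3
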