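import Cfsg.Agent.H3.Plane

set_option autoImplicit false

namespace Cfsg.Agent.H3

section
variable {V : Type*} [CommGroup V] {p : ℕ} [Fact p.Prime]

theorem comm_pow_identity (a b c : V) (i j k l : ℤ) :
    (a ^ i * b ^ j) ^ k * (b ^ i * c ^ j) ^ l = (a ^ k * b ^ l) ^ i * (b ^ k * c ^ l) ^ j := by
  simp only [mul_zpow, ← zpow_mul]
  rw [mul_comm i k, mul_comm j k, mul_comm i l, mul_comm j l]
  exact mul_mul_mul_comm _ _ _ _

/-- An automorphism of odd order whose conjugate of a line-free automorphism `e` commutes with `e`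
commutes with `e`. -/
theorem IsPlane.irr_commute (hV : IsPlane p V) {e b : MulAut V}
    (he : ∀ v : V, v ≠ 1 → e v ∉ Subgroup.zpowers v)
    (hb : Odd (orderOf b)) (hcomm : Commute e (b⁻¹ * e * b)) : Commute b e := by
  obtain ⟨v₀, hv₀⟩ := hV.exists_ne_one
  have hw₀ := he v₀ hv₀
  have hinv : ∀ K : Subgroup V, (∀ v ∈ K, e v ∈ K) → (∃ v ∈ K, v ≠ 1) → K = ⊤ := by
    rintro K hK ⟨v, hvK, hv1⟩
    exact hV.eq_top_of_mem K hv1 (he v hv1) hvK (hK v hvK)
  obtain ⟨x, hx, y, hy, hxy⟩ := hV.exists_decomp hv₀ hw₀ (e (e v₀))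
  obtain ⟨a, rfl⟩ := Subgroup.mem_zpowers_iff.mp hx
  obtain ⟨t, rfl⟩ := Subgroup.mem_zpowers_iff.mp hy
  let f : V →* V := e.toMonoidHom.comp e.toMonoidHom
  let g : V →* V := (zpowGroupHom t).comp e.toMonoidHom * zpowGroupHom a
  have hR : ∀ v, e (e v) = (e v) ^ t * v ^ a := by
    have htop : MonoidHom.eqLocus f g = ⊤ := by
      apply hV.eq_top_of_mem _ hv₀ hw₀
      · show e (e v₀) = (e v₀) ^ t * v₀ ^ a
        rw [← hxy, mul_comm]
      · show e (e (e v₀)) = (e (e v₀)) ^ t * (e v₀) ^ a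
        have h1 : e (e (e v₀)) = e (v₀ ^ a * (e v₀) ^ t) := by rw [hxy]
        rw [h1, map_mul, map_zpow, map_zpow, mul_comm]
    intro v
    have h2 : v ∈ MonoidHom.eqLocus f g := htop ▸ Subgroup.mem_top v
    exact h2
  set e' : MulAut V := b⁻¹ * e * b with he'
  have he'v : ∀ v, e' v = b⁻¹ (e (b v)) := fun v => rfl
  have hR' : ∀ v, e' (e' v) = (e' v) ^ t * v ^ a := by
    intro v
    rw [he'v (e' v), he'v v, MulAut.apply_inv_self, hR, map_mul, map_zpow, map_zpow,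
      MulAut.inv_apply_self]
  have hc : ∀ v, e' (e v) = e (e' v) := by
    intro v
    have h1 := congrArg (fun φ : MulAut V => φ v) hcomm.eq
    exact h1.symm
  let K : Subgroup V := MonoidHom.eqLocus e'.toMonoidHom e.toMonoidHom
  have hKmem : ∀ v, v ∈ K ↔ e' v = e v := fun v => Iff.rfl
  have hKinv : ∀ v ∈ K, e v ∈ K := by
    intro v hv
    rw [hKmem] at hv ⊢
    rw [hc, hv]
  by_cases hK : ∃ v ∈ K, v ≠ 1
  · have htop := hinv K hKinv hK
    have hee : e' = e := by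
      ext v
      exact (hKmem v).mp (htop ▸ Subgroup.mem_top v)
    rw [he'] at hee
    show b * e = e * b
    calc b * e = b * (b⁻¹ * e * b) := by rw [hee]
      _ = e * b := by group
  · push Not at hK
    have hS : ∀ v, e' v = v ^ t * (e v)⁻¹ := by
      intro v
      have hmem : e' v * e v * (v ^ t)⁻¹ ∈ K := by
        rw [hKmem]
        simp only [map_mul, map_inv, map_zpow]
        rw [hR' v, hR v, hc v]
        rw [mul_assoc ((e' v) ^ t), mul_inv_cancel_comm, mul_comm (e (e' v)),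
          mul_assoc ((e v) ^ t), mul_inv_cancel_comm]
      have h1 := hK _ hmem
      rw [mul_inv_eq_one, ← eq_mul_inv_iff_mul_eq] at h1
      exact h1
    have hbb : (b * b)⁻¹ * e * (b * b) = e := by
      ext v
      have h1 : ((b * b)⁻¹ * e * (b * b)) v = b⁻¹ (e' (b v)) := by
        simp only [he', mul_inv_rev, MulAut.mul_apply]
      rw [h1, hS (b v), map_mul, map_zpow, map_inv, MulAut.inv_apply_self, ← he'v v, hS v,
        mul_inv_rev, inv_inv, mul_comm (e v), mul_inv_cancel_left]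
    have hcbb : Commute (b * b) e := by
      show b * b * e = e * (b * b)
      calc b * b * e = (b * b) * ((b * b)⁻¹ * e * (b * b)) := by rw [hbb]
        _ = e * (b * b) := by group
    obtain ⟨k, hk⟩ := hb
    have hy2 : (b * b) ^ (k + 1) = b := by
      rw [← pow_two, ← pow_mul]
      have h3 : 2 * (k + 1) = orderOf b + 1 := by omega
      rw [h3, pow_succ, pow_orderOf_eq_one, one_mul]
    rw [← hy2]
    exact hcbb.pow_left (k + 1)

/-- The centralizer of a line-free automorphism is commutative. -/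
theorem IsPlane.irr_centralizer_comm (hV : IsPlane p V) {e : MulAut V}
    (he : ∀ v : V, v ≠ 1 → e v ∉ Subgroup.zpowers v)
    {c c' : MulAut V} (hc : Commute c e) (hc' : Commute c' e) : c * c' = c' * c := by
  obtain ⟨v₀, hv₀⟩ := hV.exists_ne_one
  have hw₀ := he v₀ hv₀
  have hce : ∀ v, c (e v) = e (c v) := fun v => congrArg (fun φ : MulAut V => φ v) hc.eq
  have hc'e : ∀ v, c' (e v) = e (c' v) := fun v => congrArg (fun φ : MulAut V => φ v) hc'.eq
  let K : Subgroup V := MonoidHom.eqLocus (c * c').toMonoidHom (c' * c).toMonoidHom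
  have hKmem : ∀ v, v ∈ K ↔ c (c' v) = c' (c v) := fun v => Iff.rfl
  have hv₀K : v₀ ∈ K := by
    rw [hKmem]
    obtain ⟨x, hx, y, hy, hxy⟩ := hV.exists_decomp hv₀ hw₀ (c v₀)
    obtain ⟨i, rfl⟩ := Subgroup.mem_zpowers_iff.mp hx
    obtain ⟨j, rfl⟩ := Subgroup.mem_zpowers_iff.mp hy
    obtain ⟨x', hx', y', hy', hxy'⟩ := hV.exists_decomp hv₀ hw₀ (c' v₀)
    obtain ⟨k, rfl⟩ := Subgroup.mem_zpowers_iff.mp hx'
    obtain ⟨l, rfl⟩ := Subgroup.mem_zpowers_iff.mp hy'
    have h1 : c (e v₀) = (e v₀) ^ i * (e (e v₀)) ^ j := by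
      rw [hce, ← hxy, map_mul, map_zpow, map_zpow]
    have h2 : c' (e v₀) = (e v₀) ^ k * (e (e v₀)) ^ l := by
      rw [hc'e, ← hxy', map_mul, map_zpow, map_zpow]
    calc c (c' v₀) = c (v₀ ^ k * (e v₀) ^ l) := by rw [hxy']
      _ = (c v₀) ^ k * (c (e v₀)) ^ l := by rw [map_mul, map_zpow, map_zpow]
      _ = (v₀ ^ i * (e v₀) ^ j) ^ k * ((e v₀) ^ i * (e (e v₀)) ^ j) ^ l := by rw [h1, ← hxy]
      _ = (v₀ ^ k * (e v₀) ^ l) ^ i * ((e v₀) ^ k * (e (e v₀)) ^ l) ^ j :=
          comm_pow_identity _ _ _ i j k l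
      _ = (c' v₀) ^ i * (c' (e v₀)) ^ j := by rw [h2, ← hxy']
      _ = c' (v₀ ^ i * (e v₀) ^ j) := by rw [map_mul, map_zpow, map_zpow]
      _ = c' (c v₀) := by rw [hxy]
  have hKinv : ∀ v ∈ K, e v ∈ K := by
    intro v hv
    rw [hKmem] at hv ⊢
    rw [hc'e, hce, hce, hc'e, hv]
  have htop := hV.eq_top_of_mem K hv₀ hw₀ hv₀K (hKinv v₀ hv₀K)
  ext v
  exact (hKmem v).mp (htop ▸ Subgroup.mem_top v)

end

end Cfsg.Agent.H3
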