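import Cfsg.Agent.H3.PlaneIrr

set_option autoImplicit false

namespace Cfsg.Agent.H3

open scoped commutatorElement

/-- The derived series of a subgroup, as subgroups of the ambient group. -/
def dser {G : Type*} [Group G] (B : Subgroup G) : ℕ → Subgroup G
  | 0 => B
  | n + 1 => ⁅dser B n, dser B n⁆

theorem dser_eq_map {G : Type*} [Group G] (B : Subgroup G) (n : ℕ) :
    dser B n = (derivedSeries B n).map B.subtype := by
  induction n with
  | zero =>
    show B = (⊤ : Subgroup B).map B.subtype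
    rw [← MonoidHom.range_eq_map, Subgroup.range_subtype]
  | succ n ih =>
    show ⁅dser B n, dser B n⁆ = _
    rw [ih, derivedSeries_succ, Subgroup.map_commutator]

theorem dser_le {G : Type*} [Group G] (B : Subgroup G) (n : ℕ) : dser B n ≤ B := by
  rw [dser_eq_map]; exact Subgroup.map_subtype_le _

theorem dser_conj {G : Type*} [Group G] (B : Subgroup G) (n : ℕ) :
    ∀ b ∈ B, ∀ x ∈ dser B n, b * x * b⁻¹ ∈ dser B n := by
  induction n with
  | zero => intro b hb x hx; exact B.mul_mem (B.mul_mem hb hx) (B.inv_mem hb)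
  | succ n ih =>
    intro b hb x hx
    have hmap : (dser B n).map (MulAut.conj b).toMonoidHom ≤ dser B n := by
      rintro _ ⟨y, hy, rfl⟩
      exact ih b hb y hy
    have h1 : (dser B (n + 1)).map (MulAut.conj b).toMonoidHom ≤ dser B (n + 1) := by
      show (⁅dser B n, dser B n⁆).map _ ≤ ⁅dser B n, dser B n⁆
      rw [Subgroup.map_commutator]
      exact Subgroup.commutator_mono hmap hmap
    exact h1 ⟨x, hx, rfl⟩

theorem exists_dser_step {G : Type*} [Group G] (B : Subgroup G) [Group.IsSolvable B] (S : Subgroup G)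
    (hBS : ¬ B ≤ S) : ∃ n, ¬ dser B n ≤ S ∧ dser B (n + 1) ≤ S := by
  obtain ⟨m, hm⟩ := Group.IsSolvable.solvable (G := B)
  have hex : ∃ n, dser B n ≤ S := ⟨m, by rw [dser_eq_map, hm, Subgroup.map_bot]; exact bot_le⟩
  classical
  have hn0 : Nat.find hex ≠ 0 := by
    intro h0
    have h1 := Nat.find_spec hex
    rw [h0] at h1
    exact hBS h1
  obtain ⟨k, hk⟩ := Nat.exists_eq_succ_of_ne_zero hn0
  refine ⟨k, ?_, ?_⟩
  · exact Nat.find_min hex (by omega)
  · have h1 := Nat.find_spec hex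
    rwa [hk] at h1

section
variable {V : Type*} [CommGroup V] {p : ℕ} [Fact p.Prime]

/-- A solvable group of automorphisms of odd order of a plane fixes a line or is commutative. -/
theorem IsPlane.odd_core (hV : IsPlane p V) (B : Subgroup (MulAut V)) [Group.IsSolvable B]
    (hodd : ∀ b ∈ B, Odd (orderOf b)) :
    (∃ u : V, u ≠ 1 ∧ ∀ b ∈ B, b u ∈ Subgroup.zpowers u) ∨
      (∀ a ∈ B, ∀ b ∈ B, a * b = b * a) := by
  by_cases hBS : B ≤ scal V
  · right
    intro a ha b hb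
    exact hV.scal_comm (hBS ha) b
  obtain ⟨n, hn1, hn2⟩ := exists_dser_step B (scal V) hBS
  set N := dser B n with hN
  have hNB : N ≤ B := dser_le B n
  have hNnorm : ∀ b ∈ B, ∀ x ∈ N, b⁻¹ * x * b ∈ N := by
    intro b hb x hx
    have h1 := dser_conj B n b⁻¹ (B.inv_mem hb) x hx
    rwa [inv_inv] at h1
  have hNcomm : ∀ x ∈ N, ∀ y ∈ N, ⁅x, y⁆ ∈ scal V := fun x hx y hy =>
    hn2 (Subgroup.commutator_mem_commutator hx hy)
  obtain ⟨e, heN, hes⟩ : ∃ e ∈ N, e ∉ scal V := by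
    by_contra h
    push Not at h
    exact hn1 h
  have hconj : ∀ b ∈ N, ∃ s ∈ scal V, b⁻¹ * e * b = e * s := by
    intro b hb
    refine ⟨⁅e⁻¹, b⁻¹⁆, hNcomm _ (N.inv_mem heN) _ (N.inv_mem hb), ?_⟩
    rw [commutatorElement_def]; group
  by_cases hfix : ∃ u : V, u ≠ 1 ∧ e u ∈ Subgroup.zpowers u
  · left
    obtain ⟨u, hu1, hu⟩ := hfix
    refine ⟨u, hu1, ?_⟩
    have hNu : ∀ y ∈ (N : Set (MulAut V)), y u ∈ Subgroup.zpowers u := by
      apply hV.normal_fix {x | ∃ b ∈ N, x = b⁻¹ * e * b} (N : Set (MulAut V))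
        (fun y hy => hodd y (hNB hy)) ?_ ⟨e, ⟨1, N.one_mem, by simp⟩, hes⟩ hu1 ?_
      · rintro y hy x ⟨b, hb, rfl⟩
        exact ⟨b * y, N.mul_mem hb hy, by group⟩
      · rintro x ⟨b, hb, rfl⟩
        obtain ⟨s, hs, hbs⟩ := hconj b hb
        rw [hbs, MulAut.mul_apply]
        exact map_mem_zpowers_of_mem hu (hs u).1
    exact hV.normal_fix (N : Set (MulAut V)) (B : Set (MulAut V)) hodd hNnorm ⟨e, heN, hes⟩ hu1
      hNu
  · right
    push Not at hfix
    have he : ∀ v : V, v ≠ 1 → e v ∉ Subgroup.zpowers v := hfix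
    have hNe : ∀ b ∈ N, Commute b e := by
      intro b hb
      apply hV.irr_commute he (hodd b (hNB hb))
      obtain ⟨s, hs, hbs⟩ := hconj b hb
      rw [hbs]
      exact (Commute.refl e).mul_right (hV.scal_comm hs e).symm
    have hBe : ∀ b ∈ B, Commute b e := by
      intro b hb
      apply hV.irr_commute he (hodd b hb)
      have h1 : b⁻¹ * e * b ∈ N := hNnorm b hb e heN
      exact (hNe _ h1).symm
    intro a ha b hb
    exact hV.irr_centralizer_comm he (hBe a ha) (hBe b hb)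

theorem fix_of_mem_zpowers {x : MulAut V} {u : V} (hx : x u = u) {l : V}
    (hl : l ∈ Subgroup.zpowers u) : x l = l := by
  obtain ⟨i, rfl⟩ := Subgroup.mem_zpowers_iff.mp hl
  rw [map_zpow, hx]

/-- The stability group of the chain `1 < ⟨u⟩ < V`. -/
def stabChain (u : V) : Subgroup (MulAut V) where
  carrier := {x | x u = u ∧ ∀ v, ∃ l ∈ Subgroup.zpowers u, x v = v * l}
  one_mem' := ⟨rfl, fun v => ⟨1, Subgroup.one_mem _, by simp⟩⟩
  mul_mem' := by
    rintro x y ⟨hx1, hx2⟩ ⟨hy1, hy2⟩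
    refine ⟨by rw [MulAut.mul_apply, hy1, hx1], fun v => ?_⟩
    obtain ⟨l, hl, hyv⟩ := hy2 v
    obtain ⟨l', hl', hxv⟩ := hx2 v
    have hxl : x l = l := fix_of_mem_zpowers hx1 hl
    refine ⟨l' * l, Subgroup.mul_mem _ hl' hl, ?_⟩
    rw [MulAut.mul_apply, hyv, map_mul, hxv, hxl, mul_assoc]
  inv_mem' := by
    rintro x ⟨hx1, hx2⟩
    have hxinv : x⁻¹ u = u := by
      apply x.injective
      rw [MulAut.apply_inv_self, hx1]
    refine ⟨hxinv, fun v => ?_⟩
    obtain ⟨l, hl, hxv⟩ := hx2 (x⁻¹ v)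
    rw [MulAut.apply_inv_self] at hxv
    exact ⟨l⁻¹, Subgroup.inv_mem _ hl, eq_mul_inv_of_mul_eq hxv.symm⟩

omit [Fact p.Prime] in
theorem IsPlane.stabChain_pow (hV : IsPlane p V) {u : V} {x : MulAut V}
    (hx : x ∈ stabChain u) : x ^ p = 1 := by
  obtain ⟨hx1, hx2⟩ := hx
  ext v
  obtain ⟨l, hl, hxv⟩ := hx2 v
  have hxl : x l = l := fix_of_mem_zpowers hx1 hl
  have hpow : ∀ n : ℕ, (x ^ n) v = v * l ^ n := by
    intro n
    induction n with
    | zero => simp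
    | succ n ih =>
      rw [pow_succ', MulAut.mul_apply, ih, map_mul, map_pow, hxl, hxv, mul_assoc, ← pow_succ']
  rw [hpow p, hV.exp l, mul_one, MulAut.one_apply]

theorem IsPlane.commutator_mem_stabChain (hV : IsPlane p V) {u : V} (hu1 : u ≠ 1)
    {a b : MulAut V} (ha : a u ∈ Subgroup.zpowers u) (hb : b u ∈ Subgroup.zpowers u) :
    ⁅a, b⁆ ∈ stabChain u := by
  have haL : ∀ l ∈ Subgroup.zpowers u, a l ∈ Subgroup.zpowers u :=
    fun l hl => map_mem_zpowers_of_mem ha hl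
  have hbL : ∀ l ∈ Subgroup.zpowers u, b l ∈ Subgroup.zpowers u :=
    fun l hl => map_mem_zpowers_of_mem hb hl
  have hinvL : ∀ c : MulAut V, c u ∈ Subgroup.zpowers u →
      ∀ l ∈ Subgroup.zpowers u, c⁻¹ l ∈ Subgroup.zpowers u := by
    intro c hc l hl
    have hcu1 : c u ≠ 1 := by
      intro h; apply hu1; exact c.injective (by rw [h, map_one])
    have h1 : u ∈ Subgroup.zpowers (c u) := hV.mem_zpowers_symm hc hcu1
    obtain ⟨m, hm⟩ := Subgroup.mem_zpowers_iff.mp h1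
    have h2 : c⁻¹ u = u ^ m := by
      apply c.injective
      rw [MulAut.apply_inv_self, map_zpow, hm]
    obtain ⟨i, rfl⟩ := Subgroup.mem_zpowers_iff.mp hl
    rw [map_zpow, h2]
    exact Subgroup.zpow_mem _ (Subgroup.zpow_mem_zpowers u m) i
  have hcommL : ∀ l ∈ Subgroup.zpowers u, a (b l) = b (a l) := by
    intro l hl
    obtain ⟨i, hi⟩ := Subgroup.mem_zpowers_iff.mp ha
    obtain ⟨j, hj⟩ := Subgroup.mem_zpowers_iff.mp hb
    obtain ⟨k, rfl⟩ := Subgroup.mem_zpowers_iff.mp hl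
    have e1 : a (b (u ^ k)) = ((u ^ i) ^ j) ^ k := by
      rw [map_zpow, map_zpow, ← hj, map_zpow, ← hi]
    have e2 : b (a (u ^ k)) = ((u ^ j) ^ i) ^ k := by
      rw [map_zpow, map_zpow, ← hi, map_zpow, ← hj]
    rw [e1, e2]
    congr 1
    rw [← zpow_mul, ← zpow_mul, mul_comm i j]
  obtain ⟨w, hw⟩ := hV.exists_not_mem u
  have hmodw : ∃ l ∈ Subgroup.zpowers u, a (b w) = b (a w) * l := by
    obtain ⟨l₀, hl₀, y, hy, hay⟩ := hV.exists_decomp hu1 hw (a w)
    obtain ⟨α, rfl⟩ := Subgroup.mem_zpowers_iff.mp hy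
    obtain ⟨l₁, hl₁, y', hy', hby⟩ := hV.exists_decomp hu1 hw (b w)
    obtain ⟨β, rfl⟩ := Subgroup.mem_zpowers_iff.mp hy'
    refine ⟨a l₁ * l₀ ^ β * (b l₀ * l₁ ^ α)⁻¹, ?_, ?_⟩
    · exact Subgroup.mul_mem _ (Subgroup.mul_mem _ (haL _ hl₁) (Subgroup.zpow_mem _ hl₀ β))
        (Subgroup.inv_mem _ (Subgroup.mul_mem _ (hbL _ hl₀) (Subgroup.zpow_mem _ hl₁ α)))
    · have e1 : a (b w) = a l₁ * l₀ ^ β * w ^ (α * β) := by
        rw [← hby, map_mul, map_zpow, ← hay, mul_zpow, ← zpow_mul, mul_assoc]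
      have e2 : b (a w) = b l₀ * l₁ ^ α * w ^ (α * β) := by
        rw [← hay, map_mul, map_zpow, ← hby, mul_zpow, ← zpow_mul, mul_assoc, mul_comm β α]
      rw [e1, e2]
      rw [mul_comm (b l₀ * l₁ ^ α) (w ^ (α * β)), mul_assoc (w ^ (α * β)),
        mul_comm (a l₁ * l₀ ^ β) (b l₀ * l₁ ^ α)⁻¹, ← mul_assoc (b l₀ * l₁ ^ α),
        mul_inv_cancel, one_mul, mul_comm]
  have hmod : ∀ v, ∃ l ∈ Subgroup.zpowers u, a (b v) = b (a v) * l := by
    intro v
    obtain ⟨l₂, hl₂, y, hy, hv⟩ := hV.exists_decomp hu1 hw v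
    obtain ⟨j, rfl⟩ := Subgroup.mem_zpowers_iff.mp hy
    obtain ⟨l, hl, hlw⟩ := hmodw
    refine ⟨l ^ j, Subgroup.zpow_mem _ hl j, ?_⟩
    rw [← hv, map_mul, map_mul, map_mul, map_mul, map_zpow, map_zpow, map_zpow, map_zpow, hlw,
      hcommL l₂ hl₂, mul_zpow, mul_assoc]
  have hcomm_eq : ∀ v, ⁅a, b⁆ v = a (b (a⁻¹ (b⁻¹ v))) := fun v => by
    rw [commutatorElement_def]; rfl
  refine ⟨?_, fun v => ?_⟩
  · rw [hcomm_eq]
    have h1 : a⁻¹ (b⁻¹ u) ∈ Subgroup.zpowers u :=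
      hinvL a ha _ (hinvL b hb u (Subgroup.mem_zpowers u))
    rw [hcommL _ h1, MulAut.apply_inv_self, MulAut.apply_inv_self]
  · rw [hcomm_eq]
    obtain ⟨l, hl, h⟩ := hmod (a⁻¹ (b⁻¹ v))
    refine ⟨l, hl, ?_⟩
    rw [h, MulAut.apply_inv_self, MulAut.apply_inv_self]

/-- The derived group of a solvable group of automorphisms of odd order of a plane has exponent
dividing `p`. -/
theorem IsPlane.odd_commutator_pow (hV : IsPlane p V) (B : Subgroup (MulAut V)) [Group.IsSolvable B]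
    (hodd : ∀ b ∈ B, Odd (orderOf b)) : ∀ x ∈ ⁅B, B⁆, x ^ p = 1 := by
  rcases hV.odd_core B hodd with ⟨u, hu1, hu⟩ | hab
  · have hle : ⁅B, B⁆ ≤ stabChain u := by
      rw [Subgroup.commutator_le]
      intro a ha b hb
      exact hV.commutator_mem_stabChain hu1 (hu a ha) (hu b hb)
    intro x hx
    exact hV.stabChain_pow (hle hx)
  · have hbot : ⁅B, B⁆ = ⊥ := by
      rw [Subgroup.commutator_eq_bot_iff_le_centralizer]
      intro a ha
      rw [Subgroup.mem_centralizer_iff]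
      intro b hb
      exact hab b hb a ha
    intro x hx
    rw [hbot, Subgroup.mem_bot] at hx
    rw [hx, one_pow]

end

end Cfsg.Agent.H3
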