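import Cfsg.Agent.H3.PlaneApp

set_option autoImplicit false

namespace Cfsg.Agent.H3

open scoped commutatorElement

/-- For odd `p`, a `p`-subgroup `R` of rank at most two has a subgroup `D` of exponent `p` and
order at most `p^3`, with central commutators, invariant under the normalizer of `R`, on which
`p'`-elements of the normalizer act faithfully (modulo the centralizer of `R`). -/
theorem rank_two_core {G : Type*} [Group G] [Finite G] {p : ℕ} [Fact p.Prime] (hp : p ≠ 2)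
    (R : Subgroup G) (hR : IsPGroup p R)
    (hr : ∀ A : Subgroup R, IsMulCommutative A → (∀ a ∈ A, a ^ p = 1) → Nat.card A ≤ p ^ 2) :
    ∃ D : Subgroup G, D ≤ R ∧
      (∀ g ∈ Subgroup.normalizer (R : Set G), ∀ x ∈ D, g * x * g⁻¹ ∈ D) ∧
      (∀ x ∈ D, x ^ p = 1) ∧ Nat.card D ≤ p ^ 3 ∧
      (∀ a ∈ D, ∀ b ∈ D, ∀ c ∈ D, ⁅a, b⁆ * c = c * ⁅a, b⁆) ∧
      (∀ A : Subgroup G, A ≤ D → (∀ a ∈ A, ∀ b ∈ A, a * b = b * a) → Nat.card A ≤ p ^ 2) ∧
      (∀ g ∈ Subgroup.normalizer (R : Set G), (orderOf g).Coprime p →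
        (∀ x ∈ D, g * x * g⁻¹ = x) → ∀ x ∈ R, g * x * g⁻¹ = x) := by
  have hpp : p.Prime := Fact.out
  obtain ⟨H, K, hHchar, hKchar, hKH, hKD, hDK, hpow, hcomm⟩ := critical_subgroup_exists hR
  let D' : Subgroup R :=
    { carrier := {x | x ∈ H ∧ x ^ p = 1}
      mul_mem' := by
        intro a b ha hb
        refine ⟨H.mul_mem ha.1 hb.1, ?_⟩
        rw [mul_pow_of_central_elementary hpp hp H K hKD hpow hcomm ha.1 hb.1, ha.2, hb.2,
          one_mul]
      one_mem' := ⟨H.one_mem, one_pow p⟩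
      inv_mem' := by
        intro a ha
        exact ⟨H.inv_mem ha.1, by rw [inv_pow, ha.2, inv_one]⟩ }
  have hD'mem : ∀ x, x ∈ D' ↔ x ∈ H ∧ x ^ p = 1 := fun x => Iff.rfl
  have hnorm : ∀ a ∈ Subgroup.normalizer (R : Set G), ∀ x ∈ R, a * x * a⁻¹ ∈ R :=
    fun a ha x hx => (Subgroup.mem_normalizer_iff.mp ha x).mp hx
  let c := conjHom (Subgroup.normalizer (R : Set G)) R hnorm
  have hcD' : ∀ (g : Subgroup.normalizer (R : Set G)) (x : R), x ∈ D' → c g x ∈ D' := by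
    intro g x hx
    exact ⟨Subgroup.characteristic_iff_le_comap.mp hHchar (c g) hx.1,
      by rw [← map_pow, hx.2, map_one]⟩
  refine ⟨D'.map R.subtype, Subgroup.map_subtype_le _, ?_, ?_, ?_, ?_, ?_, ?_⟩
  · rintro g hg _ ⟨x, hx, rfl⟩
    exact ⟨c ⟨g, hg⟩ x, hcD' ⟨g, hg⟩ x hx, rfl⟩
  · rintro _ ⟨x, hx, rfl⟩
    have := hx.2
    rw [← map_pow, this, map_one]
  · have hDp : IsPGroup p D' := hR.to_subgroup D'
    rw [Subgroup.card_subtype]
    apply card_le_cube_of_exponent_of_rank_two hDp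
    intro A hA
    have h1 := hr (A.map D'.subtype) ⟨⟨fun a b => by
      obtain ⟨a, ha⟩ := a
      obtain ⟨b, hb⟩ := b
      obtain ⟨a', ha', rfl⟩ := ha
      obtain ⟨b', hb', rfl⟩ := hb
      apply Subtype.ext
      show D'.subtype a' * D'.subtype b' = D'.subtype b' * D'.subtype a'
      rw [← map_mul, ← map_mul, hA a' ha' b' hb']⟩⟩ (by
      rintro _ ⟨a, -, rfl⟩
      exact a.2.2)
    rwa [Subgroup.card_subtype] at h1
  · rintro _ ⟨a, ha, rfl⟩ _ ⟨b, hb, rfl⟩ _ ⟨d, hd, rfl⟩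
    have h1 : ⁅a, b⁆ ∈ K := hcomm a ha.1 b
    have h2 := Subgroup.mem_centralizer_iff.mp (hKD h1) d hd.1
    have h3 : (R.subtype ⁅a, b⁆) * R.subtype d = R.subtype d * R.subtype ⁅a, b⁆ := by
      rw [← map_mul, ← map_mul, h2]
    rw [map_commutatorElement] at h3
    exact h3
  · intro A hAD hAc
    have hAR : A ≤ R := hAD.trans (Subgroup.map_subtype_le _)
    have h1 := hr (A.subgroupOf R) ⟨⟨fun a b => by
      apply Subtype.ext
      apply Subtype.ext
      exact hAc a.1.1 a.2 b.1.1 b.2⟩⟩ (by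
      intro a ha
      obtain ⟨x, hx, hxa⟩ := hAD (Subgroup.mem_subgroupOf.mp ha)
      have : x = a := Subtype.ext hxa
      rw [← this]
      exact hx.2)
    rwa [Nat.card_congr (Subgroup.subgroupOfEquivOfLe hAR).toEquiv] at h1
  · intro g hg hcop hcen x hx
    set φ := c ⟨g, hg⟩ with hφ
    have hφord : (orderOf φ).Coprime p :=
      Nat.Coprime.coprime_dvd_left
        ((orderOf_map_dvd c ⟨g, hg⟩).trans (by rw [Subgroup.orderOf_mk])) hcop
    have hφ1 : φ = 1 := by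
      apply coprime_aut_trivial_of_omega_critical hp hR H K hHchar hKH hKD hDK hpow hcomm φ hφord
      intro y hyH hyp
      apply Subtype.ext
      have := hcen (y : G) ⟨y, ⟨hyH, hyp⟩, rfl⟩
      exact this
    have h1 := congrArg (fun ψ : MulAut R => ((ψ ⟨x, hx⟩ : R) : G)) hφ1
    exact h1

end Cfsg.Agent.H3
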