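import Mathlib
import Cfsg.Agent.S0688

/-!
# S3361 piece P-BR (helper3, for helper13): the bridge to S0688
-/

set_option autoImplicit false

namespace Cfsg.Agent.H3.Reg

theorem bridge (q : ℕ) [Fact q.Prime] {V : Type*} [AddCommGroup V] [Module (ZMod q) V] [Finite V]
    [Nontrivial V] {G : Type*} [Group G] [Finite G] (hsol : Group.IsSolvable G)
    (ρ : G →* (V ≃ₗ[ZMod q] V)) (hρ : Function.Injective ρ)
    (htrans : ∀ v w : V, v ≠ 0 → w ≠ 0 → ∃ g : G, ρ g v = w)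
    (hreg : ∀ v : V, v ≠ 0 → ∀ g : G, ρ g v = v → g = 1)
    (hI : ∀ A : Subgroup G, A.Normal → IsCyclic A →
      ∃ W : Submodule (ZMod q) V, W ≠ ⊥ ∧ W ≠ ⊤ ∧ ∀ a ∈ A, ∀ v ∈ W, ρ a v ∈ W) :
    Nat.card V = 25 ∨ Nat.card V = 49 ∨ Nat.card V = 121 ∨ Nat.card V = 529 := by
  have hmul : ∀ (a b : G) (v : V), ρ (a * b) v = ρ a (ρ b v) := by
    intro a b v
    rw [map_mul]; rfl
  have hone : ∀ v : V, ρ 1 v = v := by
    intro v
    rw [map_one]; rfl
  have hrr : Function.Injective ρ.rangeRestrict := by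
    intro a b hab
    exact hρ (congrArg Subtype.val hab)
  apply Cfsg.Agent.S0688.result (p := q) ρ.range
  · -- regularity
    intro v w hv hw
    obtain ⟨g, hg⟩ := htrans v w hv hw
    refine ⟨⟨ρ g, g, rfl⟩, hg, ?_⟩
    rintro ⟨_, ⟨g', rfl⟩⟩ hg'
    have h1 : ρ g' v = ρ g v := by rw [hg]; exact hg'
    have h2 : ρ (g⁻¹ * g') v = v := by
      rw [hmul, h1, ← hmul, inv_mul_cancel, hone]
    have h3 := hreg v hv _ h2
    have h4 : g' = g := by
      calc g' = g * (g⁻¹ * g') := by group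
        _ = g := by rw [h3, mul_one]
    exact Subtype.ext (by rw [h4])
  · -- no irreducible cyclic normal subgroup
    intro A' hA'n hA'c
    haveI := hA'n
    haveI := hA'c
    obtain ⟨A, hA⟩ : ∃ A : Subgroup G, A = A'.comap ρ.rangeRestrict := ⟨_, rfl⟩
    have hAn : A.Normal := by rw [hA]; exact Subgroup.Normal.comap hA'n _
    have hAmem : ∀ g : G, g ∈ A → ρ.rangeRestrict g ∈ A' := by
      intro g hg
      rw [hA] at hg
      exact hg
    obtain ⟨f, hf⟩ : ∃ f : ↥A →* ↥A', ∀ a : ↥A, ((f a : ↥A') : ↥ρ.range) = ρ.rangeRestrict a :=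
      ⟨(ρ.rangeRestrict.comp A.subtype).codRestrict A' (fun a => hAmem a a.2), fun a => rfl⟩
    have hfi : Function.Injective f := by
      intro a b hab
      have h1 := congrArg Subtype.val hab
      rw [hf, hf] at h1
      exact Subtype.ext (hrr h1)
    have hAc : IsCyclic ↥A := isCyclic_of_injective f hfi
    obtain ⟨W, hW1, hW2, hW⟩ := hI A hAn hAc
    refine ⟨W, hW1, hW2, ?_⟩
    intro a ha v hv
    obtain ⟨g, hg⟩ := a.2
    have hgA : g ∈ A := by
      rw [hA, Subgroup.mem_comap]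
      have h1 : ρ.rangeRestrict g = a := Subtype.ext hg
      rw [h1]; exact ha
    have h2 := hW g hgA v hv
    rw [hg] at h2
    exact h2
  · -- solvability
    exact Group.isSolvable_of_surjective (MonoidHom.rangeRestrict_surjective ρ)

end Cfsg.Agent.H3.Reg

example (q : ℕ) [Fact q.Prime] {V : Type*} [AddCommGroup V] [Module (ZMod q) V] [Finite V]
    [Nontrivial V] {G : Type*} [Group G] [Finite G] (hsol : Group.IsSolvable G)
    (ρ : G →* (V ≃ₗ[ZMod q] V)) (hρ : Function.Injective ρ)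
    (htrans : ∀ v w : V, v ≠ 0 → w ≠ 0 → ∃ g : G, ρ g v = w)
    (hreg : ∀ v : V, v ≠ 0 → ∀ g : G, ρ g v = v → g = 1)
    (hI : ∀ A : Subgroup G, A.Normal → IsCyclic A →
      ∃ W : Submodule (ZMod q) V, W ≠ ⊥ ∧ W ≠ ⊤ ∧ ∀ a ∈ A, ∀ v ∈ W, ρ a v ∈ W) :
    Nat.card V = 25 ∨ Nat.card V = 49 ∨ Nat.card V = 121 ∨ Nat.card V = 529 :=
  Cfsg.Agent.H3.Reg.bridge q hsol ρ hρ htrans hreg hI
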