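import Mathlib

/-!
# S3361 piece P-N (helper3, for helper13): a linear group regular on the nonzero vectors has
`|V| - 1` elements
-/

set_option autoImplicit false

namespace Cfsg.Agent.H3.Reg

theorem card_add_one (q : ℕ) [Fact q.Prime] {V : Type*} [AddCommGroup V]
    [Module (ZMod q) V] [Finite V] [Nontrivial V] {G : Type*} [Group G] [Finite G]
    (ρ : G →* (V ≃ₗ[ZMod q] V))
    (htrans : ∀ v w : V, v ≠ 0 → w ≠ 0 → ∃ g : G, ρ g v = w)
    (hreg : ∀ v : V, v ≠ 0 → ∀ g : G, ρ g v = v → g = 1) :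
    Nat.card G + 1 = Nat.card V := by
  classical
  obtain ⟨v₀, hv₀⟩ := exists_ne (0 : V)
  have hmul : ∀ (a b : G) (v : V), ρ (a * b) v = ρ a (ρ b v) := by
    intro a b v
    rw [map_mul]; rfl
  have hone : ∀ v : V, ρ 1 v = v := by
    intro v
    rw [map_one]; rfl
  have hne : ∀ g : G, ρ g v₀ ≠ 0 := fun g => (ρ g).map_ne_zero_iff.mpr hv₀
  obtain ⟨f, hf⟩ : ∃ f : G → {v : V // v ≠ 0}, ∀ g, (f g : V) = ρ g v₀ :=
    ⟨fun g => ⟨ρ g v₀, hne g⟩, fun g => rfl⟩
  have hbij : Function.Bijective f := by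
    constructor
    · intro a b hab
      have h1 : ρ a v₀ = ρ b v₀ := by rw [← hf, ← hf, hab]
      have h2 : ρ (b⁻¹ * a) v₀ = v₀ := by
        rw [hmul, h1, ← hmul, inv_mul_cancel, hone]
      have h3 := hreg v₀ hv₀ _ h2
      calc a = b * (b⁻¹ * a) := by group
        _ = b := by rw [h3, mul_one]
    · rintro ⟨w, hw⟩
      obtain ⟨g, hg⟩ := htrans v₀ w hv₀ hw
      exact ⟨g, Subtype.ext (by rw [hf, hg])⟩
  have h1 : Nat.card G = Nat.card {v : V // v ≠ 0} := Nat.card_congr (Equiv.ofBijective f hbij)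
  have h2 : Nat.card V = Nat.card {v : V // v ≠ 0} + 1 := by
    rw [← Finite.card_option]
    exact Nat.card_congr (Equiv.optionSubtypeNe (0 : V)).symm
  rw [h1, h2]

end Cfsg.Agent.H3.Reg

example (q : ℕ) [Fact q.Prime] {V : Type*} [AddCommGroup V]
    [Module (ZMod q) V] [Finite V] [Nontrivial V] {G : Type*} [Group G] [Finite G]
    (ρ : G →* (V ≃ₗ[ZMod q] V))
    (htrans : ∀ v w : V, v ≠ 0 → w ≠ 0 → ∃ g : G, ρ g v = w)
    (hreg : ∀ v : V, v ≠ 0 → ∀ g : G, ρ g v = v → g = 1) :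
    Nat.card G + 1 = Nat.card V :=
  Cfsg.Agent.H3.Reg.card_add_one q ρ htrans hreg
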