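import Mathlib

/-!
# S3361 piece P-U (helper3, for helper13): a linear group regular on the nonzero vectors of a
space of odd characteristic has a unique involution
-/

set_option autoImplicit false

namespace Cfsg.Agent.H3.Reg

theorem unique_invol (q : ℕ) [Fact q.Prime] (hq : q ≠ 2) {V : Type*} [AddCommGroup V]
    [Module (ZMod q) V] [Finite V] [Nontrivial V] {G : Type*} [Group G] [Finite G]
    (ρ : G →* (V ≃ₗ[ZMod q] V))
    (htrans : ∀ v w : V, v ≠ 0 → w ≠ 0 → ∃ g : G, ρ g v = w)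
    (hreg : ∀ v : V, v ≠ 0 → ∀ g : G, ρ g v = v → g = 1) :
    ∃ z : G, z ≠ 1 ∧ z ^ 2 = 1 ∧ ∀ t : G, t ^ 2 = 1 → t = 1 ∨ t = z := by
  have hqp : q.Prime := Fact.out
  obtain ⟨v₀, hv₀⟩ := exists_ne (0 : V)
  have hmul : ∀ (a b : G) (v : V), ρ (a * b) v = ρ a (ρ b v) := by
    intro a b v
    rw [map_mul]; rfl
  have hone : ∀ v : V, ρ 1 v = v := by
    intro v
    rw [map_one]; rfl
  have h2 : (2 : ZMod q) ≠ 0 := by
    intro h
    have h1 : ((2 : ℕ) : ZMod q) = 0 := by exact_mod_cast h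
    rw [ZMod.natCast_eq_zero_iff] at h1
    have h3 : q ≤ 2 := Nat.le_of_dvd (by norm_num) h1
    have h4 := hqp.two_le
    omega
  have hneg : ∀ v : V, v ≠ 0 → v ≠ -v := by
    intro v hv h
    have h1 : (2 : ZMod q) • v = 0 := by
      rw [two_smul]
      nth_rewrite 1 [h]
      exact neg_add_cancel v
    rcases smul_eq_zero.mp h1 with h3 | h3
    · exact h2 h3
    · exact hv h3
  obtain ⟨z, hz⟩ := htrans v₀ (-v₀) hv₀ (neg_ne_zero.mpr hv₀)
  have hz2 : z ^ 2 = 1 := by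
    apply hreg v₀ hv₀
    rw [pow_two, hmul, hz, map_neg, hz, neg_neg]
  have hz1 : z ≠ 1 := by
    intro h
    rw [h, hone] at hz
    exact hneg v₀ hv₀ hz
  refine ⟨z, hz1, hz2, ?_⟩
  intro t ht
  by_cases ht1 : t = 1
  · exact Or.inl ht1
  · right
    have hfix : ∀ v : V, v ≠ 0 → ρ t v = -v := by
      intro v hv
      have h1 : ρ t (v + ρ t v) = v + ρ t v := by
        rw [map_add, ← hmul, ← pow_two, ht, hone, add_comm]
      have h3 : v + ρ t v = 0 := by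
        by_contra h4
        exact ht1 (hreg _ h4 t h1)
      exact eq_neg_of_add_eq_zero_right h3
    have h1 : ρ (z⁻¹ * t) v₀ = v₀ := by
      rw [hmul, hfix v₀ hv₀, ← hz, ← hmul, inv_mul_cancel, hone]
    have h3 := hreg v₀ hv₀ _ h1
    calc t = z * (z⁻¹ * t) := by group
      _ = z := by rw [h3, mul_one]

end Cfsg.Agent.H3.Reg

example (q : ℕ) [Fact q.Prime] (hq : q ≠ 2) {V : Type*} [AddCommGroup V]
    [Module (ZMod q) V] [Finite V] [Nontrivial V] {G : Type*} [Group G] [Finite G]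
    (ρ : G →* (V ≃ₗ[ZMod q] V))
    (htrans : ∀ v w : V, v ≠ 0 → w ≠ 0 → ∃ g : G, ρ g v = w)
    (hreg : ∀ v : V, v ≠ 0 → ∀ g : G, ρ g v = v → g = 1) :
    ∃ z : G, z ≠ 1 ∧ z ^ 2 = 1 ∧ ∀ t : G, t ^ 2 = 1 → t = 1 ∨ t = z :=
  Cfsg.Agent.H3.Reg.unique_invol q hq ρ htrans hreg
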