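import Mathlib
import Cfsg.Agent.H9.S77Defs

set_option autoImplicit false
open Finset Classical Cfsg.Agent.H9.S77

namespace Cfsg.Agent.H3.S77

universe u

/-- S0429-HOFF: every vertex outside a plane has exactly 6 neighbours in it. -/
theorem hoff : Cfsg.Agent.H9.S77.PieceHoff.{u} := by
  intro V _ G h C hC v hv
  obtain ⟨hco, hcard⟩ := hC
  have hnbC : ∀ x : V, nb G x ∩ C = C.filter (fun c => G.Adj x c) := by
    intro x; ext c; simp [and_comm]
  -- first moment
  have hA : ∑ x : V, (C.filter (fun c => G.Adj x c)).card = 336 := by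
    have h1 : ∑ x : V, (C.filter (fun c => G.Adj x c)).card = ∑ c ∈ C, (nb G c).card := by
      simp_rw [Finset.card_filter]
      rw [Finset.sum_comm]
      apply Finset.sum_congr rfl
      intro c _
      rw [← Finset.card_filter]
      congr 1
      ext x; simp [nb, G.adj_comm]
    rw [h1, Finset.sum_congr rfl (fun c _ => h.deg c), Finset.sum_const, hcard]
    rfl
  -- second moment
  have hB : ∑ x : V, (C.filter (fun c => G.Adj x c)).card ^ 2 = 2016 := by
    have h1 : ∑ x : V, (C.filter (fun c => G.Adj x c)).card ^ 2 =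
        ∑ c ∈ C, ∑ c' ∈ C, (nb G c ∩ nb G c').card := by
      have e1 : ∀ x : V, (C.filter (fun c => G.Adj x c)).card ^ 2 =
          ∑ c ∈ C, ∑ c' ∈ C, (if G.Adj c x ∧ G.Adj c' x then 1 else 0) := by
        intro x
        rw [pow_two, Finset.card_filter, Finset.sum_mul_sum]
        apply Finset.sum_congr rfl
        intro c _
        apply Finset.sum_congr rfl
        intro c' _
        by_cases h1 : G.Adj x c <;> by_cases h2 : G.Adj x c' <;>
          simp [h1, h2, G.adj_comm c x, G.adj_comm c' x]
      simp_rw [e1]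
      rw [Finset.sum_comm]
      apply Finset.sum_congr rfl
      intro c _
      rw [Finset.sum_comm]
      apply Finset.sum_congr rfl
      intro c' _
      rw [← Finset.card_filter]
      congr 1
      ext x; simp [nb]
    have h2 : ∀ c ∈ C, ∑ c' ∈ C, (nb G c ∩ nb G c').card = 96 := by
      intro c hc
      have e2 : ∀ c' ∈ C, (nb G c ∩ nb G c').card = 4 + (if c = c' then 12 else 0) := by
        intro c' hc'
        by_cases hcc : c = c'
        · subst hcc
          rw [Finset.inter_self, h.deg c, if_pos rfl]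
        · rw [if_neg hcc, h.mu c c' hcc (hco c hc c' hc')]
      rw [Finset.sum_congr rfl e2, Finset.sum_add_distrib, Finset.sum_const, hcard,
        Finset.sum_ite_eq, if_pos hc]
      rfl
    rw [h1, Finset.sum_congr rfl h2, Finset.sum_const, hcard]
    rfl
  -- vertices of `C` have no neighbour in `C`
  have hC0 : ∀ x ∈ C, (C.filter (fun c => G.Adj x c)).card = 0 := by
    intro x hx
    rw [Finset.card_eq_zero, Finset.filter_eq_empty_iff]
    intro c hc
    exact hco x hx c hc
  -- the sum of squares of deviations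
  have hAz : ∑ x : V, ((C.filter (fun c => G.Adj x c)).card : ℤ) = 336 := by
    rw [← Nat.cast_sum, hA]; rfl
  have hBz : ∑ x : V, ((C.filter (fun c => G.Adj x c)).card : ℤ) ^ 2 = 2016 := by
    have : ∑ x : V, ((C.filter (fun c => G.Adj x c)).card : ℤ) ^ 2 =
        ((∑ x : V, (C.filter (fun c => G.Adj x c)).card ^ 2 : ℕ) : ℤ) := by
      rw [Nat.cast_sum]
      apply Finset.sum_congr rfl
      intro x _
      rw [Nat.cast_pow]
    rw [this, hB]; rfl
  have htot : ∑ x : V, (((C.filter (fun c => G.Adj x c)).card : ℤ) - 6) ^ 2 = 756 := by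
    have e : ∀ x : V, (((C.filter (fun c => G.Adj x c)).card : ℤ) - 6) ^ 2 =
        ((C.filter (fun c => G.Adj x c)).card : ℤ) ^ 2 -
          12 * ((C.filter (fun c => G.Adj x c)).card : ℤ) + 36 := by
      intro x; ring
    simp_rw [e]
    rw [Finset.sum_add_distrib, Finset.sum_sub_distrib, ← Finset.mul_sum, hAz, hBz,
      Finset.sum_const, Finset.card_univ, h.card]
    norm_num
  have hCs : ∑ x ∈ C, (((C.filter (fun c => G.Adj x c)).card : ℤ) - 6) ^ 2 = 756 := by
    have e : ∀ x ∈ C, (((C.filter (fun c => G.Adj x c)).card : ℤ) - 6) ^ 2 = 36 := by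
      intro x hx
      rw [hC0 x hx]; norm_num
    rw [Finset.sum_congr rfl e, Finset.sum_const, hcard]
    norm_num
  have hsplit := Finset.sum_add_sum_compl C
    (fun x => (((C.filter (fun c => G.Adj x c)).card : ℤ) - 6) ^ 2)
  rw [htot, hCs] at hsplit
  have hcompl : ∑ x ∈ Cᶜ, (((C.filter (fun c => G.Adj x c)).card : ℤ) - 6) ^ 2 = 0 := by
    linarith
  have hz := (Finset.sum_eq_zero_iff_of_nonneg (fun x _ => sq_nonneg _)).1 hcompl v
    (Finset.mem_compl.2 hv)
  have hz2 : ((C.filter (fun c => G.Adj v c)).card : ℤ) - 6 = 0 := by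
    exact pow_eq_zero_iff (two_ne_zero) |>.1 hz
  rw [hnbC]
  omega

example : Cfsg.Agent.H9.S77.PieceHoff.{u} := hoff

end Cfsg.Agent.H3.S77
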