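import Mathlib
import Cfsg.Agent.H9.S77Defs

set_option autoImplicit false
open Finset Classical Cfsg.Agent.H9.S77

namespace Cfsg.Agent.H3.S77

universe u

/-- S0429-SUB: a plane contains the line through any two of its vertices, and every other vertex
of the plane has exactly one common neighbour with them. -/
theorem sub : Cfsg.Agent.H9.S77.PieceSub.{u} := by
  intro V _ G h hK hH C hC u hu v hv huv
  obtain ⟨hco, hcard⟩ := hC
  have hna : NA G u v := ⟨huv, hco u hu v hv⟩
  obtain ⟨hle2, hZ3, -, -⟩ := hK u v hna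
  obtain ⟨C', hC'⟩ : ∃ C' : Finset V, C' = (C.erase u).erase v := ⟨_, rfl⟩
  have hC'card : C'.card = 19 := by
    rw [hC', Finset.card_erase_of_mem (Finset.mem_erase.2 ⟨huv.symm, hv⟩),
      Finset.card_erase_of_mem hu, hcard]
  have hC'mem : ∀ w, w ∈ C' ↔ w ≠ v ∧ w ≠ u ∧ w ∈ C := by
    intro w; rw [hC']; simp [Finset.mem_erase]
  have hC'W : C' ⊆ Wset G u v := by
    intro w hw
    obtain ⟨h1, h2, h3⟩ := (hC'mem w).1 hw
    simp only [Wset, Finset.mem_filter, Finset.mem_univ, true_and]
    exact ⟨h2, h1, hco u hu w h3, hco v hv w h3⟩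
  have hMcard : (nb G u ∩ nb G v).card = 4 := h.mu u v hna.1 hna.2
  -- every `m ∈ M(u,v)` has 4 neighbours in `C'`
  have hm4 : ∀ m ∈ nb G u ∩ nb G v, (C'.filter (fun w => G.Adj w m)).card = 4 := by
    intro m hm
    rw [Finset.mem_inter, mem_nb, mem_nb] at hm
    have hmC : m ∉ C := fun hmC => hco u hu m hmC hm.1
    have h6 := hH C ⟨hco, hcard⟩ m hmC
    have e : nb G m ∩ C = insert u (insert v (C'.filter (fun w => G.Adj w m))) := by
      ext w
      simp only [Finset.mem_inter, mem_nb, Finset.mem_insert, Finset.mem_filter, hC'mem]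
      constructor
      · rintro ⟨h1, h2⟩
        by_cases hwu : w = u
        · left; exact hwu
        · by_cases hwv : w = v
          · right; left; exact hwv
          · right; right; exact ⟨⟨hwv, hwu, h2⟩, h1.symm⟩
      · rintro (rfl | rfl | ⟨⟨_, _, h2⟩, h1⟩)
        · exact ⟨hm.1.symm, hu⟩
        · exact ⟨hm.2.symm, hv⟩
        · exact ⟨h1.symm, h2⟩
    have hv_not : v ∉ C'.filter (fun w => G.Adj w m) := by
      intro hh
      exact ((hC'mem v).1 (Finset.mem_filter.1 hh).1).1 rfl
    have hu_not : u ∉ insert v (C'.filter (fun w => G.Adj w m)) := by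
      intro hh
      rcases Finset.mem_insert.1 hh with hh | hh
      · exact huv hh
      · exact ((hC'mem u).1 (Finset.mem_filter.1 hh).1).2.1 rfl
    rw [e, Finset.card_insert_of_notMem hu_not, Finset.card_insert_of_notMem hv_not] at h6
    omega
  -- the sum of `t` over `C'`
  have hsum : ∑ w ∈ C', tc G u v w = 16 := by
    have e1 : ∀ w ∈ C', tc G u v w = ∑ m ∈ nb G u ∩ nb G v, (if G.Adj w m then 1 else 0) := by
      intro w _
      rw [← Finset.card_filter]
      unfold tc
      congr 1
      ext m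
      simp only [Finset.mem_inter, mem_nb, Finset.mem_filter]
    rw [Finset.sum_congr rfl e1, Finset.sum_comm]
    have e2 : ∀ m ∈ nb G u ∩ nb G v, ∑ w ∈ C', (if G.Adj w m then 1 else 0) = 4 := by
      intro m hm
      rw [← Finset.card_filter]; exact hm4 m hm
    rw [Finset.sum_congr rfl e2, Finset.sum_const, hMcard]
    rfl
  -- the counts
  obtain ⟨n0, hn0⟩ : ∃ n0, n0 = (C'.filter (fun w => tc G u v w = 0)).card := ⟨_, rfl⟩
  obtain ⟨n1, hn1⟩ : ∃ n1, n1 = (C'.filter (fun w => tc G u v w = 1)).card := ⟨_, rfl⟩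
  obtain ⟨n2, hn2⟩ : ∃ n2, n2 = (C'.filter (fun w => tc G u v w = 2)).card := ⟨_, rfl⟩
  have hle : ∀ w ∈ C', tc G u v w ≤ 2 := fun w hw => hle2 w (hC'W hw)
  have hs1 : n0 + n1 + n2 = 19 := by
    rw [← hC'card, hn0, hn1, hn2, Finset.card_filter, Finset.card_filter, Finset.card_filter,
      ← Finset.sum_add_distrib, ← Finset.sum_add_distrib, Finset.card_eq_sum_ones]
    apply Finset.sum_congr rfl
    intro w hw
    have hb := hle w hw
    generalize tc G u v w = t at hb ⊢
    interval_cases t <;> simp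
  have hs2 : n1 + 2 * n2 = 16 := by
    rw [← hsum, hn1, hn2, Finset.card_filter, Finset.card_filter, Finset.mul_sum,
      ← Finset.sum_add_distrib]
    apply Finset.sum_congr rfl
    intro w hw
    have hb := hle w hw
    generalize tc G u v w = t at hb ⊢
    interval_cases t <;> simp
  have hZsub : C'.filter (fun w => tc G u v w = 0) ⊆ Zset G u v := by
    intro w hw
    rw [Finset.mem_filter] at hw
    unfold Zset
    rw [Finset.mem_filter]
    exact ⟨hC'W hw.1, hw.2⟩
  have hn0le : n0 ≤ 3 := by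
    rw [hn0, ← hZ3]; exact Finset.card_le_card hZsub
  have hn2z : n2 = 0 := by omega
  have hn03 : n0 = 3 := by omega
  have hZeq : C'.filter (fun w => tc G u v w = 0) = Zset G u v := by
    apply Finset.eq_of_subset_of_card_le hZsub
    rw [hZ3, ← hn0, hn03]
  have hZC : Zset G u v ⊆ C := by
    intro w hw
    rw [← hZeq, Finset.mem_filter] at hw
    exact ((hC'mem w).1 hw.1).2.2
  have hLn : ∀ w, w ∈ Ln G u v ↔ w = u ∨ w = v ∨ w ∈ Zset G u v := by
    intro w
    unfold Ln
    rw [Finset.mem_insert, Finset.mem_insert]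
  refine ⟨?_, ?_⟩
  · intro w hw
    rcases (hLn w).1 hw with hw | hw | hw
    · rw [hw]; exact hu
    · rw [hw]; exact hv
    · exact hZC hw
  · intro w hw hwL
    have hwu : w ≠ u := fun e => hwL ((hLn w).2 (Or.inl e))
    have hwv : w ≠ v := fun e => hwL ((hLn w).2 (Or.inr (Or.inl e)))
    have hwC' : w ∈ C' := (hC'mem w).2 ⟨hwv, hwu, hw⟩
    have ht0 : tc G u v w ≠ 0 := by
      intro ht
      apply hwL
      apply (hLn w).2
      right; right
      rw [← hZeq, Finset.mem_filter]; exact ⟨hwC', ht⟩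
    have ht2 : tc G u v w ≠ 2 := by
      intro ht
      have hmem : w ∈ C'.filter (fun w => tc G u v w = 2) := Finset.mem_filter.2 ⟨hwC', ht⟩
      rw [hn2z] at hn2
      have hempty := Finset.card_eq_zero.1 hn2.symm
      rw [hempty] at hmem
      exact absurd hmem (Finset.notMem_empty w)
    have hb := hle w hwC'
    omega

example : Cfsg.Agent.H9.S77.PieceSub.{u} := sub

end Cfsg.Agent.H3.S77
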