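import Mathlib
import Cfsg.Agent.H3.Extraspecial
import Cfsg.Agent.H3.Rank4
import Cfsg.Agent.H3.PGroup
import Cfsg.Agent.H3.Class2
import Cfsg.Agent.H3.Alperin
import Cfsg.Prelude.Def_PLocal

set_option autoImplicit false

namespace Cfsg.Agent.H3

section SympBasic

variable {G : Type*} [Group G]

/-- A cyclic subgroup is generated by one of its elements. -/
theorem symp_exists_zpowers_eq_of_isCyclic (Y : Subgroup G) (hY : IsCyclic Y) :
    ∃ z ∈ Y, Y = Subgroup.zpowers z := by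
  obtain ⟨g, hg⟩ := hY.exists_generator
  refine ⟨g.1, g.2, ?_⟩
  apply le_antisymm
  · intro y hy
    obtain ⟨k, hk⟩ := Subgroup.mem_zpowers_iff.mp (hg ⟨y, hy⟩)
    refine Subgroup.mem_zpowers_iff.mpr ⟨k, ?_⟩
    have := congrArg Subtype.val hk
    simpa using this
  · rw [Subgroup.zpowers_le]; exact g.2

/-- In a cyclic `p`-group `⟨a⟩`, every element is a `p`-th power or a generator. -/
theorem symp_zpowers_eq_or_exists_pow [Finite G] {p : ℕ} [Fact p.Prime] (hG : IsPGroup p G) (a w : G)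
    (hw : w ∈ Subgroup.zpowers a) :
    (∃ u ∈ Subgroup.zpowers a, w = u ^ p) ∨ Subgroup.zpowers w = Subgroup.zpowers a := by
  have hp : p.Prime := Fact.out
  obtain ⟨j, rfl⟩ := (Submonoid.mem_powers_iff _ _).mp (mem_powers_iff_mem_zpowers.mpr hw)
  by_cases hj : p ∣ j
  · obtain ⟨l, rfl⟩ := hj
    left
    exact ⟨a ^ l, Subgroup.pow_mem _ (Subgroup.mem_zpowers a) l, by rw [← pow_mul, mul_comm]⟩
  · right
    obtain ⟨k, hk⟩ := hG a
    obtain ⟨k', -, hk'⟩ := (Nat.dvd_prime_pow hp).mp (orderOf_dvd_of_pow_eq_one hk)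
    have hcop : (orderOf a).Coprime j := by
      rw [hk']; exact Nat.Coprime.pow_left _ ((Nat.Prime.coprime_iff_not_dvd hp).mpr hj)
    apply Subgroup.eq_of_le_of_card_ge
    · rw [Subgroup.zpowers_le]; exact Subgroup.pow_mem _ (Subgroup.mem_zpowers a) j
    · rw [Nat.card_zpowers, Nat.card_zpowers, hcop.orderOf_pow]

/-- A nontrivial element of a `p`-group is not the `p`-th power of an element of the cyclic group
it generates. -/
theorem symp_not_generator_pow [Finite G] {p : ℕ} [Fact p.Prime] (hG : IsPGroup p G) (z u : G)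
    (hz : z ≠ 1) (hu : u ∈ Subgroup.zpowers z) (h : z = u ^ p) : False := by
  have hp : p.Prime := Fact.out
  have h1 : Subgroup.zpowers z = Subgroup.zpowers u := by
    apply le_antisymm
    · rw [Subgroup.zpowers_le, h]; exact Subgroup.pow_mem _ (Subgroup.mem_zpowers u) p
    · rw [Subgroup.zpowers_le]; exact hu
  have h2 : orderOf z = orderOf u := by
    rw [← Nat.card_zpowers, ← Nat.card_zpowers, h1]
  have hu1 : u ≠ 1 := by rintro rfl; exact hz (by rw [h, one_pow])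
  obtain ⟨k, hk⟩ := hG u
  obtain ⟨k', -, hk'⟩ := (Nat.dvd_prime_pow hp).mp (orderOf_dvd_of_pow_eq_one hk)
  have hk'0 : k' ≠ 0 := by
    rintro rfl; rw [pow_zero] at hk'; exact hu1 (orderOf_eq_one_iff.mp hk')
  have hdvd : p ∣ orderOf u := by rw [hk']; exact dvd_pow_self p hk'0
  have h3 : orderOf (u ^ p) = orderOf u / p := orderOf_pow_of_dvd hp.ne_zero hdvd
  rw [← h, h2] at h3
  have : orderOf u / p < orderOf u := Nat.div_lt_self (orderOf_pos u) hp.one_lt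
  omega

/-- In a cyclic group `⟨z⟩` of order `p ^ (n + 1)`, the elements of order dividing `p` lie in
`⟨z ^ (p ^ n)⟩`. -/
theorem symp_mem_zpowers_of_pow_eq_one [Finite G] {p : ℕ} [Fact p.Prime] (z : G) (n : ℕ)
    (hord : orderOf z = p ^ (n + 1)) (t : G) (ht : t ∈ Subgroup.zpowers z) (htp : t ^ p = 1) :
    t ∈ Subgroup.zpowers (z ^ (p ^ n)) := by
  have hp : p.Prime := Fact.out
  obtain ⟨j, rfl⟩ := (Submonoid.mem_powers_iff _ _).mp (mem_powers_iff_mem_zpowers.mpr ht)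
  rw [← pow_mul] at htp
  have h1 : p ^ (n + 1) ∣ j * p := hord ▸ orderOf_dvd_of_pow_eq_one htp
  have h2 : p ^ n ∣ j := by
    rw [pow_succ] at h1
    exact Nat.dvd_of_mul_dvd_mul_right hp.pos h1
  obtain ⟨l, rfl⟩ := h2
  rw [pow_mul]
  exact Subgroup.pow_mem _ (Subgroup.mem_zpowers _) l

/-- The subgroup `⟨z ^ (p ^ n)⟩` of a cyclic group `⟨z⟩` of order `p ^ (n + 1)` has order `p`. -/
theorem symp_card_zpowers_pow_pow {p : ℕ} [Fact p.Prime] (z : G) (n : ℕ)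
    (hord : orderOf z = p ^ (n + 1)) : Nat.card (Subgroup.zpowers (z ^ (p ^ n))) = p := by
  have hp : p.Prime := Fact.out
  rw [Nat.card_zpowers, orderOf_pow_of_dvd (pow_ne_zero _ hp.ne_zero)
    (hord ▸ pow_dvd_pow p (Nat.le_succ n)), hord, pow_succ]
  exact Nat.mul_div_cancel_left _ (pow_pos hp.pos n)

/-- If the commutator `c = x y x⁻¹ y⁻¹` commutes with `y` and `x` commutes with `y ^ n`, then
`c ^ n = 1`. -/
theorem symp_comm_pow_eq_one' (x y : G) (n : ℕ) (hc : Commute (x * y * x⁻¹ * y⁻¹) y)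
    (hn : Commute x (y ^ n)) : (x * y * x⁻¹ * y⁻¹) ^ n = 1 := by
  have h1 : x * y * x⁻¹ = (x * y * x⁻¹ * y⁻¹) * y := by group
  have h2 : x * y ^ n * x⁻¹ = (x * y * x⁻¹) ^ n := (conj_pow).symm
  rw [h1, hc.mul_pow] at h2
  have h3 : x * y ^ n * x⁻¹ = y ^ n := by rw [hn.eq]; group
  rw [h3] at h2
  exact mul_eq_right.mp h2.symm

/-- If the commutator `c = x y x⁻¹ y⁻¹` commutes with `x` and `x ^ n` commutes with `y`, then
`c ^ n = 1`. -/
theorem symp_comm_pow_eq_one'' (x y : G) (n : ℕ) (hc : Commute (x * y * x⁻¹ * y⁻¹) x)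
    (hn : Commute (x ^ n) y) : (x * y * x⁻¹ * y⁻¹) ^ n = 1 := by
  have h1 : y * x⁻¹ * y⁻¹ = x⁻¹ * (x * y * x⁻¹ * y⁻¹) := by group
  have h2 : y * x⁻¹ ^ n * y⁻¹ = (y * x⁻¹ * y⁻¹) ^ n := (conj_pow).symm
  rw [h1, (hc.symm.inv_left).mul_pow] at h2
  have h3 : y * x⁻¹ ^ n * y⁻¹ = x⁻¹ ^ n := by
    rw [inv_pow, ← (hn.inv_left).eq]; group
  rw [h3] at h2
  exact mul_eq_left.mp h2.symm

/-- Membership in the centralizer of `℧¹(U)`. -/
theorem symp_mem_centralizer_powerClosure (p : ℕ) (U : Subgroup G) (x : G) :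
    x ∈ Subgroup.centralizer (Cfsg.powerClosure p 1 U : Set G) ↔
      ∀ u ∈ U, u ^ p * x = x * u ^ p := by
  constructor
  · intro h u hu
    exact Subgroup.mem_centralizer_iff.mp h (u ^ p)
      (Subgroup.subset_closure ⟨u, hu, by rw [pow_one]⟩)
  · intro h
    have hle : Cfsg.powerClosure p 1 U ≤ Subgroup.centralizer {x} := by
      unfold Cfsg.powerClosure
      rw [Subgroup.closure_le]
      rintro y ⟨u, hu, rfl⟩
      rw [SetLike.mem_coe, Subgroup.mem_centralizer_iff]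
      intro g hg
      rw [Set.mem_singleton_iff.mp hg, pow_one]
      exact (h u hu).symm
    rw [Subgroup.mem_centralizer_iff]
    intro y hy
    exact (Subgroup.mem_centralizer_iff.mp (hle hy) x rfl).symm

end SympBasic

section SympX

variable {G : Type*} [Group G]

/-- The squaring auxiliary: in `⟨z⟩`, an element `t` of the subgroup `⟨z ^ (p ^ n)⟩` has
`t ^ (p choose 2)` a `p`-th power of an element of `⟨z ^ (p ^ k)⟩`, when `p` is odd or `k < n`. -/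
theorem symp_sq_aux {p : ℕ} [Fact p.Prime] (z : G) (n k : ℕ) (hpk : p ≠ 2 ∨ k + 1 ≤ n) (t : G)
    (ht : t ∈ Subgroup.zpowers (z ^ (p ^ n))) (htp : t ^ p = 1) :
    ∃ s ∈ Subgroup.zpowers (z ^ (p ^ k)), s ^ p = t ^ (p.choose 2) := by
  have hp : p.Prime := Fact.out
  by_cases hp2 : p = 2
  · subst hp2
    have hkn : k + 1 ≤ n := by
      rcases hpk with h | h
      · exact absurd rfl h
      · exact h
    obtain ⟨l, rfl⟩ := Subgroup.mem_zpowers_iff.mp ht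
    refine ⟨((z ^ (2 ^ k)) ^ (2 ^ (n - 1 - k))) ^ l,
      Subgroup.zpow_mem _ (Subgroup.pow_mem _ (Subgroup.mem_zpowers _) _) l, ?_⟩
    have e1 : (z ^ (2 ^ k)) ^ (2 ^ (n - 1 - k)) = z ^ (2 ^ (n - 1)) := by
      rw [← pow_mul, ← pow_add]; congr 2; omega
    have e2 : (z ^ (2 ^ (n - 1))) ^ 2 = z ^ (2 ^ n) := by
      rw [← pow_mul, ← pow_succ]; congr 2; omega
    rw [e1]
    have e3 : ((z ^ (2 ^ (n - 1))) ^ l) ^ 2 = ((z ^ (2 ^ (n - 1))) ^ 2) ^ l := by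
      rw [← zpow_natCast, ← zpow_mul, mul_comm, zpow_mul, zpow_natCast]
    rw [e3, e2]
    simp
  · refine ⟨1, Subgroup.one_mem _, ?_⟩
    have h2 : 2 < p := lt_of_le_of_ne hp.two_le (Ne.symm hp2)
    obtain ⟨m, hm⟩ := Nat.Prime.dvd_choose_self hp (by norm_num : (2 : ℕ) ≠ 0) h2
    rw [hm, pow_mul, htp, one_pow, one_pow]

/-- **Lemma X.** Let `N` be a characteristic subgroup of a `p`-group `G` all of whose characteristic
abelian subgroups are cyclic, with cyclic centre `Y`, `p`-th powers in `Y`, and commutators in a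
subgroup `Y1 ≤ Y` of order `p`. Then (under a mild condition) `p`-th powers of elements of `N` are
`p`-th powers of elements of `Y`. -/
theorem symp_lemmaX [Finite G] {p : ℕ} [Fact p.Prime] (hG : IsPGroup p G)
    (hsymp : ∀ A : Subgroup G, A.Characteristic → IsMulCommutative A → IsCyclic A)
    (N Y Y1 : Subgroup G) (hNc : N.Characteristic) (hYc : Y.Characteristic) (z : G)
    (hz : Y = Subgroup.zpowers z) (hz1 : z ≠ 1)
    (hYN : Y ≤ N) (hYcent : ∀ y ∈ Y, ∀ x ∈ N, y * x = x * y)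
    (hcent : ∀ x ∈ N, (∀ y ∈ N, x * y = y * x) → x ∈ Y)
    (hpow : ∀ x ∈ N, x ^ p ∈ Y)
    (hY1 : Nat.card Y1 = p) (hY1Y : Y1 ≤ Y)
    (hcomm : ∀ x ∈ N, ∀ y ∈ N, x * y * x⁻¹ * y⁻¹ ∈ Y1)
    (hsq : ∀ t ∈ Y1, ∃ s ∈ Y, s ^ p = t ^ (p.choose 2)) :
    ∀ x ∈ N, ∃ y ∈ Y, x ^ p = y ^ p := by
  classical
  have hp : p.Prime := Fact.out
  have hYab : ∀ a ∈ Y, ∀ b ∈ Y, a * b = b * a := fun a ha b hb => hYcent a ha b (hYN hb)
  have hmul : ∀ x ∈ N, ∀ x' ∈ N, ∃ s ∈ Y, (x * x') ^ p = x ^ p * x' ^ p * s ^ p := by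
    intro x hx x' hx'
    have ht : x'⁻¹ * x⁻¹ * x' * x ∈ Y1 := by
      have := hcomm x'⁻¹ (N.inv_mem hx') x⁻¹ (N.inv_mem hx)
      simpa using this
    obtain ⟨s, hs, hs2⟩ := hsq _ ht
    refine ⟨s, hs, ?_⟩
    rw [hs2]
    exact mul_pow_of_rel_comm (basic_rel x x') (hYcent _ (hY1Y ht) x hx)
      (hYcent _ (hY1Y ht) x' hx') p
  let H₀ : Subgroup G :=
    { carrier := {x | x ∈ N ∧ ∃ y ∈ Y, x ^ p = y ^ p}
      mul_mem' := by
        rintro a b ⟨ha, y, hy, hay⟩ ⟨hb, y', hy', hby⟩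
        refine ⟨N.mul_mem ha hb, ?_⟩
        obtain ⟨s, hs, hs2⟩ := hmul a ha b hb
        refine ⟨y * y' * s, Y.mul_mem (Y.mul_mem hy hy') hs, ?_⟩
        rw [hs2, hay, hby]
        have c1 : Commute y y' := hYab y hy y' hy'
        have c2 : Commute (y * y') s := hYab _ (Y.mul_mem hy hy') s hs
        rw [c2.mul_pow, c1.mul_pow]
      one_mem' := ⟨N.one_mem, 1, Y.one_mem, by simp⟩
      inv_mem' := by
        rintro a ⟨ha, y, hy, hay⟩
        exact ⟨N.inv_mem ha, y⁻¹, Y.inv_mem hy, by rw [inv_pow, inv_pow, hay]⟩ }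
  have hH₀mem : ∀ x, x ∈ H₀ ↔ x ∈ N ∧ ∃ y ∈ Y, x ^ p = y ^ p := fun x => Iff.rfl
  by_contra hcon
  push Not at hcon
  obtain ⟨x₀, hx₀N, hx₀⟩ := hcon
  have hx₀H : x₀ ∉ H₀ := fun h => by
    obtain ⟨-, y, hy, h2⟩ := (hH₀mem x₀).mp h
    exact hx₀ y hy h2
  have hH₀N : H₀ ≤ N := fun x hx => ((hH₀mem x).mp hx).1
  have hYH₀ : Y ≤ H₀ := fun y hy => (hH₀mem y).mpr ⟨hYN hy, y, hy, rfl⟩
  have hH₀c : H₀.Characteristic := by
    rw [Subgroup.characteristic_iff_comap_le]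
    intro φ x hx
    have hx' : φ x ∈ H₀ := hx
    obtain ⟨h1, y, hy, h2⟩ := (hH₀mem _).mp hx'
    rw [hH₀mem]
    refine ⟨?_, φ.symm y, ?_, ?_⟩
    · have h := hNc.fixed φ
      rw [← h]; exact h1
    · have h := hYc.fixed φ.symm
      have : y ∈ Y.comap φ.symm.toMonoidHom := by rw [h]; exact hy
      exact this
    · have := congrArg φ.symm h2
      simpa [map_pow] using this
  have hgen : ∀ y₀ ∈ N, y₀ ∉ H₀ → Subgroup.zpowers (y₀ ^ p) = Y := by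
    intro y₀ hy₀N hy₀
    have hxY : y₀ ^ p ∈ Subgroup.zpowers z := hz ▸ hpow y₀ hy₀N
    rcases symp_zpowers_eq_or_exists_pow hG z (y₀ ^ p) hxY with ⟨u, hu, h⟩ | h
    · exact absurd ((hH₀mem y₀).mpr ⟨hy₀N, u, hz ▸ hu, h⟩) hy₀
    · rw [h, hz]
  have hdecomp : ∀ y₀ ∈ N, y₀ ∉ H₀ → ∀ x ∈ N, ∃ i : ℤ, x * y₀ ^ i ∈ H₀ := by
    intro y₀ hy₀N hy₀ x hx
    have : x ^ p ∈ Subgroup.zpowers (y₀ ^ p) := (hgen y₀ hy₀N hy₀) ▸ hpow x hx
    obtain ⟨i, hi⟩ := Subgroup.mem_zpowers_iff.mp this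
    refine ⟨-i, (hH₀mem _).mpr ⟨N.mul_mem hx (N.zpow_mem hy₀N _), ?_⟩⟩
    obtain ⟨s, hs, hs2⟩ := hmul x hx (y₀ ^ (-i)) (N.zpow_mem hy₀N _)
    refine ⟨s, hs, ?_⟩
    rw [hs2, ← hi]
    have e1 : (y₀ ^ (-i)) ^ p = ((y₀ ^ p) ^ i)⁻¹ := by
      rw [← zpow_natCast (y₀ ^ (-i)) p, ← zpow_mul, ← zpow_natCast y₀ p, ← zpow_mul, ← zpow_neg]
      congr 1; ring
    rw [e1, mul_inv_cancel, one_mul]
  obtain ⟨C, hCdef⟩ : ∃ C : Subgroup G, C = N ⊓ Subgroup.centralizer (H₀ : Set G) := ⟨_, rfl⟩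
  have hCc : C.Characteristic := by
    rw [hCdef]; haveI := hNc; haveI := hH₀c; infer_instance
  have hCmem : ∀ c ∈ C, c ∈ N ∧ ∀ h ∈ H₀, h * c = c * h := by
    intro c hc
    rw [hCdef] at hc
    exact ⟨hc.1, fun h hh => Subgroup.mem_centralizer_iff.mp hc.2 h hh⟩
  have hCH₀ : C ≤ H₀ := by
    intro c hc
    by_contra hcH
    obtain ⟨hcN, hcc⟩ := hCmem c hc
    apply hcH
    apply hYH₀
    apply hcent c hcN
    intro x hx
    obtain ⟨i, hi⟩ := hdecomp c hcN hcH x hx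
    have h1 := hcc _ hi
    calc c * x = c * (x * c ^ i) * c ^ (-i) := by group
      _ = (x * c ^ i * c) * c ^ (-i) := by rw [h1]
      _ = x * c := by group
  have hCab : IsMulCommutative C := ⟨⟨fun a b => Subtype.ext
    (((hCmem a.1 a.2).2 b.1 (hCH₀ b.2)).symm)⟩⟩
  have hCcyc := hsymp C hCc hCab
  obtain ⟨a, haC, hCa⟩ := symp_exists_zpowers_eq_of_isCyclic C hCcyc
  have hcard : Nat.card Y < Nat.card C := by
    have h := chain_centralizer_card N Y1 hY1 (Nat.card H₀ - Nat.card Y) Y H₀ hYH₀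
      (hG.to_subgroup H₀) rfl (fun s hs y hy => hcomm s hs y (hH₀N hy))
    have h1 : N ⊓ Subgroup.centralizer (Y : Set G) = N :=
      inf_eq_left.mpr (fun x hx => Subgroup.mem_centralizer_iff.mpr (fun y hy => hYcent y hy x hx))
    rw [h1, ← hCdef] at h
    have h2 : Nat.card H₀ < Nat.card N := by
      by_contra h
      exact hx₀H ((Subgroup.eq_of_le_of_card_ge hH₀N (not_lt.mp h)) ▸ hx₀N)
    by_contra hle
    push Not at hle
    have : Nat.card C * Nat.card H₀ < Nat.card N * Nat.card Y := by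
      calc Nat.card C * Nat.card H₀ ≤ Nat.card Y * Nat.card H₀ := Nat.mul_le_mul_right _ hle
        _ < Nat.card Y * Nat.card N := Nat.mul_lt_mul_of_pos_left h2 Nat.card_pos
        _ = _ := mul_comm _ _
    omega
  obtain ⟨-, s, hs, has⟩ := (hH₀mem a).mp (hCH₀ haC)
  have hYC : Y ≤ C := by
    rw [hCdef]
    exact le_inf hYN (fun y hy => Subgroup.mem_centralizer_iff.mpr
      (fun h hh => (hYcent y hy h (hH₀N hh)).symm))
  have hzC : z ∈ Subgroup.zpowers a := hCa ▸ hYC (hz ▸ Subgroup.mem_zpowers z)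
  have e : ∀ (g : G) (l : ℤ), (g ^ l) ^ p = (g ^ p) ^ l := fun g l => by
    rw [← zpow_natCast, ← zpow_mul, mul_comm, zpow_mul, zpow_natCast]
  rcases symp_zpowers_eq_or_exists_pow hG a z hzC with ⟨u, hu, h⟩ | h
  · obtain ⟨l, rfl⟩ := Subgroup.mem_zpowers_iff.mp hu
    have h3 : z = (s ^ l) ^ p := by rw [h, e, has, ← e]
    exact symp_not_generator_pow hG z (s ^ l) hz1 (hz ▸ Y.zpow_mem hs l) h3
  · have h3 : Y = C := by rw [hz, hCa, h]
    rw [h3] at hcard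
    exact lt_irrefl _ hcard

end SympX

section SympStruct

open scoped commutatorElement

variable {G : Type*} [Group G]

/-- The centre of `E` is `Z1`, given element-wise data. -/
theorem symp_center_eq (E Z1 : Subgroup G)
    (hcent : ∀ e ∈ E, (∀ e' ∈ E, e * e' = e' * e) → e ∈ Z1)
    (hZ1c : ∀ u ∈ Z1, ∀ e ∈ E, u * e = e * u) : Subgroup.center ↥E = Z1.subgroupOf E := by
  ext x
  rw [Subgroup.mem_center_iff, Subgroup.mem_subgroupOf]
  constructor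
  · intro h
    exact hcent x.1 x.2 (fun e' he' => (congrArg Subtype.val (h ⟨e', he'⟩)).symm)
  · intro h g
    exact Subtype.ext (hZ1c x.1 h g.1 g.2).symm

theorem symp_center_card (E Z1 : Subgroup G) (hZ1E : Z1 ≤ E)
    (hcent : ∀ e ∈ E, (∀ e' ∈ E, e * e' = e' * e) → e ∈ Z1)
    (hZ1c : ∀ u ∈ Z1, ∀ e ∈ E, u * e = e * u) :
    Nat.card (Subgroup.center ↥E) = Nat.card Z1 := by
  rw [symp_center_eq E Z1 hcent hZ1c]
  exact Nat.card_congr (Subgroup.subgroupOfEquivOfLe hZ1E).toEquiv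

/-- Element-wise criterion for a subgroup to be extraspecial. -/
theorem symp_extraspecial_of [Finite G] {p : ℕ} [Fact p.Prime] (hG : IsPGroup p G)
    (E Z1 : Subgroup G) [Z1.Normal] (hZ1E : Z1 ≤ E) (hZ1 : Nat.card Z1 = p)
    (hcent : ∀ e ∈ E, (∀ e' ∈ E, e * e' = e' * e) → e ∈ Z1)
    (hZ1c : ∀ u ∈ Z1, ∀ e ∈ E, u * e = e * u)
    (hcomm : ∀ e ∈ E, ∀ e' ∈ E, e * e' * e⁻¹ * e'⁻¹ ∈ Z1)
    (hpow : ∀ e ∈ E, e ^ p ∈ Z1)
    (hnab : ∃ e ∈ E, ∃ e' ∈ E, e * e' ≠ e' * e) : Cfsg.IsExtraspecial p ↥E := by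
  have hp : p.Prime := Fact.out
  have hcenter := symp_center_eq E Z1 hcent hZ1c
  have hcard : Nat.card (Subgroup.center ↥E) = p := by
    rw [symp_center_card E Z1 hZ1E hcent hZ1c, hZ1]
  have hcommle : commutator ↥E ≤ Subgroup.center ↥E := by
    rw [hcenter, commutator_def, Subgroup.commutator_le]
    intro a _ b _
    rw [Subgroup.mem_subgroupOf]
    have := hcomm a.1 a.2 b.1 b.2
    simpa [commutatorElement_def] using this
  have hcommne : commutator ↥E ≠ ⊥ := by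
    intro h
    obtain ⟨e, he, e', he', hne⟩ := hnab
    have h1 : ⁅(⟨e, he⟩ : E), ⟨e', he'⟩⁆ ∈ commutator ↥E := by
      rw [commutator_def]
      exact Subgroup.commutator_mem_commutator (Subgroup.mem_top _) (Subgroup.mem_top _)
    rw [h, Subgroup.mem_bot, commutatorElement_eq_one_iff_commute] at h1
    exact hne (congrArg Subtype.val h1.eq)
  have hcommeq : commutator ↥E = Subgroup.center ↥E := by
    apply Subgroup.eq_of_le_of_card_ge hcommle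
    rw [hcard]
    have hdvd : Nat.card (commutator ↥E) ∣ p := hcard ▸ Subgroup.card_dvd_of_le hcommle
    rcases (Nat.dvd_prime hp).mp hdvd with h | h
    · exact absurd (Subgroup.card_eq_one.mp h) hcommne
    · exact h.ge
  refine ⟨⟨hG.to_subgroup E, ?_, hcommeq⟩, hcard⟩
  apply le_antisymm
  · have h := frattini_le_of_elementary (p := p) E Z1 hpow
      (fun x hx y hy => by rw [commutatorElement_def]; exact hcomm x hx y hy)
    rw [hcenter]
    intro x hx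
    rw [Subgroup.mem_subgroupOf]
    exact h (Subgroup.mem_map_of_mem _ hx)
  · rw [← hcommeq]
    exact commutator_le_frattini (hG.to_subgroup E)

/-- Product decomposition `G = E C_G(E)`. -/
theorem symp_decomp (E : Subgroup G) (hsup : E ⊔ Subgroup.centralizer (E : Set G) = ⊤) (g : G) :
    ∃ e ∈ E, ∃ r ∈ Subgroup.centralizer (E : Set G), g = e * r := by
  apply mem_sup_of_normalizes E _ _ (hsup ▸ Subgroup.mem_top g)
  intro r hr e he
  rw [← Subgroup.mem_centralizer_iff.mp hr e he, mul_inv_cancel_right]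
  exact he

/-- The data of a critical pair `(H, Z)` with `Z = Z(H) = C_G(H)` cyclic generated by `z` of
order `p ^ (n + 1)` and `Z1 = Ω₁(Z)`. -/
structure SympCrit (p : ℕ) (H Z Z1 : Subgroup G) (z : G) (n : ℕ) : Prop where
  hZH : Z ≤ H
  hZc : ∀ u ∈ Z, ∀ x ∈ H, u * x = x * u
  hcZ : ∀ g : G, (∀ x ∈ H, g * x = x * g) → g ∈ Z
  hpow : ∀ x ∈ H, x ^ p ∈ Z
  hcomm : ∀ x ∈ H, ∀ y : G, x * y * x⁻¹ * y⁻¹ ∈ Z
  hZn : Z.Normal
  hz : Z = Subgroup.zpowers z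
  hord : orderOf z = p ^ (n + 1)
  hZ1card : Nat.card Z1 = p
  hZ1Z : Z1 ≤ Z
  hZ1 : ∀ t ∈ Z, t ^ p = 1 → t ∈ Z1
  hZ1cent : ∀ u ∈ Z1, ∀ g : G, u * g = g * u

namespace SympCrit

variable {p : ℕ} {H Z Z1 : Subgroup G} {z : G} {n : ℕ}

theorem zZ (c : SympCrit p H Z Z1 z n) : z ∈ Z := by
  rw [c.hz]; exact Subgroup.mem_zpowers z

theorem Zab (c : SympCrit p H Z Z1 z n) : ∀ a ∈ Z, ∀ b ∈ Z, a * b = b * a :=
  fun a ha b hb => c.hZc a ha b (c.hZH hb)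

theorem Z1_pow (c : SympCrit p H Z Z1 z n) : ∀ t ∈ Z1, t ^ p = 1 := by
  intro t ht
  have := pow_card_eq_one' (G := Z1) (x := ⟨t, ht⟩)
  rw [c.hZ1card] at this
  exact congrArg Subtype.val this

theorem Z1_normal (c : SympCrit p H Z Z1 z n) : Z1.Normal :=
  ⟨fun u hu g => by rw [← c.hZ1cent u hu g, mul_inv_cancel_right]; exact hu⟩

theorem comm_H (c : SympCrit p H Z Z1 z n) : ∀ x ∈ H, ∀ y ∈ H, x * y * x⁻¹ * y⁻¹ ∈ Z1 := by
  intro x hx y hy
  apply c.hZ1 _ (c.hcomm x hx y)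
  exact symp_comm_pow_eq_one' x y p (c.hZc _ (c.hcomm x hx y) y hy)
    ((c.hZc _ (c.hpow y hy) x hx).symm)

theorem E_pow (c : SympCrit p H Z Z1 z n) (E : Subgroup G) (hEH : E ≤ H) (hEZ : E ⊓ Z ≤ Z1) :
    ∀ e ∈ E, e ^ p ∈ Z1 :=
  fun e he => hEZ (Subgroup.mem_inf.mpr ⟨E.pow_mem he p, c.hpow e (hEH he)⟩)

theorem E_comm (c : SympCrit p H Z Z1 z n) (E : Subgroup G) (hEH : E ≤ H) (hEZ : E ⊓ Z ≤ Z1) :
    ∀ e ∈ E, ∀ g : G, e * g * e⁻¹ * g⁻¹ ∈ Z1 := by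
  intro e he g
  apply c.hZ1 _ (c.hcomm e (hEH he) g)
  exact symp_comm_pow_eq_one'' e g p (c.hZc _ (c.hcomm e (hEH he) g) e (hEH he))
    (c.hZ1cent _ (c.E_pow E hEH hEZ e he) g)

theorem commutes_H (c : SympCrit p H Z Z1 z n) (E : Subgroup G) (hHEZ : H ≤ E ⊔ Z) (g : G)
    (h1 : ∀ e ∈ E, g * e = e * g) (h2 : ∀ u ∈ Z, g * u = u * g) : g ∈ Z := by
  apply c.hcZ
  intro x hx
  have hle : E ⊔ Z ≤ Subgroup.centralizer {g} := sup_le
    (fun e he => Subgroup.mem_centralizer_iff.mpr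
      (fun h hh => by rw [Set.mem_singleton_iff.mp hh]; exact h1 e he))
    (fun u hu => Subgroup.mem_centralizer_iff.mpr
      (fun h hh => by rw [Set.mem_singleton_iff.mp hh]; exact h2 u hu))
  exact Subgroup.mem_centralizer_iff.mp (hle (hHEZ hx)) g rfl

theorem E_center (c : SympCrit p H Z Z1 z n) (E : Subgroup G) (hEH : E ≤ H) (hEZ : E ⊓ Z ≤ Z1)
    (hHEZ : H ≤ E ⊔ Z) : ∀ e ∈ E, (∀ e' ∈ E, e * e' = e' * e) → e ∈ Z1 := by
  intro e he h
  exact hEZ (Subgroup.mem_inf.mpr ⟨he, c.commutes_H E hHEZ e h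
    (fun u hu => (c.hZc u hu e (hEH he)).symm)⟩)

theorem R_cent (c : SympCrit p H Z Z1 z n) (E : Subgroup G) (hHEZ : H ≤ E ⊔ Z) :
    ∀ r ∈ Subgroup.centralizer (E : Set G), (∀ u ∈ Z, r * u = u * r) → r ∈ Z :=
  fun r hr h => c.commutes_H E hHEZ r
    (fun e he => (Subgroup.mem_centralizer_iff.mp hr e he).symm) h

theorem Z_le_R (c : SympCrit p H Z Z1 z n) (E : Subgroup G) (hEH : E ≤ H) :
    Z ≤ Subgroup.centralizer (E : Set G) :=
  fun u hu => Subgroup.mem_centralizer_iff.mpr (fun e he => (c.hZc u hu e (hEH he)).symm)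

theorem sup_R [Finite G] [Fact p.Prime] (hG : IsPGroup p G) (c : SympCrit p H Z Z1 z n)
    (E : Subgroup G) (hZ1E : Z1 ≤ E) (hEH : E ≤ H) (hEZ : E ⊓ Z ≤ Z1) (hHEZ : H ≤ E ⊔ Z) :
    E ⊔ Subgroup.centralizer (E : Set G) = ⊤ := by
  apply extraspecial_sup_centralizer hG E
  · rw [symp_center_card E Z1 hZ1E (c.E_center E hEH hEZ hHEZ)
      (fun u hu e _ => c.hZ1cent u hu e), c.hZ1card]
  · rw [Subgroup.commutator_le]
    intro g _ e he
    have h := c.E_comm E hEH hEZ e he g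
    have h2 : ⁅g, e⁆ = (e * g * e⁻¹ * g⁻¹)⁻¹ := by rw [commutatorElement_def]; group
    rw [h2]
    exact Subgroup.mem_inf.mpr ⟨hZ1E (Z1.inv_mem h), Subgroup.mem_centralizer_iff.mpr
      (fun e' _ => (c.hZ1cent _ (Z1.inv_mem h) e').symm)⟩

/-- Existence of `E` with `E ∩ Z = Z1` and `E Z = H`, given that `p`-th powers of `H` are `p`-th
powers of `Z`. -/
theorem exists_E [Finite G] [Fact p.Prime] (c : SympCrit p H Z Z1 z n)
    (hX : ∀ x ∈ H, ∃ y ∈ Z, x ^ p = y ^ p) :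
    ∃ E : Subgroup G, Z1 ≤ E ∧ E ≤ H ∧ E ⊓ Z ≤ Z1 ∧ H ≤ E ⊔ Z := by
  classical
  have hp : p.Prime := Fact.out
  obtain ⟨E, -, hEmax⟩ := Set.Finite.exists_le_maximal
    (s := {E : Subgroup G | Z1 ≤ E ∧ E ≤ H ∧ E ⊓ Z ≤ Z1}) (Set.toFinite _) (a := Z1)
    ⟨le_rfl, c.hZ1Z.trans c.hZH, inf_le_left⟩
  obtain ⟨hZ1E, hEH, hEZ⟩ := hEmax.prop
  refine ⟨E, hZ1E, hEH, hEZ, ?_⟩
  by_contra hcon
  obtain ⟨x, hxH, hxEZ⟩ := SetLike.not_le_iff_exists.mp hcon
  obtain ⟨y, hyZ, hxy⟩ := hX x hxH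
  obtain ⟨x', hx'⟩ : ∃ x' : G, x' = x * y⁻¹ := ⟨_, rfl⟩
  have hx'H : x' ∈ H := by rw [hx']; exact H.mul_mem hxH (H.inv_mem (c.hZH hyZ))
  have hx'EZ : x' ∉ E ⊔ Z := by
    intro h
    apply hxEZ
    have : x = x' * y := by rw [hx']; group
    rw [this]
    exact (E ⊔ Z).mul_mem h (Subgroup.mem_sup_right hyZ)
  have hx'p : x' ^ p = 1 := by
    have hc : Commute x y⁻¹ := ((c.hZc y⁻¹ (Z.inv_mem hyZ) x hxH).symm : x * y⁻¹ = y⁻¹ * x)
    rw [hx', hc.mul_pow, hxy, inv_pow, mul_inv_cancel]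
  have hnorm : ∀ k ∈ Subgroup.zpowers x', ∀ e ∈ E, k * e * k⁻¹ ∈ E := by
    intro k hk e he
    have hkH : k ∈ H := (Subgroup.zpowers_le.mpr hx'H) hk
    have h1 : k * e * k⁻¹ * e⁻¹ ∈ Z1 := c.comm_H k hkH e (hEH he)
    have h2 : k * e * k⁻¹ = (k * e * k⁻¹ * e⁻¹) * e := by group
    rw [h2]; exact E.mul_mem (hZ1E h1) he
  have hE'mem : E ⊔ Subgroup.zpowers x' ∈ {E : Subgroup G | Z1 ≤ E ∧ E ≤ H ∧ E ⊓ Z ≤ Z1} := by
    refine ⟨hZ1E.trans le_sup_left, sup_le hEH (Subgroup.zpowers_le.mpr hx'H), ?_⟩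
    intro w hw
    obtain ⟨hwE', hwZ⟩ := Subgroup.mem_inf.mp hw
    obtain ⟨e, he, k, hk, rfl⟩ := mem_sup_of_normalizes E (Subgroup.zpowers x') hnorm hwE'
    by_cases hkE : k ∈ E
    · exact hEZ (Subgroup.mem_inf.mpr ⟨E.mul_mem he hkE, hwZ⟩)
    · exfalso
      have hx'1 : x' ≠ 1 := fun h => hx'EZ (h ▸ (E ⊔ Z).one_mem)
      have hcard : Nat.card (Subgroup.zpowers x') = p := by
        rw [Nat.card_zpowers]
        exact orderOf_eq_prime hx'p hx'1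
      have hk1 : k ≠ 1 := fun h => hkE (h ▸ E.one_mem)
      have hzk : Subgroup.zpowers k = Subgroup.zpowers x' := by
        apply Subgroup.eq_of_le_of_card_ge (Subgroup.zpowers_le.mpr hk)
        rw [hcard, Nat.card_zpowers]
        have hkp : k ^ p = 1 := by
          obtain ⟨i, rfl⟩ := Subgroup.mem_zpowers_iff.mp hk
          rw [← zpow_natCast, ← zpow_mul, mul_comm, zpow_mul, zpow_natCast, hx'p, one_zpow]
        exact (orderOf_eq_prime hkp hk1).ge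
      apply hx'EZ
      have h3 : x' ∈ Subgroup.zpowers k := hzk ▸ Subgroup.mem_zpowers x'
      have hkEZ : k ∈ E ⊔ Z := by
        have h4 : k = e⁻¹ * (e * k) := by group
        rw [h4]
        exact (E ⊔ Z).mul_mem (Subgroup.mem_sup_left (E.inv_mem he)) (Subgroup.mem_sup_right hwZ)
      exact (Subgroup.zpowers_le.mpr hkEZ) h3
  have h5 := hEmax.le_of_ge hE'mem le_sup_left
  exact hx'EZ (Subgroup.mem_sup_left (h5 (Subgroup.mem_sup_right (Subgroup.mem_zpowers x'))))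

/-- The small case: `p = 2`, `|Z| = 4`, `C_G(E)` nonabelian: then `G` is extraspecial. -/
theorem small_case [Finite G] (hG : IsPGroup 2 G) (c : SympCrit 2 H Z Z1 z 1) (E : Subgroup G)
    (hZ1E : Z1 ≤ E) (hEH : E ≤ H) (hEZ : E ⊓ Z ≤ Z1) (hHEZ : H ≤ E ⊔ Z)
    (hna : ∃ r ∈ Subgroup.centralizer (E : Set G), ∃ r' ∈ Subgroup.centralizer (E : Set G),
      r * r' ≠ r' * r) :
    Cfsg.IsExtraspecial 2 ↥(⊤ : Subgroup G) := by
  classical
  haveI : Fact (Nat.Prime 2) := ⟨Nat.prime_two⟩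
  have hsup := c.sup_R hG E hZ1E hEH hEZ hHEZ
  obtain ⟨R, hRdef⟩ : ∃ R : Subgroup G, R = Subgroup.centralizer (E : Set G) := ⟨_, rfl⟩
  have hz4 : orderOf z = 4 := by rw [c.hord]; norm_num
  have hz4' : z ^ 4 = 1 := by rw [← hz4]; exact pow_orderOf_eq_one z
  have hzZ : z ∈ Z := c.zZ
  have hRc : ∀ r ∈ R, r * z = z * r → r ∈ Z := by
    intro r hr h
    apply c.R_cent E hHEZ r (hRdef ▸ hr)
    intro u hu
    rw [c.hz] at hu
    obtain ⟨i, rfl⟩ := Subgroup.mem_zpowers_iff.mp hu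
    exact ((show Commute r z from h).zpow_right i).eq
  have hF1 : ∀ r ∈ R, r ∉ Z → r * z * r⁻¹ = z⁻¹ := by
    intro r hr hrZ
    have hconj : r * z * r⁻¹ ∈ Subgroup.zpowers z := by
      rw [← c.hz]; exact c.hZn.conj_mem z hzZ r
    rw [mem_zpowers_iff_mem_range_orderOf, hz4] at hconj
    obtain ⟨k, hk, hkz⟩ := Finset.mem_image.mp hconj
    rw [Finset.mem_range] at hk
    have hkz' : z ^ k = r * z * r⁻¹ := hkz
    interval_cases k
    · exfalso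
      rw [pow_zero] at hkz'
      have h1 : z = 1 := conj_eq_one_iff.mp hkz'.symm
      rw [h1, orderOf_one] at hz4
      omega
    · exfalso
      rw [pow_one] at hkz'
      apply hrZ
      apply hRc r hr
      calc r * z = (r * z * r⁻¹) * r := by group
        _ = z * r := by rw [← hkz']
    · exfalso
      have h2 : (r * z * r⁻¹) ^ 2 = 1 := by rw [← hkz', ← pow_mul]; exact hz4'
      rw [conj_pow, conj_eq_one_iff] at h2
      have h3 := orderOf_dvd_of_pow_eq_one h2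
      rw [hz4] at h3
      omega
    · rw [← hkz']
      exact eq_inv_of_mul_eq_one_left (by rw [← pow_succ]; exact hz4')
  have hinv : ∀ r ∈ R, r ∉ Z → ∀ u ∈ Z, r * u * r⁻¹ = u⁻¹ := by
    intro r hr hrZ u hu
    rw [c.hz] at hu
    obtain ⟨i, rfl⟩ := Subgroup.mem_zpowers_iff.mp hu
    rw [← conj_zpow, hF1 r hr hrZ, inv_zpow]
  obtain ⟨t, htR, htZ⟩ : ∃ t ∈ R, t ∉ Z := by
    obtain ⟨r, hr, r', hr', hne⟩ := hna
    by_cases h : r ∈ Z
    · by_cases h' : r' ∈ Z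
      · exact absurd (c.Zab r h r' h') hne
      · exact ⟨r', hRdef ▸ hr', h'⟩
    · exact ⟨r, hRdef ▸ hr, h⟩
  have hF4 : ∀ r ∈ R, r ^ 2 ∈ Z1 := by
    intro r hr
    by_cases hrZ : r ∈ Z
    · apply c.hZ1 _ (Z.pow_mem hrZ 2)
      rw [c.hz] at hrZ
      obtain ⟨i, rfl⟩ := Subgroup.mem_zpowers_iff.mp hrZ
      have e1 : ((z ^ i) ^ 2) ^ 2 = (z ^ 4) ^ i := by
        rw [← pow_mul, ← zpow_natCast, ← zpow_mul, mul_comm, zpow_mul, zpow_natCast]
      rw [e1, hz4', one_zpow]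
    · have h1 : r ^ 2 ∈ Z := by
        apply hRc _ (R.pow_mem hr 2)
        have e1 : r ^ 2 * z = r * (r * z * r⁻¹) * r := by rw [sq]; group
        have e2 : r * z⁻¹ * r⁻¹ = z := by rw [← conj_inv, hF1 r hr hrZ, inv_inv]
        have e3 : r * z⁻¹ * r = (r * z⁻¹ * r⁻¹) * r ^ 2 := by rw [sq]; group
        rw [e1, hF1 r hr hrZ, e3, e2]
      apply c.hZ1 _ h1
      have h2 := hinv r hr hrZ (r ^ 2) h1
      have e4 : r * r ^ 2 * r⁻¹ = r ^ 2 := by rw [sq]; group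
      rw [e4] at h2
      calc (r ^ 2) ^ 2 = r ^ 2 * r ^ 2 := sq _
        _ = r ^ 2 * (r ^ 2)⁻¹ := by rw [← h2]
        _ = 1 := mul_inv_cancel _
  have hF5 : ∀ g : G, g ^ 2 ∈ Z1 := by
    intro g
    obtain ⟨e, he, r, hr, rfl⟩ := symp_decomp E hsup g
    have hc : Commute e r := Subgroup.mem_centralizer_iff.mp hr e he
    rw [hc.mul_pow]
    exact Z1.mul_mem (c.E_pow E hEH hEZ e he) (hF4 r (hRdef ▸ hr))
  have hF7 : ∀ g g' : G, g * g' * g⁻¹ * g'⁻¹ ∈ Z1 := by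
    intro g g'
    have h1 : g * g' * g⁻¹ * g'⁻¹ = (g * g') ^ 2 * (g'⁻¹ * (g ^ 2)⁻¹ * g'⁻¹) := by
      rw [sq, sq]; group
    have hu := Z1.inv_mem (hF5 g)
    have h2 : g'⁻¹ * (g ^ 2)⁻¹ * g'⁻¹ = (g ^ 2)⁻¹ * (g' ^ 2)⁻¹ := by
      rw [← c.hZ1cent _ hu g'⁻¹, sq g', mul_inv_rev, mul_assoc]
    rw [h1, h2]
    exact Z1.mul_mem (hF5 _) (Z1.mul_mem hu (Z1.inv_mem (hF5 g')))
  have hF8 : ∀ g : G, (∀ g' : G, g * g' = g' * g) → g ∈ Z1 := by
    intro g hg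
    obtain ⟨e, he, r, hr, rfl⟩ := symp_decomp E hsup g
    have heZ1 : e ∈ Z1 := by
      apply c.E_center E hEH hEZ hHEZ e he
      intro e' he'
      have h1 := hg e'
      have h2 : r * e' = e' * r := (Subgroup.mem_centralizer_iff.mp hr e' he').symm
      have h3 : e * e' * r = e' * e * r := by
        rw [mul_assoc e e' r, ← h2, ← mul_assoc e r e', h1, mul_assoc e' e r]
      exact mul_right_cancel h3
    have hgR : e * r ∈ R :=
      R.mul_mem (hRdef ▸ c.Z_le_R E hEH (c.hZ1Z heZ1)) (hRdef ▸ hr)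
    have hgZ : e * r ∈ Z := hRc _ hgR (hg z)
    apply c.hZ1 _ hgZ
    have h4 := hinv t htR htZ _ hgZ
    have h5 : t * (e * r) * t⁻¹ = e * r := by rw [← hg t]; group
    rw [h5] at h4
    calc (e * r) ^ 2 = (e * r) * (e * r) := sq _
      _ = (e * r) * (e * r)⁻¹ := by rw [← h4]
      _ = 1 := mul_inv_cancel _
  haveI : Z1.Normal := c.Z1_normal
  obtain ⟨r, -, r', -, hne⟩ := hna
  exact symp_extraspecial_of hG ⊤ Z1 le_top c.hZ1card
    (fun g _ h => hF8 g (fun g' => h g' (Subgroup.mem_top _)))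
    (fun u hu e _ => c.hZ1cent u hu e) (fun g _ g' _ => hF7 g g') (fun g _ => hF5 g)
    ⟨r, Subgroup.mem_top _, r', Subgroup.mem_top _, hne⟩

/-- The bad case is contradictory. -/
theorem bad_case [Finite G] [Fact p.Prime] (hG : IsPGroup p G)
    (hsymp : ∀ A : Subgroup G, A.Characteristic → IsMulCommutative A → IsCyclic A)
    (c : SympCrit p H Z Z1 z n) (hZchar : Z.Characteristic) (E : Subgroup G)
    (hZ1E : Z1 ≤ E) (hEH : E ≤ H) (hEZ : E ⊓ Z ≤ Z1) (hHEZ : H ≤ E ⊔ Z)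
    (hn1 : 1 ≤ n) (hbig : p ≠ 2 ∨ 2 ≤ n)
    (w : G) (hwR : w ∈ Subgroup.centralizer (E : Set G))
    (hwN : ∀ s ∈ Z, w * s ^ p = s ^ p * w) (hwZ : w ∉ Z)
    (hT1 : ∀ r ∈ Subgroup.centralizer (E : Set G), (∀ s ∈ Z, r * s ^ p = s ^ p * r) → r ∉ Z →
      ∀ r' ∈ Subgroup.centralizer (E : Set G), (∀ s ∈ Z, r' * s ^ p = s ^ p * r') →
        ∃ u ∈ Z, ∃ i : ℤ, r' = u * r ^ i)
    (hT2 : ∀ r ∈ Subgroup.centralizer (E : Set G), (∀ s ∈ Z, r * s ^ p = s ^ p * r) →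
      r ^ p ∈ Z) : False := by
  classical
  have hp : p.Prime := Fact.out
  have hsup := c.sup_R hG E hZ1E hEH hEZ hHEZ
  obtain ⟨R, hRdef⟩ : ∃ R : Subgroup G, R = Subgroup.centralizer (E : Set G) := ⟨_, rfl⟩
  obtain ⟨Zp, hZpdef⟩ : ∃ Zp : Subgroup G, Zp = Subgroup.zpowers (z ^ p) := ⟨_, rfl⟩
  have epow : ∀ (g : G) (l : ℤ), (g ^ l) ^ p = (g ^ p) ^ l := fun g l => by
    rw [← zpow_natCast, ← zpow_mul, mul_comm, zpow_mul, zpow_natCast]
  have hZpmem : ∀ x, x ∈ Zp ↔ ∃ s ∈ Z, x = s ^ p := by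
    intro x
    rw [hZpdef, Subgroup.mem_zpowers_iff]
    constructor
    · rintro ⟨i, rfl⟩
      exact ⟨z ^ i, Z.zpow_mem c.zZ i, (epow z i).symm⟩
    · rintro ⟨s, hs, rfl⟩
      rw [c.hz] at hs
      obtain ⟨i, rfl⟩ := Subgroup.mem_zpowers_iff.mp hs
      exact ⟨i, (epow z i).symm⟩
  obtain ⟨N, hNdef⟩ : ∃ N : Subgroup G, N = Subgroup.centralizer (Zp : Set G) := ⟨_, rfl⟩
  have hNmem : ∀ x, x ∈ N ↔ ∀ s ∈ Z, x * s ^ p = s ^ p * x := by
    intro x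
    rw [hNdef, Subgroup.mem_centralizer_iff]
    constructor
    · intro h s hs
      exact (h (s ^ p) ((hZpmem _).mpr ⟨s, hs, rfl⟩)).symm
    · intro h y hy
      obtain ⟨s, hs, rfl⟩ := (hZpmem y).mp hy
      exact (h s hs).symm
  have hZpc : Zp.Characteristic := by
    rw [Subgroup.characteristic_iff_comap_le]
    intro φ x hx
    have hx' : φ x ∈ Zp := hx
    obtain ⟨s, hs, h2⟩ := (hZpmem _).mp hx'
    rw [hZpmem]
    refine ⟨φ.symm s, ?_, ?_⟩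
    · have h := hZchar.fixed φ.symm
      have : s ∈ Z.comap φ.symm.toMonoidHom := by rw [h]; exact hs
      exact this
    · have := congrArg φ.symm h2
      simpa [map_pow] using this
  have hNc : N.Characteristic := by
    rw [hNdef]; haveI := hZpc; infer_instance
  have hzp1 : z ^ p ≠ 1 := by
    intro h
    have h1 := orderOf_dvd_of_pow_eq_one h
    rw [c.hord] at h1
    have h2 : p ^ (n + 1) ≤ p := Nat.le_of_dvd hp.pos h1
    have h3 : p ^ 2 ≤ p ^ (n + 1) := Nat.pow_le_pow_right hp.pos (by omega)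
    have h4 : p < p ^ 2 := by nlinarith [hp.two_le]
    omega
  have hZN : Z ≤ N := fun u hu => (hNmem u).mpr (fun s hs => c.Zab u hu _ (Z.pow_mem hs p))
  have hEN : E ≤ N := fun e he => (hNmem e).mpr
    (fun s hs => (c.hZc _ (Z.pow_mem hs p) e (hEH he)).symm)
  have hZpZ : Zp ≤ Z := fun x hx => by
    obtain ⟨s, hs, rfl⟩ := (hZpmem x).mp hx; exact Z.pow_mem hs p
  have hwNm : w ∈ N := (hNmem w).mpr hwN
  have hNdec : ∀ x ∈ N, ∃ e ∈ E, ∃ r ∈ Subgroup.centralizer (E : Set G),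
      (∀ s ∈ Z, r * s ^ p = s ^ p * r) ∧ x = e * r := by
    intro x hx
    obtain ⟨e, he, r, hr, rfl⟩ := symp_decomp E hsup x
    refine ⟨e, he, r, hr, ?_, rfl⟩
    have h1 : r ∈ N := by
      have h : r = e⁻¹ * (e * r) := by group
      rw [h]; exact N.mul_mem (N.inv_mem (hEN he)) hx
    exact (hNmem r).mp h1
  have hRZ : ∀ r : G, ∀ u ∈ Z, r * u * r⁻¹ * u⁻¹ ∈ Z :=
    fun r u hu => Z.mul_mem (c.hZn.conj_mem u hu r) (Z.inv_mem hu)
  have hMZ : ∀ r : G, (∀ s ∈ Z, r * s ^ p = s ^ p * r) → ∀ u ∈ Z, r * u * r⁻¹ * u⁻¹ ∈ Z1 := by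
    intro r hrN u hu
    apply c.hZ1 _ (hRZ r u hu)
    exact symp_comm_pow_eq_one' r u p (c.Zab _ (hRZ r u hu) u hu) (hrN u hu)
  have hM : ∀ r ∈ Subgroup.centralizer (E : Set G), (∀ s ∈ Z, r * s ^ p = s ^ p * r) →
      ∀ r' ∈ Subgroup.centralizer (E : Set G), (∀ s ∈ Z, r' * s ^ p = s ^ p * r') →
      r * r' * r⁻¹ * r'⁻¹ ∈ Z1 := by
    intro r hr hrN r' hr' hr'N
    by_cases hrZ : r ∈ Z
    · have h := Z1.inv_mem (hMZ r' hr'N r hrZ)
      have e : (r' * r * r'⁻¹ * r⁻¹)⁻¹ = r * r' * r⁻¹ * r'⁻¹ := by group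
      rw [e] at h; exact h
    · obtain ⟨u, hu, i, rfl⟩ := hT1 r hr hrN hrZ r' hr' hr'N
      have e : r * (u * r ^ i) * r⁻¹ * (u * r ^ i)⁻¹ = r * u * r⁻¹ * u⁻¹ := by group
      rw [e]; exact hMZ r hrN u hu
  have hZ1Zp : Z1 ≤ Zp := by
    intro t ht
    have h1 : t ^ p = 1 := c.Z1_pow t ht
    have h2 := symp_mem_zpowers_of_pow_eq_one z n c.hord t
      (by rw [← c.hz]; exact c.hZ1Z ht) h1
    obtain ⟨l, rfl⟩ := Subgroup.mem_zpowers_iff.mp h2
    rw [hZpdef]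
    have e : z ^ (p ^ n) = (z ^ p) ^ (p ^ (n - 1)) := by
      rw [← pow_mul, ← pow_succ']; congr 2; omega
    rw [e]
    exact Subgroup.zpow_mem _ (Subgroup.pow_mem _ (Subgroup.mem_zpowers _) _) l
  have hcentN : ∀ x ∈ N, (∀ y ∈ N, x * y = y * x) → x ∈ Zp := by
    intro x hx hxc
    have hxZ : x ∈ Z := c.commutes_H E hHEZ x (fun e he => hxc e (hEN he))
      (fun u hu => hxc u (hZN hu))
    rcases symp_zpowers_eq_or_exists_pow hG z x (by rw [← c.hz]; exact hxZ) with ⟨u, hu, h⟩ | h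
    · exact (hZpmem x).mpr ⟨u, by rw [c.hz]; exact hu, h⟩
    · exfalso
      apply hwZ
      apply c.R_cent E hHEZ w hwR
      intro u hu
      rw [c.hz, ← h] at hu
      obtain ⟨i, rfl⟩ := Subgroup.mem_zpowers_iff.mp hu
      have hc : Commute w x := (hxc w hwNm).symm
      exact (hc.zpow_right i).eq
  have hpowN : ∀ x ∈ N, x ^ p ∈ Zp := by
    intro x hx
    obtain ⟨e, he, r, hr, hrN, rfl⟩ := hNdec x hx
    have hc : Commute e r := Subgroup.mem_centralizer_iff.mp hr e he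
    rw [hc.mul_pow]
    apply Zp.mul_mem (hZ1Zp (c.E_pow E hEH hEZ e he))
    have hrpZ : r ^ p ∈ Z := hT2 r hr hrN
    rcases symp_zpowers_eq_or_exists_pow hG z (r ^ p) (by rw [← c.hz]; exact hrpZ)
      with ⟨u, hu, h⟩ | h
    · exact (hZpmem _).mpr ⟨u, by rw [c.hz]; exact hu, h⟩
    · have hrZ : r ∈ Z := by
        apply c.R_cent E hHEZ r hr
        intro u hu
        rw [c.hz, ← h] at hu
        obtain ⟨i, rfl⟩ := Subgroup.mem_zpowers_iff.mp hu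
        exact (((Commute.refl r).pow_right p).zpow_right i).eq
      exact (hZpmem _).mpr ⟨r, hrZ, rfl⟩
  have hcommN : ∀ x ∈ N, ∀ y ∈ N, x * y * x⁻¹ * y⁻¹ ∈ Z1 := by
    intro x hx y hy
    obtain ⟨e, he, r, hr, hrN, rfl⟩ := hNdec x hx
    obtain ⟨e', he', r', hr', hr'N, rfl⟩ := hNdec y hy
    have h1 : Commute e r := Subgroup.mem_centralizer_iff.mp hr e he
    have h2 : Commute e' r := Subgroup.mem_centralizer_iff.mp hr e' he'
    have h3 : Commute e r' := Subgroup.mem_centralizer_iff.mp hr' e he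
    have h4 : Commute e' r' := Subgroup.mem_centralizer_iff.mp hr' e' he'
    have c2 : Commute (r * r') e⁻¹ := (h1.symm.inv_right).mul_left (h3.symm.inv_right)
    have c3 : Commute (r * r' * r⁻¹) e'⁻¹ :=
      ((h2.symm.inv_right).mul_left (h4.symm.inv_right)).mul_left (h2.symm.inv_inv)
    have e0 : e * r * (e' * r') * (e * r)⁻¹ * (e' * r')⁻¹ =
        (e * e' * e⁻¹ * e'⁻¹) * (r * r' * r⁻¹ * r'⁻¹) := by
      calc e * r * (e' * r') * (e * r)⁻¹ * (e' * r')⁻¹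
          = (e * e') * (r * r') * (e⁻¹ * r⁻¹) * (e'⁻¹ * r'⁻¹) := by
            rw [h2.symm.mul_mul_mul_comm, h1.mul_inv, h4.mul_inv]
        _ = (e * e' * e⁻¹) * (r * r' * r⁻¹) * (e'⁻¹ * r'⁻¹) := by
            rw [c2.mul_mul_mul_comm]
        _ = _ := by rw [c3.mul_mul_mul_comm]
    rw [e0]
    exact Z1.mul_mem (c.comm_H e (hEH he) e' (hEH he')) (hM r hr hrN r' hr' hr'N)
  have hsqN : ∀ t ∈ Z1, ∃ s ∈ Zp, s ^ p = t ^ (p.choose 2) := by
    intro t ht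
    have h1 : t ^ p = 1 := c.Z1_pow t ht
    have h2 := symp_mem_zpowers_of_pow_eq_one z n c.hord t
      (by rw [← c.hz]; exact c.hZ1Z ht) h1
    obtain ⟨s, hs, hs2⟩ := symp_sq_aux z n 1
      (by rcases hbig with h | h; exact Or.inl h; exact Or.inr (by omega)) t h2 h1
    refine ⟨s, ?_, hs2⟩
    rw [hZpdef]; rwa [pow_one] at hs
  have hX := symp_lemmaX hG hsymp N Zp Z1 hNc hZpc (z ^ p) hZpdef hzp1
    (fun x hx => (hNmem x).mpr (fun s hs => c.Zab x (hZpZ hx) _ (Z.pow_mem hs p)))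
    (fun y hy x hx => by
      obtain ⟨s, hs, rfl⟩ := (hZpmem y).mp hy
      exact ((hNmem x).mp hx s hs).symm)
    hcentN hpowN c.hZ1card hZ1Zp hcommN hsqN
  obtain ⟨y, hy, hzy⟩ := hX z (hZN c.zZ)
  rw [hZpdef] at hy
  exact symp_not_generator_pow hG (z ^ p) y hzp1 hy hzy

end SympCrit

end SympStruct

end Cfsg.Agent.H3
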