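import Mathlib
import Cfsg.Agent.H34.ThDefs

/-!
# S1632 piece TH-COEFF (helper3 for helper34): a level-one modular form of weight 12 with
`q`-expansion `1 + 0 q + …` has coefficients `196560`, `16773120`, `398034000` at `q²`, `q³`, `q⁴`.
-/

set_option autoImplicit false

namespace Cfsg.Agent.H3.Th

open UpperHalfPlane ModularForm ModularFormClass MatrixGroups EisensteinSeries
open Cfsg.Agent.H34.Th

theorem sigma3_vals : ArithmeticFunction.sigma 3 1 = 1 ∧ ArithmeticFunction.sigma 3 2 = 9 ∧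
    ArithmeticFunction.sigma 3 3 = 28 ∧ ArithmeticFunction.sigma 3 4 = 73 := by
  decide +kernel

theorem sigma5_vals : ArithmeticFunction.sigma 5 1 = 1 ∧ ArithmeticFunction.sigma 5 2 = 33 ∧
    ArithmeticFunction.sigma 5 3 = 244 ∧ ArithmeticFunction.sigma 5 4 = 1057 := by
  decide +kernel

theorem e4_coeffs : (qExpansion 1 E₄).coeff 0 = 1 ∧ (qExpansion 1 E₄).coeff 1 = 240 ∧
    (qExpansion 1 E₄).coeff 2 = 2160 ∧ (qExpansion 1 E₄).coeff 3 = 6720 ∧
    (qExpansion 1 E₄).coeff 4 = 17520 := by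
  obtain ⟨s1, s2, s3, s4⟩ := sigma3_vals
  have hb : bernoulli 4 = -1 / 30 := by decide +kernel
  refine ⟨?_, ?_, ?_, ?_, ?_⟩
  · rw [E_qExpansion_coeff _ ⟨2, rfl⟩]; simp
  · rw [E_qExpansion_coeff _ ⟨2, rfl⟩]; norm_num [hb, s1]
  · rw [E_qExpansion_coeff _ ⟨2, rfl⟩]; norm_num [hb, s2]
  · rw [E_qExpansion_coeff _ ⟨2, rfl⟩]; norm_num [hb, s3]
  · rw [E_qExpansion_coeff _ ⟨2, rfl⟩]; norm_num [hb, s4]

theorem e6_coeffs : (qExpansion 1 E₆).coeff 0 = 1 ∧ (qExpansion 1 E₆).coeff 1 = -504 ∧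
    (qExpansion 1 E₆).coeff 2 = -16632 ∧ (qExpansion 1 E₆).coeff 3 = -122976 ∧
    (qExpansion 1 E₆).coeff 4 = -532728 := by
  obtain ⟨s1, s2, s3, s4⟩ := sigma5_vals
  have hb : bernoulli 6 = 1 / 42 := by decide +kernel
  refine ⟨?_, ?_, ?_, ?_, ?_⟩
  · rw [E_qExpansion_coeff _ ⟨3, rfl⟩]; simp
  · rw [E_qExpansion_coeff _ ⟨3, rfl⟩]; norm_num [hb, s1]
  · rw [E_qExpansion_coeff _ ⟨3, rfl⟩]; norm_num [hb, s2]
  · rw [E_qExpansion_coeff _ ⟨3, rfl⟩]; norm_num [hb, s3]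
  · rw [E_qExpansion_coeff _ ⟨3, rfl⟩]; norm_num [hb, s4]

/-- The reference form `(7 E₄³ + 5 E₆²) / 12`. -/
noncomputable def refForm : ModularForm 𝒮ℒ 12 :=
  (7 / 12 : ℂ) • ModularForm.mcast (by decide) (E₄.pow 3) +
    (5 / 12 : ℂ) • ModularForm.mcast (by decide) (E₆.pow 2)

theorem refForm_qExpansion : qExpansion 1 refForm =
    (7 / 12 : ℂ) • (qExpansion 1 E₄ * qExpansion 1 E₄ * qExpansion 1 E₄) +
      (5 / 12 : ℂ) • (qExpansion 1 E₆ * qExpansion 1 E₆) := by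
  have h1 := ModularForm.qExpansion_add one_pos one_mem_strictPeriods_SL
    ((7 / 12 : ℂ) • ModularForm.mcast (by decide) (E₄.pow 3) : ModularForm 𝒮ℒ 12)
    ((5 / 12 : ℂ) • ModularForm.mcast (by decide) (E₆.pow 2) : ModularForm 𝒮ℒ 12)
  have h2 := ModularForm.qExpansion_smul one_pos one_mem_strictPeriods_SL (7 / 12 : ℂ)
    (ModularForm.mcast (by decide) (E₄.pow 3) : ModularForm 𝒮ℒ 12)
  have h3 := ModularForm.qExpansion_smul one_pos one_mem_strictPeriods_SL (5 / 12 : ℂ)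
    (ModularForm.mcast (by decide) (E₆.pow 2) : ModularForm 𝒮ℒ 12)
  have h4 : qExpansion 1 (ModularForm.mcast (by decide) (E₄.pow 3) : ModularForm 𝒮ℒ 12) =
      qExpansion 1 E₄ ^ 3 := by
    rw [ModularForm.qExpansion_mcast, ModularForm.qExpansion_pow one_pos one_mem_strictPeriods_SL]
  have h5 : qExpansion 1 (ModularForm.mcast (by decide) (E₆.pow 2) : ModularForm 𝒮ℒ 12) =
      qExpansion 1 E₆ ^ 2 := by
    rw [ModularForm.qExpansion_mcast, ModularForm.qExpansion_pow one_pos one_mem_strictPeriods_SL]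
  unfold refForm
  rw [FunLike.coe_add, h1, FunLike.coe_smul, FunLike.coe_smul, h2, h3, h4, h5]
  simp only [pow_succ, pow_zero, one_mul]

theorem refForm_coeffs : (qExpansion 1 refForm).coeff 0 = 1 ∧ (qExpansion 1 refForm).coeff 1 = 0 ∧
    (qExpansion 1 refForm).coeff 2 = 196560 ∧ (qExpansion 1 refForm).coeff 3 = 16773120 ∧
    (qExpansion 1 refForm).coeff 4 = 398034000 := by
  obtain ⟨a0, a1, a2, a3, a4⟩ := e4_coeffs
  obtain ⟨b0, b1, b2, b3, b4⟩ := e6_coeffs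
  rw [refForm_qExpansion]
  refine ⟨?_, ?_, ?_, ?_, ?_⟩ <;>
  · simp only [map_add, PowerSeries.coeff_smul, PowerSeries.coeff_mul,
      Finset.Nat.antidiagonal_succ, Finset.Nat.antidiagonal_zero, Finset.sum_cons,
      Finset.map_singleton, Finset.sum_singleton, Finset.map_cons,
      Function.Embedding.prodMap, Function.Embedding.coeFn_mk, Prod.map,
      Function.Embedding.refl_apply, Nat.succ_eq_add_one, a0, a1, a2, a3, a4, b0, b1, b2, b3, b4,
      smul_eq_mul]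
    norm_num

theorem coeff : StCoeff := by
  intro f h0 h1
  obtain ⟨r0, r1, r2, r3, r4⟩ := refForm_coeffs
  have hq : qExpansion 1 ((f - refForm : ModularForm 𝒮ℒ 12) : ℍ → ℂ) =
      qExpansion 1 f - qExpansion 1 refForm := by
    rw [FunLike.coe_sub, ModularForm.qExpansion_sub one_pos one_mem_strictPeriods_SL]
  have hz : f - refForm = 0 := by
    apply sturm_bound_levelOne
    have h2 : ((2 : ℕ) : ℕ∞) ≤
        (qExpansion 1 ((f - refForm : ModularForm 𝒮ℒ 12) : ℍ → ℂ)).order := by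
      apply PowerSeries.nat_le_order
      intro i hi
      rw [hq, map_sub]
      interval_cases i
      · rw [h0, r0, sub_self]
      · rw [h1, r1, sub_self]
    refine lt_of_lt_of_le ?_ h2
    have h12 : (12 : ℤ).toNat / 12 = 1 := by decide
    rw [h12]
    exact_mod_cast (by norm_num : (1 : ℕ) < 2)
  have hf : f = refForm := sub_eq_zero.mp hz
  rw [hf]
  exact ⟨r2, r3, r4⟩

example : StCoeff := coeff

end Cfsg.Agent.H3.Th
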