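import Mathlib
import Cfsg.Agent.H34.ThDefs

/-!
# S1632 piece TH-MF (helper3 for helper34): the theta series as a modular form of weight 12 and
level 1, with `q`-expansion coefficients the representation numbers.
-/

set_option autoImplicit false

namespace Cfsg.Agent.H3.Th

open Function Complex SlashInvariantForm MatrixGroups Filter ModularForm ModularFormClass

open UpperHalfPlane hiding I

open scoped Real Topology

open Cfsg.Agent.H34.Th

local notation "𝕢" => Periodic.qParam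

/-- The theta function on the upper half plane. -/
noncomputable def thetaH {ι : Type} (Q : ι → ℤ) (τ : ℍ) : ℂ := thetaC Q (τ : ℂ)

theorem thetaH_hasSum {ι : Type} (Q : ι → ℤ) (hq : QSer Q) (τ : ℍ) :
    HasSum (fun m : ℕ => (rep Q m : ℂ) • 𝕢 (1 : ℝ) τ ^ m) (thetaH Q τ) := by
  have h := hq (τ : ℂ) τ.im_pos
  have e : 𝕢 (1 : ℝ) τ = cexp (2 * π * I * τ) := by
    simp [Periodic.qParam]
  simpa [e, thetaH] using h

theorem thetaC_add_one {ι : Type} (Q : ι → ℤ) (hq : QSer Q) (z : ℂ) (hz : 0 < z.im) :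
    thetaC Q (z + 1) = thetaC Q z := by
  have h1 := hq (z + 1) (by simpa using hz)
  have h2 := hq z hz
  have e : cexp (2 * π * I * (z + 1)) = cexp (2 * π * I * z) := by
    rw [mul_add, mul_one]
    exact Complex.exp_periodic _
  rw [e] at h1
  exact h1.unique h2

theorem thetaH_T {ι : Type} (Q : ι → ℤ) (hq : QSer Q) :
    (thetaH Q ∣[(12 : ℤ)] ModularGroup.T) = thetaH Q := by
  ext z
  rw [SL_slash_apply, denom, modular_T_smul]
  simp [thetaH]
  rw [add_comm]
  exact thetaC_add_one Q hq z z.im_pos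

theorem thetaH_S {ι : Type} (Q : ι → ℤ)
    (hinv : ∀ z : ℂ, 0 < z.im → thetaC Q (-1 / z) = z ^ 12 * thetaC Q z) :
    (thetaH Q ∣[(12 : ℤ)] ModularGroup.S) = thetaH Q := by
  ext z
  rw [SL_slash_apply, UpperHalfPlane.modular_S_smul]
  simp [denom, thetaH]
  have h := hinv z z.im_pos
  have hz : (z : ℂ) ≠ 0 := UpperHalfPlane.ne_zero z
  have e : -(z : ℂ)⁻¹ = -1 / (z : ℂ) := by
    rw [neg_div, one_div]
  rw [e, h]
  field_simp

theorem thetaH_slash {ι : Type} (Q : ι → ℤ)
    (hinv : ∀ z : ℂ, 0 < z.im → thetaC Q (-1 / z) = z ^ 12 * thetaC Q z) (hq : QSer Q)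
    (γ : SL(2, ℤ)) : (thetaH Q ∣[(12 : ℤ)] γ) = thetaH Q :=
  slash_action_generators_SL2Z (thetaH_S Q hinv) (thetaH_T Q hq) γ

/-- The theta series as a modular form. -/
noncomputable def thetaMF {ι : Type} (Q : ι → ℤ)
    (hdiff : DifferentiableOn ℂ (thetaC Q) {z : ℂ | 0 < z.im})
    (hinv : ∀ z : ℂ, 0 < z.im → thetaC Q (-1 / z) = z ^ 12 * thetaC Q z) (hq : QSer Q) :
    ModularForm 𝒮ℒ 12 where
  toFun := thetaH Q
  slash_action_eq' A hA := by
    obtain ⟨A, rfl⟩ := hA
    exact thetaH_slash Q hinv hq A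
  holo' := by
    rw [UpperHalfPlane.mdifferentiable_iff]
    refine hdiff.congr fun z hz => ?_
    simp [thetaH, ofComplex_apply_of_im_pos hz]
  bdd_at_cusps' {c} hc := by
    rw [Subgroup.IsArithmetic.isCusp_iff_isCusp_SL2Z] at hc
    rw [OnePoint.isBoundedAt_iff_forall_SL2Z hc]
    intro γ _
    rw [thetaH_slash Q hinv hq γ]
    exact isBoundedAtImInfty_of_hasSum_qExpansion one_pos (thetaH_hasSum Q hq)

theorem mf : StMF := by
  intro ι Q hdiff hinv hq
  refine ⟨thetaMF Q hdiff hinv hq, fun m => ?_⟩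
  exact (ModularFormClass.qExpansion_coeff_unique one_pos one_mem_strictPeriods_SL
    (f := thetaMF Q hdiff hinv hq) (thetaH_hasSum Q hq) m).symm

example : StMF := mf

end Cfsg.Agent.H3.Th
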