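import Mathlib
import Cfsg.Agent.H42.TiDefs
import Cfsg.Agent.H99.ElSTR
import Cfsg.Agent.H77.SpdFix

/-! helper3: piece SPI-UPPER of helper42's S5955 project. -/

set_option autoImplicit false

namespace Cfsg.Agent.H3.Ti

open Cfsg.Agent.H45 Cfsg.Agent.H42.Spd Cfsg.Agent.H42.Spn Cfsg.Agent.H42.Ti Module Polynomial

universe u v

theorem tiUpper (hH : StTiHalf.{u,v}) : StTiUpper.{u,v} := by
  intro F _ _ V _ _ _ r B T hc W hW hTI
  have hiso : Iso B T := ⟨hc.good.alt rfl, hc.good.nondeg, hc.good.isom⟩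
  have hW' : ∀ v ∈ W, T v ∈ W := fun v hv => (Module.End.mem_invtSubmodule T).1 hW hv
  obtain ⟨a, ha⟩ := Cfsg.Agent.H99.El.finrank_invariant_mod T r hc.prime hc.cast_ne hc.pow W hW'
  have hNdTop : Nd B T ⊤ := by
    refine ⟨(Module.End.mem_invtSubmodule T).2 (fun v _ => Submodule.mem_top), ?_⟩
    rw [eq_bot_iff]
    rintro x ⟨-, hx⟩
    exact (Submodule.mem_bot F).2 (hc.good.nondeg' x (fun u => hx u Submodule.mem_top))
  have hfix := Cfsg.Agent.H77.Spd.fix F V r B T hc ⊤ hNdTop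
  have hhalf := hH F V B T hiso (⊤ ⊓ LinearMap.ker (T - 1)) (W ⊓ LinearMap.ker (T - 1)) hfix.2
    (inf_le_inf_right _ le_top) (fun u hu v hv => hTI u hu.1 v hv.1)
  refine ⟨a, finrank F ↥(W ⊓ LinearMap.ker (T - 1)), ?_, hhalf⟩
  rw [ha, add_comm, mul_comm]
  rfl

example (hH : StTiHalf.{u,v}) : StTiUpper.{u,v} := tiUpper hH

end Cfsg.Agent.H3.Ti
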