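import Mathlib
import Cfsg.Agent.H77.TmDefs2
import Cfsg.Agent.H49.InvOmega

/-!
# S5987 piece INVONE (helper3 for helper77): every isometry `x` of the minus-type form with
`x * x = 1` (odd characteristic) fixes a totally singular `m`-space for every `m ≤ k`.
-/

set_option autoImplicit false

namespace Cfsg.Agent.H3.Tm

open Cfsg.Agent.H45 Cfsg.Agent.H42.Spd Cfsg.Agent.H42.Ti Cfsg.Agent.H77.Tq Cfsg.Agent.H77.Tm
open Module Polynomial

universe u v

section Aux

variable {F : Type u} [Field F] {V : Type v} [AddCommGroup V] [Module F V]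

/-- A subspace has subspaces of every smaller dimension. -/
theorem io_exists_le_finrank_eq [FiniteDimensional F V]
    (U : Submodule F V) (n : ℕ) (hn : n ≤ finrank F U) :
    ∃ U₁ : Submodule F V, U₁ ≤ U ∧ finrank F U₁ = n := by
  obtain ⟨b, -⟩ : ∃ b : Basis (Fin (finrank F U)) F U, b = Module.finBasis F U := ⟨_, rfl⟩
  refine ⟨Submodule.span F (Set.range (fun i : Fin n => (b (Fin.castLE hn i) : V))), ?_, ?_⟩
  · rw [Submodule.span_le]
    rintro _ ⟨i, rfl⟩
    exact (b _).2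
  · have h1 : LinearIndependent F (fun i => (b i : V)) :=
      b.linearIndependent.map' U.subtype (Submodule.ker_subtype U)
    have hli : LinearIndependent F (fun i : Fin n => (b (Fin.castLE hn i) : V)) :=
      h1.comp _ (Fin.castLE_injective hn)
    rw [finrank_span_eq_card hli, Fintype.card_fin]

/-- Small totally singular subspaces of a nondegenerate subspace. -/
theorem io_has_small [Fintype F] [FiniteDimensional F V] (hW : StQWitt.{u, v})
    (Q : QuadraticForm F V) (K : Submodule F V) (hK : K ⊓ perp (pol Q) K = ⊥) (j : ℕ)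
    (hj : j ≤ (finrank F ↥K - 1) / 2) :
    ∃ J : Submodule F V, J ≤ K ∧ TS Q J ∧ finrank F ↥J = j := by
  rcases Nat.eq_zero_or_pos j with rfl | hpos
  · refine ⟨⊥, bot_le, ?_, finrank_bot F V⟩
    intro u hu
    rw [Submodule.mem_bot] at hu
    rw [hu, map_zero]
  · exact hW F V Q K j hK (by omega)

/-- Two orthogonal nondegenerate subspaces of total dimension `2 k + 2` in a space of Witt index
`≤ k` contain totally singular subspaces of total dimension `m`, for every `m ≤ k`. -/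
theorem io_split [Fintype F] [FiniteDimensional F V] (hW : StQWitt.{u, v})
    (hMS : StMinusSum.{u, v}) (Q : QuadraticForm F V) (Ep Em : Submodule F V) (k m : ℕ)
    (hEp : Ep ⊓ perp (pol Q) Ep = ⊥) (hEm : Em ⊓ perp (pol Q) Em = ⊥)
    (horth : ∀ x ∈ Ep, ∀ y ∈ Em, QuadraticMap.polar (⇑Q) x y = 0)
    (hdim : finrank F ↥Ep + finrank F ↥Em = 2 * k + 2)
    (hmax : ∀ U : Submodule F V, TS Q U → finrank F ↥U ≤ k) (hm : m ≤ k) :
    ∃ Jp Jm : Submodule F V, Jp ≤ Ep ∧ Jm ≤ Em ∧ TS Q Jp ∧ TS Q Jm ∧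
      finrank F ↥Jp + finrank F ↥Jm = m := by
  by_cases hsmall : m ≤ (finrank F ↥Ep - 1) / 2 + (finrank F ↥Em - 1) / 2
  · obtain ⟨Jp, h1, h2, h3⟩ := io_has_small hW Q Ep hEp (min m ((finrank F ↥Ep - 1) / 2))
      (min_le_right _ _)
    obtain ⟨Jm, h4, h5, h6⟩ := io_has_small hW Q Em hEm (m - min m ((finrank F ↥Ep - 1) / 2))
      (by omega)
    exact ⟨Jp, Jm, h1, h4, h2, h5, by omega⟩
  · -- both dimensions are even and positive, and `m = k`
    push Not at hsmall
    by_cases hP : ∀ U : Submodule F V, U ≤ Ep → TS Q U → finrank F ↥U < finrank F ↥Ep / 2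
    · by_cases hM : ∀ U : Submodule F V, U ≤ Em → TS Q U → finrank F ↥U < finrank F ↥Em / 2
      · exfalso
        obtain ⟨M, -, hMts, hMd⟩ := hMS F V Q Ep Em (finrank F ↥Ep / 2) (finrank F ↥Em / 2)
          hEp hEm horth (by omega) (by omega) hP hM
        have := hmax M hMts
        omega
      · push Not at hM
        obtain ⟨U, hUle, hUts, hUd⟩ := hM
        obtain ⟨Jm, h4, h6⟩ := io_exists_le_finrank_eq U (finrank F ↥Em / 2) hUd
        obtain ⟨Jp, h1, h2, h3⟩ := io_has_small hW Q Ep hEp ((finrank F ↥Ep - 1) / 2) le_rfl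
        exact ⟨Jp, Jm, h1, h4.trans hUle, h2, fun x hx => hUts x (h4 hx), by omega⟩
    · push Not at hP
      obtain ⟨U, hUle, hUts, hUd⟩ := hP
      obtain ⟨Jp, h1, h3⟩ := io_exists_le_finrank_eq U (finrank F ↥Ep / 2) hUd
      obtain ⟨Jm, h4, h5, h6⟩ := io_has_small hW Q Em hEm ((finrank F ↥Em - 1) / 2) le_rfl
      exact ⟨Jp, Jm, h1.trans hUle, h4, fun x hx => hUts x (h1 hx), h5, by omega⟩

end Aux

theorem invOne (hW : StQWitt.{u, u}) (hMS : StMinusSum.{u, u}) : StInvOne.{u} := by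
  intro F _ _ k a b m h2 hab hm x hx hxx
  classical
  obtain ⟨Q, hQ⟩ : ∃ Q : QuadraticForm F (MI k → F), Q = Cfsg.Agent.H49.QMin k F a b :=
    ⟨_, rfl⟩
  have hQv : ∀ v, Q v = Cfsg.quadFormMinus k F a b v := fun v => by rw [hQ]; rfl
  have hd : a ^ 2 - 4 * b ≠ 0 := Cfsg.Agent.H49.disc_ne_zero_of_aniso a b hab
  have hnd : ∀ v : MI k → F, (∀ y, QuadraticMap.polar (⇑Q) v y = 0) → v = 0 := by
    intro v hv
    have h := (Cfsg.Agent.H49.QMin_nondeg k a b hd).1 v
    apply h
    intro y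
    have := hv y
    rw [hQ] at this
    exact this
  obtain ⟨T, hT⟩ : ∃ T : (MI k → F) →ₗ[F] (MI k → F),
      T = Matrix.toLin' (x : Matrix (MI k) (MI k) F) := ⟨_, rfl⟩
  have hTQ : ∀ v, Q (T v) = Q v := by
    intro v
    rw [hQv, hQv, hT, Matrix.toLin'_apply]
    exact hx v v
  have hTT : ∀ v, T (T v) = v := by
    intro v
    have h1 : (x : Matrix (MI k) (MI k) F) * (x : Matrix (MI k) (MI k) F) = 1 := by
      have := congrArg (fun g : GL (MI k) F => (g : Matrix (MI k) (MI k) F)) hxx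
      simpa using this
    rw [hT, Matrix.toLin'_apply, Matrix.toLin'_apply, Matrix.mulVec_mulVec, h1,
      Matrix.one_mulVec]
  have hTpol : ∀ v w, QuadraticMap.polar (⇑Q) (T v) (T w) = QuadraticMap.polar (⇑Q) v w := by
    intro v w
    unfold QuadraticMap.polar
    rw [← map_add, hTQ, hTQ, hTQ]
  obtain ⟨Ep, hEp⟩ : ∃ Ep : Submodule F (MI k → F), Ep = LinearMap.ker (T - 1) := ⟨_, rfl⟩
  obtain ⟨Em, hEm⟩ : ∃ Em : Submodule F (MI k → F), Em = LinearMap.ker (T + 1) := ⟨_, rfl⟩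
  have memp : ∀ v, v ∈ Ep ↔ T v = v := by
    intro v
    rw [hEp, LinearMap.mem_ker, LinearMap.sub_apply, Module.End.one_apply, sub_eq_zero]
  have memm : ∀ v, v ∈ Em ↔ T v = -v := by
    intro v
    rw [hEm, LinearMap.mem_ker, LinearMap.add_apply, Module.End.one_apply,
      add_eq_zero_iff_eq_neg]
  have hsup : Ep ⊔ Em = ⊤ := by
    rw [eq_top_iff]
    intro v _
    have hv : v = (2 : F)⁻¹ • (v + T v) + (2 : F)⁻¹ • (v - T v) := by
      rw [← smul_add]
      have h1 : v + T v + (v - T v) = (2 : F) • v := by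
        rw [two_smul]
        abel
      rw [h1, smul_smul, inv_mul_cancel₀ h2, one_smul]
    rw [hv]
    apply Submodule.add_mem_sup
    · apply Submodule.smul_mem
      rw [memp, map_add, hTT]
      abel
    · apply Submodule.smul_mem
      rw [memm, map_sub, hTT]
      abel
  have hinf : Ep ⊓ Em = ⊥ := by
    rw [eq_bot_iff]
    intro v hv
    rw [Submodule.mem_bot]
    have h1 := (memp v).mp hv.1
    have h3 := (memm v).mp hv.2
    have h4 : (2 : F) • v = 0 := by
      rw [two_smul]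
      have h5 : v = -v := by rw [← h3, h1]
      nth_rewrite 1 [h5]
      exact neg_add_cancel _
    exact (smul_eq_zero.mp h4).resolve_left h2
  have horth : ∀ v ∈ Ep, ∀ w ∈ Em, QuadraticMap.polar (⇑Q) v w = 0 := by
    intro v hv w hw
    have h1 := hTpol v w
    rw [(memp v).mp hv, (memm w).mp hw, QuadraticMap.polar_neg_right] at h1
    have h3 : (2 : F) * QuadraticMap.polar (⇑Q) v w = 0 := by linear_combination -h1
    exact (mul_eq_zero.mp h3).resolve_left h2
  have hdec : ∀ y : MI k → F, ∃ yp ∈ Ep, ∃ ym ∈ Em, y = yp + ym := by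
    intro y
    have : y ∈ Ep ⊔ Em := by
      rw [hsup]
      exact Submodule.mem_top
    obtain ⟨yp, hyp, ym, hym, rfl⟩ := Submodule.mem_sup.1 this
    exact ⟨yp, hyp, ym, hym, rfl⟩
  have hEpnd : Ep ⊓ perp (pol Q) Ep = ⊥ := by
    rw [eq_bot_iff]
    rintro v ⟨hv, hvp⟩
    rw [Submodule.mem_bot]
    apply hnd
    intro y
    obtain ⟨yp, hyp, ym, hym, rfl⟩ := hdec y
    rw [QuadraticMap.polar_add_right, horth v hv ym hym, add_zero, QuadraticMap.polar_comm]
    exact hvp yp hyp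
  have hEmnd : Em ⊓ perp (pol Q) Em = ⊥ := by
    rw [eq_bot_iff]
    rintro v ⟨hv, hvp⟩
    rw [Submodule.mem_bot]
    apply hnd
    intro y
    obtain ⟨yp, hyp, ym, hym, rfl⟩ := hdec y
    rw [QuadraticMap.polar_add_right, QuadraticMap.polar_comm (⇑Q) v yp, horth yp hyp v hv,
      zero_add, QuadraticMap.polar_comm]
    exact hvp ym hym
  have hdim : finrank F ↥Ep + finrank F ↥Em = 2 * k + 2 := by
    have h1 := Submodule.finrank_sup_add_finrank_inf_eq Ep Em
    rw [hsup, hinf, finrank_top, finrank_bot, Cfsg.Agent.H49.finrank_minus] at h1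
    omega
  have hmax : ∀ U : Submodule F (MI k → F), TS Q U → finrank F ↥U ≤ k := by
    intro U hU
    refine Cfsg.Agent.H49.QMin_ts_le k a b hab hd U ?_
    intro u hu
    have := hU u hu
    rw [hQ] at this
    exact this
  obtain ⟨Jp, Jm, hJpE, hJmE, hJpTS, hJmTS, hJd⟩ :=
    io_split hW hMS Q Ep Em k m hEpnd hEmnd horth hdim hmax hm
  refine ⟨Jp ⊔ Jm, ⟨?_, ?_⟩, ?_⟩
  · have hd1 : Jp ⊓ Jm = ⊥ := by
      rw [eq_bot_iff, ← hinf]
      exact inf_le_inf hJpE hJmE
    have h5 := Submodule.finrank_sup_add_finrank_inf_eq Jp Jm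
    rw [hd1, finrank_bot] at h5
    omega
  · intro w hw
    obtain ⟨jp, hjp, jm, hjm, rfl⟩ := Submodule.mem_sup.1 hw
    have h3 : Q (jp + jm) = Q jp + Q jm + QuadraticMap.polar (⇑Q) jp jm := by
      unfold QuadraticMap.polar
      ring
    rw [← hQv, h3, hJpTS jp hjp, hJmTS jm hjm, horth jp (hJpE hjp) jm (hJmE hjm)]
    simp
  · rw [← hT]
    rintro _ ⟨w, hw, rfl⟩
    obtain ⟨jp, hjp, jm, hjm, rfl⟩ := Submodule.mem_sup.1 hw
    rw [map_add, (memp jp).mp (hJpE hjp), (memm jm).mp (hJmE hjm)]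
    exact Submodule.add_mem_sup hjp (Jm.neg_mem hjm)

example (hW : StQWitt.{u, u}) (hMS : StMinusSum.{u, u}) : StInvOne.{u} := invOne hW hMS

end Cfsg.Agent.H3.Tm
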