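import Mathlib
import Cfsg.Agent.H77.TmDefs2
import Cfsg.Agent.H49.Witt

/-!
# S5987 piece MINUSSUM (helper3 for helper77): the orthogonal sum of two nondegenerate
even-dimensional subspaces of minus type has a totally singular subspace of half dimension.
-/

set_option autoImplicit false

namespace Cfsg.Agent.H3.Tm

open Cfsg.Agent.H45 Cfsg.Agent.H42.Spd Cfsg.Agent.H42.Ti Cfsg.Agent.H77.Tq Cfsg.Agent.H77.Tm
open Module Polynomial

universe u v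

section Aux

variable {F : Type u} [Field F] {V : Type v} [AddCommGroup V] [Module F V]

/-- The span of pairwise orthogonal singular vectors is totally singular. -/
theorem ms_span_ts (Q : QuadraticForm F V) {ι : Type*} (g : ι → V) (hgQ : ∀ i, Q (g i) = 0)
    (hgg : ∀ i j, QuadraticMap.polar (⇑Q) (g i) (g j) = 0) :
    ∀ x ∈ Submodule.span F (Set.range g), Q x = 0 := by
  have h1 : ∀ x ∈ Submodule.span F (Set.range g), ∀ j, QuadraticMap.polar (⇑Q) x (g j) = 0 := by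
    intro x hx j
    refine Submodule.span_induction (p := fun x _ => QuadraticMap.polar (⇑Q) x (g j) = 0)
      ?_ ?_ ?_ ?_ hx
    · rintro _ ⟨i, rfl⟩
      exact hgg i j
    · exact QuadraticMap.polar_zero_left _ _
    · intro x y _ _ hx hy
      rw [QuadraticMap.polar_add_left, hx, hy, add_zero]
    · intro c x _ hx
      rw [QuadraticMap.polar_smul_left, hx, smul_zero]
  have h2 : ∀ x ∈ Submodule.span F (Set.range g), ∀ y ∈ Submodule.span F (Set.range g),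
      QuadraticMap.polar (⇑Q) x y = 0 := by
    intro x hx y hy
    refine Submodule.span_induction (p := fun y _ => QuadraticMap.polar (⇑Q) x y = 0)
      ?_ ?_ ?_ ?_ hy
    · rintro _ ⟨i, rfl⟩
      exact h1 x hx i
    · exact QuadraticMap.polar_zero_right _ _
    · intro y z _ _ hy hz
      rw [QuadraticMap.polar_add_right, hy, hz, add_zero]
    · intro c y _ hy
      rw [QuadraticMap.polar_smul_right, hy, smul_zero]
  intro x hx
  refine Submodule.span_induction (p := fun x _ => Q x = 0) ?_ ?_ ?_ ?_ hx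
  · rintro _ ⟨i, rfl⟩
    exact hgQ i
  · exact map_zero Q
  · intro x y hx hy ihx ihy
    have h3 : Q (x + y) = Q x + Q y + QuadraticMap.polar (⇑Q) x y := by
      unfold QuadraticMap.polar
      ring
    rw [h3, ihx, ihy, h2 x hx y hy]
    simp
  · intro c x _ ihx
    rw [QuadraticMap.map_smul, ihx, smul_zero]

/-- Orthogonality to a set passes to the span. -/
theorem ms_span_orth (Q : QuadraticForm F V) {ι : Type*} (g : ι → V) (S : Set V)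
    (h : ∀ i, ∀ p ∈ S, QuadraticMap.polar (⇑Q) (g i) p = 0) :
    ∀ x ∈ Submodule.span F (Set.range g), ∀ p ∈ S, QuadraticMap.polar (⇑Q) x p = 0 := by
  intro x hx p hp
  refine Submodule.span_induction (p := fun x _ => QuadraticMap.polar (⇑Q) x p = 0)
    ?_ ?_ ?_ ?_ hx
  · rintro _ ⟨i, rfl⟩
    exact h i p hp
  · exact QuadraticMap.polar_zero_left _ _
  · intro x y _ _ hx hy
    rw [QuadraticMap.polar_add_left, hx, hy, add_zero]
  · intro c x _ hx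
    rw [QuadraticMap.polar_smul_left, hx, smul_zero]

/-- Witt decomposition of a minus-type subspace: a totally singular `J` of dimension `e - 1` and
an anisotropic plane `P` orthogonal to it. -/
theorem ms_witt_sub [Fintype F] [FiniteDimensional F V] (Q : QuadraticForm F V)
    (K : Submodule F V) (e : ℕ) (hK : K ⊓ perp (pol Q) K = ⊥)
    (hfin : Module.finrank F ↥K = 2 * e)
    (hno : ∀ U : Submodule F V, U ≤ K → TS Q U → Module.finrank F ↥U < e) :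
    ∃ J P : Submodule F V, J ≤ K ∧ P ≤ K ∧ TS Q J ∧ Module.finrank F ↥J + 1 = e ∧
      Module.finrank F ↥P = 2 ∧ (∀ p ∈ P, Q p = 0 → p = 0) ∧
      ∀ j ∈ J, ∀ p ∈ P, QuadraticMap.polar (⇑Q) j p = 0 := by
  classical
  obtain ⟨k, ev, fv, W₀, h1, h2, h3, h4, h5, h6, h7⟩ :=
    Cfsg.Agent.H49.witt_decomp (F := F) (2 * e) (Q.comp K.subtype) hfin (by
      intro a ha
      have : (a : V) ∈ K ⊓ perp (pol Q) K := by
        refine ⟨a.2, ?_⟩
        intro b hb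
        have h := ha ⟨b, hb⟩
        show QuadraticMap.polar (⇑Q) b (a : V) = 0
        rw [QuadraticMap.polar_comm]
        exact h
      rw [hK, Submodule.mem_bot] at this
      exact Subtype.ext this)
  obtain ⟨g, hg⟩ : ∃ g : Fin k → V, g = fun i => ((ev i : ↥K) : V) := ⟨_, rfl⟩
  obtain ⟨g', hg'⟩ : ∃ g' : Fin k → V, g' = fun i => ((fv i : ↥K) : V) := ⟨_, rfl⟩
  have hgQ : ∀ i, Q (g i) = 0 := fun i => by
    rw [hg]
    exact (h1 i).1
  have hgg : ∀ i j, QuadraticMap.polar (⇑Q) (g i) (g j) = 0 := fun i j => by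
    rw [hg]
    exact (h3 i j).1
  have hli : LinearIndependent F g :=
    Cfsg.Agent.H49.linearIndependent_of_dual Q g g' (fun i j => by
      rw [hg, hg']
      exact h2 i j)
  obtain ⟨J, hJ⟩ : ∃ J : Submodule F V, J = Submodule.span F (Set.range g) := ⟨_, rfl⟩
  have hJdim : Module.finrank F ↥J = k := by
    rw [hJ, finrank_span_eq_card hli, Fintype.card_fin]
  have hJK : J ≤ K := by
    rw [hJ, Submodule.span_le]
    rintro _ ⟨i, rfl⟩
    rw [hg]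
    exact (ev i).2
  have hJTS : TS Q J := by
    intro x hx
    rw [hJ] at hx
    exact ms_span_ts Q g hgQ hgg x hx
  have hk : k < e := by
    have := hno J hJK hJTS
    omega
  have hW2 : Module.finrank F ↥W₀ ≤ 2 :=
    Cfsg.Agent.H49.anisotropic_finrank_le_two (Q.comp K.subtype) W₀ h5
  refine ⟨J, W₀.map K.subtype, hJK, Submodule.map_subtype_le K W₀, hJTS, by omega, ?_, ?_, ?_⟩
  · rw [Submodule.finrank_map_subtype_eq]
    omega
  · intro p hp hQp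
    obtain ⟨a, ha, rfl⟩ := Submodule.mem_map.mp hp
    have := h5 a ha hQp
    rw [this]
    simp
  · intro j hj p hp
    rw [hJ] at hj
    refine ms_span_orth Q g (W₀.map K.subtype : Set V) ?_ j hj p hp
    intro i p hp
    obtain ⟨a, ha, rfl⟩ := Submodule.mem_map.mp hp
    rw [hg]
    exact (h4 a ha i).1

end Aux

theorem minusSum (hStd : StAnisoStd.{u, v}) (hIso : StAnisoIso.{u}) : StMinusSum.{u, v} := by
  intro F _ _ V _ _ _ Q K₁ K₂ e₁ e₂ hK₁ hK₂ horth hf₁ hf₂ hno₁ hno₂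
  classical
  obtain ⟨J₁, P₁, hJ₁K, hP₁K, hJ₁TS, hJ₁d, hP₁d, hP₁an, hJP₁⟩ :=
    ms_witt_sub Q K₁ e₁ hK₁ hf₁ hno₁
  obtain ⟨J₂, P₂, hJ₂K, hP₂K, hJ₂TS, hJ₂d, hP₂d, hP₂an, hJP₂⟩ :=
    ms_witt_sub Q K₂ e₂ hK₂ hf₂ hno₂
  obtain ⟨u₁, w₁, a₁, b₁, han₁, -, hQ₁⟩ := hStd F ↥P₁ (Q.comp P₁.subtype) hP₁d (by
    intro x hx
    exact Subtype.ext (hP₁an x x.2 hx))
  obtain ⟨u₂, w₂, a₂, b₂, han₂, -, hQ₂⟩ := hStd F ↥P₂ (-(Q.comp P₂.subtype)) hP₂d (by
    intro x hx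
    rw [neg_apply, neg_eq_zero] at hx
    exact Subtype.ext (hP₂an x x.2 hx))
  obtain ⟨u, v, hv0, hid⟩ := hIso F a₁ b₁ a₂ b₂ han₁ han₂
  have hQ₁' : ∀ z₁ z₂ : F, Q (z₁ • (u₁ : V) + z₂ • (w₁ : V)) =
      z₁ ^ 2 + a₁ * z₁ * z₂ + b₁ * z₂ ^ 2 := fun z₁ z₂ => hQ₁ z₁ z₂
  have hQ₂' : ∀ z₁ z₂ : F, Q (z₁ • (u₂ : V) + z₂ • (w₂ : V)) =
      -(z₁ ^ 2 + a₂ * z₁ * z₂ + b₂ * z₂ ^ 2) := fun z₁ z₂ => by
    have h := hQ₂ z₁ z₂
    rw [neg_apply] at h
    rw [← h, neg_neg]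
    rfl
  -- `K₁ ⊓ K₂ = ⊥`
  have hK12 : ∀ x, x ∈ K₁ → x ∈ K₂ → x = 0 := by
    intro x hx1 hx2
    have : x ∈ K₁ ⊓ perp (pol Q) K₁ := ⟨hx1, fun k hk => horth k hk x hx2⟩
    rw [hK₁, Submodule.mem_bot] at this
    exact this
  have hQadd : ∀ x ∈ K₁, ∀ y ∈ K₂, Q (x + y) = Q x + Q y := by
    intro x hx y hy
    have h3 : Q (x + y) = Q x + Q y + QuadraticMap.polar (⇑Q) x y := by
      unfold QuadraticMap.polar
      ring
    rw [h3, horth x hx y hy, add_zero]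
  -- the two new vectors
  obtain ⟨x₁, hx₁⟩ : ∃ x₁ : V, x₁ = (u₁ : V) + (u₂ : V) := ⟨_, rfl⟩
  obtain ⟨x₂, hx₂⟩ : ∃ x₂ : V, x₂ = (w₁ : V) + (u • (u₂ : V) + v • (w₂ : V)) := ⟨_, rfl⟩
  have hsplit : ∀ z₁ z₂ : F, z₁ • x₁ + z₂ • x₂ =
      (z₁ • (u₁ : V) + z₂ • (w₁ : V)) + ((z₁ + u * z₂) • (u₂ : V) + (v * z₂) • (w₂ : V)) := by
    intro z₁ z₂
    rw [hx₁, hx₂]
    module
  have hp1 : ∀ z₁ z₂ : F, z₁ • (u₁ : V) + z₂ • (w₁ : V) ∈ P₁ := fun z₁ z₂ =>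
    P₁.add_mem (P₁.smul_mem _ u₁.2) (P₁.smul_mem _ w₁.2)
  have hp2 : ∀ z₁ z₂ : F, z₁ • (u₂ : V) + z₂ • (w₂ : V) ∈ P₂ := fun z₁ z₂ =>
    P₂.add_mem (P₂.smul_mem _ u₂.2) (P₂.smul_mem _ w₂.2)
  obtain ⟨N, hN⟩ : ∃ N : Submodule F V, N = Submodule.span F {x₁, x₂} := ⟨_, rfl⟩
  have hmemN : ∀ x, x ∈ N ↔ ∃ s t : F, s • x₁ + t • x₂ = x := by
    intro x
    rw [hN, Submodule.mem_span_pair]
  -- the key independence fact
  have hkey : ∀ j₁ ∈ J₁, ∀ j₂ ∈ J₂, ∀ z₁ z₂ : F, j₁ + j₂ = z₁ • x₁ + z₂ • x₂ →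
      z₁ = 0 ∧ z₂ = 0 := by
    intro j₁ hj₁ j₂ hj₂ z₁ z₂ h
    rw [hsplit] at h
    have h1 : j₁ - (z₁ • (u₁ : V) + z₂ • (w₁ : V)) =
        ((z₁ + u * z₂) • (u₂ : V) + (v * z₂) • (w₂ : V)) - j₂ := by
      rw [sub_eq_sub_iff_add_eq_add, h]
      abel
    have h2 : j₁ - (z₁ • (u₁ : V) + z₂ • (w₁ : V)) = 0 := by
      apply hK12
      · exact K₁.sub_mem (hJ₁K hj₁) (hP₁K (hp1 z₁ z₂))
      · rw [h1]
        exact K₂.sub_mem (hP₂K (hp2 _ _)) (hJ₂K hj₂)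
    have h3 : z₁ • (u₁ : V) + z₂ • (w₁ : V) = j₁ := (sub_eq_zero.mp h2).symm
    have h4 := hQ₁' z₁ z₂
    rw [h3, hJ₁TS j₁ hj₁] at h4
    exact han₁ z₁ z₂ h4.symm
  obtain ⟨M, hM⟩ : ∃ M : Submodule F V, M = (J₁ ⊔ J₂) ⊔ N := ⟨_, rfl⟩
  refine ⟨M, ?_, ?_, ?_⟩
  · -- `M ≤ K₁ ⊔ K₂`
    rw [hM]
    refine sup_le (sup_le (hJ₁K.trans le_sup_left) (hJ₂K.trans le_sup_right)) ?_
    rw [hN, Submodule.span_le]
    intro x hx
    rcases hx with rfl | rfl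
    · rw [hx₁]
      exact Submodule.add_mem_sup (hP₁K u₁.2) (hP₂K u₂.2)
    · rw [hx₂]
      exact Submodule.add_mem_sup (hP₁K w₁.2) (hP₂K (hp2 u v))
  · -- totally singular
    intro x hx
    rw [hM] at hx
    obtain ⟨y, hy, n, hn, rfl⟩ := Submodule.mem_sup.1 hx
    obtain ⟨j₁, hj₁, j₂, hj₂, rfl⟩ := Submodule.mem_sup.1 hy
    obtain ⟨z₁, z₂, rfl⟩ := (hmemN n).1 hn
    rw [hsplit]
    have e1 : j₁ + j₂ + (z₁ • (u₁ : V) + z₂ • (w₁ : V) +
        ((z₁ + u * z₂) • (u₂ : V) + (v * z₂) • (w₂ : V))) =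
        (j₁ + (z₁ • (u₁ : V) + z₂ • (w₁ : V))) +
          (j₂ + ((z₁ + u * z₂) • (u₂ : V) + (v * z₂) • (w₂ : V))) := by
      abel
    have e2 : ∀ (j p : V), Q (j + p) = Q j + Q p + QuadraticMap.polar (⇑Q) j p := by
      intro j p
      unfold QuadraticMap.polar
      ring
    rw [e1, hQadd _ (K₁.add_mem (hJ₁K hj₁) (hP₁K (hp1 _ _))) _
      (K₂.add_mem (hJ₂K hj₂) (hP₂K (hp2 _ _))), e2 j₁ (z₁ • (u₁ : V) + z₂ • (w₁ : V)),
      e2 j₂ ((z₁ + u * z₂) • (u₂ : V) + (v * z₂) • (w₂ : V)), hJ₁TS j₁ hj₁, hJ₂TS j₂ hj₂,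
      hJP₁ j₁ hj₁ _ (hp1 _ _), hJP₂ j₂ hj₂ _ (hp2 _ _), hQ₁', hQ₂', hid z₁ z₂]
    ring
  · -- dimension
    have hfinN : finrank F ↥N = 2 := by
      rw [hN]
      have hli : LinearIndependent F ![x₁, x₂] := by
        rw [LinearIndependent.pair_iff]
        intro s t hst
        exact hkey 0 J₁.zero_mem 0 J₂.zero_mem s t (by rw [hst, add_zero])
      have h3 := finrank_span_eq_card hli
      have h4 : Set.range ![x₁, x₂] = {x₁, x₂} := by
        ext x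
        simp only [Matrix.range_cons, Matrix.range_empty, Set.union_empty, Set.mem_union,
          Set.mem_singleton_iff, Set.mem_insert_iff]
      rw [h4] at h3
      simpa using h3
    have hd1 : J₁ ⊓ J₂ = ⊥ := by
      rw [eq_bot_iff]
      rintro x ⟨h1, h2⟩
      rw [Submodule.mem_bot]
      exact hK12 x (hJ₁K h1) (hJ₂K h2)
    have hd2 : (J₁ ⊔ J₂) ⊓ N = ⊥ := by
      rw [eq_bot_iff]
      rintro x ⟨h1, h2⟩
      obtain ⟨j₁, hj₁, j₂, hj₂, rfl⟩ := Submodule.mem_sup.1 h1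
      obtain ⟨z₁, z₂, h⟩ := (hmemN _).1 h2
      obtain ⟨rfl, rfl⟩ := hkey j₁ hj₁ j₂ hj₂ z₁ z₂ h.symm
      rw [Submodule.mem_bot, ← h]
      simp
    have h5 := Submodule.finrank_sup_add_finrank_inf_eq J₁ J₂
    have h6 := Submodule.finrank_sup_add_finrank_inf_eq (J₁ ⊔ J₂) N
    rw [hd1, finrank_bot] at h5
    rw [hd2, finrank_bot, hfinN, ← hM] at h6
    omega

example (hStd : StAnisoStd.{u, v}) (hIso : StAnisoIso.{u}) : StMinusSum.{u, v} :=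
  minusSum hStd hIso

end Cfsg.Agent.H3.Tm
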