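import Mathlib
import Cfsg.Agent.H77.TmDefs2
import Cfsg.Agent.H49.Witt

/-!
# S5987 piece QWITT (helper3 for helper77): a nondegenerate subspace `K` of dimension at least
`2 j + 1` of a quadratic space over a finite field (any characteristic) contains a totally
singular subspace of dimension `j`.  (Quadratic-form version of helper86's `OtWitt`.)
-/

set_option autoImplicit false

namespace Cfsg.Agent.H3.Tm

open Cfsg.Agent.H45 Cfsg.Agent.H42.Spd Cfsg.Agent.H42.Ti Cfsg.Agent.H77.Tq Cfsg.Agent.H77.Tm
open Module Polynomial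

universe u v

theorem qWitt : StQWitt.{u, v} := by
  intro F _ _ V _ _ _ Q K j
  have hB : ∀ x y : V, pol Q x y = QuadraticMap.polar (⇑Q) x y := fun x y => rfl
  have hsymm : ∀ x y : V, pol Q x y = pol Q y x := by
    intro x y
    rw [hB, hB, QuadraticMap.polar_comm]
  induction j generalizing K with
  | zero =>
    intro _ _
    refine ⟨⊥, bot_le, ?_, finrank_bot F V⟩
    intro u hu
    rw [Submodule.mem_bot] at hu
    rw [hu, map_zero]
  | succ j ih =>
    intro hK hdim
    -- a singular vector in `K`
    obtain ⟨v, hv0, hv⟩ := Cfsg.Agent.H49.exists_singular_of_three_le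
      (Q.comp K.subtype) (by omega)
    obtain ⟨u, hu⟩ : ∃ u : V, u = (v : V) := ⟨_, rfl⟩
    have hQu : Q u = 0 := by
      rw [hu]
      exact hv
    have huu : pol Q u u = 0 := by
      rw [hB, Cfsg.Agent.H49.quad_polar_self, hQu, mul_zero]
    have huK : u ∈ K := hu ▸ v.2
    have hu0 : u ≠ 0 := by
      intro h
      apply hv0
      apply Subtype.ext
      rw [← hu, h]
      rfl
    -- a partner `w ∈ K` with `B u w = 1`
    obtain ⟨w, hwK, huw⟩ : ∃ w ∈ K, pol Q u w = 1 := by
      have h1 : u ∉ perp (pol Q) K := by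
        intro h
        have : u ∈ K ⊓ perp (pol Q) K := ⟨huK, h⟩
        rw [hK, Submodule.mem_bot] at this
        exact hu0 this
      rw [mem_perp] at h1
      push Not at h1
      obtain ⟨k, hkK, hk⟩ := h1
      refine ⟨(pol Q k u)⁻¹ • k, K.smul_mem _ hkK, ?_⟩
      rw [map_smul, smul_eq_mul, hsymm u k, inv_mul_cancel₀ hk]
    have hwu : pol Q w u = 1 := by rw [hsymm]; exact huw
    obtain ⟨H, hH⟩ : ∃ H : Submodule F V, H = Submodule.span F {u, w} := ⟨_, rfl⟩
    have hmemH : ∀ x, x ∈ H ↔ ∃ a b : F, a • u + b • w = x := by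
      intro x
      rw [hH, Submodule.mem_span_pair]
    have hHK : H ≤ K := by
      rw [hH, Submodule.span_le]
      intro x hx
      rcases hx with rfl | rfl
      · exact huK
      · exact hwK
    have huH : u ∈ H := hH ▸ Submodule.subset_span (by simp)
    have hwH : w ∈ H := hH ▸ Submodule.subset_span (by simp)
    have hHnd : H ⊓ perp (pol Q) H = ⊥ := by
      rw [eq_bot_iff]
      rintro x ⟨hxH, hxp⟩
      obtain ⟨a, b, rfl⟩ := (hmemH x).1 hxH
      have e1 := hxp u huH
      have e2 := hxp w hwH
      rw [map_add, map_smul, map_smul, smul_eq_mul, smul_eq_mul] at e1 e2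
      rw [huu, huw, mul_zero, zero_add, mul_one] at e1
      rw [hwu, e1, mul_one, zero_mul, add_zero] at e2
      rw [Submodule.mem_bot, e1, e2, zero_smul, zero_smul, add_zero]
    have hcompl := isCompl_perp (pol Q) H hHnd
    obtain ⟨K', hK'⟩ : ∃ K' : Submodule F V, K' = K ⊓ perp (pol Q) H := ⟨_, rfl⟩
    have hK'K : K' ≤ K := hK' ▸ inf_le_left
    have hK'p : K' ≤ perp (pol Q) H := hK' ▸ inf_le_right
    -- decomposition of `K`
    have hdec : ∀ k ∈ K, ∃ h ∈ H, ∃ k' ∈ K', k = h + k' := by
      intro k hk
      have : k ∈ H ⊔ perp (pol Q) H := by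
        rw [hcompl.sup_eq_top]
        exact Submodule.mem_top
      obtain ⟨h, hh, y, hy, rfl⟩ := Submodule.mem_sup.1 this
      refine ⟨h, hh, y, ?_, rfl⟩
      rw [hK']
      refine ⟨?_, hy⟩
      have : y = (h + y) - h := by abel
      rw [this]
      exact K.sub_mem hk (hHK hh)
    have hK'nd : K' ⊓ perp (pol Q) K' = ⊥ := by
      rw [eq_bot_iff]
      rintro x ⟨hxK', hxp⟩
      have hx : x ∈ K ⊓ perp (pol Q) K := by
        refine ⟨hK'K hxK', ?_⟩
        intro k hk
        obtain ⟨h, hh, k', hk', rfl⟩ := hdec k hk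
        rw [map_add, LinearMap.add_apply, hK'p hxK' h hh, hxp k' hk', add_zero]
      rw [hK] at hx
      exact hx
    have hfinH : finrank F H = 2 := by
      rw [hH]
      have hli : LinearIndependent F ![u, w] := by
        rw [LinearIndependent.pair_iff]
        intro a b hab
        have e1 : pol Q u (a • u + b • w) = 0 := by rw [hab, map_zero]
        have e2 : pol Q w (a • u + b • w) = 0 := by rw [hab, map_zero]
        rw [map_add, map_smul, map_smul, smul_eq_mul, smul_eq_mul] at e1 e2
        rw [huu, huw, mul_zero, zero_add, mul_one] at e1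
        rw [hwu, e1, mul_one, zero_mul, add_zero] at e2
        exact ⟨e2, e1⟩
      have h3 := finrank_span_eq_card hli
      have h4 : Set.range ![u, w] = {u, w} := by
        ext x
        simp only [Matrix.range_cons, Matrix.range_empty, Set.union_empty, Set.mem_union,
          Set.mem_singleton_iff, Set.mem_insert_iff]
      rw [h4] at h3
      simpa using h3
    have hfinK' : finrank F K' + 2 = finrank F K := by
      have h1 : H ⊔ K' = K := by
        apply le_antisymm (sup_le hHK hK'K)
        intro k hk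
        obtain ⟨h, hh, k', hk', rfl⟩ := hdec k hk
        exact Submodule.add_mem_sup hh hk'
      have h2 : H ⊓ K' = ⊥ := by
        rw [eq_bot_iff, ← hHnd]
        exact inf_le_inf_left H hK'p
      have h3 := Submodule.finrank_sup_add_finrank_inf_eq H K'
      rw [h1, h2, finrank_bot, hfinH] at h3
      omega
    obtain ⟨J', hJ'K', hJ'TS, hJ'dim⟩ := ih K' hK'nd (by omega)
    refine ⟨J' ⊔ Submodule.span F {u}, ?_, ?_, ?_⟩
    · exact sup_le (hJ'K'.trans hK'K) (by
        rw [Submodule.span_le]
        intro x hx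
        rw [Set.mem_singleton_iff] at hx
        rw [hx]
        exact huK)
    · -- totally singular
      have hJu : ∀ y ∈ J', pol Q u y = 0 := fun y hy => hK'p (hJ'K' hy) u huH
      intro x hx
      obtain ⟨x1, hx1, x2, hx2, rfl⟩ := Submodule.mem_sup.1 hx
      obtain ⟨a, rfl⟩ := Submodule.mem_span_singleton.1 hx2
      have h1 : Q (x1 + a • u) = Q x1 + Q (a • u) + QuadraticMap.polar (⇑Q) x1 (a • u) := by
        unfold QuadraticMap.polar
        ring
      have h2 : QuadraticMap.polar (⇑Q) x1 (a • u) = a * pol Q u x1 := by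
        rw [QuadraticMap.polar_smul_right, hB, QuadraticMap.polar_comm, smul_eq_mul]
      rw [h1, h2, hJ'TS x1 hx1, QuadraticMap.map_smul, hQu, hJu x1 hx1]
      simp
    · -- dimension
      have hdisj : J' ⊓ Submodule.span F {u} = ⊥ := by
        rw [eq_bot_iff]
        rintro x ⟨hxJ, hxu⟩
        obtain ⟨a, rfl⟩ := Submodule.mem_span_singleton.1 hxu
        have e1 := hK'p (hJ'K' hxJ) w hwH
        rw [map_smul, smul_eq_mul, hwu, mul_one] at e1
        rw [Submodule.mem_bot, e1, zero_smul]
      have h3 := Submodule.finrank_sup_add_finrank_inf_eq J' (Submodule.span F {u})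
      rw [hdisj, finrank_bot, finrank_span_singleton hu0, hJ'dim] at h3
      omega

example : StQWitt.{u, v} := qWitt

end Cfsg.Agent.H3.Tm
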