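import Mathlib
import Cfsg.Agent.H77.TpDefs

set_option autoImplicit false

namespace Cfsg.Agent.H3.Tp

/-- S5980-ARITH: the final arithmetic contradiction. -/
theorem arith : Cfsg.Agent.H77.Tp.StArith := by
  intro a b i u v c ha hb hi hu hv hua hvb hc h
  obtain ⟨a₀, rfl⟩ := Nat.exists_eq_add_of_le hua
  obtain ⟨b₀, rfl⟩ := Nat.exists_eq_add_of_le hvb
  rw [Nat.add_sub_cancel_left, Nat.add_sub_cancel_left] at h
  have hi0 : 0 < i := by omega
  have hw : 1 ≤ u * v := Nat.mul_pos hu hv
  have e1 : i * ((i * u + a₀) * (i * v + b₀)) =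
      i * (i * (i * (u * v) + u * b₀ + a₀ * v)) + i * (a₀ * b₀) := by ring
  have e2 : i * (c + a₀ * b₀) + (i * u) * (i * v) = i * (c + i * (u * v)) + i * (a₀ * b₀) := by
    ring
  rw [e1, e2] at h
  have h' : i * (i * (i * (u * v) + u * b₀ + a₀ * v)) ≤ i * (c + i * (u * v)) :=
    Nat.le_of_add_le_add_right h
  have key : i * (i * (u * v) + u * b₀ + a₀ * v) ≤ c + i * (u * v) :=
    Nat.le_of_mul_le_mul_left h' hi0
  obtain ⟨w, hwdef⟩ : ∃ w, w = u * v := ⟨_, rfl⟩
  obtain ⟨X, hX⟩ : ∃ X, X = u * b₀ := ⟨_, rfl⟩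
  obtain ⟨Y, hY⟩ : ∃ Y, Y = a₀ * v := ⟨_, rfl⟩
  rw [← hwdef, ← hX, ← hY] at key
  rw [← hwdef] at hw
  by_cases hev : Even i
  · rw [if_pos hev] at hc
    subst hc
    have k2 : c * (c * w + X + Y) ≤ c * (1 + w) := by
      calc c * (c * w + X + Y) ≤ c + c * w := key
        _ = c * (1 + w) := by ring
    have k3 : c * w + X + Y ≤ 1 + w := Nat.le_of_mul_le_mul_left k2 hi0
    have k4 : 2 * w ≤ c * w := Nat.mul_le_mul_right w hi
    have hw1 : w = 1 := by omega
    have hX0 : X = 0 := by omega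
    have hc2 : c = 2 := by
      rw [hw1] at k3
      omega
    have huv : u = 1 ∧ v = 1 := by
      have : u * v = 1 := by rw [← hwdef, hw1]
      exact mul_eq_one.mp this
    have hb0 : b₀ = 0 := by
      rw [hX0, huv.1] at hX
      omega
    rw [hc2, huv.2, hb0] at hb
    omega
  · rw [if_neg hev] at hc
    have hi3 : 3 ≤ i := by
      rcases Nat.lt_or_ge i 3 with h3 | h3
      · exfalso
        apply hev
        have : i = 2 := by omega
        rw [this]
        decide
      · exact h3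
    have k2 : i * (i * w + X + Y) ≤ i * (2 + w) := by
      calc i * (i * w + X + Y) ≤ c + i * w := key
        _ = i * (2 + w) := by rw [hc]; ring
    have k3 : i * w + X + Y ≤ 2 + w := Nat.le_of_mul_le_mul_left k2 hi0
    have k4 : 3 * w ≤ i * w := Nat.mul_le_mul_right w hi3
    have hw1 : w = 1 := by omega
    have hY0 : Y = 0 := by omega
    have hi3' : i = 3 := by
      rw [hw1] at k3
      omega
    have huv : u = 1 ∧ v = 1 := by
      have : u * v = 1 := by rw [← hwdef, hw1]
      exact mul_eq_one.mp this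
    have ha0 : a₀ = 0 := by
      rw [hY0, huv.2] at hY
      omega
    rw [hi3', huv.1, ha0] at ha
    exact absurd ha (by decide)

example : Cfsg.Agent.H77.Tp.StArith := arith

end Cfsg.Agent.H3.Tp
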