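import Mathlib
import Cfsg.Agent.H77.TpDefs
import Cfsg.Agent.H99.ElSTR

set_option autoImplicit false

namespace Cfsg.Agent.H3.Tp

open Module

universe u

section

variable {F : Type*} [Field F] {U : Type*} [AddCommGroup U] [Module F U]

/-- The set of all `T ^ j x`, `x ∈ X`. -/
def orbSet (T : Module.End F U) (X : Set U) : Set U :=
  {y | ∃ j : ℕ, ∃ x ∈ X, y = (T ^ j) x}

theorem orbSet_mono (T : Module.End F U) {X Y : Set U} (h : X ⊆ Y) : orbSet T X ⊆ orbSet T Y := by
  rintro y ⟨j, x, hx, rfl⟩
  exact ⟨j, x, h hx, rfl⟩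

theorem subset_orbSet (T : Module.End F U) (X : Set U) : X ⊆ orbSet T X := by
  intro x hx
  exact ⟨0, x, hx, by simp⟩

theorem orbSpan_invt (T : Module.End F U) (X : Set U) :
    ∀ y ∈ Submodule.span F (orbSet T X), T y ∈ Submodule.span F (orbSet T X) := by
  intro y hy
  have h1 : (Submodule.span F (orbSet T X)).map T ≤ Submodule.span F (orbSet T X) := by
    rw [Submodule.map_span]
    apply Submodule.span_mono
    rintro z ⟨y, ⟨j, x, hx, rfl⟩, rfl⟩
    refine ⟨j + 1, x, hx, ?_⟩
    rw [pow_succ', Module.End.mul_apply]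
  exact h1 (Submodule.mem_map_of_mem hy)

end

section

variable {F : Type*} [Field F] [Fintype F] {U : Type*} [AddCommGroup U] [Module F U]
  [FiniteDimensional F U]

theorem dvd_finrank_of_invt (T : Module.End F U) (r : ℕ) (hr : r.Prime) (hrF : (r : F) ≠ 0)
    (hT : T ^ r = 1) (hker : LinearMap.ker (T - 1) = ⊥) (S : Submodule F U)
    (hS : ∀ y ∈ S, T y ∈ S) :
    ∃ a : ℕ, finrank F S = a * orderOf (Fintype.card F : ZMod r) := by
  obtain ⟨a, ha⟩ := Cfsg.Agent.H99.El.finrank_invariant_mod T r hr hrF hT S hS
  refine ⟨a, ?_⟩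
  rw [ha, hker, inf_bot_eq, finrank_bot, zero_add]

theorem gen_aux (T : Module.End F U) (r : ℕ) (hr : r.Prime) (hrF : (r : F) ≠ 0)
    (hT : T ^ r = 1) (hker : LinearMap.ker (T - 1) = ⊥) :
    ∀ (n : ℕ) (X : Finset U),
      finrank F U - finrank F (Submodule.span F (orbSet T (X : Set U))) = n →
      orderOf (Fintype.card F : ZMod r) * X.card ≤
        finrank F (Submodule.span F (orbSet T (X : Set U))) →
      ∃ Y : Finset U, orderOf (Fintype.card F : ZMod r) * Y.card ≤ finrank F U ∧
        Submodule.span F (orbSet T (Y : Set U)) = ⊤ := by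
  classical
  intro n
  induction n using Nat.strong_induction_on with
  | _ n ih =>
    intro X hn hX
    by_cases htop : Submodule.span F (orbSet T (X : Set U)) = ⊤
    · refine ⟨X, ?_, htop⟩
      rw [htop, finrank_top] at hX
      exact hX
    · obtain ⟨x, hx⟩ : ∃ x : U, x ∉ Submodule.span F (orbSet T (X : Set U)) := by
        by_contra hcon
        push Not at hcon
        exact htop (eq_top_iff.2 fun y _ => hcon y)
      have hxX : x ∉ X := fun hxX =>
        hx (Submodule.subset_span (subset_orbSet T _ (Finset.mem_coe.2 hxX)))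
      have hle : Submodule.span F (orbSet T (X : Set U)) ≤
          Submodule.span F (orbSet T ((insert x X : Finset U) : Set U)) := by
        apply Submodule.span_mono
        apply orbSet_mono
        intro y hy
        exact Finset.mem_coe.2 (Finset.mem_insert_of_mem (Finset.mem_coe.1 hy))
      have hxin : x ∈ Submodule.span F (orbSet T ((insert x X : Finset U) : Set U)) :=
        Submodule.subset_span (subset_orbSet T _ (Finset.mem_coe.2 (Finset.mem_insert_self x X)))
      have hlt : Submodule.span F (orbSet T (X : Set U)) <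
          Submodule.span F (orbSet T ((insert x X : Finset U) : Set U)) :=
        lt_of_le_of_ne hle (fun heq => hx (heq ▸ hxin))
      have hfl := Submodule.finrank_lt_finrank_of_lt hlt
      obtain ⟨a, ha⟩ := dvd_finrank_of_invt T r hr hrF hT hker _ (orbSpan_invt T (X : Set U))
      obtain ⟨a', ha'⟩ := dvd_finrank_of_invt T r hr hrF hT hker _
        (orbSpan_invt T ((insert x X : Finset U) : Set U))
      have haa : a + 1 ≤ a' := by
        rw [ha, ha'] at hfl
        exact Nat.lt_of_mul_lt_mul_right hfl
      have hstep : finrank F (Submodule.span F (orbSet T (X : Set U))) +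
          orderOf (Fintype.card F : ZMod r) ≤
          finrank F (Submodule.span F (orbSet T ((insert x X : Finset U) : Set U))) := by
        rw [ha, ha']
        calc a * orderOf (Fintype.card F : ZMod r) + orderOf (Fintype.card F : ZMod r)
            = (a + 1) * orderOf (Fintype.card F : ZMod r) := by ring
          _ ≤ a' * orderOf (Fintype.card F : ZMod r) := Nat.mul_le_mul_right _ haa
      have hle2 : finrank F (Submodule.span F (orbSet T ((insert x X : Finset U) : Set U))) ≤
          finrank F U := Submodule.finrank_le _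
      refine ih (finrank F U -
          finrank F (Submodule.span F (orbSet T ((insert x X : Finset U) : Set U)))) ?_
        (insert x X) rfl ?_
      · omega
      · rw [Finset.card_insert_of_notMem hxX, Nat.mul_add, Nat.mul_one]
        omega

end

/-- S5980-GEN. -/
theorem gen : Cfsg.Agent.H77.Tp.StGen.{u} := by
  classical
  intro F _ _ U _ _ _ T r hr hrF hT hker
  obtain ⟨Y, hY1, hY2⟩ := gen_aux T r hr hrF hT hker
    (finrank F U - finrank F (Submodule.span F (orbSet T ((∅ : Finset U) : Set U)))) ∅ rfl
    (by simp)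
  refine ⟨Y.card, fun k => ((Y.equivFin.symm k : Y) : U), hY1, ?_⟩
  rw [← hY2]
  congr 1
  ext y
  constructor
  · rintro ⟨⟨j, k⟩, rfl⟩
    exact ⟨j, _, (Y.equivFin.symm k).2, rfl⟩
  · rintro ⟨j, x, hx, rfl⟩
    refine ⟨(j, Y.equivFin ⟨x, hx⟩), ?_⟩
    simp

example : Cfsg.Agent.H77.Tp.StGen.{u} := gen

end Cfsg.Agent.H3.Tp
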