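import Mathlib
import Cfsg.Agent.H77.TpDefs

set_option autoImplicit false
open scoped MatrixGroups
open scoped Matrix
open scoped Kronecker

namespace Cfsg.Agent.H3.Tp

open Module

universe u

section

variable {F : Type*} [Field F]

theorem toLinAlgEquiv'_sub_one {n : ℕ} (Y : Matrix (Fin n) (Fin n) F) :
    (Matrix.toLinAlgEquiv' Y - 1 : Module.End F (Fin n → F)) = (Y - 1).mulVecLin := by
  rw [← map_one (Matrix.toLinAlgEquiv' (R := F) (n := Fin n)), ← map_sub]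
  rfl

theorem finrank_range_sub_one {n : ℕ} (Y : Matrix (Fin n) (Fin n) F) :
    finrank F ↥(LinearMap.range (Matrix.toLinAlgEquiv' Y - 1 : Module.End F (Fin n → F))) =
      (Y - 1).rank := by
  rw [toLinAlgEquiv'_sub_one]
  rfl

theorem finrank_ker_sub_one {n : ℕ} (Y : Matrix (Fin n) (Fin n) F) :
    finrank F ↥(LinearMap.ker (Matrix.toLinAlgEquiv' Y - 1 : Module.End F (Fin n → F))) =
      n - (Y - 1).rank := by
  have h := LinearMap.finrank_range_add_finrank_ker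
    (Matrix.toLinAlgEquiv' Y - 1 : Module.End F (Fin n → F))
  rw [finrank_range_sub_one, Module.finrank_fin_fun] at h
  omega

theorem rank_sub_one_neg {n : ℕ} (Y : Matrix (Fin n) (Fin n) F) :
    (Y - 1).rank = (1 - Y).rank := by
  have h : Y - 1 = (-1 : F) • (1 - Y) := by rw [neg_one_smul, neg_sub]
  rw [h, Matrix.rank_smul_of_mem_nonZeroDivisors _
    (mem_nonZeroDivisors_of_ne_zero (neg_ne_zero.2 one_ne_zero))]

end

/-- S5980-INTWMAT. -/
theorem intwMat (hL : Cfsg.Agent.H77.Tp.StIntwLin.{u}) : Cfsg.Agent.H77.Tp.StIntwMat.{u} := by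
  intro F _ _ a b r A B hr hrF hA hB
  have hr1 : r - 1 + 1 = r := Nat.sub_add_cancel hr.one_lt.le
  obtain ⟨T₀, hT₀⟩ : ∃ T₀ : Matrix (Fin b) (Fin b) F, T₀ = (Bᵀ) ^ (r - 1) := ⟨_, rfl⟩
  have hBr : (Bᵀ) ^ r = 1 := by
    rw [← Matrix.transpose_pow, hB, Matrix.transpose_one]
  have hBT : Bᵀ * T₀ = 1 := by
    rw [hT₀, ← pow_succ', hr1, hBr]
  have hT₀r : T₀ ^ r = 1 := by
    rw [hT₀, ← pow_mul, mul_comm, pow_mul, hBr, one_pow]
  have hT₀det : IsUnit T₀.det := Matrix.isUnit_det_of_left_inverse hBT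
  -- the linear maps
  obtain ⟨S, hS⟩ : ∃ S : Module.End F (Fin a → F), S = Matrix.toLinAlgEquiv' A := ⟨_, rfl⟩
  obtain ⟨T, hT⟩ : ∃ T : Module.End F (Fin b → F), T = Matrix.toLinAlgEquiv' T₀ := ⟨_, rfl⟩
  have hSr : S ^ r = 1 := by
    rw [hS, ← map_pow, hA, map_one]
  have hTr : T ^ r = 1 := by
    rw [hT, ← map_pow, hT₀r, map_one]
  obtain ⟨W, hW⟩ : ∃ W : Submodule F ((Fin b → F) →ₗ[F] (Fin a → F)),
      W = (Cfsg.Agent.H77.Tp.intw A B).map
        ((Matrix.toLin' : Matrix (Fin a) (Fin b) F ≃ₗ[F] _) : _ →ₗ[F] _) := ⟨_, rfl⟩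
  have hWf : finrank F ↥W = finrank F ↥(Cfsg.Agent.H77.Tp.intw A B) := by
    rw [hW]
    exact LinearEquiv.finrank_map_eq _ _
  have hWint : ∀ M ∈ W, S ∘ₗ M = M ∘ₗ T := by
    intro M' hM'
    rw [hW] at hM'
    obtain ⟨M, hM, rfl⟩ := hM'
    have hM1 : A * M * Bᵀ = M := hM
    have hM2 : A * M = M * T₀ := by
      calc A * M = A * M * (Bᵀ * T₀) := by rw [hBT, Matrix.mul_one]
        _ = (A * M * Bᵀ) * T₀ := by rw [Matrix.mul_assoc (A * M)]
        _ = M * T₀ := by rw [hM1]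
    rw [hS, hT]
    show (Matrix.toLin' A) ∘ₗ (Matrix.toLin' M) = (Matrix.toLin' M) ∘ₗ (Matrix.toLin' T₀)
    rw [← Matrix.toLin'_mul, ← Matrix.toLin'_mul, hM2]
  have key := hL F (Fin a → F) (Fin b → F) S T r hr hrF hSr hTr W hWint
  have hrankT : (T₀ - 1).rank = (B - 1).rank := by
    rw [rank_sub_one_neg]
    have e : (Bᵀ - 1) * T₀ = 1 - T₀ := by rw [Matrix.sub_mul, hBT, one_mul]
    have e2 : Bᵀ - 1 = (B - 1)ᵀ := by rw [Matrix.transpose_sub, Matrix.transpose_one]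
    rw [← e, Matrix.rank_mul_eq_left_of_isUnit_det T₀ (Bᵀ - 1) hT₀det, e2, Matrix.rank_transpose]
  rw [hWf, hS, hT, finrank_range_sub_one, finrank_range_sub_one, finrank_ker_sub_one,
    finrank_ker_sub_one, hrankT] at key
  exact key

example (hL : Cfsg.Agent.H77.Tp.StIntwLin.{u}) : Cfsg.Agent.H77.Tp.StIntwMat.{u} := intwMat hL

end Cfsg.Agent.H3.Tp
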