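import Mathlib
import Cfsg.Agent.H77.TpDefs

set_option autoImplicit false
open scoped MatrixGroups
open scoped Matrix
open scoped Kronecker

namespace Cfsg.Agent.H3.Tp

universe u

/-- S5980-KRONONE: a Kronecker product equal to `1` has scalar factors. -/
theorem kronOne : Cfsg.Agent.H77.Tp.StKronOne.{u} := by
  intro F _ a b M N ha hb h
  have hent : ∀ (i i' : Fin a) (j j' : Fin b),
      M i i' * N j j' = if (i, j) = (i', j') then 1 else 0 := by
    intro i i' j j'
    have h1 := congrFun (congrFun h (i, j)) (i', j')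
    rw [Matrix.one_apply] at h1
    exact h1
  obtain ⟨i0, hi0⟩ : ∃ i0 : Fin a, i0 = ⟨0, ha⟩ := ⟨_, rfl⟩
  obtain ⟨j0, hj0⟩ : ∃ j0 : Fin b, j0 = ⟨0, hb⟩ := ⟨_, rfl⟩
  have h00 : M i0 i0 * N j0 j0 = 1 := by
    have := hent i0 i0 j0 j0
    rwa [if_pos rfl] at this
  have hc : M i0 i0 ≠ 0 := left_ne_zero_of_mul_eq_one h00
  have hN0 : N j0 j0 = (M i0 i0)⁻¹ := eq_inv_of_mul_eq_one_right h00
  refine ⟨M i0 i0, hc, ?_, ?_⟩
  · ext i i'
    have h1 := hent i i' j0 j0
    rw [hN0] at h1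
    rw [Matrix.smul_apply, Matrix.one_apply, smul_eq_mul]
    have h2 : M i i' = (if (i, j0) = (i', j0) then 1 else 0) * M i0 i0 := by
      rw [← h1, mul_assoc, inv_mul_cancel₀ hc, mul_one]
    rw [h2]
    by_cases hii : i = i'
    · subst hii; simp
    · have : ¬ (i, j0) = (i', j0) := fun hh => hii (Prod.ext_iff.1 hh).1
      rw [if_neg this, if_neg hii]; simp
  · ext j j'
    have h1 := hent i0 i0 j j'
    rw [Matrix.smul_apply, Matrix.one_apply, smul_eq_mul]
    have h2 : N j j' = (M i0 i0)⁻¹ * (if (i0, j) = (i0, j') then 1 else 0) := by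
      rw [← h1, ← mul_assoc, inv_mul_cancel₀ hc, one_mul]
    rw [h2]
    by_cases hjj : j = j'
    · subst hjj; simp
    · have : ¬ (i0, j) = (i0, j') := fun hh => hjj (Prod.ext_iff.1 hh).2
      rw [if_neg this, if_neg hjj]

example : Cfsg.Agent.H77.Tp.StKronOne.{u} := kronOne

end Cfsg.Agent.H3.Tp
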