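import Mathlib
import Cfsg.Agent.H77.TqDefs
import Cfsg.Agent.H49.Isom
import Cfsg.Agent.H49.Basic
import Cfsg.Agent.H49.Refl
import Cfsg.Agent.H49.Spinor
import Cfsg.Agent.H45.OmInvol
import Cfsg.Agent.H95.Basic

/-!
# S5978-ACONJO (piece for helper77)

Involutions of `Ω(Q)` (odd characteristic) with the same `rank (x - 1)` are conjugate under the
isometry group.
-/

set_option autoImplicit false
open scoped MatrixGroups
open scoped Matrix

namespace Cfsg.Agent.H3.Tq

open Cfsg.Agent.H77.Tq Module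

universe u

section
variable {F : Type u} [Field F] [Fintype F] {ι : Type} [Fintype ι] [DecidableEq ι]

/-- An orthogonal basis of a nondegenerate subspace, with `Q = 1` on all but the last vector. -/
theorem ac_orth_basis (hDiag : StDiag.{u}) (Q : QuadraticForm F (ι → F)) (h2 : (2 : F) ≠ 0)
    (W : Submodule F (ι → F))
    (hW : ∀ u ∈ W, (∀ v ∈ W, QuadraticMap.polar (⇑Q) u v = 0) → u = 0)
    (k : ℕ) (hk : k = finrank F ↥W) :
    ∃ (f : Fin k → (ι → F)), (∀ l, f l ∈ W) ∧
      (∀ l l', l ≠ l' → QuadraticMap.polar (⇑Q) (f l) (f l') = 0) ∧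
      (∀ l, Q (f l) ≠ 0) ∧ (∀ l : Fin k, (l : ℕ) + 1 < k → Q (f l) = 1) := by
  obtain ⟨B, hB⟩ : ∃ B : ↥W →ₗ[F] ↥W →ₗ[F] F,
      ∀ u v : ↥W, B u v = QuadraticMap.polar (⇑Q) (u : ι → F) (v : ι → F) :=
    ⟨(QuadraticMap.polarBilin Q).compl₁₂ W.subtype W.subtype, fun u v => rfl⟩
  obtain ⟨n, e, α, hα, hαc, hform⟩ := hDiag F ↥W B h2
    (fun u v => by rw [hB, hB, QuadraticMap.polar_comm])
    (fun u hu => by
      apply Subtype.ext
      apply hW u.1 u.2
      intro v hv
      have h1 := hu ⟨v, hv⟩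
      rw [hB] at h1
      exact h1) 2 h2
  have hn : k = n := by
    have h1 := Module.finrank_eq_card_basis ((Pi.basisFun F (Fin n)).map e)
    rw [hk, h1, Fintype.card_fin]
  subst hn
  have hpol : ∀ l l' : Fin k, QuadraticMap.polar (⇑Q) ((e (Pi.single l 1) : ↥W) : ι → F)
      ((e (Pi.single l' 1) : ↥W) : ι → F) = if l = l' then α l else 0 := by
    intro l l'
    rw [← hB, hform]
    by_cases h : l = l'
    · subst h
      rw [if_pos rfl, Finset.sum_eq_single l]
      · simp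
      · intro j _ hj
        simp [hj]
      · intro h; exact absurd (Finset.mem_univ l) h
    · rw [if_neg h]
      apply Finset.sum_eq_zero
      intro j _
      by_cases hj : j = l
      · subst hj
        simp [h]
      · simp [hj]
  refine ⟨fun l => ((e (Pi.single l 1) : ↥W) : ι → F), fun l => (e (Pi.single l 1)).2, ?_, ?_, ?_⟩
  · intro l l' hll
    rw [hpol, if_neg hll]
  · intro l h0
    have h1 := hpol l l
    rw [if_pos rfl, Cfsg.Agent.H49.polar_self', h0, mul_zero] at h1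
    exact hα l h1.symm
  · intro l hl
    have h1 := hpol l l
    rw [if_pos rfl, Cfsg.Agent.H49.polar_self', hαc l hl] at h1
    have h3 : (2 : F) * Q ((e (Pi.single l 1) : ↥W) : ι → F) = 2 * 1 := by rw [h1, mul_one]
    exact mul_left_cancel₀ h2 h3

theorem ac_linindep (Q : QuadraticForm F (ι → F)) (h2 : (2 : F) ≠ 0) {κ : Type} [Fintype κ]
    [DecidableEq κ] (f : κ → (ι → F))
    (horth : ∀ i j, i ≠ j → QuadraticMap.polar (⇑Q) (f i) (f j) = 0)
    (hne : ∀ i, Q (f i) ≠ 0) : LinearIndependent F f := by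
  rw [Fintype.linearIndependent_iff]
  intro c hc j
  have h1 : QuadraticMap.polarBilin Q (f j) (∑ i, c i • f i) = 0 := by rw [hc, map_zero]
  rw [map_sum, Finset.sum_eq_single j] at h1
  · rw [map_smul, QuadraticMap.polarBilin_apply_apply, Cfsg.Agent.H49.polar_self',
      smul_eq_mul] at h1
    rcases mul_eq_zero.mp h1 with h | h
    · exact h
    · exact absurd h (mul_ne_zero h2 (hne j))
  · intro i _ hij
    rw [map_smul, QuadraticMap.polarBilin_apply_apply, horth j i (Ne.symm hij), smul_zero]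
  · intro h; exact absurd (Finset.mem_univ j) h

/-- A basis adapted to an involution of the isometry group. -/
theorem ac_basis (hDiag : StDiag.{u}) (Q : QuadraticForm F (ι → F)) (h2 : (2 : F) ≠ 0)
    (hnd : (QuadraticMap.polarBilin Q).Nondegenerate) (x : GL ι F)
    (hx : x ∈ Cfsg.isometryGroup F ⇑Q) (hxx : (x : Matrix ι ι F) * (x : Matrix ι ι F) = 1)
    (k : ℕ) (hk : k = ((x : Matrix ι ι F) - 1).rank) :
    ∃ (n' : ℕ) (b : Basis (Fin k ⊕ Fin n') F (ι → F)),
      (∀ l, (x : Matrix ι ι F) *ᵥ b (Sum.inl l) = -b (Sum.inl l)) ∧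
      (∀ l, (x : Matrix ι ι F) *ᵥ b (Sum.inr l) = b (Sum.inr l)) ∧
      (∀ i j, i ≠ j → QuadraticMap.polar (⇑Q) (b i) (b j) = 0) ∧ (∀ i, Q (b i) ≠ 0) ∧
      (∀ l : Fin k, (l : ℕ) + 1 < k → Q (b (Sum.inl l)) = 1) ∧
      (∀ l : Fin n', (l : ℕ) + 1 < n' → Q (b (Sum.inr l)) = 1) := by
  have hiso : ∀ u v : ι → F, QuadraticMap.polar (⇑Q) ((x : Matrix ι ι F) *ᵥ u)
      ((x : Matrix ι ι F) *ᵥ v) = QuadraticMap.polar (⇑Q) u v := fun u v =>
    Cfsg.Agent.H49.isometry_polar Q ⟨x, hx⟩ u v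
  obtain ⟨X, hX⟩ : ∃ X : Matrix ι ι F, X = (x : Matrix ι ι F) := ⟨_, rfl⟩
  rw [← hX] at hxx hk hiso ⊢
  have hXX : ∀ v : ι → F, X *ᵥ (X *ᵥ v) = v := by
    intro v; rw [Matrix.mulVec_mulVec, hxx, Matrix.one_mulVec]
  obtain ⟨Wm, hWm⟩ : ∃ W : Submodule F (ι → F), W = LinearMap.range (X - 1).mulVecLin :=
    ⟨_, rfl⟩
  obtain ⟨Wp, hWp⟩ : ∃ W : Submodule F (ι → F), W = LinearMap.ker (X - 1).mulVecLin :=
    ⟨_, rfl⟩
  have hm : ∀ v ∈ Wm, X *ᵥ v = -v := by
    intro v hv
    rw [hWm] at hv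
    obtain ⟨w, rfl⟩ := hv
    rw [Matrix.mulVecLin_apply, Matrix.sub_mulVec, Matrix.one_mulVec, Matrix.mulVec_sub, hXX]
    abel
  have hp : ∀ v ∈ Wp, X *ᵥ v = v := by
    intro v hv
    rw [hWp, LinearMap.mem_ker, Matrix.mulVecLin_apply, Matrix.sub_mulVec, Matrix.one_mulVec,
      sub_eq_zero] at hv
    exact hv
  have hmem_m : ∀ v : ι → F, v - X *ᵥ v ∈ Wm := by
    intro v
    rw [hWm]
    refine ⟨-v, ?_⟩
    rw [Matrix.mulVecLin_apply, Matrix.sub_mulVec, Matrix.one_mulVec, Matrix.mulVec_neg]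
    abel
  have hmem_p : ∀ v : ι → F, v + X *ᵥ v ∈ Wp := by
    intro v
    rw [hWp, LinearMap.mem_ker, Matrix.mulVecLin_apply, Matrix.sub_mulVec, Matrix.one_mulVec,
      Matrix.mulVec_add, hXX]
    abel
  have hndm : ∀ u ∈ Wm, (∀ v ∈ Wm, QuadraticMap.polar (⇑Q) u v = 0) → u = 0 := by
    intro u hu h
    apply hnd.1 u
    intro v
    have h1 := h (v - X *ᵥ v) (hmem_m v)
    rw [QuadraticMap.polar_sub_right] at h1
    have h3 : QuadraticMap.polar (⇑Q) u (X *ᵥ v) = - QuadraticMap.polar (⇑Q) u v := by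
      have h4 := hiso u v
      rw [hm u hu, QuadraticMap.polar_neg_left] at h4
      rw [← h4, neg_neg]
    rw [h3, sub_neg_eq_add] at h1
    have h4 : (2 : F) * QuadraticMap.polar (⇑Q) u v = 0 := by rw [two_mul]; exact h1
    exact (mul_eq_zero.mp h4).resolve_left h2
  have hndp : ∀ u ∈ Wp, (∀ v ∈ Wp, QuadraticMap.polar (⇑Q) u v = 0) → u = 0 := by
    intro u hu h
    apply hnd.1 u
    intro v
    have h1 := h (v + X *ᵥ v) (hmem_p v)
    rw [QuadraticMap.polar_add_right] at h1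
    have h3 : QuadraticMap.polar (⇑Q) u (X *ᵥ v) = QuadraticMap.polar (⇑Q) u v := by
      have h4 := hiso u v
      rw [hp u hu] at h4
      exact h4
    rw [h3] at h1
    have h4 : (2 : F) * QuadraticMap.polar (⇑Q) u v = 0 := by rw [two_mul]; exact h1
    exact (mul_eq_zero.mp h4).resolve_left h2
  have hcross : ∀ u ∈ Wm, ∀ v ∈ Wp, QuadraticMap.polar (⇑Q) u v = 0 := by
    intro u hu v hv
    have h4 := hiso u v
    rw [hm u hu, hp v hv, QuadraticMap.polar_neg_left] at h4
    have h5 : (2 : F) * QuadraticMap.polar (⇑Q) u v = 0 := by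
      rw [two_mul]
      nth_rewrite 1 [← h4]
      exact neg_add_cancel _
    exact (mul_eq_zero.mp h5).resolve_left h2
  obtain ⟨fm, hfm1, hfm2, hfm3, hfm4⟩ := ac_orth_basis hDiag Q h2 Wm hndm k (by rw [hk, hWm]; rfl)
  obtain ⟨fp, hfp1, hfp2, hfp3, hfp4⟩ := ac_orth_basis hDiag Q h2 Wp hndp _ rfl
  have horth : ∀ i j : Fin k ⊕ Fin (finrank F ↥Wp), i ≠ j →
      QuadraticMap.polar (⇑Q) (Sum.elim fm fp i) (Sum.elim fm fp j) = 0 := by
    intro i j hij
    rcases i with l | l <;> rcases j with l' | l'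
    · exact hfm2 l l' (fun h => hij (by rw [h]))
    · exact hcross _ (hfm1 l) _ (hfp1 l')
    · rw [QuadraticMap.polar_comm]; exact hcross _ (hfm1 l') _ (hfp1 l)
    · exact hfp2 l l' (fun h => hij (by rw [h]))
  have hne : ∀ i : Fin k ⊕ Fin (finrank F ↥Wp), Q (Sum.elim fm fp i) ≠ 0 := by
    intro i
    rcases i with l | l
    · exact hfm3 l
    · exact hfp3 l
  have hli := ac_linindep Q h2 (Sum.elim fm fp) horth hne
  have hcard : Fintype.card (Fin k ⊕ Fin (finrank F ↥Wp)) = finrank F (ι → F) := by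
    have h1 := LinearMap.finrank_range_add_finrank_ker (X - 1).mulVecLin
    have h2' : k = finrank F ↥(LinearMap.range (X - 1).mulVecLin) := by rw [hk]; rfl
    rw [Fintype.card_sum, Fintype.card_fin, Fintype.card_fin, hWp, h2', h1]
  refine ⟨finrank F ↥Wp, basisOfLinearIndependentOfCardEqFinrank' _ hli hcard, ?_, ?_, ?_, ?_, ?_, ?_⟩
  · intro l
    rw [coe_basisOfLinearIndependentOfCardEqFinrank']
    exact hm _ (hfm1 l)
  · intro l
    rw [coe_basisOfLinearIndependentOfCardEqFinrank']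
    exact hp _ (hfp1 l)
  · intro i j hij
    rw [coe_basisOfLinearIndependentOfCardEqFinrank']
    exact horth i j hij
  · intro i
    rw [coe_basisOfLinearIndependentOfCardEqFinrank']
    exact hne i
  · intro l hl
    rw [coe_basisOfLinearIndependentOfCardEqFinrank']
    exact hfm4 l hl
  · intro l hl
    rw [coe_basisOfLinearIndependentOfCardEqFinrank']
    exact hfp4 l hl

/-- Spinor norm: for an involution of `Ω`, the norms of an adapted basis of the `-1`-eigenspace are
squares. -/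
theorem ac_spinor (Q : QuadraticForm F (ι → F)) (h2 : (2 : F) ≠ 0) (x : GL ι F)
    (hx : x ∈ Cfsg.Geo.omegaGL ⇑Q) {k n' : ℕ} (b : Basis (Fin k ⊕ Fin n') F (ι → F))
    (hb1 : ∀ l, (x : Matrix ι ι F) *ᵥ b (Sum.inl l) = -b (Sum.inl l))
    (hb2 : ∀ l, (x : Matrix ι ι F) *ᵥ b (Sum.inr l) = b (Sum.inr l))
    (hb3 : ∀ i j, i ≠ j → QuadraticMap.polar (⇑Q) (b i) (b j) = 0) (hb4 : ∀ i, Q (b i) ≠ 0)
    (hb5 : ∀ l : Fin k, (l : ℕ) + 1 < k → Q (b (Sum.inl l)) = 1) :
    ∀ l : Fin k, IsSquare (Q (b (Sum.inl l))) := by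
  classical
  obtain ⟨x', hx', hxe⟩ := hx
  obtain ⟨vs, hvs_def⟩ : ∃ vs : List (ι → F), vs = List.ofFn (fun l : Fin k => b (Sum.inl l)) :=
    ⟨_, rfl⟩
  have hvs : ∀ v ∈ vs, Q v ≠ 0 := by
    intro v hv
    rw [hvs_def, List.mem_ofFn] at hv
    obtain ⟨l, rfl⟩ := hv
    exact hb4 _
  have hpw : vs.Pairwise (fun u w => QuadraticMap.polar (⇑Q) u w = 0) := by
    rw [hvs_def, List.pairwise_ofFn]
    intro i j hij
    exact hb3 _ _ (fun h => (ne_of_lt hij) (Sum.inl_injective h))
  have hxe' : ((x' : GL ι F) : Matrix ι ι F) = (x : Matrix ι ι F) := by rw [← hxe]; rfl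
  have hg : ((x' : GL ι F) : Matrix ι ι F)
      = (vs.map (fun v => Cfsg.reflectionMatrix (⇑Q) v)).prod := by
    apply Matrix.toLin'.injective
    apply b.ext
    intro i
    rw [Matrix.toLin'_apply, Matrix.toLin'_apply, hxe']
    rcases i with l | l
    · rw [hb1, Cfsg.Agent.H45.prod_refl_neg Q vs hpw hvs (b (Sum.inl l))
        (by rw [hvs_def, List.mem_ofFn]; exact ⟨l, rfl⟩)]
    · rw [hb2, Cfsg.Agent.H45.prod_refl_fix Q vs (b (Sum.inr l)) (by
        intro w hw
        rw [hvs_def, List.mem_ofFn] at hw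
        obtain ⟨l', rfl⟩ := hw
        exact hb3 _ _ (by simp))]
  have hcrit := (Cfsg.Agent.H49.mem_commutator_iff_of_prod_refl Q h2 x' vs hvs hg).mp hx'
  have hprod : (vs.map (fun v => Q v)).prod = ∏ l : Fin k, Q (b (Sum.inl l)) := by
    rw [hvs_def, List.map_ofFn, List.prod_ofFn]
    rfl
  intro l
  by_cases hl : (l : ℕ) + 1 < k
  · rw [hb5 l hl]
    exact ⟨1, by simp⟩
  · have h1 : ∏ j : Fin k, Q (b (Sum.inl j)) = Q (b (Sum.inl l)) := by
      apply Finset.prod_eq_single l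
      · intro j _ hj
        apply hb5
        have hj2 := j.2
        have hl2 := l.2
        have hne : (j : ℕ) ≠ l := fun h => hj (Fin.ext h)
        omega
      · intro h; exact absurd (Finset.mem_univ l) h
    rw [← h1, ← hprod]
    exact hcrit.2

end

theorem aConjO (hDiag : StDiag.{u}) : StAConjO.{u} := by
  intro F _ _ ι _ _ Q h2 hnd x y hx hy hxx hyy hrk
  have hxO : x ∈ Cfsg.isometryGroup F ⇑Q := by
    obtain ⟨x', -, rfl⟩ := hx
    exact x'.2
  have hyO : y ∈ Cfsg.isometryGroup F ⇑Q := by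
    obtain ⟨y', -, rfl⟩ := hy
    exact y'.2
  obtain ⟨n, b, hb1, hb2, hb3, hb4, hb5, hb6⟩ := ac_basis hDiag Q h2 hnd x hxO hxx _ rfl
  obtain ⟨n', b', hb1', hb2', hb3', hb4', hb5', hb6'⟩ := ac_basis hDiag Q h2 hnd y hyO hyy _ hrk
  have hn : n = n' := by
    have e1 := Module.finrank_eq_card_basis b
    have e2 := Module.finrank_eq_card_basis b'
    rw [e1] at e2
    simp only [Fintype.card_sum, Fintype.card_fin] at e2
    omega
  subst hn
  have hsx := ac_spinor Q h2 x hx b hb1 hb2 hb3 hb4 hb5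
  have hsy := ac_spinor Q h2 y hy b' hb1' hb2' hb3' hb4' hb5'
  have hsq : ∀ i, IsSquare (Q (b i) * Q (b' i)) := by
    intro i
    rcases i with l | l
    · exact (hsx l).mul (hsy l)
    · by_cases hl : (l : ℕ) + 1 < n
      · rw [hb6 l hl, hb6' l hl]
        exact ⟨1, by simp⟩
      · have hG := (Cfsg.Agent.H49.isSquare_gram_iff Q Q b b').mp
          ⟨(Cfsg.Agent.H49.stdGram Q).det, rfl⟩
        have e1 : (Matrix.of fun i j => QuadraticMap.polar (⇑Q) (b i) (b j))
            = Matrix.diagonal (fun i => 2 * Q (b i)) := by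
          ext i j
          by_cases hij : i = j
          · subst hij
            rw [Matrix.of_apply, Matrix.diagonal_apply_eq, Cfsg.Agent.H49.polar_self']
          · rw [Matrix.of_apply, Matrix.diagonal_apply_ne _ hij, hb3 i j hij]
        have e2 : (Matrix.of fun i j => QuadraticMap.polar (⇑Q) (b' i) (b' j))
            = Matrix.diagonal (fun i => 2 * Q (b' i)) := by
          ext i j
          by_cases hij : i = j
          · subst hij
            rw [Matrix.of_apply, Matrix.diagonal_apply_eq, Cfsg.Agent.H49.polar_self']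
          · rw [Matrix.of_apply, Matrix.diagonal_apply_ne _ hij, hb3' i j hij]
        rw [e1, e2, Matrix.det_diagonal, Matrix.det_diagonal, ← Finset.prod_mul_distrib,
          ← Finset.mul_prod_erase Finset.univ _ (Finset.mem_univ (Sum.inr l))] at hG
        have hrest : IsSquare (∏ i ∈ Finset.univ.erase
            (Sum.inr l : Fin ((x : Matrix ι ι F) - 1).rank ⊕ Fin n),
              2 * Q (b i) * (2 * Q (b' i))) := by
          apply Finset.isSquare_prod
          intro i hi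
          have hi' : i ≠ Sum.inr l := Finset.ne_of_mem_erase hi
          have hsqi : IsSquare (Q (b i) * Q (b' i)) := by
            rcases i with l' | l'
            · exact (hsx l').mul (hsy l')
            · have hlt : (l' : ℕ) + 1 < n := by
                have hne : l' ≠ l := fun h => hi' (by rw [h])
                have hl2 := l'.2
                have hl3 := l.2
                have hne' : (l' : ℕ) ≠ l := fun h => hne (Fin.ext h)
                omega
              rw [hb6 l' hlt, hb6' l' hlt]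
              exact ⟨1, by simp⟩
          obtain ⟨s, hs⟩ := hsqi
          refine ⟨2 * s, ?_⟩
          have e3 : 2 * Q (b i) * (2 * Q (b' i)) = 2 * 2 * (Q (b i) * Q (b' i)) := by ring
          rw [e3, hs]
          ring
        have hrest0 : (∏ i ∈ Finset.univ.erase
            (Sum.inr l : Fin ((x : Matrix ι ι F) - 1).rank ⊕ Fin n),
              2 * Q (b i) * (2 * Q (b' i))) ≠ 0 := by
          rw [Finset.prod_ne_zero_iff]
          intro i _
          exact mul_ne_zero (mul_ne_zero h2 (hb4 i)) (mul_ne_zero h2 (hb4' i))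
        obtain ⟨S, hS⟩ := hrest
        obtain ⟨T, hT⟩ := hG
        rw [hS] at hT hrest0
        have hS0 : S ≠ 0 := by
          intro h
          rw [h] at hrest0
          simp at hrest0
        refine ⟨T / (2 * S), ?_⟩
        field_simp
        linear_combination hT
  have hex : ∀ i, ∃ t : F, t * t * Q (b' i) = Q (b i) := by
    intro i
    obtain ⟨s, hs⟩ := hsq i
    refine ⟨s / Q (b' i), ?_⟩
    have h0 := hb4' i
    field_simp
    linear_combination (-1 : F) * hs
  choose t ht using hex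
  have hQ : ∀ a : ι → F, (∀ c : ι → F, QuadraticMap.polar ⇑Q a c = 0) → a = 0 :=
    fun a ha => hnd.1 a ha
  have hgram : ∀ i j, QuadraticMap.polar ⇑Q (t i • b' i) (t j • b' j)
      = QuadraticMap.polar ⇑Q (b i) (b j) := by
    intro i j
    rw [QuadraticMap.polar_smul_left, QuadraticMap.polar_smul_right]
    by_cases hij : i = j
    · subst hij
      rw [Cfsg.Agent.H49.polar_self', Cfsg.Agent.H49.polar_self', ← ht i]
      simp only [smul_eq_mul]
      ring
    · rw [hb3 i j hij, hb3' i j hij]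
      simp
  obtain ⟨g, hg1, hg2⟩ :=
    Cfsg.Agent.H49.exists_isometry_of_gram h2 b Q Q hQ (fun i => t i • b' i) hgram
  have hmem : Cfsg.Agent.H95.glOf g ∈ Cfsg.isometryGroup F ⇑Q := by
    rw [Cfsg.Agent.H49.mem_isometryGroup_iff]
    intro v
    rw [Cfsg.Agent.H95.glOf_mulVec]
    exact hg1 v
  refine ⟨Cfsg.Agent.H95.glOf g, hmem, ?_⟩
  rw [mul_inv_eq_iff_eq_mul]
  apply Units.ext
  rw [Units.val_mul, Units.val_mul]
  apply Matrix.toLin'.injective
  apply b.ext
  intro i
  rw [Matrix.toLin'_apply, Matrix.toLin'_apply, ← Matrix.mulVec_mulVec, ← Matrix.mulVec_mulVec,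
    Cfsg.Agent.H95.glOf_mulVec, Cfsg.Agent.H95.glOf_mulVec]
  rcases i with l | l
  · rw [hb1, map_neg, hg2, Matrix.mulVec_smul, hb1', smul_neg]
  · rw [hb2, hg2, Matrix.mulVec_smul, hb2']

example (hDiag : StDiag.{u}) : StAConjO.{u} := aConjO hDiag

end Cfsg.Agent.H3.Tq
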