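import Mathlib
import Cfsg.Agent.H77.TqDefs

set_option autoImplicit false

namespace Cfsg.Agent.H3.Tq

/-- S5978-ARITHCC. -/
theorem arithCC : Cfsg.Agent.H77.Tq.StArithCC := by
  intro q r hr hr2 hrq h4
  haveI : Fact r.Prime := ⟨hr⟩
  have hq0 : (q : ZMod r) ≠ 0 := by
    intro h
    exact hrq ((ZMod.natCast_eq_zero_iff q r).1 h)
  have hpos : 0 < orderOf (q : ZMod r) := by
    rw [orderOf_pos_iff, isOfFinOrder_iff_pow_eq_one]
    exact ⟨r - 1, Nat.sub_pos_of_lt hr.one_lt, ZMod.pow_card_sub_one_eq_one hq0⟩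
  have hpow : orderOf ((q : ZMod r) ^ 2) = orderOf (q : ZMod r) / Nat.gcd (orderOf (q : ZMod r)) 2 :=
    orderOf_pow' (q : ZMod r) two_ne_zero
  rw [hpow]
  obtain ⟨i, hi⟩ : ∃ i, i = orderOf (q : ZMod r) := ⟨_, rfl⟩
  rw [← hi] at h4 hpos ⊢
  rcases Nat.even_or_odd i with he | ho
  · -- `i = 2 j`, `j` odd
    have h2 : 2 ∣ i := he.two_dvd
    have hg : Nat.gcd i 2 = 2 := Nat.gcd_eq_right h2
    rw [hg, if_pos he]
    obtain ⟨j, hj⟩ := h2
    have hj2 : i / 2 = j := by omega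
    rw [hj2]
    have hjodd : ¬ Even j := by
      rw [Nat.even_iff]
      intro hje
      apply h4
      omega
    rw [if_neg hjodd]
    omega
  · have hne : ¬ Even i := Nat.not_even_iff_odd.2 ho
    have hg : Nat.gcd i 2 = 1 := by
      have h1 : Nat.Coprime 2 i := by
        rw [Nat.Prime.coprime_iff_not_dvd Nat.prime_two]
        intro h2
        exact hne (even_iff_two_dvd.2 h2)
      exact Nat.Coprime.symm h1
    rw [hg, Nat.div_one, if_neg hne]
    omega

example : Cfsg.Agent.H77.Tq.StArithCC := arithCC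

end Cfsg.Agent.H3.Tq
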