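import Mathlib
import Cfsg.Agent.H77.TqDefs

set_option autoImplicit false

namespace Cfsg.Agent.H3.Tq

theorem prod_range_two_mul (f : ℕ → ℕ) (k : ℕ) :
    ∏ j ∈ Finset.range (2 * k), f j =
      (∏ j ∈ Finset.range k, f (2 * j)) * (∏ j ∈ Finset.range k, f (2 * j + 1)) := by
  induction k with
  | zero => simp
  | succ k ih =>
    have e : 2 * (k + 1) = 2 * k + 1 + 1 := by ring
    rw [e, Finset.prod_range_succ, Finset.prod_range_succ, ih, Finset.prod_range_succ,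
      Finset.prod_range_succ]
    ring

theorem pow_eq_one_of_dvd_sub (q r n : ℕ) (hq : 2 ≤ q) (h : r ∣ q ^ n - 1) :
    (q : ZMod r) ^ n = 1 := by
  have h1 : ((q ^ n - 1 : ℕ) : ZMod r) = 0 := (ZMod.natCast_eq_zero_iff _ r).2 h
  have h2 : 1 ≤ q ^ n := Nat.one_le_pow _ _ (by omega)
  rw [Nat.cast_sub h2, Nat.cast_pow, Nat.cast_one, sub_eq_zero] at h1
  exact h1

theorem not_dvd_odd_factor (q r : ℕ) (hq : 2 ≤ q) (h4 : 4 ∣ orderOf (q : ZMod r)) (j : ℕ) :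
    ¬ r ∣ q ^ (2 * (2 * j + 1)) - 1 := by
  intro h
  have h1 := pow_eq_one_of_dvd_sub q r _ hq h
  have h2 := orderOf_dvd_of_pow_eq_one h1
  have h3 : 4 ∣ 2 * (2 * j + 1) := h4.trans h2
  omega

theorem not_dvd_prod_odd (q r : ℕ) (hr : r.Prime) (hq : 2 ≤ q)
    (h4 : 4 ∣ orderOf (q : ZMod r)) (k : ℕ) :
    ¬ r ∣ ∏ j ∈ Finset.range k, (q ^ (2 * (2 * j + 1)) - 1) := by
  intro h
  obtain ⟨j, _, hj⟩ := (Prime.dvd_finsetProd_iff hr.prime _).1 h
  exact not_dvd_odd_factor q r hq h4 j hj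

theorem not_dvd_plus (q r : ℕ)
    (h4 : 4 ∣ orderOf (q : ZMod r)) (k : ℕ) : ¬ r ∣ q ^ (2 * k + 1) + 1 := by
  intro h
  have h1 : ((q ^ (2 * k + 1) + 1 : ℕ) : ZMod r) = 0 := (ZMod.natCast_eq_zero_iff _ r).2 h
  rw [Nat.cast_add, Nat.cast_pow, Nat.cast_one] at h1
  have h2 : (q : ZMod r) ^ (2 * k + 1) = -1 := eq_neg_of_add_eq_zero_left h1
  have h3 : (q : ZMod r) ^ (2 * (2 * k + 1)) = 1 := by
    rw [mul_comm, pow_mul, h2]; norm_num
  have h5 := orderOf_dvd_of_pow_eq_one h3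
  have h6 : 4 ∣ 2 * (2 * k + 1) := h4.trans h5
  omega

/-- S5978-ARITHORD. -/
theorem arithOrd : Cfsg.Agent.H77.Tq.StArithOrd := by
  intro q m r hq hr hr2 hrq h4
  rcases Nat.even_or_odd' m with ⟨k, hk | hk⟩
  · -- `m = 2 k`
    subst hk
    have hodd : ¬ Even (2 * k + 1) := by rw [Nat.even_iff]; omega
    rw [if_neg hodd]
    have hdiv : 2 * k / 2 = k := by omega
    rw [hdiv]
    refine ⟨q ^ (2 * k ^ 2 + 2 * k) * (q ^ (2 * k + 1) + 1) *
      ∏ j ∈ Finset.range k, (q ^ (2 * (2 * j + 1)) - 1), ?_, ?_⟩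
    · intro h
      rcases (Nat.Prime.dvd_mul hr).1 h with h | h
      · rcases (Nat.Prime.dvd_mul hr).1 h with h | h
        · exact hrq (hr.dvd_of_dvd_pow h)
        · exact not_dvd_plus q r h4 k h
      · exact not_dvd_prod_odd q r hr hq h4 k h
    · apply dvd_of_eq
      rw [prod_range_two_mul]
      have e1 : ∀ j, q ^ (2 * (2 * j + 1 + 1)) - 1 = (q ^ 2) ^ (2 * (j + 1)) - 1 := by
        intro j
        rw [← pow_mul]
        congr 2
      simp_rw [e1]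
      have e2 : (q ^ 2) ^ (k ^ 2) = q ^ (2 * k ^ 2) := by rw [← pow_mul]
      rw [e2]
      ring
  · -- `m = 2 k + 1`
    subst hk
    have heven : Even (2 * k + 1 + 1) := by rw [Nat.even_iff]; omega
    rw [if_pos heven]
    have hdiv : (2 * k + 1 + 1) / 2 = k + 1 := by omega
    rw [hdiv, Nat.add_sub_cancel]
    refine ⟨q ^ (2 * (k + 1) ^ 2) * ∏ j ∈ Finset.range (k + 1), (q ^ (2 * (2 * j + 1)) - 1),
      ?_, ?_⟩
    · intro h
      rcases (Nat.Prime.dvd_mul hr).1 h with h | h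
      · exact hrq (hr.dvd_of_dvd_pow h)
      · exact not_dvd_prod_odd q r hr hq h4 (k + 1) h
    · apply dvd_of_eq
      rw [Finset.prod_range_succ, prod_range_two_mul,
        Finset.prod_range_succ (fun j => q ^ (2 * (2 * j + 1)) - 1)]
      have e1 : ∀ j, q ^ (2 * (2 * j + 1 + 1)) - 1 = (q ^ 2) ^ (2 * (j + 1)) - 1 := by
        intro j
        rw [← pow_mul]
        congr 2
      simp_rw [e1]
      have e2 : (q ^ 2) ^ ((k + 1) * k) = q ^ (2 * ((k + 1) * k)) := by rw [← pow_mul]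
      have e3 : (q ^ 2) ^ (k + 1) = q ^ (2 * k + 1 + 1) := by
        rw [← pow_mul, Nat.mul_succ]
      rw [e2, e3]
      ring

example : Cfsg.Agent.H77.Tq.StArithOrd := arithOrd

end Cfsg.Agent.H3.Tq
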