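import Mathlib
import Cfsg.Agent.H77.TqDefs

set_option autoImplicit false
open scoped MatrixGroups
open scoped Matrix

namespace Cfsg.Agent.H3.Tq

open Cfsg.Agent.H77.Tq

universe u

section

variable {F : Type*} [Field F] {ι : Type} [Fintype ι] [DecidableEq ι]

theorem mem_iso_of_mem_omega (Q : (ι → F) → F) {x : GL ι F}
    (hx : x ∈ Cfsg.Geo.omegaGL Q) : x ∈ Cfsg.isometryGroup F Q := by
  obtain ⟨c, -, rfl⟩ := hx
  exact c.2

theorem conj_pow_eq_one (x g : GL ι F) (r : ℕ) (hx : x ^ r = 1) : (g⁻¹ * x * g) ^ r = 1 := by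
  have h := conj_pow (a := g⁻¹) (b := x) (i := r)
  rw [inv_inv] at h
  rw [h, hx, mul_one, inv_mul_cancel]

theorem rank_conj_sub_one (x g : GL ι F) :
    (((g⁻¹ * x * g : GL ι F) : Matrix ι ι F) - 1).rank = ((x : Matrix ι ι F) - 1).rank := by
  have h1 : ((g⁻¹ * x * g : GL ι F) : Matrix ι ι F) - 1 =
      ((g⁻¹ : GL ι F) : Matrix ι ι F) * ((x : Matrix ι ι F) - 1) * (g : Matrix ι ι F) := by
    have e : ((g⁻¹ : GL ι F) : Matrix ι ι F) * (g : Matrix ι ι F) = 1 := by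
      rw [← Units.val_mul, inv_mul_cancel, Units.val_one]
    rw [Units.val_mul, Units.val_mul, Matrix.mul_sub, Matrix.sub_mul, Matrix.mul_one, e]
  rw [h1, Matrix.rank_mul_eq_left_of_isUnit_det _ _ (Matrix.isUnits_det_units g),
    Matrix.rank_mul_eq_right_of_isUnit_det _ _ (Matrix.isUnits_det_units g⁻¹)]

theorem eq_one_of_conj_eq_one (x g : GL ι F) (h : g⁻¹ * x * g = 1) : x = 1 := by
  have h1 : x = g * (g⁻¹ * x * g) * g⁻¹ := by group
  rw [h1, h, mul_one, mul_inv_cancel]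

end

/-- S5978-FWD. -/
theorem fwd (hSiegel : StSiegelM.{u}) (hAut : StAutG.{u}) (hR2 : StRankTwo.{u})
    (hIdx : StIdx.{u}) (hMinO : StMinElOdd.{u}) (hMinE : StMinElEven.{u}) (hKB : StKBound.{u})
    (hCC : StArithCC) : StFwd.{u} := by
  intro F _ _ p _ _ m a b K hm hab hKO r hr hr2 hdvd
  have h2 : (2 : F) ≠ 0 := hKO.two
  have hp : p.Prime := Fact.out
  have hodd : Odd r := hr.odd_of_ne_two hr2
  -- consequences of a conjugate lying in `N(K)`
  have key : ∀ (x g : GL (MI m) F), x ∈ Cfsg.Geo.omegaGL (Cfsg.quadFormMinus m F a b) →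
      g ∈ Cfsg.Geo.omegaGL (Cfsg.quadFormMinus m F a b) → x ^ r = 1 →
      g⁻¹ * x * g ∈ Cfsg.Geo.subalgebraNormalizer K →
      (g⁻¹ * x * g) ∈ Cfsg.isometryGroup F ⇑(Cfsg.Agent.H49.QMin m F a b) ∧
      (∀ a' ∈ K, ((g⁻¹ * x * g : GL (MI m) F) : Matrix (MI m) (MI m) F) * a' =
        a' * ((g⁻¹ * x * g : GL (MI m) F) : Matrix (MI m) (MI m) F)) ∧
      (g⁻¹ * x * g) ^ r = 1 := by
    intro x g hx hg hxr hN
    have hyr := conj_pow_eq_one x g r hxr
    refine ⟨?_, ?_, hyr⟩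
    · have hxO := mem_iso_of_mem_omega _ hx
      have hgO := mem_iso_of_mem_omega _ hg
      exact Subgroup.mul_mem _ (Subgroup.mul_mem _ (Subgroup.inv_mem _ hgO) hxO) hgO
    · refine hAut F (MI m) 2 K hKO.fld Nat.prime_two (g⁻¹ * x * g) r 1 hN hr hr2 ?_
      rw [hyr, Units.val_one, one_smul]
  by_cases hrp : r = p
  · obtain ⟨x, hxΩ, hxp, hxns, hxrank⟩ := hSiegel F p m a b h2 hm hab
    have hxr : x ^ r = 1 := by rw [hrp]; exact hxp
    refine ⟨x, hxΩ, hxr, hxns, ?_⟩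
    intro g hg hN
    obtain ⟨hyO, hycomm, hyr⟩ := key x g hxΩ hg hxr hN
    have hrk : (((g⁻¹ * x * g : GL (MI m) F) : Matrix (MI m) (MI m) F) - 1).rank ≤ 2 := by
      rw [rank_conj_sub_one, hxrank]
    have hy1 := hR2 F (MI m) (Cfsg.Agent.H49.QMin m F a b) K hKO (g⁻¹ * x * g) r hyO hycomm
      hodd hyr hrk
    have hx1 := eq_one_of_conj_eq_one x g hy1
    apply hxns 1
    rw [hx1, Units.val_one, one_smul]
  · obtain ⟨hio, hie, h4⟩ := hIdx F p m a b K hab hKO r hr hr2 hrp hdvd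
    have hrq : ¬ r ∣ Fintype.card F := by
      obtain ⟨n, hn⟩ := FiniteField.card F p
      rw [hn.2]
      intro h
      exact hrp ((Nat.prime_dvd_prime_iff_eq hr hp).1 (hr.dvd_of_dvd_pow h))
    have hcc := hCC (Fintype.card F) r hr hr2 hrq h4
    obtain ⟨x, hxΩ, hxr, hxns, hxrank⟩ : ∃ x : GL (MI m) F,
        x ∈ Cfsg.Geo.omegaGL (Cfsg.quadFormMinus m F a b) ∧ x ^ r = 1 ∧
        (∀ z : F, (x : Matrix (MI m) (MI m) F) ≠ z • (1 : Matrix (MI m) (MI m) F)) ∧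
        ((x : Matrix (MI m) (MI m) F) - 1).rank = Cfsg.Agent.H42.Spd.cc F r := by
      rcases Nat.even_or_odd (orderOf (Fintype.card F : ZMod r)) with he | ho
      · exact hMinE F p m a b h2 hab r hr hr2 hrp he (hie he)
      · exact hMinO F p m a b h2 hab r hr hr2 hrp ho (hio ho)
    refine ⟨x, hxΩ, hxr, hxns, ?_⟩
    intro g hg hN
    obtain ⟨hyO, hycomm, hyr⟩ := key x g hxΩ hg hxr hN
    have hy1 : g⁻¹ * x * g ≠ 1 := by
      intro h
      have hx1 := eq_one_of_conj_eq_one x g h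
      apply hxns 1
      rw [hx1, Units.val_one, one_smul]
    have hkb := hKB F p (MI m) (Cfsg.Agent.H49.QMin m F a b) K hKO (g⁻¹ * x * g) r hyO hycomm
      hr hr2 hrp hyr hy1
    rw [rank_conj_sub_one, hxrank] at hkb
    unfold Cfsg.Agent.H42.Spd.cc at hkb
    omega

example (hSiegel : StSiegelM.{u}) (hAut : StAutG.{u}) (hR2 : StRankTwo.{u})
    (hIdx : StIdx.{u}) (hMinO : StMinElOdd.{u}) (hMinE : StMinElEven.{u}) (hKB : StKBound.{u})
    (hCC : StArithCC) : StFwd.{u} := fwd hSiegel hAut hR2 hIdx hMinO hMinE hKB hCC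

end Cfsg.Agent.H3.Tq
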