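import Mathlib
import Cfsg.Agent.H77.TqDefs
import Cfsg.Agent.H69.TpParity
import Cfsg.Agent.H53.TenFIN

/-!
# S5978-KBOUND (piece for helper77)

A nontrivial isometry of odd prime order `r ≠ p` commuting with `K` has `rank (y - 1)` at least
twice the minimal dimension over `F_{q²}`.
-/

set_option autoImplicit false
open scoped MatrixGroups
open scoped Matrix

namespace Cfsg.Agent.H3.Tq

open Cfsg.Agent.H77.Tq Module

universe u

/-- The `F`-rank of a matrix intertwined by an `F`-linear equivalence `φ : L^n ≃ F^ι` with an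
`L`-matrix is `[L : F]` times the `L`-rank. -/
theorem kb_rank_eq {F : Type u} [Field F] {ι : Type} [Fintype ι] [DecidableEq ι]
    {L : Type u} [Field L] [Algebra F L] [FiniteDimensional F L] {n : ℕ}
    (φ : (Fin n → L) ≃ₗ[F] (ι → F))
    (A : Matrix ι ι F) (B : Matrix (Fin n) (Fin n) L)
    (h : ∀ w : Fin n → L, φ (B *ᵥ w) = A *ᵥ φ w) :
    A.rank = finrank F L * B.rank := by
  have hA : A.rank = finrank F ↥(LinearMap.range A.mulVecLin) := rfl
  have hB : B.rank = finrank L ↥(LinearMap.range B.mulVecLin) := rfl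
  obtain ⟨W, hW⟩ : ∃ W : Submodule L (Fin n → L), W = LinearMap.range B.mulVecLin := ⟨_, rfl⟩
  have hmap : LinearMap.range A.mulVecLin =
      (W.restrictScalars F).map (φ : (Fin n → L) →ₗ[F] (ι → F)) := by
    ext v
    constructor
    · rintro ⟨u, rfl⟩
      obtain ⟨w, rfl⟩ := φ.surjective u
      refine ⟨B *ᵥ w, ?_, ?_⟩
      · rw [hW]; exact ⟨w, rfl⟩
      · change φ (B *ᵥ w) = A *ᵥ φ w
        exact h w
    · rintro ⟨x, hx, rfl⟩
      rw [hW] at hx
      obtain ⟨w, rfl⟩ := hx
      refine ⟨φ w, ?_⟩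
      change A *ᵥ φ w = φ (B *ᵥ w)
      exact (h w).symm
  have h1 : finrank F ↥((W.restrictScalars F).map (φ : (Fin n → L) →ₗ[F] (ι → F))) =
      finrank F ↥(W.restrictScalars F) := LinearEquiv.finrank_map_eq φ _
  have e : ↥(W.restrictScalars F) ≃ₗ[F] ↥W :=
    { toFun := fun x => ⟨x.1, x.2⟩
      invFun := fun x => ⟨x.1, x.2⟩
      map_add' := fun _ _ => rfl
      map_smul' := fun _ _ => rfl
      left_inv := fun _ => rfl
      right_inv := fun _ => rfl }
  have h2 : finrank F ↥(W.restrictScalars F) = finrank F ↥W := e.finrank_eq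
  have h3 : finrank F L * finrank L ↥W = finrank F ↥W := Module.finrank_mul_finrank F L ↥W
  rw [hA, hmap, h1, h2, ← h3, hB, hW]

theorem kBound (hS : StStruct.{u}) (hLin : StLin.{u}) : StKBound.{u} := by
  intro F _ _ p _ _ ι _ _ Q K hKO y r hyO hycomm hr hr2 hrp hyr hy1
  obtain ⟨n, L, iL, iFL, iAL, ψ, φ, α, hKC, -⟩ := hS F ι Q K hKO
  obtain ⟨Y, hYφ, hYG⟩ := hLin F ι Q K L n ψ φ α hKO hKC y hyO hycomm
  have hpow : ∀ k : ℕ, ∀ w : Fin n → L,
      φ ((Y ^ k) *ᵥ w) = ((y ^ k : GL ι F) : Matrix ι ι F) *ᵥ φ w := by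
    intro k
    induction k with
    | zero => intro w; simp
    | succ k ih =>
      intro w
      rw [pow_succ, ← Matrix.mulVec_mulVec, ih, hYφ, pow_succ, Units.val_mul,
        Matrix.mulVec_mulVec]
  have hYr : Y ^ r = 1 := by
    apply Matrix.toLin'.injective
    apply LinearMap.ext
    intro w
    rw [Matrix.toLin'_apply, Matrix.toLin'_apply, Matrix.one_mulVec]
    apply φ.injective
    rw [hpow r w, hyr, Units.val_one, Matrix.one_mulVec]
  have hY1 : Y ≠ 1 := by
    intro h
    apply hy1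
    apply Units.ext
    rw [Units.val_one]
    apply Matrix.toLin'.injective
    apply LinearMap.ext
    intro v
    obtain ⟨w, rfl⟩ := φ.surjective v
    rw [Matrix.toLin'_apply, Matrix.toLin'_apply, Matrix.one_mulVec, ← hYφ w, h,
      Matrix.one_mulVec]
  have hGt : (Matrix.diagonal α)ᵀ = Matrix.diagonal α := Matrix.diagonal_transpose α
  have hGu : IsUnit (Matrix.diagonal α).det := by
    rw [Matrix.det_diagonal, isUnit_iff_ne_zero]
    exact Finset.prod_ne_zero_iff.mpr fun l _ => hKC.ne l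
  have hev : Even (Y - 1).rank :=
    Cfsg.Agent.H69.Tp.parity L n (Matrix.diagonal α) Y r hGt hGu hYG (hr.odd_of_ne_two hr2) hYr
  have hpP : p.Prime := Fact.out
  haveI : CharP L p := charP_of_injective_algebraMap (algebraMap F L).injective p
  have hrL : (r : L) ≠ 0 := by
    intro h0
    have hd : p ∣ r := (CharP.cast_eq_zero_iff L p r).mp h0
    exact hrp ((Nat.prime_dvd_prime_iff_eq hpP hr).mp hd).symm
  have hdvd : orderOf (Fintype.card L : ZMod r) ∣ (Y - 1).rank :=
    Cfsg.Agent.H53.Ten.order_dvd_rank_sub_one r hr hrL Y hYr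
  have hcast : (Fintype.card L : ZMod r) = (Fintype.card F : ZMod r) ^ 2 := by
    rw [hKC.card, Nat.cast_pow]
  rw [hcast] at hdvd
  have hRpos : 0 < (Y - 1).rank := by
    rcases Nat.eq_zero_or_pos (Y - 1).rank with h0 | h0
    · exfalso
      apply hY1
      have hR : (Y - 1).rank = finrank L ↥(LinearMap.range (Y - 1).mulVecLin) := rfl
      rw [hR] at h0
      have hbot : LinearMap.range (Y - 1).mulVecLin = ⊥ := Submodule.finrank_eq_zero.mp h0
      have hz : (Y - 1).mulVecLin = 0 := LinearMap.range_eq_bot.mp hbot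
      apply Matrix.toLin'.injective
      apply LinearMap.ext
      intro w
      have hw : (Y - 1) *ᵥ w = 0 := by
        have hz' : (Y - 1).mulVecLin w = (0 : (Fin n → L) →ₗ[L] (Fin n → L)) w := by rw [hz]
        exact hz'
      rw [Matrix.sub_mulVec, Matrix.one_mulVec, sub_eq_zero] at hw
      rw [Matrix.toLin'_apply, Matrix.toLin'_apply, Matrix.one_mulVec, hw]
    · exact h0
  obtain ⟨i', hi'⟩ : ∃ i' : ℕ, i' = orderOf ((Fintype.card F : ZMod r) ^ 2) := ⟨_, rfl⟩
  rw [← hi'] at hdvd ⊢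
  obtain ⟨R, hRdef⟩ : ∃ R : ℕ, R = (Y - 1).rank := ⟨_, rfl⟩
  rw [← hRdef] at hdvd hev hRpos
  have hbound : (if Even i' then i' else 2 * i') ≤ R := by
    split_ifs with hi
    · exact Nat.le_of_dvd hRpos hdvd
    · have hodd : Odd i' := Nat.not_even_iff_odd.mp hi
      have hcop : Nat.Coprime 2 i' := (Nat.coprime_two_left).mpr hodd
      have h2R : 2 ∣ R := hev.two_dvd
      exact Nat.le_of_dvd hRpos (hcop.mul_dvd_of_dvd_of_dvd h2R hdvd)
  have hfin : finrank F L = 2 := by
    have hc : Fintype.card L = Fintype.card F ^ finrank F L := Module.card_eq_pow_finrank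
    rw [hKC.card] at hc
    exact (Nat.pow_right_injective Fintype.one_lt_card hc).symm
  have hint : ∀ w : Fin n → L, φ ((Y - 1) *ᵥ w) = ((y : Matrix ι ι F) - 1) *ᵥ φ w := by
    intro w
    rw [Matrix.sub_mulVec, Matrix.sub_mulVec, Matrix.one_mulVec, Matrix.one_mulVec, map_sub,
      hYφ w]
  have hrk : ((y : Matrix ι ι F) - 1).rank = finrank F L * (Y - 1).rank :=
    kb_rank_eq φ _ _ hint
  rw [hrk, hfin, ← hRdef]
  exact Nat.mul_le_mul_left 2 hbound

example (hS : StStruct.{u}) (hLin : StLin.{u}) : StKBound.{u} := kBound hS hLin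

end Cfsg.Agent.H3.Tq
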