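import Mathlib

/-! helper3: pieces S2103-CONJ and S2103-CYC of helper46's project. -/

set_option autoImplicit false

namespace Cfsg.Agent.H3.Univ

theorem comm_conj_lift {G E : Type*} [Group G] [Group E] (ρ : E →* G)
    (hc : ρ.ker ≤ Subgroup.center E) (n a b a' b' : E)
    (ha : ρ a' = ρ (n * a * n⁻¹)) (hb : ρ b' = ρ (n * b * n⁻¹)) (hab : a * b = b * a) :
    a' * b' = b' * a' := by
  have hz1 : (n * a * n⁻¹)⁻¹ * a' ∈ Subgroup.center E := by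
    apply hc
    rw [MonoidHom.mem_ker, map_mul, map_inv, ha, inv_mul_cancel]
  have hz2 : (n * b * n⁻¹)⁻¹ * b' ∈ Subgroup.center E := by
    apply hc
    rw [MonoidHom.mem_ker, map_mul, map_inv, hb, inv_mul_cancel]
  rw [Subgroup.mem_center_iff] at hz1 hz2
  have hαβ : n * a * n⁻¹ * (n * b * n⁻¹) = n * b * n⁻¹ * (n * a * n⁻¹) := by
    have e1 : n * a * n⁻¹ * (n * b * n⁻¹) = n * (a * b) * n⁻¹ := by group
    have e2 : n * b * n⁻¹ * (n * a * n⁻¹) = n * (b * a) * n⁻¹ := by group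
    rw [e1, e2, hab]
  have ea : a' = n * a * n⁻¹ * ((n * a * n⁻¹)⁻¹ * a') := by group
  have eb : b' = n * b * n⁻¹ * ((n * b * n⁻¹)⁻¹ * b') := by group
  obtain ⟨z₁, hz₁⟩ : ∃ z, z = (n * a * n⁻¹)⁻¹ * a' := ⟨_, rfl⟩
  obtain ⟨z₂, hz₂⟩ : ∃ z, z = (n * b * n⁻¹)⁻¹ * b' := ⟨_, rfl⟩
  rw [← hz₁] at hz1 ea
  rw [← hz₂] at hz2 eb
  obtain ⟨α, hα⟩ : ∃ α, α = n * a * n⁻¹ := ⟨_, rfl⟩
  obtain ⟨β, hβ⟩ : ∃ β, β = n * b * n⁻¹ := ⟨_, rfl⟩
  rw [← hα] at ea hαβ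
  rw [← hβ] at eb hαβ
  rw [ea, eb]
  calc α * z₁ * (β * z₂) = α * (z₁ * β) * z₂ := by group
    _ = α * (β * z₁) * z₂ := by rw [hz1 β]
    _ = α * β * z₁ * z₂ := by group
    _ = β * α * z₁ * z₂ := by rw [hαβ]
    _ = β * (α * z₁ * z₂) := by group
    _ = β * (z₂ * (α * z₁)) := by rw [hz2 (α * z₁)]
    _ = β * z₂ * (α * z₁) := by group

theorem comm_of_three {G E K : Type*} [Group G] [Group E] [Field K] (ρ : E →* G)
    (hc : ρ.ker ≤ Subgroup.center E) (x : K → G) (y : K → E)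
    (hK : ∀ t : K, t = 0 ∨ t = 1 ∨ t = -1) (hx : ∀ t u : K, x (t + u) = x t * x u)
    (hmap : ∀ t : K, ρ (y t) = x t) :
    ∀ t u : K, y t * y u = y u * y t := by
  have hx0 : x 0 = 1 := by
    have h := hx 0 0
    rw [add_zero] at h
    exact (mul_eq_left.1 h.symm)
  have h0 : y 0 ∈ Subgroup.center E := by
    apply hc
    rw [MonoidHom.mem_ker, hmap, hx0]
  have h1 : y 1 * y (-1) ∈ Subgroup.center E := by
    apply hc
    rw [MonoidHom.mem_ker, map_mul, hmap, hmap, ← hx, add_neg_cancel, hx0]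
  rw [Subgroup.mem_center_iff] at h0 h1
  have h2 : y 1 * y (-1) = y (-1) * y 1 := by
    have e := h1 (y 1)
    have e2 : y 1 * (y 1 * y (-1)) = y 1 * (y (-1) * y 1) := by rw [e]; group
    exact mul_left_cancel e2
  intro t u
  rcases hK t with rfl | rfl | rfl <;> rcases hK u with rfl | rfl | rfl
  · rfl
  · exact (h0 (y 1)).symm
  · exact (h0 (y (-1))).symm
  · exact h0 (y 1)
  · rfl
  · exact h2
  · exact h0 (y (-1))
  · exact h2.symm
  · rfl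

example {G E : Type*} [Group G] [Group E] (ρ : E →* G) (hc : ρ.ker ≤ Subgroup.center E) (n a b a' b' : E)
    (ha : ρ a' = ρ (n * a * n⁻¹)) (hb : ρ b' = ρ (n * b * n⁻¹)) (hab : a * b = b * a) : a' * b' = b' * a' :=
  comm_conj_lift ρ hc n a b a' b' ha hb hab

example {G E K : Type*} [Group G] [Group E] [Field K] (ρ : E →* G) (hc : ρ.ker ≤ Subgroup.center E) (x : K → G) (y : K → E)
    (hK : ∀ t : K, t = 0 ∨ t = 1 ∨ t = -1) (hx : ∀ t u : K, x (t + u) = x t * x u) (hmap : ∀ t : K, ρ (y t) = x t) :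
    ∀ t u : K, y t * y u = y u * y t :=
  comm_of_three ρ hc x y hK hx hmap

end Cfsg.Agent.H3.Univ
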