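import Mathlib
import Cfsg.Agent.H46.Univ2Defs
import Cfsg.Agent.Helper55.UnivMap

/-! helper3: piece S2103-MAP2 of helper46's project (adapted from helper55's `goodL_map`). -/

set_option autoImplicit false

namespace Cfsg.Agent.H3.Univ

open Cfsg.Agent.H46.Univ Cfsg.Agent.Helper55.Univ

variable {G E K ι : Type*} [Group G] [Group E] [Field K]

theorem goodL2_cons (x : ι → K → G) (T : Set G) (Cm : ι → ι → Prop) (e : ι) (L : List ι) :
    GoodL2 x T Cm (e :: L) ↔ ((∀ e' ∈ L, ∀ t u : K, x e t * x e' u * (x e t)⁻¹ ∈ GX x L) ∧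
    (∀ t : K, x e t ∈ GX x L → t = 0) ∧
    (∀ e' ∈ L, (∃ h ∈ T, ∃ c : K, c - 1 ≠ 0 ∧ (∀ t : K, h * x e t * h⁻¹ = x e t) ∧
      (∀ u : K, h * x e' u * h⁻¹ = x e' (c * u))) ∨ Cm e e') ∧
    GoodL2 x T Cm L) := Iff.rfl

theorem goodL2_map (x : ι → K → G) (T : Set G) (Cm : ι → ι → Prop) (n : G) (f : ι → ι)
    (κ : ι → K) (L : List ι)
    (hκ : ∀ q ∈ L, κ q ≠ 0) (hn : ∀ q ∈ L, ∀ t : K, n * x q t * n⁻¹ = x (f q) (κ q * t))
    (hT : ∀ g ∈ T, n * g * n⁻¹ ∈ T) (hCm : ∀ q ∈ L, ∀ q' ∈ L, Cm q q' → Cm (f q) (f q'))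
    (hL : GoodL2 x T Cm L) : GoodL2 x T Cm (L.map f) := by
  induction L with
  | nil => simp [GoodL2]
  | cons e L ih =>
    obtain ⟨h1, h2, h3, h4⟩ := (goodL2_cons x T Cm e L).1 hL
    have hsub : ∀ q ∈ L, q ∈ e :: L := fun q hq => List.mem_cons_of_mem _ hq
    have he : e ∈ e :: L := List.mem_cons.2 (Or.inl rfl)
    have hκ' : ∀ q ∈ L, κ q ≠ 0 := fun q hq => hκ q (hsub q hq)
    have hn' : ∀ q ∈ L, ∀ t : K, n * x q t * n⁻¹ = x (f q) (κ q * t) :=
      fun q hq => hn q (hsub q hq)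
    have hCm' : ∀ q ∈ L, ∀ q' ∈ L, Cm q q' → Cm (f q) (f q') :=
      fun q hq q' hq' => hCm q (hsub q hq) q' (hsub q' hq')
    have hκe := hκ e he
    have key : ∀ q ∈ e :: L, ∀ t : K, x (f q) t = n * x q (t / κ q) * n⁻¹ := by
      intro q hq t
      rw [hn q hq, mul_div_cancel₀ _ (hκ q hq)]
    have hfwd : ∀ g ∈ GX x L, n * g * n⁻¹ ∈ GX x (L.map f) := by
      apply conj_mem_of_gen
      intro q hq t
      rw [hn' q hq]
      exact mem_GX_gen x _ (f q) (List.mem_map.2 ⟨q, hq, rfl⟩) _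
    have hbwd : ∀ g ∈ GX x (L.map f), n⁻¹ * g * n ∈ GX x L := by
      intro g hg
      have h5 : ∀ q' ∈ L.map f, ∀ t : K, n⁻¹ * x q' t * n⁻¹⁻¹ ∈ GX x L := by
        intro q' hq' t
        obtain ⟨q, hq, rfl⟩ := List.mem_map.1 hq'
        have e1 : x (f q) t = n * x q (t / κ q) * n⁻¹ := key q (hsub q hq) t
        have e2 : n⁻¹ * (n * x q (t / κ q) * n⁻¹) * n⁻¹⁻¹ = x q (t / κ q) := by group
        rw [e1, e2]
        exact mem_GX_gen x _ q hq _
      have h6 := conj_mem_of_gen x (L.map f) (GX x L) n⁻¹ h5 g hg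
      simpa using h6
    rw [List.map_cons, goodL2_cons]
    refine ⟨?_, ?_, ?_, ih hκ' hn' hCm' h4⟩
    · intro e'' he'' t u
      obtain ⟨e', he', rfl⟩ := List.mem_map.1 he''
      have e1 : x (f e) t = n * x e (t / κ e) * n⁻¹ := key e he t
      have e2 : x (f e') u = n * x e' (u / κ e') * n⁻¹ := key e' (hsub e' he') u
      have h7 := hfwd _ (h1 e' he' (t / κ e) (u / κ e'))
      have e3 : n * x e (t / κ e) * n⁻¹ * (n * x e' (u / κ e') * n⁻¹) *
          (n * x e (t / κ e) * n⁻¹)⁻¹ =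
          n * (x e (t / κ e) * x e' (u / κ e') * (x e (t / κ e))⁻¹) * n⁻¹ := by group
      rw [e1, e2, e3]
      exact h7
    · intro t ht
      have h7 := hbwd _ ht
      have e1 : x (f e) t = n * x e (t / κ e) * n⁻¹ := key e he t
      have e2 : n⁻¹ * (n * x e (t / κ e) * n⁻¹) * n = x e (t / κ e) := by group
      rw [e1, e2] at h7
      have h8 := h2 _ h7
      rcases div_eq_zero_iff.1 h8 with h | h
      · exact h
      · exact absurd h hκe
    · intro e'' he''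
      obtain ⟨e', he', rfl⟩ := List.mem_map.1 he''
      rcases h3 e' he' with ⟨h, hhT, c, hc, hcomm, hact⟩ | hcm
      · left
        refine ⟨n * h * n⁻¹, hT h hhT, c, hc, ?_, ?_⟩
        · intro t
          have e1 : x (f e) t = n * x e (t / κ e) * n⁻¹ := key e he t
          have e3 : n * h * n⁻¹ * (n * x e (t / κ e) * n⁻¹) * (n * h * n⁻¹)⁻¹ =
              n * (h * x e (t / κ e) * h⁻¹) * n⁻¹ := by group
          rw [e1, e3, hcomm]
        · intro u
          have e1 : x (f e') u = n * x e' (u / κ e') * n⁻¹ := key e' (hsub e' he') u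
          have e3 : n * h * n⁻¹ * (n * x e' (u / κ e') * n⁻¹) * (n * h * n⁻¹)⁻¹ =
              n * (h * x e' (u / κ e') * h⁻¹) * n⁻¹ := by group
          rw [e1, e3, hact, hn' e' he']
          congr 1
          have := hκ' e' he'
          field_simp
      · right
        exact hCm e he e' (hsub e' he') hcm

example (x : ι → K → G) (T : Set G) (Cm : ι → ι → Prop) (n : G) (f : ι → ι) (κ : ι → K) (L : List ι)
    (hκ : ∀ q ∈ L, κ q ≠ 0) (hn : ∀ q ∈ L, ∀ t : K, n * x q t * n⁻¹ = x (f q) (κ q * t))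
    (hT : ∀ g ∈ T, n * g * n⁻¹ ∈ T) (hCm : ∀ q ∈ L, ∀ q' ∈ L, Cm q q' → Cm (f q) (f q'))
    (hL : GoodL2 x T Cm L) : GoodL2 x T Cm (L.map f) :=
  goodL2_map x T Cm n f κ L hκ hn hT hCm hL

end Cfsg.Agent.H3.Univ
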